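import Cfsg.Agent.Lib.H23.KGV
import Cfsg.Agent.Lib.H23.CharRows
import Cfsg.Agent.Lib.H21.ModP

/-!
# `k(GV)`: the Burnside inequality
-/

set_option autoImplicit false
set_option linter.unusedSectionVars false
set_option linter.style.haveILetI false
set_option linter.unusedSimpArgs false

namespace Cfsg.Agent.H23

open Cfsg Cfsg.Agent.H21 Module
open scoped ComplexConjugate

universe u

section

variable {X : Type u} [Group X] [Finite X]

/-- A `p`-element is not a zero of a character of degree prime to `p`. -/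
theorem char_ne_zero_of_not_dvd {p : ℕ} [hp : Fact p.Prime] {χ : X → ℂ} (hχ : IsCharacter X χ)
    (hd : ¬ p ∣ charDegree χ) {v : X} {j : ℕ} (hv : orderOf v = p ^ j) : χ v ≠ 0 := by
  intro h0
  obtain ⟨M, hM⟩ := exists_pModular hp.out
  obtain ⟨a, ha, hval⟩ := character_sub_degree_mem hM hχ hv
  rw [h0, zero_sub] at hval
  have h1 : a = -((charDegree χ : ℕ) : AlgInt) := by
    apply Subtype.ext
    show (a : ℂ) = _
    rw [hval]
    simp
  have h2 : ((charDegree χ : ℕ) : AlgInt) ∈ M := by
    have := M.neg_mem ha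
    rw [h1, neg_neg] at this
    exact this
  exact hd ((natCast_mem_iff hM _).mp h2)

/-- Characters trivial on a normal subgroup, as characters of the quotient. -/
theorem exists_quot_char (V : Subgroup X) [V.Normal] {χ : X → ℂ} (hχ : IsIrrCharacter X χ)
    (hk : ∀ a ∈ V, χ a = χ 1) : ∃ χ' : X ⧸ V → ℂ, IsIrrCharacter (X ⧸ V) χ' ∧
      χ' ∘ QuotientGroup.mk' V = χ := by
  apply isIrrCharacter_descend _ (QuotientGroup.mk'_surjective V) hχ
  intro k hk1
  exact hk k ((QuotientGroup.eq_one_iff k).mp hk1)

variable [Fintype (IrrCharacter X)]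

/-- The irreducible characters with a normal subgroup in their kernels. -/
noncomputable def kerChars (V : Subgroup X) : Finset (IrrCharacter X) := by
  classical
  exact Finset.univ.filter fun χ => ∀ a ∈ V, (χ : X → ℂ) a = (χ : X → ℂ) 1

theorem mem_kerChars {V : Subgroup X} {χ : IrrCharacter X} :
    χ ∈ kerChars V ↔ ∀ a ∈ V, (χ : X → ℂ) a = (χ : X → ℂ) 1 := by
  classical
  simp [kerChars]

/-- The map from the characters of the quotient. -/
noncomputable def inflChar (V : Subgroup X) [V.Normal] (χ' : IrrCharacter (X ⧸ V)) :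
    IrrCharacter X :=
  ⟨(χ' : X ⧸ V → ℂ) ∘ QuotientGroup.mk' V,
    isIrrCharacter_comp_of_surjective _ (QuotientGroup.mk'_surjective V) χ'.2⟩

theorem inflChar_injective (V : Subgroup X) [V.Normal] : Function.Injective (inflChar V) := by
  intro a b h
  apply Subtype.ext
  funext q
  obtain ⟨x, rfl⟩ := QuotientGroup.mk_surjective q
  have h1 := congrArg (fun t : IrrCharacter X => (t : X → ℂ) x) h
  exact h1

theorem charDegree_inflChar (V : Subgroup X) [V.Normal] (χ' : IrrCharacter (X ⧸ V)) :
    charDegree ((inflChar V χ' : IrrCharacter X) : X → ℂ) = charDegree (χ' : X ⧸ V → ℂ) := by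
  simp only [charDegree, inflChar, Function.comp]
  congr 3

theorem kerChars_eq_image (V : Subgroup X) [V.Normal] [Fintype (IrrCharacter (X ⧸ V))] [DecidableEq (IrrCharacter X)] :
    kerChars V = Finset.univ.image (inflChar V) := by
  ext χ
  rw [mem_kerChars, Finset.mem_image]
  constructor
  · intro h
    obtain ⟨χ', h1, h2⟩ := exists_quot_char V χ.2 h
    refine ⟨⟨χ', h1⟩, Finset.mem_univ _, ?_⟩
    apply Subtype.ext
    exact h2
  · rintro ⟨χ', -, rfl⟩ a ha
    show (χ' : X ⧸ V → ℂ) ((a : X) : X ⧸ V) = (χ' : X ⧸ V → ℂ) ((1 : X) : X ⧸ V)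
    rw [(QuotientGroup.eq_one_iff a).mpr ha]
    rfl

/-- The number of characters with `V` in the kernel. -/
theorem card_kerChars (V : Subgroup X) [V.Normal] :
    (kerChars V).card = Nat.card (ConjClasses (X ⧸ V)) := by
  classical
  haveI : Fintype (X ⧸ V) := Fintype.ofFinite _
  haveI : Fintype (IrrCharacter (X ⧸ V)) := Fintype.ofFinite _
  rw [kerChars_eq_image, Finset.card_image_of_injective _ (inflChar_injective V), Finset.card_univ,
    ← card_irr_eq_card_conjClasses, Nat.card_eq_fintype_card]

/-- The sum of the squared degrees of the characters with `V` in the kernel. -/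
theorem sum_sq_kerChars (V : Subgroup X) [V.Normal] :
    ∑ χ ∈ kerChars V, charDegree (χ : X → ℂ) ^ 2 = V.index := by
  classical
  haveI : Fintype (X ⧸ V) := Fintype.ofFinite _
  haveI : Fintype (IrrCharacter (X ⧸ V)) := Fintype.ofFinite _
  rw [kerChars_eq_image, Finset.sum_image (fun a _ b _ h => inflChar_injective V h)]
  simp only [charDegree_inflChar]
  rw [sum_degree_sq]
  rfl

end

section

variable {X : Type u} [Group X] [Finite X]

theorem centralizer_pow_unit (v : X) (u : (ZMod (Nat.card X))ˣ) :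
    Subgroup.centralizer ({v ^ (u : ZMod (Nat.card X)).val} : Set X) =
      Subgroup.centralizer ({v} : Set X) := by
  apply le_antisymm
  · intro x hx
    rw [Subgroup.mem_centralizer_singleton_iff] at hx ⊢
    have hcop : Nat.Coprime (u : ZMod (Nat.card X)).val (Nat.card X) :=
      ZMod.val_coe_unit_coprime u
    have hord : Nat.Coprime (u : ZMod (Nat.card X)).val (orderOf v) :=
      Nat.Coprime.coprime_dvd_right (orderOf_dvd_natCard v) hcop
    obtain ⟨m, hm⟩ := exists_pow_eq_self_of_coprime hord
    have h2 : Commute x (v ^ (u : ZMod (Nat.card X)).val) := hx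
    have h3 := h2.pow_right m
    rw [hm] at h3
    exact h3
  · intro x hx
    rw [Subgroup.mem_centralizer_singleton_iff] at hx ⊢
    have h2 : Commute x v := hx
    exact h2.pow_right _

end

section Semi

variable {X : Type u} [Group X] [Finite X] (V : Subgroup X) [hN : V.Normal] (G : Subgroup X)

/-- The centralizer of `v ∈ V` in `V ⋊ G`. -/
theorem card_centralizer_semi (hab : ∀ a ∈ V, ∀ b ∈ V, a * b = b * a)
    (hGV : Subgroup.IsComplement' V G) {v : X} (hv : v ∈ V) :
    Nat.card (Subgroup.centralizer ({v} : Set X)) =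
      Nat.card ↥(G ⊓ Subgroup.centralizer ({v} : Set X)) * Nat.card V := by
  rw [mul_comm, ← Nat.card_prod]
  symm
  apply Nat.card_congr
  refine Equiv.ofBijective (fun p : V × ↥(G ⊓ Subgroup.centralizer ({v} : Set X)) =>
    ⟨(p.1 : X) * p.2, ?_⟩) ⟨?_, ?_⟩
  · exact Subgroup.mul_mem _ (Subgroup.mem_centralizer_singleton_iff.mpr (hab _ p.1.2 _ hv)) p.2.2.2
  · rintro ⟨u, c⟩ ⟨u', c'⟩ h
    have h1 : (u : X) * c = u' * c' := congrArg Subtype.val h
    have h2 := hGV.1 (a₁ := (u, ⟨c, c.2.1⟩)) (a₂ := (u', ⟨c', c'.2.1⟩)) h1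
    have h3 := congrArg Prod.fst h2
    have h4 : (c : X) = c' := congrArg (fun t : V × G => ((t.2 : G) : X)) h2
    exact Prod.ext h3 (Subtype.ext h4)
  · rintro ⟨x, hx⟩
    obtain ⟨⟨u, g⟩, hug⟩ := hGV.2 x
    have hug' : (u : X) * g = x := hug
    refine ⟨(u, ⟨g, g.2, ?_⟩), Subtype.ext hug'⟩
    rw [Subgroup.mem_centralizer_singleton_iff] at hx
    refine Subgroup.mem_centralizer_singleton_iff.mpr ?_
    rw [← hug'] at hx
    have h1 := hab _ u.2 _ hv
    have : (u : X) * (g * v) = u * (v * g) := by
      calc (u : X) * (g * v) = u * g * v := by group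
        _ = v * (u * g) := hx
        _ = (v * u) * g := by group
        _ = (u * v) * g := by rw [h1]
        _ = u * (v * g) := by group
    exact mul_left_cancel this

/-- **The inequality** `k(GV) ≤ |C_G(v)| |V| - (|G| - k(G))`. -/
theorem card_conjClasses_le_semi {p : ℕ} [hp : Fact p.Prime] (hVp : IsPGroup p V)
    (hidx : ¬ p ∣ V.index) (hab : ∀ a ∈ V, ∀ b ∈ V, a * b = b * a)
    (hGV : Subgroup.IsComplement' V G) {v : X} (hv : v ∈ V) :
    Nat.card (ConjClasses X) + Nat.card G ≤
      Nat.card ↥(G ⊓ Subgroup.centralizer ({v} : Set X)) * Nat.card V + Nat.card (ConjClasses G) := by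
  classical
  haveI : Fintype X := Fintype.ofFinite _
  haveI : Fintype (IrrCharacter X) := Fintype.ofFinite _
  set U := (ZMod (Nat.card X))ˣ with hU
  haveI hNZ : NeZero (Nat.card X) := ⟨Nat.card_pos.ne'⟩
  have hUpos : (0 : ℝ) < (Fintype.card U : ℝ) := by exact_mod_cast Fintype.card_pos
  let a : IrrCharacter X → U → ℝ := fun χ u =>
    ‖(χ : X → ℂ) (v ^ (u : ZMod (Nat.card X)).val)‖ ^ 2
  -- the index of V is the order of G
  have hidxG : V.index = Nat.card G := by
    have h1 : Nat.card X = Nat.card V * Nat.card G := by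
      rw [Nat.card_congr (Equiv.ofBijective (fun p : V × G => (p.1 : X) * p.2) hGV).symm,
        Nat.card_prod]
    have h2 := V.index_mul_card
    have hpos : 0 < Nat.card V := Nat.card_pos
    rw [h1, mul_comm] at h2
    exact Nat.eq_of_mul_eq_mul_left hpos h2
  have hkG : Nat.card (ConjClasses (X ⧸ V)) = Nat.card (ConjClasses G) :=
    card_conjClasses_congr hGV.symm.QuotientMulEquiv
  -- AM-GM at each character
  have hAM : ∀ χ : IrrCharacter X, (Fintype.card U : ℝ) ≤ ∑ u : U, a χ u := by
    intro χ
    have hc := isCharacter_of_irr χ.2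
    have hd : ¬ p ∣ charDegree (χ : X → ℂ) := fun h =>
      hidx (h.trans (ito_dvd χ.2 V hab))
    obtain ⟨j, hj⟩ : ∃ j, orderOf v = p ^ j := by
      obtain ⟨k, hk⟩ := hVp ⟨v, hv⟩
      have h1 : orderOf v ∣ p ^ k := by
        apply orderOf_dvd_of_pow_eq_one
        exact congrArg Subtype.val hk
      obtain ⟨i, -, hi⟩ := (Nat.dvd_prime_pow hp.out).mp h1
      exact ⟨i, hi⟩
    have hne := char_ne_zero_of_not_dvd hc hd hj
    obtain ⟨h1, h2⟩ := character_galois hc v hne
    have := card_le_sum_of_prod (Finset.univ : Finset U) (a χ)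
      (fun u _ => by
        have := h1 u
        simp only [a]
        positivity)
      (by
        simp only [a]
        rw [Finset.prod_pow, ← norm_prod]
        exact one_le_pow₀ h2)
    simpa [Finset.card_univ] using this
  -- the total over the characters outside of the kernel set
  set A := kerChars (X := X) V with hA
  have hsum : ∀ u : U, ∑ χ ∈ Finset.univ \ A, a χ u =
      (Nat.card (Subgroup.centralizer ({v} : Set X)) : ℝ) - (Nat.card G : ℝ) := by
    intro u
    set w := v ^ (u : ZMod (Nat.card X)).val with hw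
    have hwV : w ∈ V := V.pow_mem hv _
    have hall : ∑ χ : IrrCharacter X, a χ u = (Nat.card (Subgroup.centralizer ({v} : Set X)) : ℝ) := by
      have h1 := column_orthogonality_of_isConj (G := X) (IsConj.refl w)
      rw [centralizer_pow_unit] at h1
      have h2 : ∑ χ : IrrCharacter X, (χ : X → ℂ) w * conj ((χ : X → ℂ) w) =
          ((∑ χ : IrrCharacter X, a χ u : ℝ) : ℂ) := by
        push_cast
        refine Finset.sum_congr rfl fun χ _ => ?_
        rw [Complex.mul_conj, Complex.normSq_eq_norm_sq]
      rw [h2] at h1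
      exact_mod_cast h1
    have hker : ∑ χ ∈ A, a χ u = (Nat.card G : ℝ) := by
      have h1 : ∀ χ ∈ A, a χ u = ((charDegree (χ : X → ℂ) ^ 2 : ℕ) : ℝ) := by
        intro χ hχ
        simp only [a]
        rw [(mem_kerChars.mp hχ) w hwV, one_eq_charDegree (isCharacter_of_irr χ.2)]
        push_cast
        simp
      rw [Finset.sum_congr rfl h1, ← Nat.cast_sum, sum_sq_kerChars, hidxG]
    have := Finset.sum_sdiff (Finset.subset_univ A) (f := fun χ => a χ u)
    rw [hall, hker] at this
    linarith
  have hB : ((Finset.univ \ A).card : ℝ) ≤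
      (Nat.card (Subgroup.centralizer ({v} : Set X)) : ℝ) - (Nat.card G : ℝ) := by
    have h1 : ((Finset.univ \ A).card : ℝ) * Fintype.card U ≤
        ∑ χ ∈ Finset.univ \ A, ∑ u : U, a χ u := by
      have := Finset.card_nsmul_le_sum (Finset.univ \ A) (fun χ => ∑ u : U, a χ u)
        (Fintype.card U : ℝ) (fun χ _ => hAM χ)
      simpa using this
    rw [Finset.sum_comm] at h1
    simp only [hsum, Finset.sum_const, Finset.card_univ, nsmul_eq_mul] at h1
    have h2 : ((Finset.univ \ A).card : ℝ) * Fintype.card U ≤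
        ((Nat.card (Subgroup.centralizer ({v} : Set X)) : ℝ) - (Nat.card G : ℝ)) * Fintype.card U := by
      linarith
    exact le_of_mul_le_mul_right h2 hUpos
  have hcard : (Finset.univ \ A).card + A.card = Nat.card (ConjClasses X) := by
    rw [Finset.card_sdiff_add_card_eq_card (Finset.subset_univ A), Finset.card_univ,
      ← card_irr_eq_card_conjClasses, Nat.card_eq_fintype_card]
  have hAcard : A.card = Nat.card (ConjClasses G) := by
    rw [hA, card_kerChars, hkG]
  rw [card_centralizer_semi V G hab hGV hv] at hB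
  rw [← hcard, hAcard]
  have h3 : (((Finset.univ \ A).card + Nat.card G : ℕ) : ℝ) ≤
      ((Nat.card ↥(G ⊓ Subgroup.centralizer ({v} : Set X)) * Nat.card V : ℕ) : ℝ) := by
    push_cast at hB ⊢
    linarith
  have h4 : (Finset.univ \ A).card + Nat.card G ≤
      Nat.card ↥(G ⊓ Subgroup.centralizer ({v} : Set X)) * Nat.card V := by
    exact_mod_cast h3
  omega

end Semi

end Cfsg.Agent.H23
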