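import Cfsg.Agent.Lib.H23.Crit
import Cfsg.Agent.Lib.H03.PSolv
import Cfsg.Agent.Lib.H08.PCoreL
import Cfsg.Agent.Lib.H01.Coprime3
import Cfsg.Agent.Lib.H22.Degree

/-!
# Constituents and invariance under `p`-automorphisms; linear groups of small degree
-/

set_option autoImplicit false
set_option linter.unusedSectionVars false
set_option linter.style.haveILetI false
set_option linter.unusedSimpArgs false

namespace Cfsg.Agent.H23.Crit

open Cfsg Cfsg.Agent.H21 Cfsg.Agent.H06 Cfsg.Agent.H23.TwoDeg
open scoped ComplexConjugate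

universe u

section Basics

variable {R : Type u} [Group R] [Fintype R]

theorem deg_decomp {π : R → ℂ} (hπ : IsCharacter R π) {n : ℕ} (hn : π 1 = n)
    [Fintype (IrrCharacter R)] (m : IrrCharacter R → ℕ)
    (hm : π = ∑ ψ : IrrCharacter R, m ψ • (ψ : R → ℂ)) :
    n = ∑ τ : IrrCharacter R, m τ * charDegree τ.1 := by
  have := congrFun hm 1
  simp only [Finset.sum_apply, Pi.smul_apply] at this
  rw [hn] at this
  have h4 : ∀ τ : IrrCharacter R, m τ • τ.1 1 = ((m τ * charDegree τ.1 : ℕ) : ℂ) := by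
    intro τ
    rw [one_eq_charDegree (isCharacter_of_irr τ.2)]
    simp
  simp only [h4] at this
  exact_mod_cast this

/-- The number of distinct constituents is at most the degree. -/
theorem card_con_le {π : R → ℂ} (hπ : IsCharacter R π) {n : ℕ} (hn : π 1 = n)
    (S : Finset (IrrCharacter R)) (hS : ∀ τ ∈ S, classInner π τ.1 ≠ 0) : S.card ≤ n := by
  classical
  haveI : Fintype (IrrCharacter R) := Fintype.ofFinite _
  obtain ⟨m, hm, hm2⟩ := isCharacter_decomp hπ
  rw [deg_decomp hπ hn m hm]
  calc S.card = ∑ τ ∈ S, 1 := by simp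
    _ ≤ ∑ τ ∈ S, m τ * charDegree τ.1 := by
        refine Finset.sum_le_sum fun τ hτ => ?_
        have h0 : m τ ≠ 0 := by
          intro h
          apply hS τ hτ
          rw [hm2, h]
          simp
        exact Nat.mul_pos (Nat.pos_of_ne_zero h0) (irr_charDegree_pos τ.2)
    _ ≤ _ := Finset.sum_le_sum_of_subset (Finset.subset_univ S)

/-- A constituent has degree at most the degree. -/
theorem deg_con_le {π : R → ℂ} (hπ : IsCharacter R π) {n : ℕ} (hn : π 1 = n)
    (ξ : IrrCharacter R) (h : classInner π ξ.1 ≠ 0) : charDegree ξ.1 ≤ n := by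
  classical
  haveI : Fintype (IrrCharacter R) := Fintype.ofFinite _
  obtain ⟨m, hm, hm2⟩ := isCharacter_decomp hπ
  rw [deg_decomp hπ hn m hm]
  have h0 : m ξ ≠ 0 := by
    intro h'
    apply h
    rw [hm2, h']
    simp
  calc charDegree ξ.1 ≤ m ξ * charDegree ξ.1 := Nat.le_mul_of_pos_left _ (Nat.pos_of_ne_zero h0)
    _ ≤ _ := Finset.single_le_sum (f := fun τ : IrrCharacter R => m τ * charDegree τ.1)
        (fun _ _ => Nat.zero_le _) (Finset.mem_univ ξ)

/-- A nontrivial character has a nonprincipal constituent. -/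
theorem exists_nontriv_con {π : R → ℂ} (hπ : IsCharacter R π) {r : R} (hr : π r ≠ π 1) :
    ∃ τ : IrrCharacter R, classInner π τ.1 ≠ 0 ∧ ∃ t, τ.1 t ≠ 1 := by
  classical
  haveI : Fintype (IrrCharacter R) := Fintype.ofFinite _
  by_contra hcon
  push Not at hcon
  apply hr
  obtain ⟨m, hm, hm2⟩ := isCharacter_decomp hπ
  rw [hm]
  simp only [Finset.sum_apply, Pi.smul_apply]
  refine Finset.sum_congr rfl fun ψ _ => ?_
  by_cases h0 : m ψ = 0
  · simp [h0]
  · have := hcon ψ (by rw [hm2]; exact_mod_cast h0)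
    rw [this r, this 1]

theorem con_inv {p k : ℕ} (hp : p.Prime) (φ : R →* R) (hper : ∀ r, φ^[p ^ k] r = r) {π : R → ℂ}
    (hπ : IsCharacter R π) (hinv : ∀ r, π (φ r) = π r) {n : ℕ} (hn : π 1 = n) (hnp : n < p)
    (ξ : IrrCharacter R) (hξ : classInner π ξ.1 ≠ 0) (r : R) : ξ.1 (φ r) = ξ.1 r := by
  classical
  have hpk : 0 < p ^ k := pow_pos hp.pos k
  have hsurj : Function.Surjective φ := by
    intro r
    refine ⟨φ^[p ^ k - 1] r, ?_⟩
    have h1 : φ (φ^[p ^ k - 1] r) = φ^[p ^ k - 1 + 1] r := by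
      rw [Function.iterate_succ_apply']
    rw [h1, Nat.sub_add_cancel hpk, hper]
  have hinj : Function.Injective φ := Finite.injective_iff_surjective.2 hsurj
  let e : R ≃ R := Equiv.ofBijective φ ⟨hinj, hsurj⟩
  let F : IrrCharacter R → IrrCharacter R := fun τ =>
    ⟨τ.1 ∘ φ, isIrrCharacter_comp_of_surjective φ hsurj τ.2⟩
  have hFv : ∀ τ t, (F τ).1 t = τ.1 (φ t) := fun _ _ => rfl
  have hFit : ∀ (i : ℕ) τ t, (F^[i] τ).1 t = τ.1 (φ^[i] t) := by
    intro i
    induction i with
    | zero => intro τ t; rfl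
    | succ i ih =>
      intro τ t
      rw [Function.iterate_succ_apply', hFv, ih, Function.iterate_succ_apply]
  have hFpow : F^[p ^ k] ξ = ξ := by
    apply Subtype.ext
    funext t
    rw [hFit, hper]
  have hinner : ∀ τ : IrrCharacter R, classInner π (F τ).1 = classInner π τ.1 := by
    intro τ
    unfold classInner
    congr 1
    rw [← Equiv.sum_comp e (fun g => π g * conj (τ.1 g))]
    refine Finset.sum_congr rfl fun t _ => ?_
    have h1 : π (e t) = π t := hinv t
    rw [h1, hFv]
    rfl
  have hit : ∀ i : ℕ, classInner π (F^[i] ξ).1 ≠ 0 := by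
    intro i
    induction i with
    | zero => exact hξ
    | succ i ih =>
      rw [Function.iterate_succ_apply', hinner]
      exact ih
  have hdvd : Function.minimalPeriod F ξ ∣ p ^ k :=
    Function.IsPeriodicPt.minimalPeriod_dvd hFpow
  obtain ⟨j, -, hj⟩ := (Nat.dvd_prime_pow hp).1 hdvd
  rcases Nat.eq_zero_or_pos j with rfl | hj0
  · rw [pow_zero, Function.minimalPeriod_eq_one_iff_isFixedPt] at hj
    have h1 : F ξ = ξ := hj
    have h2 := congrFun (congrArg Subtype.val h1) r
    exact h2
  · exfalso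
    have hS := card_con_le hπ hn ((Finset.range (Function.minimalPeriod F ξ)).image (fun i => F^[i] ξ))
      (by
        intro τ hτ
        obtain ⟨i, -, rfl⟩ := Finset.mem_image.1 hτ
        exact hit i)
    rw [Finset.card_image_of_injOn, Finset.card_range, hj] at hS
    · have h3 : p ≤ p ^ j := by
        calc p = p ^ 1 := (pow_one p).symm
          _ ≤ p ^ j := Nat.pow_le_pow_right hp.pos hj0
      omega
    · intro a ha b hb hab
      have ha' : a ∈ Set.Iio (Function.minimalPeriod F ξ) := by simpa using ha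
      have hb' : b ∈ Set.Iio (Function.minimalPeriod F ξ) := by simpa using hb
      exact Function.iterate_injOn_Iio_minimalPeriod ha' hb' hab

end Basics

section Irr

variable {G : Type u} [Group G] [Fintype G]

/-- If the restriction of a character to a subgroup has a constituent of full degree, the
character is irreducible. -/
theorem irr_of_full_con (H : Subgroup G) [Fintype H] {χ : G → ℂ} (hχ : IsCharacter G χ)
    (ξ : IrrCharacter H) (hξ : classInner (fun h : H => χ h) ξ.1 ≠ 0)
    (hdeg : charDegree ξ.1 = charDegree χ) : IsIrrCharacter G χ := by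
  classical
  haveI : Fintype (IrrCharacter G) := Fintype.ofFinite _
  obtain ⟨m, hm, hm2⟩ := isCharacter_decomp hχ
  have hn : χ 1 = (charDegree χ : ℂ) := one_eq_charDegree hχ
  have hsum := deg_decomp hχ hn m hm
  -- a constituent of the restriction
  have hex : ∃ ψ : IrrCharacter G, m ψ ≠ 0 ∧ classInner (fun h : H => ψ.1 h) ξ.1 ≠ 0 := by
    by_contra hcon
    push Not at hcon
    apply hξ
    have h1 : (fun h : H => χ h) = ∑ ψ : IrrCharacter G, m ψ • (fun h : H => ψ.1 h) := by
      funext h
      rw [hm]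
      simp only [Finset.sum_apply, Pi.smul_apply]
    rw [h1, classInner_sum_left]
    refine Finset.sum_eq_zero fun ψ _ => ?_
    by_cases h0 : m ψ = 0
    · rw [h0]
      simp [classInner]
    · rw [← Nat.cast_smul_eq_nsmul ℂ, classInner_smul_left, hcon ψ h0, mul_zero]
  obtain ⟨ψ, hψ0, hψ⟩ := hex
  have hd1 : charDegree ξ.1 ≤ charDegree ψ.1 := by
    refine deg_con_le (isCharacter_restrict H (isCharacter_of_irr ψ.2)) (n := charDegree ψ.1) ?_ ξ hψ
    exact one_eq_charDegree (isCharacter_of_irr ψ.2)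
  have hd2 : charDegree ψ.1 ≤ charDegree χ := deg_con_le hχ hn ψ (by rw [hm2]; exact_mod_cast hψ0)
  have hdeq : charDegree ψ.1 = charDegree χ := le_antisymm hd2 (by omega)
  have hpos := irr_charDegree_pos ψ.2
  have h3 := Finset.add_sum_erase Finset.univ (fun τ : IrrCharacter G => m τ * charDegree τ.1)
    (Finset.mem_univ ψ)
  rw [← hsum] at h3
  have h4 : m ψ = 1 := by
    have : m ψ * charDegree ψ.1 ≤ charDegree χ := by omega
    rw [hdeq] at this
    have h5 : m ψ ≤ 1 := by
      rw [← hdeq] at this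
      nlinarith
    omega
  have h5 : ∑ τ ∈ Finset.univ.erase ψ, m τ * charDegree τ.1 = 0 := by
    rw [h4, hdeq] at h3
    omega
  have h6 : ∀ τ, τ ≠ ψ → m τ = 0 := by
    intro τ hτ
    have := (Finset.sum_eq_zero_iff.1 h5) τ (Finset.mem_erase.2 ⟨hτ, Finset.mem_univ τ⟩)
    rcases Nat.mul_eq_zero.1 this with h7 | h7
    · exact h7
    · exact absurd h7 (irr_charDegree_pos τ.2).ne'
  have h7 : χ = ψ.1 := by
    rw [hm]
    rw [Finset.sum_eq_single ψ]
    · rw [h4]
      simp
    · intro τ _ hτ
      rw [h6 τ hτ]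
      simp
    · simp
  rw [h7]
  exact ψ.2

end Irr

end Cfsg.Agent.H23.Crit
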