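import Cfsg.Agent.Lib.H23.TwoDeg
import Cfsg.Agent.Lib.H23.GalExt
import Cfsg.Agent.Lib.H23.Ito2
import Cfsg.Agent.Lib.H06.CoherInd

/-!
# Groups with character degrees `1` and `p`
-/

set_option autoImplicit false
set_option linter.unusedSectionVars false
set_option linter.style.haveILetI false
set_option linter.unusedSimpArgs false

namespace Cfsg.Agent.H23.TwoDeg

open Cfsg Cfsg.Agent.H21 Cfsg.Agent.H06
open scoped commutatorElement ComplexConjugate

universe u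

section ZC

variable {G : Type u} [Group G] [Fintype G]

/-- The centre of a character. -/
def ZC (χ : IrrCharacter G) : Subgroup G where
  carrier := {g | ‖χ.1 g‖ = charDegree χ.1}
  one_mem' := by
    show ‖χ.1 1‖ = _
    rw [one_eq_charDegree (isCharacter_of_irr χ.2)]
    simp
  mul_mem' := by
    intro a b ha hb
    have hc := isCharacter_of_irr χ.2
    have hd : (0 : ℝ) < charDegree χ.1 := by exact_mod_cast irr_charDegree_pos χ.2
    have h1 := character_mul_of_norm_eq hc ha b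
    have h2 := congrArg norm h1
    rw [norm_mul, norm_mul, ha, hb, Complex.norm_natCast] at h2
    exact mul_right_cancel₀ hd.ne' h2
  inv_mem' := by
    intro a ha
    show ‖χ.1 a⁻¹‖ = _
    rw [isCharacter_inv (isCharacter_of_irr χ.2), RCLike.norm_conj]
    exact ha

theorem mem_ZC {χ : IrrCharacter G} {g : G} : g ∈ ZC χ ↔ ‖χ.1 g‖ = charDegree χ.1 := Iff.rfl

theorem ZC_comm {χ : IrrCharacter G} {z : G} (hz : z ∈ ZC χ) (h : G) :
    χ.1 (z * h * z⁻¹ * h⁻¹) = χ.1 1 := by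
  have hc := isCharacter_of_irr χ.2
  have hd : (charDegree χ.1 : ℂ) ≠ 0 := by exact_mod_cast (irr_charDegree_pos χ.2).ne'
  have h1 := character_mul_of_norm_eq hc hz (h * z⁻¹ * h⁻¹)
  have h2 : χ.1 (h * z⁻¹ * h⁻¹) = χ.1 z⁻¹ := by
    have := isCharacter_conj hc z⁻¹ h
    simpa using this
  rw [h2, isCharacter_inv hc, mul_comm (χ.1 z), Complex.conj_mul', mem_ZC.1 hz] at h1
  rw [one_eq_charDegree hc]
  have h3 : z * (h * z⁻¹ * h⁻¹) = z * h * z⁻¹ * h⁻¹ := by group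
  rw [h3] at h1
  apply mul_right_cancel₀ hd
  rw [h1]
  push_cast
  ring

theorem mem_ZC_of_comm {χ : IrrCharacter G} {d : G}
    (hc : ∀ g : G, χ.1 (d * g * d⁻¹ * g⁻¹) = χ.1 1) : d ∈ ZC χ := by
  rw [mem_ZC]
  obtain ⟨χ', hχ⟩ := χ
  obtain ⟨n, ρ, hρ, rfl⟩ := hχ
  have hdeg : charDegree ρ.character = n := by simp [charDegree, Representation.char_one]
  show ‖ρ.character d‖ = (charDegree ρ.character : ℝ)
  rw [hdeg]
  have : ∃ c : ℂ, ρ d = c • (1 : Module.End ℂ (Fin n → ℂ)) := by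
    apply schur_scalar ρ hρ
    intro g
    have h1 : ρ (d * g * d⁻¹ * g⁻¹) = 1 := by
      rw [← character_eq_finrank_iff]
      simpa [Representation.char_one] using hc g
    have h2 : ρ (d * g) = ρ (g * d) := by
      have : d * g = (d * g * d⁻¹ * g⁻¹) * (g * d) := by group
      rw [this, map_mul ρ (d * g * d⁻¹ * g⁻¹), h1, one_mul]
    change ρ d * ρ g = ρ g * ρ d
    rw [← map_mul, ← map_mul, h2]
  simpa using (norm_character_eq_finrank_iff ρ d).2 this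

instance ZC_normal (χ : IrrCharacter G) : (ZC χ).Normal := by
  refine ⟨fun n hn g => ?_⟩
  rw [mem_ZC] at hn ⊢
  have := isCharacter_conj (isCharacter_of_irr χ.2) n g
  rw [← hn, ← this]

theorem center_le_ZC (χ : IrrCharacter G) : Subgroup.center G ≤ ZC χ := by
  intro z hz
  apply mem_ZC_of_comm
  intro g
  have : z * g * z⁻¹ * g⁻¹ = 1 := by
    rw [(Subgroup.mem_center_iff.1 hz g).symm]
    group
  rw [this]

theorem mem_ZC_of_linear (χ : IrrCharacter G) (h1 : charDegree χ.1 = 1) (g : G) : g ∈ ZC χ := by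
  rw [mem_ZC, h1, linear_norm (isCharacter_of_irr χ.2) h1]
  simp

theorem mem_center_of_all_ZC {g : G} (h : ∀ χ : IrrCharacter G, g ∈ ZC χ) : g ∈ Subgroup.center G := by
  rw [Subgroup.mem_center_iff]
  intro k
  by_contra hne
  have hw : g * k * g⁻¹ * k⁻¹ ≠ 1 := by
    intro h1
    apply hne
    have h2 : g * k * g⁻¹ = k := mul_inv_eq_one.1 h1
    rw [mul_inv_eq_iff_eq_mul] at h2
    exact h2.symm
  obtain ⟨χ, hχ⟩ := H22.exists_irr_ne_of_ne_one hw
  exact hχ (ZC_comm (h χ) k)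

theorem deg_sq_card_le (χ : IrrCharacter G) : charDegree χ.1 ^ 2 * Nat.card (ZC χ) ≤ Nat.card G :=
  irr_deg_sq_le_of_central χ.2 (ZC χ) fun _ hd g => ZC_comm hd g

/-- The mass on `G`. -/
theorem sum_norm_sq (χ : IrrCharacter G) : ∑ g : G, ‖χ.1 g‖ ^ 2 = (Nat.card G : ℝ) := by
  have h1 := classInner_irr_self χ.2
  rw [classInner_self_eq_real] at h1
  have h2 : (Nat.card G : ℝ)⁻¹ * ∑ x : G, ‖χ.1 x‖ ^ 2 = 1 := by exact_mod_cast h1
  have hX : (Nat.card G : ℝ) ≠ 0 := Nat.cast_ne_zero.mpr Nat.card_pos.ne'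
  field_simp at h2
  linarith

/-- Sums over a subgroup as filtered sums. -/
theorem sum_subgroup_eq (H : Subgroup G) [Fintype H] [DecidablePred (· ∈ H)] (F : G → ℝ) :
    ∑ h : H, F h = ∑ g ∈ Finset.univ.filter (· ∈ H), F g := by
  refine Finset.sum_subtype _ ?_ F |>.symm
  intro x
  simp

/-- A character with `χ(1)² |Z(χ)| = |G|` vanishes off `Z(χ)`. -/
theorem vanish_off_ZC (χ : IrrCharacter G) (h : charDegree χ.1 ^ 2 * Nat.card (ZC χ) = Nat.card G)
    {g : G} (hg : g ∉ ZC χ) : χ.1 g = 0 := by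
  classical
  haveI : Fintype (ZC χ) := Fintype.ofFinite _
  have h1 := sum_norm_sq χ
  have h2 : ∑ z : ZC χ, ‖χ.1 z‖ ^ 2 = (Nat.card G : ℝ) := by
    have h3 : ∀ z : ZC χ, ‖χ.1 z‖ ^ 2 = (charDegree χ.1 : ℝ) ^ 2 := by
      intro z
      rw [mem_ZC.1 z.2]
    simp only [h3, Finset.sum_const, Finset.card_univ, nsmul_eq_mul]
    rw [← Nat.card_eq_fintype_card, ← h]
    push_cast
    ring
  rw [sum_subgroup_eq (ZC χ) (fun x => ‖χ.1 x‖ ^ 2)] at h2
  have h4 : ∑ x ∈ Finset.univ.filter (fun x => ¬ x ∈ ZC χ), ‖χ.1 x‖ ^ 2 = 0 := by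
    have h5 := Finset.sum_filter_add_sum_filter_not Finset.univ (· ∈ ZC χ) (fun x => ‖χ.1 x‖ ^ 2)
    rw [h1, h2] at h5
    linarith
  have h6 := (Finset.sum_eq_zero_iff_of_nonneg (fun x _ => by positivity)).1 h4 g
    (Finset.mem_filter.2 ⟨Finset.mem_univ _, hg⟩)
  exact norm_eq_zero.1 (pow_eq_zero_iff (two_ne_zero)|>.1 h6)

/-- `G / Z(χ)` is not cyclic for nonlinear `χ`. -/
theorem not_cyclic_ZC (χ : IrrCharacter G) (h1 : charDegree χ.1 ≠ 1) : ¬ IsCyclic (G ⧸ ZC χ) := by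
  intro hcyc
  apply h1
  have hc := isCharacter_of_irr χ.2
  let K := charKer χ.1 hc
  have hKZ : K ≤ ZC χ := by
    intro k hk
    have hk' : χ.1 k = χ.1 1 := hk
    rw [mem_ZC, hk', one_eq_charDegree hc]
    simp
  let f : G ⧸ K →* G ⧸ ZC χ := QuotientGroup.map K (ZC χ) (MonoidHom.id G) hKZ
  have hf : f.ker ≤ Subgroup.center (G ⧸ K) := by
    intro q hq
    obtain ⟨g, rfl⟩ := QuotientGroup.mk_surjective q
    have hg : g ∈ ZC χ := by
      have h2 : f (QuotientGroup.mk g) = 1 := hq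
      exact (QuotientGroup.eq_one_iff g).1 h2
    rw [Subgroup.mem_center_iff]
    intro q'
    obtain ⟨t, rfl⟩ := QuotientGroup.mk_surjective q'
    show ((t * g : G) : G ⧸ K) = ((g * t : G) : G ⧸ K)
    apply QuotientGroup.eq.mpr
    show χ.1 _ = χ.1 1
    have h3 : (t * g)⁻¹ * (g * t) = g⁻¹ * t⁻¹ * g⁻¹⁻¹ * t⁻¹⁻¹ := by group
    rw [h3]
    exact ZC_comm ((ZC χ).inv_mem hg) t⁻¹
  have hcomm := commutative_of_cyclic_center_quotient f hf
  refine H22.degree_one_of_commutator_ker χ.2 fun x hx => ?_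
  have hle : commutator G ≤ K := by
    rw [commutator_def, Subgroup.commutator_le]
    intro a _ b _
    rw [← QuotientGroup.eq_one_iff, commutatorElement_def]
    simp only [QuotientGroup.mk_mul, QuotientGroup.mk_inv]
    rw [hcomm (a : G ⧸ K) (b : G ⧸ K)]
    simp
  exact hle hx

/-- A sum of a function vanishing off a subgroup. -/
theorem sum_eq_sum_sub (H : Subgroup G) [Fintype H] (F : G → ℝ) (hF : ∀ g, g ∉ H → F g = 0) :
    ∑ g : G, F g = ∑ h : H, F h := by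
  classical
  rw [sum_subgroup_eq H F]
  refine (Finset.sum_subset (Finset.filter_subset _ _) ?_).symm
  intro x _ hx
  apply hF
  intro h
  exact hx (Finset.mem_filter.2 ⟨Finset.mem_univ _, h⟩)

theorem normal_of_comm_le {T : Subgroup G} (h : commutator G ≤ T) : T.Normal := by
  refine ⟨fun n hn g => ?_⟩
  have h1 : g * n * g⁻¹ = ⁅g, n⁆ * n := by
    simp only [commutatorElement_def]
    group
  rw [h1]
  exact T.mul_mem (h (Subgroup.commutator_mem_commutator (Subgroup.mem_top g) (Subgroup.mem_top n))) hn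

/-- The dichotomy for a normal subgroup of prime index. -/
theorem dich (T : Subgroup G) [hT : T.Normal] [Fintype T] (hp : T.index.Prime) (ψ : IrrCharacter G) :
    (∃ θ : IrrCharacter T, ∀ t : T, ψ.1 t = θ.1 t) ∨ ∃ θ : IrrCharacter T, ψ.1 = indFun T θ.1 := by
  classical
  haveI : Fintype (IrrCharacter T) := Fintype.ofFinite _
  haveI : Fintype (IrrCharacter G) := Fintype.ofFinite _
  obtain ⟨μ, hμ, hne⟩ := H23.exists_constituent T ψ.2
  by_cases hinv : ∀ (g : G) (n : T), μ ⟨g * n * g⁻¹, hT.conj_mem (n : G) n.2 g⟩ = μ n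
  · left
    haveI : Fact (T.index).Prime := ⟨hp⟩
    have hcyc : IsCyclic (G ⧸ T) := isCyclic_of_prime_card (p := T.index) rfl
    exact ⟨⟨μ, hμ⟩, H23.over_restrict_of_cyclic G T hcyc ⟨μ, hμ⟩ hinv ψ hne⟩
  · right
    let I := H06.inertiaSub T μ
    have hTI : T ≤ I := H06.le_inertiaSub T (isClassFunction_of_isCharacter (isCharacter_of_irr hμ))
    have hI : I ≠ ⊤ := by
      intro h
      apply hinv
      intro g n
      have h1 : g ∈ I := by rw [h]; exact Subgroup.mem_top g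
      exact h1 n
    have hd : I.index ∣ T.index := Subgroup.index_dvd_of_le hTI
    have hle : I ≤ T := by
      rcases (Nat.dvd_prime hp).1 hd with h | h
      · exact absurd (Subgroup.index_eq_one.1 h) hI
      · have h1 := Subgroup.relIndex_mul_index hTI
        rw [h] at h1
        have h2 : T.relIndex I = 1 := by
          apply Nat.eq_of_mul_eq_mul_right hp.pos
          rw [h1, one_mul]
        exact Subgroup.relIndex_eq_one.1 h2
    have hT' : ∀ g : G, g ∈ T ↔ ∀ h : T, μ ⟨g * h * g⁻¹, hT.conj_mem h h.2 g⟩ = μ h := by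
      intro g
      exact ⟨fun hg => hTI hg, fun hg => hle hg⟩
    have hext : H23.IsIrrExt T T (le_refl T) μ μ := ⟨hμ, fun n => rfl⟩
    have hirr := hext.ind_irr hμ hT'
    refine ⟨⟨μ, hμ⟩, ?_⟩
    have hne2 : classInner (indFun T μ) ψ.1 ≠ 0 := by
      rw [frobenius_reciprocity T μ ψ.1 (isClassFunction_of_isCharacter (isCharacter_of_irr ψ.2))]
      intro h0
      apply hne
      rw [← classInner_comm_conj, h0, map_zero]
    have h3 := classInner_irr (⟨_, hirr⟩ : IrrCharacter G) ψ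
    by_contra hcon
    have h4 : (⟨_, hirr⟩ : IrrCharacter G) ≠ ψ := by
      intro h
      exact hcon (congrArg Subtype.val h).symm
    rw [if_neg h4] at h3
    exact hne2 h3

/-- Inequality for a character of degree `p²`. -/
theorem norm_sq_ge {p : ℕ} (hp : p.Prime)
    (hcd : ∀ χ : IrrCharacter G, charDegree χ.1 = 1 ∨ charDegree χ.1 = p) {X : G → ℂ}
    (hX : IsCharacter G X) (h1 : X 1 = ((p ^ 2 : ℕ) : ℂ)) :
    (p : ℝ) ≤ (Nat.card G : ℝ)⁻¹ * ∑ g : G, ‖X g‖ ^ 2 := by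
  classical
  haveI : Fintype (IrrCharacter G) := Fintype.ofFinite _
  obtain ⟨m, hm, hm2⟩ := isCharacter_decomp hX
  obtain ⟨m', hm', hXX⟩ := H06.classInner_self_char_eq_sum hX
  have hmm : ∀ χ, m' χ = m χ := by
    intro χ
    have := (hm' χ).symm.trans (hm2 χ)
    exact_mod_cast this
  have h3 : p ^ 2 = ∑ τ : IrrCharacter G, m τ * charDegree τ.1 := by
    have := congrFun hm 1
    simp only [Finset.sum_apply, Pi.smul_apply] at this
    rw [h1] at this
    have h4 : ∀ τ : IrrCharacter G, m τ • τ.1 1 = ((m τ * charDegree τ.1 : ℕ) : ℂ) := by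
      intro τ
      rw [one_eq_charDegree (isCharacter_of_irr τ.2)]
      simp
    simp only [h4] at this
    exact_mod_cast this
  have h5 : p ^ 2 ≤ p * ∑ τ : IrrCharacter G, m τ * m τ := by
    rw [h3, Finset.mul_sum]
    refine Finset.sum_le_sum fun τ _ => ?_
    have h6 : charDegree τ.1 ≤ p := by
      rcases hcd τ with h | h
      · rw [h]; exact hp.one_lt.le
      · exact h.le
    have h7 : m τ ≤ m τ * m τ := Nat.le_mul_self _
    calc m τ * charDegree τ.1 ≤ (m τ * m τ) * p := Nat.mul_le_mul h7 h6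
      _ = p * (m τ * m τ) := by ring
  have h8 : p ≤ ∑ τ : IrrCharacter G, m τ * m τ := by
    have : p * p ≤ p * ∑ τ : IrrCharacter G, m τ * m τ := by
      rw [← sq]
      exact h5
    exact Nat.le_of_mul_le_mul_left this hp.pos
  rw [H06.classInner_self_eq_real] at hXX
  have h9 : (Nat.card G : ℝ)⁻¹ * ∑ g : G, ‖X g‖ ^ 2 = ((∑ τ : IrrCharacter G, m' τ * m' τ : ℕ) : ℝ) := by
    exact_mod_cast hXX
  rw [h9]
  simp only [hmm]
  exact_mod_cast h8

/-- **Key lemma.** -/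
theorem key {p : ℕ} (hp : p.Prime)
    (hcd : ∀ χ : IrrCharacter G, charDegree χ.1 = 1 ∨ charDegree χ.1 = p) (χ ψ : IrrCharacter G)
    (hχ1 : charDegree χ.1 = p) (hψ1 : charDegree ψ.1 = p) (T : Subgroup G) [Fintype T]
    (hTi : T.index = p) (hvan : ∀ g, g ∉ T → χ.1 g = 0)
    (hirr : ∃ θ : IrrCharacter T, ∀ t : T, ψ.1 t = θ.1 t) {h : G} (hh : h ∈ T)
    (hne : ψ.1 h ≠ 0) : h ∈ ZC χ := by
  classical
  obtain ⟨θ, hθ⟩ := hirr
  have hX : IsCharacter G (χ.1 * ψ.1) := isCharacter_mul (isCharacter_of_irr χ.2) (isCharacter_of_irr ψ.2)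
  have hX1 : (χ.1 * ψ.1) 1 = ((p ^ 2 : ℕ) : ℂ) := by
    simp only [Pi.mul_apply]
    rw [one_eq_charDegree (isCharacter_of_irr χ.2), one_eq_charDegree (isCharacter_of_irr ψ.2), hχ1, hψ1]
    push_cast
    ring
  have h1 := norm_sq_ge hp hcd hX hX1
  have hG : (Nat.card G : ℝ) = Nat.card T * p := by
    have := T.card_mul_index
    rw [hTi] at this
    exact_mod_cast this.symm
  have hT0 : (0 : ℝ) < Nat.card T := by exact_mod_cast Nat.card_pos
  have hp0 : (0 : ℝ) < p := by exact_mod_cast hp.pos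
  have hG0 : (0 : ℝ) < Nat.card G := by rw [hG]; positivity
  have h2 : ∑ g : G, ‖(χ.1 * ψ.1) g‖ ^ 2 = ∑ t : T, ‖χ.1 t‖ ^ 2 * ‖ψ.1 t‖ ^ 2 := by
    rw [sum_eq_sum_sub T (fun g => ‖(χ.1 * ψ.1) g‖ ^ 2) (fun g hg => by simp [hvan g hg])]
    refine Finset.sum_congr rfl fun t _ => ?_
    simp only [Pi.mul_apply, norm_mul, mul_pow]
  have h3 : ∑ t : T, ‖ψ.1 t‖ ^ 2 = (Nat.card T : ℝ) := by
    have := sum_norm_sq θ
    rw [← this]
    exact Finset.sum_congr rfl fun t _ => by rw [hθ]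
  have h4 : ∑ t : T, ((p : ℝ) ^ 2 - ‖χ.1 t‖ ^ 2) * ‖ψ.1 t‖ ^ 2 ≤ 0 := by
    simp only [sub_mul]
    rw [Finset.sum_sub_distrib, ← Finset.mul_sum, h3]
    rw [h2] at h1
    rw [le_inv_mul_iff₀ hG0] at h1
    rw [hG] at h1
    nlinarith
  have hle : ∀ t : T, ‖χ.1 t‖ ≤ p := by
    intro t
    have := isCharacter_norm_le (isCharacter_of_irr χ.2) (t : G)
    rwa [hχ1] at this
  have hnn : ∀ t : T, 0 ≤ ((p : ℝ) ^ 2 - ‖χ.1 t‖ ^ 2) * ‖ψ.1 t‖ ^ 2 := by
    intro t
    refine mul_nonneg ?_ (by positivity)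
    have := pow_le_pow_left₀ (norm_nonneg _) (hle t) 2
    linarith
  have h5 := (Finset.sum_eq_zero_iff_of_nonneg (fun t _ => hnn t)).1
    (le_antisymm h4 (Finset.sum_nonneg fun t _ => hnn t)) ⟨h, hh⟩ (Finset.mem_univ _)
  have h6 : ‖ψ.1 h‖ ^ 2 ≠ 0 := by
    have : ‖ψ.1 h‖ ≠ 0 := norm_ne_zero_iff.2 hne
    positivity
  have h7 := (mul_eq_zero.1 h5).resolve_right h6
  rw [mem_ZC, hχ1]
  have h8 : ‖χ.1 h‖ ^ 2 = (p : ℝ) ^ 2 := by
    simp only at h7
    linarith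
  exact (pow_left_inj₀ (norm_nonneg _) hp0.le two_ne_zero).1 h8

/-- The mass bound and the equality case. -/
theorem key2 {p : ℕ} (hp : p.Prime)
    (hcd : ∀ χ : IrrCharacter G, charDegree χ.1 = 1 ∨ charDegree χ.1 = p) (χ ψ : IrrCharacter G)
    (hχ1 : charDegree χ.1 = p) (hψ1 : charDegree ψ.1 = p) (T : Subgroup G) [Fintype T]
    (hTi : T.index = p) (hvan : ∀ g, g ∉ T → χ.1 g = 0)
    (hirr : ∃ θ : IrrCharacter T, ∀ t : T, ψ.1 t = θ.1 t) :
    Nat.card T ≤ p ^ 2 * Nat.card (ZC χ) ∧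
      (Nat.card T = p ^ 2 * Nat.card (ZC χ) → ZC χ ≤ ZC ψ) := by
  classical
  haveI : Fintype (ZC χ) := Fintype.ofFinite _
  obtain ⟨θ, hθ⟩ := id hirr
  have hp0 : (0 : ℝ) < p := by exact_mod_cast hp.pos
  have hZT : ∀ z, z ∈ ZC χ → z ∈ T := by
    intro z hz
    by_contra hzT
    have h1 := mem_ZC.1 hz
    rw [hvan z hzT, hχ1, norm_zero] at h1
    exact hp0.ne h1
  have h3 : ∑ t : T, ‖ψ.1 t‖ ^ 2 = (Nat.card T : ℝ) := by
    have := sum_norm_sq θ
    rw [← this]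
    exact Finset.sum_congr rfl fun t _ => by rw [hθ]
  -- the function on `G`
  let F : G → ℝ := fun g => if g ∈ T then ‖ψ.1 g‖ ^ 2 else 0
  have h4 : ∑ g : G, F g = (Nat.card T : ℝ) := by
    rw [sum_eq_sum_sub T F (fun g hg => if_neg hg), ← h3]
    exact Finset.sum_congr rfl fun t _ => if_pos t.2
  have h5 : ∑ g : G, F g = ∑ z : ZC χ, ‖ψ.1 z‖ ^ 2 := by
    rw [sum_eq_sum_sub (ZC χ) F ?_]
    · exact Finset.sum_congr rfl fun z _ => if_pos (hZT _ z.2)
    · intro g hg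
      by_cases hgT : g ∈ T
      · have : ψ.1 g = 0 := by
          by_contra h0
          exact hg (key hp hcd χ ψ hχ1 hψ1 T hTi hvan hirr hgT h0)
        simp [F, hgT, this]
      · exact if_neg hgT
  have h6 : ∑ z : ZC χ, ‖ψ.1 z‖ ^ 2 = (Nat.card T : ℝ) := h5.symm.trans h4
  have hle : ∀ z : ZC χ, ‖ψ.1 z‖ ^ 2 ≤ (p : ℝ) ^ 2 := by
    intro z
    have := isCharacter_norm_le (isCharacter_of_irr ψ.2) (z : G)
    rw [hψ1] at this
    exact pow_le_pow_left₀ (norm_nonneg _) this 2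
  have h7 : ∑ z : ZC χ, ((p : ℝ) ^ 2 - ‖ψ.1 z‖ ^ 2) = (p : ℝ) ^ 2 * Nat.card (ZC χ) - Nat.card T := by
    rw [Finset.sum_sub_distrib, h6]
    simp only [Finset.sum_const, Finset.card_univ, nsmul_eq_mul]
    rw [← Nat.card_eq_fintype_card]
    ring
  have hnn : ∀ z : ZC χ, 0 ≤ (p : ℝ) ^ 2 - ‖ψ.1 z‖ ^ 2 := fun z => sub_nonneg.2 (hle z)
  constructor
  · have h8 : (0 : ℝ) ≤ (p : ℝ) ^ 2 * Nat.card (ZC χ) - Nat.card T := by
      rw [← h7]
      exact Finset.sum_nonneg fun z _ => hnn z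
    have h9 : (Nat.card T : ℝ) ≤ (p : ℝ) ^ 2 * Nat.card (ZC χ) := by linarith
    exact_mod_cast h9
  · intro heq z hz
    have h8 : (p : ℝ) ^ 2 * Nat.card (ZC χ) - Nat.card T = 0 := by
      rw [sub_eq_zero]
      exact_mod_cast heq.symm
    rw [h8] at h7
    have h9 := (Finset.sum_eq_zero_iff_of_nonneg (fun z _ => hnn z)).1 h7 ⟨z, hz⟩ (Finset.mem_univ _)
    rw [mem_ZC, hψ1]
    have h10 : ‖ψ.1 z‖ ^ 2 = (p : ℝ) ^ 2 := by
      simp only at h9
      linarith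
    exact (pow_left_inj₀ (norm_nonneg _) hp0.le two_ne_zero).1 h10

end ZC

section Quot

variable {G : Type u} [Group G] [Finite G]

/-- Quotients of order `p²` which are not cyclic: elements have order `p`. -/
theorem order_of_ne_one {E : Type*} [Group E] [Finite E] {p : ℕ} (hp : p.Prime)
    (hE : Nat.card E = p ^ 2) (hnc : ¬ IsCyclic E) {y : E} (hy : y ≠ 1) : orderOf y = p := by
  have h1 : orderOf y ∣ p ^ 2 := hE ▸ orderOf_dvd_natCard y
  obtain ⟨j, hj, hy2⟩ := (Nat.dvd_prime_pow hp).1 h1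
  interval_cases j
  · rw [pow_zero, orderOf_eq_one_iff] at hy2
    exact absurd hy2 hy
  · rw [pow_one] at hy2
    exact hy2
  · exact absurd (isCyclic_of_orderOf_eq_card y (hy2.trans hE.symm)) hnc

/-- The subgroup above `Z` attached to an element. -/
def TT (Z : Subgroup G) [Z.Normal] (x : G) : Subgroup G :=
  (Subgroup.zpowers (x : G ⧸ Z)).comap (QuotientGroup.mk' Z)

theorem mem_TT {Z : Subgroup G} [Z.Normal] {x t : G} :
    t ∈ TT Z x ↔ ∃ k : ℤ, t * (x ^ k)⁻¹ ∈ Z := by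
  unfold TT
  rw [Subgroup.mem_comap, Subgroup.mem_zpowers_iff]
  constructor
  · rintro ⟨k, hk⟩
    refine ⟨k, ?_⟩
    rw [← QuotientGroup.eq_one_iff]
    have h1 : ((x ^ k : G) : G ⧸ Z) = (t : G ⧸ Z) := by
      rw [QuotientGroup.mk_zpow]
      exact hk
    rw [QuotientGroup.mk_mul, QuotientGroup.mk_inv, h1]
    simp
  · rintro ⟨k, hk⟩
    refine ⟨k, ?_⟩
    rw [← QuotientGroup.eq_one_iff, QuotientGroup.mk_mul, QuotientGroup.mk_inv, mul_inv_eq_one] at hk
    rw [← QuotientGroup.mk_zpow]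
    exact hk.symm

theorem le_TT (Z : Subgroup G) [Z.Normal] (x : G) : Z ≤ TT Z x := by
  intro z hz
  rw [mem_TT]
  exact ⟨0, by simpa using hz⟩

theorem self_mem_TT (Z : Subgroup G) [Z.Normal] (x : G) : x ∈ TT Z x := by
  rw [mem_TT]
  exact ⟨1, by simp [Z.one_mem]⟩

theorem TT_normal {p : ℕ} (hp : p.Prime) (Z : Subgroup G) [Z.Normal] (x : G) (hZ : Z.index = p ^ 2) :
    (TT Z x).Normal := by
  haveI : Fact p.Prime := ⟨hp⟩
  have hc := IsPGroup.commutative_of_card_eq_prime_sq (p := p) (G := G ⧸ Z) hZ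
  refine ⟨fun n hn g => ?_⟩
  unfold TT at hn ⊢
  rw [Subgroup.mem_comap] at hn ⊢
  have : QuotientGroup.mk' Z (g * n * g⁻¹) = QuotientGroup.mk' Z n := by
    rw [map_mul, map_mul, map_inv, hc (QuotientGroup.mk' Z g)]
    group
  rw [this]
  exact hn

theorem TT_index {p : ℕ} (hp : p.Prime) (Z : Subgroup G) [Z.Normal] {x : G} (hZ : Z.index = p ^ 2)
    (hnc : ¬ IsCyclic (G ⧸ Z)) (hx : x ∉ Z) : (TT Z x).index = p := by
  unfold TT
  rw [Subgroup.index_comap_of_surjective _ (QuotientGroup.mk'_surjective Z)]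
  have hcard : Nat.card (G ⧸ Z) = p ^ 2 := hZ
  have h1 : ((x : G ⧸ Z)) ≠ 1 := fun h => hx ((QuotientGroup.eq_one_iff x).1 h)
  have h2 := order_of_ne_one hp hcard hnc h1
  have h3 := Subgroup.card_mul_index (Subgroup.zpowers (x : G ⧸ Z))
  rw [Nat.card_zpowers, h2, hcard, sq] at h3
  exact Nat.eq_of_mul_eq_mul_left hp.pos h3

/-- There is a subgroup of the form `TT` avoiding a given element. -/
theorem exists_avoid {p : ℕ} (hp : p.Prime) (Z : Subgroup G) [Z.Normal] {x : G} (hZ : Z.index = p ^ 2)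
    (hnc : ¬ IsCyclic (G ⧸ Z)) (hx : x ∉ Z) : ∃ w, w ∉ Z ∧ x ∉ TT Z w := by
  have hcard : Nat.card (G ⧸ Z) = p ^ 2 := hZ
  have h1 : ((x : G ⧸ Z)) ≠ 1 := fun h => hx ((QuotientGroup.eq_one_iff x).1 h)
  obtain ⟨w', hw'⟩ : ∃ w' : G ⧸ Z, w' ∉ Subgroup.zpowers (x : G ⧸ Z) := by
    by_contra hcon
    push Not at hcon
    exact hnc ⟨⟨(x : G ⧸ Z), hcon⟩⟩
  obtain ⟨w, rfl⟩ := QuotientGroup.mk_surjective w'
  have hw1 : ((w : G ⧸ Z)) ≠ 1 := by
    intro h
    apply hw'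
    rw [h]
    exact Subgroup.one_mem _
  refine ⟨w, fun h => hw1 ((QuotientGroup.eq_one_iff w).2 h), fun hxT => ?_⟩
  unfold TT at hxT
  rw [Subgroup.mem_comap] at hxT
  apply hw'
  have h3 : Subgroup.zpowers (x : G ⧸ Z) ≤ Subgroup.zpowers (w : G ⧸ Z) :=
    Subgroup.zpowers_le.2 hxT
  have h4 : Subgroup.zpowers (x : G ⧸ Z) = Subgroup.zpowers (w : G ⧸ Z) := by
    apply Subgroup.eq_of_le_of_card_ge h3
    rw [Nat.card_zpowers, Nat.card_zpowers, order_of_ne_one hp hcard hnc h1,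
      order_of_ne_one hp hcard hnc hw1]
  rw [h4]
  exact Subgroup.mem_zpowers _

end Quot

section Assembly

variable {G : Type u} [Group G] [Fintype G] {p : ℕ}

/-- Monomiality in a nilpotent group with degrees `1`, `p`. -/
theorem exists_T (hp : p.Prime) (hnil : Group.IsNilpotent G)
    (hcd : ∀ χ : IrrCharacter G, charDegree χ.1 = 1 ∨ charDegree χ.1 = p) (χ : IrrCharacter G)
    (hχ : charDegree χ.1 = p) : ∃ T : Subgroup G, T.Normal ∧ T.index = p ∧ ∀ g, g ∉ T → χ.1 g = 0 := by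
  classical
  obtain ⟨T, l, hl⟩ := Brauer.monomial_of_nilpotent _ G hnil le_rfl χ.1 χ.2
  have hT : T.index = p := by
    have h1 := one_eq_charDegree (isCharacter_of_irr χ.2)
    rw [hl, indFun_one] at h1
    have h2 : ((l 1 : ℂˣ) : ℂ) = 1 := by simp
    have h3 : (T.index : ℂ) = ((charDegree χ.1 : ℕ) : ℂ) := by
      rw [hl]
      simpa [h2] using h1
    rw [hχ] at h3
    exact_mod_cast h3
  haveI hTn : T.Normal := normal_of_comm_le (comm_le_of_index hcd T hT)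
  refine ⟨T, hTn, hT, fun g hg => ?_⟩
  rw [hl]
  exact H06.indFun_of_not_mem T _ hg

/-- Induction from a normal subgroup of a linear character. -/
theorem ind_comm_eq (T : Subgroup G) [hT : T.Normal] [Fintype T] (θ : IrrCharacter T)
    (hθ : charDegree θ.1 = 1) {a b : G} (ha : a ∈ T) (hb : b ∈ T) :
    indFun T θ.1 ⁅a, b⁆ = indFun T θ.1 1 := by
  classical
  have hc : IsCharacter T θ.1 := isCharacter_of_irr θ.2
  unfold indFun
  congr 1
  refine Finset.sum_congr rfl fun x _ => ?_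
  have hconj : ∀ c ∈ T, x⁻¹ * c * x ∈ T := by
    intro c hc'
    have := hT.conj_mem c hc' x⁻¹
    simpa using this
  have hw : x⁻¹ * ⁅a, b⁆ * x = ⁅x⁻¹ * a * x, x⁻¹ * b * x⁆ := by
    simp only [commutatorElement_def]
    group
  have hmem : x⁻¹ * ⁅a, b⁆ * x ∈ T := by
    rw [hw, commutatorElement_def]
    exact T.mul_mem (T.mul_mem (T.mul_mem (hconj a ha) (hconj b hb)) (T.inv_mem (hconj a ha)))
      (T.inv_mem (hconj b hb))
  have h1 := extendByZero_coe T θ.1 ⟨_, hmem⟩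
  simp only at h1
  have h2 := extendByZero_coe T θ.1 ⟨x⁻¹ * 1 * x, by simp [T.one_mem]⟩
  simp only at h2
  rw [h1, h2]
  have h3 : (⟨x⁻¹ * ⁅a, b⁆ * x, hmem⟩ : T) ∈ commutator T := by
    have h4 : (⟨x⁻¹ * ⁅a, b⁆ * x, hmem⟩ : T) = ⁅(⟨_, hconj a ha⟩ : T), (⟨_, hconj b hb⟩ : T)⁆ :=
      Subtype.ext hw
    rw [h4]
    exact Subgroup.commutator_mem_commutator (Subgroup.mem_top _) (Subgroup.mem_top _)
  rw [linear_comm hc hθ h3]
  refine congrArg θ.1 (Subtype.ext ?_)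
  simp

/-- If a normal subgroup of index `p` is not abelian, some nonlinear character is irreducible on
it. -/
theorem exists_irr_on (hp : p.Prime)
    (hcd : ∀ χ : IrrCharacter G, charDegree χ.1 = 1 ∨ charDegree χ.1 = p) (T : Subgroup G)
    [hT : T.Normal] [Fintype T] (hTi : T.index = p) (hno : ¬ ∀ a ∈ T, ∀ b ∈ T, a * b = b * a) :
    ∃ ψ : IrrCharacter G, charDegree ψ.1 = p ∧ ∃ θ : IrrCharacter T, ∀ t : T, ψ.1 t = θ.1 t := by
  classical
  push Not at hno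
  obtain ⟨a, ha, b, hb, hab⟩ := hno
  have hw1 : ⁅a, b⁆ ≠ 1 := by
    intro h
    rw [commutatorElement_eq_one_iff_mul_comm] at h
    exact hab h
  obtain ⟨ψ, hψ⟩ := H22.exists_irr_ne_of_ne_one hw1
  have hψ1 : charDegree ψ.1 = p := by
    refine (hcd ψ).resolve_left fun h => hψ ?_
    exact linear_comm (isCharacter_of_irr ψ.2) h
      (Subgroup.commutator_mem_commutator (Subgroup.mem_top a) (Subgroup.mem_top b))
  refine ⟨ψ, hψ1, ?_⟩
  rcases dich T (hTi ▸ hp) ψ with h | ⟨θ, hθ⟩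
  · exact h
  · exfalso
    apply hψ
    have h2 : charDegree θ.1 = 1 := by
      have h3 := charDegree_indFun T (isCharacter_of_irr θ.2)
      rw [← hθ, hψ1, hTi] at h3
      exact (Nat.eq_of_mul_eq_mul_left hp.pos (by rw [mul_one]; exact h3)).symm
    rw [hθ]
    exact ind_comm_eq T θ h2 ha hb

/-- The index of `Z(χ)` is at most `p³`. -/
theorem index_le (hp : p.Prime)
    (hcd : ∀ χ : IrrCharacter G, charDegree χ.1 = 1 ∨ charDegree χ.1 = p) (χ ψ : IrrCharacter G)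
    (hχ1 : charDegree χ.1 = p) (hψ1 : charDegree ψ.1 = p) (T : Subgroup G) [Fintype T]
    (hTi : T.index = p) (hvan : ∀ g, g ∉ T → χ.1 g = 0)
    (hirr : ∃ θ : IrrCharacter T, ∀ t : T, ψ.1 t = θ.1 t) : (ZC χ).index ≤ p ^ 3 := by
  obtain ⟨h1, -⟩ := key2 hp hcd χ ψ hχ1 hψ1 T hTi hvan hirr
  have h2 := T.card_mul_index
  have h3 := (ZC χ).card_mul_index
  rw [hTi] at h2
  have h4 : Nat.card (ZC χ) * (ZC χ).index ≤ Nat.card (ZC χ) * p ^ 3 := by
    rw [h3, ← h2]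
    calc Nat.card T * p ≤ (p ^ 2 * Nat.card (ZC χ)) * p := Nat.mul_le_mul_right _ h1
      _ = Nat.card (ZC χ) * p ^ 3 := by ring
  exact Nat.le_of_mul_le_mul_left h4 Nat.card_pos

/-- Type II: the centre of `χ` is central. -/
theorem typeII (hp : p.Prime) (hnil : Group.IsNilpotent G)
    (hcd : ∀ χ : IrrCharacter G, charDegree χ.1 = 1 ∨ charDegree χ.1 = p)
    (hno : ∀ A : Subgroup G, A.Normal → A.index = p → ¬ ∀ a ∈ A, ∀ b ∈ A, a * b = b * a)
    (χ : IrrCharacter G) (hχ1 : charDegree χ.1 = p) (hidx : (ZC χ).index = p ^ 3) :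
    ZC χ ≤ Subgroup.center G := by
  classical
  obtain ⟨T, hTn, hTi, hvan⟩ := exists_T hp hnil hcd χ hχ1
  haveI := hTn
  haveI : Fintype T := Fintype.ofFinite _
  obtain ⟨ψ, hψ1, hirr⟩ := exists_irr_on hp hcd T hTi (hno T hTn hTi)
  have hEq : Nat.card T = p ^ 2 * Nat.card (ZC χ) := by
    have h2 := T.card_mul_index
    have h3 := (ZC χ).card_mul_index
    rw [hTi] at h2
    rw [hidx] at h3
    apply Nat.eq_of_mul_eq_mul_right hp.pos
    rw [h2, ← h3]
    ring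
  have hp0 : (p : ℝ) ≠ 0 := by exact_mod_cast hp.pos.ne'
  have hZψ := (key2 hp hcd χ ψ hχ1 hψ1 T hTi hvan hirr).2 hEq
  have hZT : ∀ z, z ∈ ZC χ → z ∈ T := by
    intro z hz
    by_contra hzT
    have h1 := mem_ZC.1 hz
    rw [hvan z hzT, hχ1, norm_zero] at h1
    exact hp0 h1.symm
  intro z hz
  apply mem_center_of_all_ZC
  intro χ'
  rcases hcd χ' with h1 | h1
  · exact mem_ZC_of_linear χ' h1 z
  · rcases dich T (hTi ▸ hp) χ' with h | ⟨θ, hθ⟩
    · exact (key2 hp hcd χ χ' hχ1 h1 T hTi hvan h).2 hEq hz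
    · have hv : ∀ g, g ∉ T → χ'.1 g = 0 := fun g hg => by
        rw [hθ]
        exact H06.indFun_of_not_mem T _ hg
      refine key hp hcd χ' ψ h1 hψ1 T hTi hv hirr (hZT z hz) ?_
      intro h0
      have h2 := mem_ZC.1 (hZψ hz)
      rw [h0, norm_zero, hψ1] at h2
      exact hp0 h2.symm

/-- Adjacency. -/
theorem adj (hp : p.Prime)
    (hcd : ∀ χ : IrrCharacter G, charDegree χ.1 = 1 ∨ charDegree χ.1 = p) (χ ψ : IrrCharacter G)
    (hχ1 : charDegree χ.1 = p) (hψ1 : charDegree ψ.1 = p) (hidx : (ZC χ).index = p ^ 2) {x : G}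
    (hxψ : x ∈ ZC ψ) (hx : x ∉ ZC χ) {y : G} (hy : y ∈ ZC ψ) : y ∈ TT (ZC χ) x := by
  classical
  have hnc := not_cyclic_ZC χ (by rw [hχ1]; exact hp.one_lt.ne')
  obtain ⟨w, hw, hxw⟩ := exists_avoid hp (ZC χ) hidx hnc hx
  set T := TT (ZC χ) w with hTdef
  haveI hTn : T.Normal := TT_normal hp (ZC χ) w hidx
  haveI : Fintype T := Fintype.ofFinite _
  have hTi : T.index = p := TT_index hp (ZC χ) hidx hnc hw
  have hZT : ZC χ ≤ T := le_TT _ _
  have hp0 : (p : ℝ) ≠ 0 := by exact_mod_cast hp.pos.ne'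
  have hsq : charDegree χ.1 ^ 2 * Nat.card (ZC χ) = Nat.card G := by
    rw [hχ1, ← hidx, mul_comm]
    exact (ZC χ).card_mul_index
  have hvan : ∀ g, g ∉ T → χ.1 g = 0 := fun g hg => vanish_off_ZC χ hsq fun h => hg (hZT h)
  have hψx : ψ.1 x ≠ 0 := by
    intro h0
    have h2 := mem_ZC.1 hxψ
    rw [h0, norm_zero, hψ1] at h2
    exact hp0 h2.symm
  have hirr : ∃ θ : IrrCharacter T, ∀ t : T, ψ.1 t = θ.1 t := by
    rcases dich T (hTi ▸ hp) ψ with h | ⟨θ, hθ⟩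
    · exact h
    · exfalso
      apply hψx
      rw [hθ]
      exact H06.indFun_of_not_mem T _ hxw
  -- `G / T` is generated by `x`
  haveI : Fact p.Prime := ⟨hp⟩
  have hcardT : Nat.card (G ⧸ T) = p := hTi
  have hxne : (x : G ⧸ T) ≠ 1 := fun h => hxw ((QuotientGroup.eq_one_iff x).1 h)
  have hyz : (y : G ⧸ T) ∈ Subgroup.zpowers (x : G ⧸ T) := mem_zpowers_of_prime_card hcardT hxne
  obtain ⟨k, hk⟩ := Subgroup.mem_zpowers_iff.1 hyz
  have hyk : y * (x ^ k)⁻¹ ∈ T := by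
    rw [← QuotientGroup.eq_one_iff, QuotientGroup.mk_mul, QuotientGroup.mk_inv,
      QuotientGroup.mk_zpow, hk, mul_inv_cancel]
  have hmemψ : y * (x ^ k)⁻¹ ∈ ZC ψ :=
    (ZC ψ).mul_mem hy ((ZC ψ).inv_mem ((ZC ψ).zpow_mem hxψ k))
  have hne : ψ.1 (y * (x ^ k)⁻¹) ≠ 0 := by
    intro h0
    have h2 := mem_ZC.1 hmemψ
    rw [h0, norm_zero, hψ1] at h2
    exact hp0 h2.symm
  have h5 := key hp hcd χ ψ hχ1 hψ1 T hTi hvan hirr hyk hne
  rw [mem_TT]
  exact ⟨k, h5⟩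

/-- Image in `G/Z` of a subgroup of type `TT`. -/
theorem mk_mem_zpowers_of_mem_TT {Z : Subgroup G} [Z.Normal] {x y : G} (h : y ∈ TT Z x) :
    (y : G ⧸ Z) ∈ Subgroup.zpowers (x : G ⧸ Z) := h

/-- Type I. -/
theorem typeI (hp : p.Prime) (hnil : Group.IsNilpotent G)
    (hcd : ∀ χ : IrrCharacter G, charDegree χ.1 = 1 ∨ charDegree χ.1 = p)
    (hno : ∀ A : Subgroup G, A.Normal → A.index = p → ¬ ∀ a ∈ A, ∀ b ∈ A, a * b = b * a)
    (hall : ∀ χ : IrrCharacter G, charDegree χ.1 = p → (ZC χ).index = p ^ 2)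
    (χ₁ : IrrCharacter G) (hχ₁ : charDegree χ₁.1 = p) :
    (Subgroup.center G).index ∣ p ^ 3 := by
  classical
  by_cases hZ1 : ZC χ₁ ≤ Subgroup.center G
  · have h1 := Subgroup.index_dvd_of_le hZ1
    rw [hall χ₁ hχ₁] at h1
    exact h1.trans (pow_dvd_pow p (by norm_num))
  -- a second character
  obtain ⟨χ₂, hχ₂, a₁, ha₁, ha₁2⟩ : ∃ χ₂ : IrrCharacter G, charDegree χ₂.1 = p ∧
      ∃ a₁, a₁ ∈ ZC χ₁ ∧ a₁ ∉ ZC χ₂ := by
    by_contra hcon
    push Not at hcon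
    apply hZ1
    intro z hz
    apply mem_center_of_all_ZC
    intro χ
    rcases hcd χ with h | h
    · exact mem_ZC_of_linear χ h z
    · exact hcon χ h z hz
  have hidx1 := hall χ₁ hχ₁
  have hidx2 := hall χ₂ hχ₂
  have hnc : ∀ χ : IrrCharacter G, charDegree χ.1 = p → ¬ IsCyclic (G ⧸ ZC χ) := fun χ h =>
    not_cyclic_ZC χ (by rw [h]; exact hp.one_lt.ne')
  obtain ⟨x, hx2, hx1⟩ : ∃ x, x ∈ ZC χ₂ ∧ x ∉ ZC χ₁ := by
    by_contra hcon
    push Not at hcon
    have hle : ZC χ₂ ≤ ZC χ₁ := hcon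
    have h1 := Subgroup.relIndex_mul_index hle
    rw [hidx1, hidx2] at h1
    have h2 : (ZC χ₂).relIndex (ZC χ₁) = 1 := by
      apply Nat.eq_of_mul_eq_mul_right (pow_pos hp.pos 2)
      rw [h1, one_mul]
    exact ha₁2 ((Subgroup.relIndex_eq_one.1 h2) ha₁)
  -- the maximal subgroup
  set T₀ := TT (ZC χ₁) x with hT₀
  haveI hT₀n : T₀.Normal := TT_normal hp _ x hidx1
  haveI : Fintype T₀ := Fintype.ofFinite _
  have hT₀i : T₀.index = p := TT_index hp _ hidx1 (hnc χ₁ hχ₁) hx1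
  obtain ⟨ψ₃, hψ₃, θ₃, hθ₃⟩ := exists_irr_on hp hcd T₀ hT₀i (hno T₀ hT₀n hT₀i)
  have hidx3 := hall ψ₃ hψ₃
  have hsq3 : charDegree ψ₃.1 ^ 2 * Nat.card (ZC ψ₃) = Nat.card G := by
    rw [hψ₃, ← hidx3, mul_comm]
    exact (ZC ψ₃).card_mul_index
  -- an element of `Z₃` outside `T₀`
  obtain ⟨z₃, hz₃T, hz₃⟩ : ∃ z₃, z₃ ∉ T₀ ∧ z₃ ∈ ZC ψ₃ := by
    by_contra hcon
    push Not at hcon
    have h1 : ∑ g : G, ‖ψ₃.1 g‖ ^ 2 = ∑ t : T₀, ‖ψ₃.1 t‖ ^ 2 := by
      refine sum_eq_sum_sub T₀ _ fun g hg => ?_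
      rw [vanish_off_ZC ψ₃ hsq3 (hcon g hg)]
      simp
    rw [sum_norm_sq ψ₃] at h1
    have h2 : ∑ t : T₀, ‖ψ₃.1 t‖ ^ 2 = (Nat.card T₀ : ℝ) := by
      have := sum_norm_sq θ₃
      rw [← this]
      exact Finset.sum_congr rfl fun t _ => by rw [hθ₃]
    rw [h2] at h1
    have h3 := T₀.card_mul_index
    rw [hT₀i] at h3
    have h4 : Nat.card G = Nat.card T₀ := by exact_mod_cast h1
    rw [h4] at h3
    have h5 : p = 1 := Nat.eq_of_mul_eq_mul_left (Nat.card_pos (α := T₀)) (by rw [h3, mul_one])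
    exact hp.one_lt.ne' h5
  -- generation
  haveI : Fact p.Prime := ⟨hp⟩
  have hcardT : Nat.card (G ⧸ T₀) = p := hT₀i
  have hz₃ne : (z₃ : G ⧸ T₀) ≠ 1 := fun h => hz₃T ((QuotientGroup.eq_one_iff z₃).1 h)
  -- the main contradiction
  have hmain : ∀ χ : IrrCharacter G, charDegree χ.1 = p → ∀ a, a ∈ ZC χ₁ → a ∈ ZC χ₂ → a ∉ ZC χ →
      z₃ ∈ TT (ZC χ) a → False := by
    intro χ hχ a ha1 ha2 ha hz
    have hidx := hall χ hχ
    apply hnc χ hχ
    refine ⟨⟨(a : G ⧸ ZC χ), ?_⟩⟩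
    intro q
    obtain ⟨g, rfl⟩ := QuotientGroup.mk_surjective q
    have hgz : (g : G ⧸ T₀) ∈ Subgroup.zpowers (z₃ : G ⧸ T₀) := mem_zpowers_of_prime_card hcardT hz₃ne
    obtain ⟨j, hj⟩ := Subgroup.mem_zpowers_iff.1 hgz
    have ht : g * (z₃ ^ j)⁻¹ ∈ T₀ := by
      rw [← QuotientGroup.eq_one_iff, QuotientGroup.mk_mul, QuotientGroup.mk_inv,
        QuotientGroup.mk_zpow, hj, mul_inv_cancel]
    obtain ⟨k, hk⟩ := mem_TT.1 ht
    set z₁ := g * (z₃ ^ j)⁻¹ * (x ^ k)⁻¹ with hz₁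
    have hg : g = z₁ * x ^ k * z₃ ^ j := by
      rw [hz₁]
      group
    have h1 : ((z₁ : G) : G ⧸ ZC χ) ∈ Subgroup.zpowers (a : G ⧸ ZC χ) :=
      mk_mem_zpowers_of_mem_TT (adj hp hcd χ χ₁ hχ hχ₁ hidx ha1 ha hk)
    have h2 : ((x : G) : G ⧸ ZC χ) ∈ Subgroup.zpowers (a : G ⧸ ZC χ) :=
      mk_mem_zpowers_of_mem_TT (adj hp hcd χ χ₂ hχ hχ₂ hidx ha2 ha hx2)
    have h3 : ((z₃ : G) : G ⧸ ZC χ) ∈ Subgroup.zpowers (a : G ⧸ ZC χ) :=
      mk_mem_zpowers_of_mem_TT hz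
    rw [hg, QuotientGroup.mk_mul, QuotientGroup.mk_mul, QuotientGroup.mk_zpow, QuotientGroup.mk_zpow]
    exact Subgroup.mul_mem _ (Subgroup.mul_mem _ h1 (Subgroup.zpow_mem _ h2 k)) (Subgroup.zpow_mem _ h3 j)
  have hU3 : ∀ a, a ∈ ZC χ₁ → a ∈ ZC χ₂ → a ∈ ZC ψ₃ := by
    intro a ha1 ha2
    by_contra ha
    exact hmain ψ₃ hψ₃ a ha1 ha2 ha (by
      show _ ∈ Subgroup.comap _ _
      rw [Subgroup.mem_comap]
      have : QuotientGroup.mk' (ZC ψ₃) z₃ = 1 := (QuotientGroup.eq_one_iff z₃).2 hz₃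
      rw [this]
      exact Subgroup.one_mem _)
  have hU : ZC χ₁ ⊓ ZC χ₂ ≤ Subgroup.center G := by
    intro a ha
    apply mem_center_of_all_ZC
    intro χ
    rcases hcd χ with h | h
    · exact mem_ZC_of_linear χ h a
    · by_contra hac
      exact hmain χ h a ha.1 ha.2 hac (adj hp hcd χ ψ₃ h hψ₃ (hall χ h) (hU3 a ha.1 ha.2) hac hz₃)
  -- the index
  have hI : (ZC χ₁ ⊓ ZC χ₂).index ∣ p ^ 3 := by
    have h1 := Subgroup.relIndex_mul_index (inf_le_left : ZC χ₁ ⊓ ZC χ₂ ≤ ZC χ₁)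
    have h2 : (ZC χ₁ ⊓ ZC χ₂).relIndex (ZC χ₁) = (ZC χ₂).relIndex (ZC χ₁) := by
      rw [inf_comm]
      exact Subgroup.inf_relIndex_right _ _
    rw [← h1, h2, hidx1, pow_succ' p 2]
    refine Nat.mul_dvd_mul ?_ (dvd_refl _)
    -- the relative index divides `p`
    let f : ZC χ₁ →* G ⧸ ZC χ₂ := (QuotientGroup.mk' (ZC χ₂)).comp (ZC χ₁).subtype
    have hker : f.ker = (ZC χ₂).subgroupOf (ZC χ₁) := by
      ext z
      rw [MonoidHom.mem_ker, Subgroup.mem_subgroupOf]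
      exact QuotientGroup.eq_one_iff _
    have h3 : (ZC χ₂).relIndex (ZC χ₁) = Nat.card f.range := by
      rw [Subgroup.relIndex, ← hker, Subgroup.index_ker]
    rw [h3]
    have hle : f.range ≤ Subgroup.zpowers (a₁ : G ⧸ ZC χ₂) := by
      rintro _ ⟨z, rfl⟩
      exact mk_mem_zpowers_of_mem_TT (adj hp hcd χ₂ χ₁ hχ₂ hχ₁ hidx2 ha₁ ha₁2 z.2)
    have h4 := Subgroup.card_dvd_of_le hle
    rw [Nat.card_zpowers] at h4
    have h5 : ((a₁ : G ⧸ ZC χ₂)) ≠ 1 := fun h => ha₁2 ((QuotientGroup.eq_one_iff a₁).1 h)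
    rwa [order_of_ne_one hp hidx2 (hnc χ₂ hχ₂) h5] at h4
  exact (Subgroup.index_dvd_of_le hU).trans hI

/-- A nonabelian nilpotent group with degrees `1`, `p`, without abelian normal subgroup of index
`p`. -/
theorem nil_center_index (hp : p.Prime) (hnil : Group.IsNilpotent G)
    (hcd : ∀ χ : IrrCharacter G, charDegree χ.1 = 1 ∨ charDegree χ.1 = p)
    (hG : ∃ a b : G, a * b ≠ b * a)
    (hno : ∀ A : Subgroup G, A.Normal → A.index = p → ¬ ∀ a ∈ A, ∀ b ∈ A, a * b = b * a) :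
    (Subgroup.center G).index = p ^ 3 := by
  classical
  obtain ⟨a₀, b₀, hab₀⟩ := hG
  have hm : ∃ χ : IrrCharacter G, charDegree χ.1 = p := by
    by_contra hcon
    push Not at hcon
    apply hab₀
    refine H22.comm_of_degrees_one (fun χ => ?_) a₀ b₀
    exact (hcd χ).resolve_right (hcon χ)
  -- the index of the centre is a power of `p`
  obtain ⟨p', e, hp', hpe, P, A, hPn, hAn, hPp, hAab, hinf, hsup⟩ :=
    nil_structure hnil hcd hm hp.one_lt.ne'
  have hpp' : p' = p := by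
    have he : e ≠ 0 := by
      rintro rfl
      rw [pow_zero] at hpe
      exact hp.one_lt.ne' hpe
    exact (Nat.prime_dvd_prime_iff_eq hp' hp).1 (hpe ▸ dvd_pow_self p' he)
  subst hpp'
  haveI : Fact p'.Prime := ⟨hp⟩
  haveI := hPn
  haveI := hAn
  have hAc : A ≤ Subgroup.center G := by
    intro a ha
    rw [Subgroup.mem_center_iff]
    intro g
    have hg : g ∈ P ⊔ A := by
      rw [hsup]
      exact Subgroup.mem_top g
    rw [← SetLike.mem_coe, Subgroup.mul_normal, Set.mem_mul] at hg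
    obtain ⟨u, hu, v, hv, rfl⟩ := hg
    have h1 : u * a = a * u :=
      (Subgroup.commute_of_normal_of_disjoint P A hPn hAn
        (disjoint_iff.2 hinf) u a hu ha)
    have h2 := hAab a ha v hv
    rw [mul_assoc, ← h2, ← mul_assoc, h1, mul_assoc]
  have hAp : IsPGroup p' (G ⧸ A) := by
    refine IsPGroup.of_surjective hPp ((QuotientGroup.mk' A).comp P.subtype) ?_
    intro q
    obtain ⟨g, rfl⟩ := QuotientGroup.mk_surjective q
    have hg : g ∈ P ⊔ A := by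
      rw [hsup]
      exact Subgroup.mem_top g
    rw [← SetLike.mem_coe, Subgroup.mul_normal, Set.mem_mul] at hg
    obtain ⟨u, hu, v, hv, rfl⟩ := hg
    refine ⟨⟨u, hu⟩, ?_⟩
    show ((u : G) : G ⧸ A) = ((u * v : G) : G ⧸ A)
    rw [QuotientGroup.mk_mul, (QuotientGroup.eq_one_iff v).2 hv, mul_one]
  obtain ⟨c, hc⟩ := IsPGroup.iff_card.1 hAp
  have hAi : A.index = p' ^ c := hc
  have hZpow : ∀ χ : IrrCharacter G, ∃ j, (ZC χ).index = p' ^ j := by
    intro χ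
    have h1 : (ZC χ).index ∣ A.index := Subgroup.index_dvd_of_le (hAc.trans (center_le_ZC χ))
    rw [hAi] at h1
    obtain ⟨j, -, hj⟩ := (Nat.dvd_prime_pow hp).1 h1
    exact ⟨j, hj⟩
  have hbounds : ∀ χ : IrrCharacter G, charDegree χ.1 = p' →
      (ZC χ).index = p' ^ 2 ∨ (ZC χ).index = p' ^ 3 := by
    intro χ hχ
    obtain ⟨T, hTn, hTi, hvan⟩ := exists_T hp hnil hcd χ hχ
    haveI := hTn
    haveI : Fintype T := Fintype.ofFinite _
    obtain ⟨ψ, hψ1, hirr⟩ := exists_irr_on hp hcd T hTi (hno T hTn hTi)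
    have hle := index_le hp hcd χ ψ hχ hψ1 T hTi hvan hirr
    have hge : p' ^ 2 ≤ (ZC χ).index := by
      have h1 := deg_sq_card_le χ
      rw [hχ, ← (ZC χ).card_mul_index, mul_comm] at h1
      exact Nat.le_of_mul_le_mul_left h1 Nat.card_pos
    obtain ⟨j, hj⟩ := hZpow χ
    rw [hj] at hle hge ⊢
    have h1 : 2 ≤ j := (Nat.pow_le_pow_iff_right hp.one_lt).1 hge
    have h2 : j ≤ 3 := (Nat.pow_le_pow_iff_right hp.one_lt).1 hle
    interval_cases j
    · exact Or.inl rfl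
    · exact Or.inr rfl
  have hdvd : (Subgroup.center G).index ∣ p' ^ 3 := by
    by_cases hII : ∃ χ : IrrCharacter G, charDegree χ.1 = p' ∧ (ZC χ).index = p' ^ 3
    · obtain ⟨χ, hχ, hidx⟩ := hII
      have h1 := Subgroup.index_dvd_of_le (typeII hp hnil hcd hno χ hχ hidx)
      rwa [hidx] at h1
    · push Not at hII
      obtain ⟨χ₁, hχ₁⟩ := hm
      exact typeI hp hnil hcd hno (fun χ hχ => (hbounds χ hχ).resolve_right (hII χ hχ)) χ₁ hχ₁
  obtain ⟨k, hk, hZ⟩ := (Nat.dvd_prime_pow hp).1 hdvd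
  have hncyc : ¬ IsCyclic (G ⧸ Subgroup.center G) := by
    intro hcyc
    apply hab₀
    refine commutative_of_cyclic_center_quotient (QuotientGroup.mk' (Subgroup.center G)) ?_ a₀ b₀
    rw [QuotientGroup.ker_mk']
  have hcard : Nat.card (G ⧸ Subgroup.center G) = p' ^ k := hZ
  interval_cases k
  · exfalso
    apply hncyc
    rw [pow_zero] at hcard
    haveI : Subsingleton (G ⧸ Subgroup.center G) := (Nat.card_eq_one_iff_unique.1 hcard).1
    infer_instance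
  · exfalso
    apply hncyc
    rw [pow_one] at hcard
    exact isCyclic_of_prime_card hcard
  · exfalso
    obtain ⟨x, hx⟩ : ∃ x : G, x ∉ Subgroup.center G := by
      by_contra hcon
      push Not at hcon
      apply hab₀
      exact (Subgroup.mem_center_iff.1 (hcon b₀) a₀).symm ▸ rfl
    have hT := TT_normal hp (Subgroup.center G) x hZ
    have hTi := TT_index hp (Subgroup.center G) hZ hncyc hx
    refine hno _ hT hTi ?_
    intro a ha b hb
    obtain ⟨i, hi⟩ := mem_TT.1 ha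
    obtain ⟨j, hj⟩ := mem_TT.1 hb
    have h1 : a = (a * (x ^ i)⁻¹) * x ^ i := by group
    have h2 : b = (b * (x ^ j)⁻¹) * x ^ j := by group
    set z := a * (x ^ i)⁻¹
    set w := b * (x ^ j)⁻¹
    rw [h1, h2]
    have hzc := Subgroup.mem_center_iff.1 hi
    have hwc := Subgroup.mem_center_iff.1 hj
    have hxx : x ^ i * x ^ j = x ^ j * x ^ i := by
      rw [← zpow_add, ← zpow_add, add_comm]
    calc z * x ^ i * (w * x ^ j) = z * (x ^ i * w) * x ^ j := by group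
      _ = z * (w * x ^ i) * x ^ j := by rw [hwc (x ^ i)]
      _ = w * z * (x ^ i * x ^ j) := by rw [hzc w]; group
      _ = w * z * (x ^ j * x ^ i) := by rw [hxx]
      _ = w * (z * x ^ j) * x ^ i := by group
      _ = w * (x ^ j * z) * x ^ i := by rw [hzc (x ^ j)]
      _ = w * x ^ j * (z * x ^ i) := by group
  · exact hZ

end Assembly

/-- **Groups with degrees `1` and `p`.** -/
theorem degrees_one_p {G : Type u} [Group G] [Finite G] (hG : ∃ a b : G, a * b ≠ b * a) (p : ℕ)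
    (hp : p.Prime) :
    ((∀ χ : IrrCharacter G, charDegree χ.1 = 1 ∨ charDegree χ.1 = p) ∧
        ∃ χ : IrrCharacter G, charDegree χ.1 = p) ↔
      ((∃ A : Subgroup G, A.Normal ∧ (∀ a ∈ A, ∀ b ∈ A, a * b = b * a) ∧ A.index = p) ∨
        (Subgroup.center G).index = p ^ 3) := by
  classical
  haveI := Fintype.ofFinite G
  haveI : Fintype (IrrCharacter G) := Fintype.ofFinite _
  have hnl : ∃ χ : IrrCharacter G, charDegree χ.1 ≠ 1 := by
    by_contra hcon
    push Not at hcon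
    obtain ⟨a, b, hab⟩ := hG
    exact hab (H22.comm_of_degrees_one hcon a b)
  constructor
  · rintro ⟨hcd, hm⟩
    by_cases hnil : Group.IsNilpotent G
    · by_cases hA : ∃ A : Subgroup G, A.Normal ∧ (∀ a ∈ A, ∀ b ∈ A, a * b = b * a) ∧ A.index = p
      · exact Or.inl hA
      · right
        refine nil_center_index hp hnil hcd hG ?_
        intro A h1 h2 h3
        exact hA ⟨A, h1, h3, h2⟩
    · obtain ⟨A, h1, h2, h3, -⟩ := main_nonnil hcd hm hp.one_lt.ne' hnil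
      exact Or.inl ⟨A, h1, h2, h3⟩
  · intro h
    have hcd : ∀ χ : IrrCharacter G, charDegree χ.1 = 1 ∨ charDegree χ.1 = p := by
      intro χ
      rcases h with ⟨A, hAn, hAab, hAi⟩ | hZ
      · haveI := hAn
        have h1 := H23.ito_dvd χ.2 A hAab
        rw [hAi] at h1
        exact (Nat.dvd_prime hp).1 h1
      · have h1 : charDegree χ.1 ∣ (Subgroup.center G).index :=
          H23.ito_dvd χ.2 (Subgroup.center G) fun a ha b hb => (Subgroup.mem_center_iff.1 ha b).symm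
        rw [hZ] at h1
        obtain ⟨k, hk, hd⟩ := (Nat.dvd_prime_pow hp).1 h1
        have h2 := irr_deg_sq_le_of_central χ.2 (Subgroup.center G)
          (fun z hz g => by
            have : z * g * z⁻¹ * g⁻¹ = 1 := by
              rw [(Subgroup.mem_center_iff.1 hz g).symm]
              group
            rw [this])
        rw [← (Subgroup.center G).card_mul_index, hZ, mul_comm] at h2
        have h3 := Nat.le_of_mul_le_mul_left h2 Nat.card_pos
        rw [hd, ← pow_mul] at h3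
        have h4 : k * 2 ≤ 3 := (Nat.pow_le_pow_iff_right hp.one_lt).1 h3
        have h5 : k = 0 ∨ k = 1 := by omega
        rcases h5 with rfl | rfl
        · left
          simpa using hd
        · right
          simpa using hd
    refine ⟨hcd, ?_⟩
    obtain ⟨χ, hχ⟩ := hnl
    exact ⟨χ, (hcd χ).resolve_left hχ⟩

end Cfsg.Agent.H23.TwoDeg
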