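import Cfsg.Agent.Lib.H23.PRatA
import Cfsg.Agent.Lib.H23.TwoDegP

/-!
# Faithful `p`-rational characters: the bound on the Sylow subgroup
-/

set_option autoImplicit false
set_option linter.unusedSectionVars false
set_option linter.style.haveILetI false
set_option linter.unusedSimpArgs false

namespace Cfsg.Agent.H23.FO

open Cfsg Cfsg.Agent Cfsg.Agent.H21 Cfsg.Agent.H06 Module
open scoped ComplexConjugate

universe u

section Stab

variable {P : Type u} [Group P] [Fintype P] {n : ℕ} [NeZero n]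

/-- Descent of an irreducible character to the quotient by its kernel. -/
theorem descend_ker {τ : P → ℂ} (hτ : IsIrrCharacter P τ) :
    ∃ τ' : P ⧸ charKer τ (isCharacter_of_irr hτ) → ℂ,
      IsIrrCharacter (P ⧸ charKer τ (isCharacter_of_irr hτ)) τ' ∧
      (∀ g : P, τ' (g : P ⧸ charKer τ (isCharacter_of_irr hτ)) = τ g) ∧
      (∀ y, τ' y = τ' 1 → y = 1) ∧
      charDegree τ' = charDegree τ ∧ Set.range τ' = Set.range τ := by
  have hc := isCharacter_of_irr hτ
  obtain ⟨τ', hτ', hcomp⟩ := exists_descend (charKer τ hc) hτ (fun m hm => hm)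
  have hcomp' : ∀ m : P, τ' (m : P ⧸ charKer τ hc) = τ m := fun m => congrFun hcomp m
  refine ⟨τ', hτ', hcomp', ?_, ?_, ?_⟩
  · intro y hy
    obtain ⟨m, rfl⟩ := QuotientGroup.mk'_surjective (charKer τ hc) y
    have h2 : τ m = τ 1 := by
      have h3 := hcomp' m
      have h4 := hcomp' 1
      rw [← h3, ← h4]
      simpa using hy
    exact (QuotientGroup.eq_one_iff m).2 h2
  · have h2 := one_eq_charDegree (isCharacter_of_irr hτ')
    have h3 := one_eq_charDegree hc
    have h4 : τ 1 = τ' 1 := by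
      have h5 := hcomp' 1
      rw [← h5]
      simp
    rw [h4, h2] at h3
    exact_mod_cast h3
  · ext z
    constructor
    · rintro ⟨y, rfl⟩
      obtain ⟨m, rfl⟩ := QuotientGroup.mk'_surjective (charKer τ hc) y
      exact ⟨m, (hcomp' m).symm⟩
    · rintro ⟨m, rfl⟩
      exact ⟨_, hcomp' m⟩

theorem card_quot_eq (K : Subgroup P) : Nat.card (P ⧸ K) = K.index := rfl

theorem Sb_mod_p (p a : ℕ) (hp : p.Prime) (hcard : Nat.card P = p ^ a) (hn : n = Nat.card P)
    (hP : ∀ g : P, g ^ n = 1) {τ : P → ℂ} (hτ : IsIrrCharacter P τ) (hne : ∃ g, τ g ≠ τ 1)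
    {u : (ZMod n)ˣ} (hu : u ∈ Sb hP τ) : (u : ZMod n).val ≡ 1 [MOD p] := by
  classical
  haveI : Fact p.Prime := ⟨hp⟩
  have hc := isCharacter_of_irr hτ
  let K := charKer τ hc
  obtain ⟨τ', hτ', hcomp, hfaith, hdeg, -⟩ : ∃ τ' : P ⧸ K → ℂ, IsIrrCharacter (P ⧸ K) τ' ∧
      (∀ g : P, τ' (g : P ⧸ K) = τ g) ∧ (∀ y, τ' y = τ' 1 → y = 1) ∧
      charDegree τ' = charDegree τ ∧ Set.range τ' = Set.range τ := descend_ker hτ
  set k := (u : ZMod n).val with hk
  have hc' := isCharacter_of_irr hτ'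
  have hfix : ∀ y : P ⧸ K, τ' (y ^ k) = τ' y := by
    intro y
    obtain ⟨m, rfl⟩ := QuotientGroup.mk'_surjective K y
    have h2 := congrFun ((mem_Sb hP).1 hu) m
    rw [tw_apply] at h2
    have h3 := hcomp (m ^ k)
    have h4 := hcomp m
    simp only [QuotientGroup.mk'_apply]
    rw [← QuotientGroup.mk_pow, h3, h4]
    exact h2
  haveI : Nontrivial (P ⧸ K) := by
    obtain ⟨g, hg⟩ := hne
    refine ⟨⟨(g : P ⧸ K), 1, fun h => hg ?_⟩⟩
    exact (QuotientGroup.eq_one_iff g).1 h
  have hQ : IsPGroup p (P ⧸ K) := (IsPGroup.of_card hcard).to_quotient K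
  haveI : Nontrivial (Subgroup.center (P ⧸ K)) := hQ.center_nontrivial
  have hcz : p ∣ Nat.card (Subgroup.center (P ⧸ K)) := by
    obtain ⟨e, he⟩ := IsPGroup.iff_card.1 (hQ.to_subgroup (Subgroup.center (P ⧸ K)))
    have he0 : e ≠ 0 := by
      rintro rfl
      rw [pow_zero] at he
      exact (Finite.one_lt_card (α := Subgroup.center (P ⧸ K))).ne' he
    rw [he]
    exact dvd_pow_self _ he0
  obtain ⟨z, hz⟩ := exists_prime_orderOf_dvd_card' p hcz
  have hzo : orderOf (z : P ⧸ K) = p := by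
    rw [Subgroup.orderOf_coe, hz]
  have hzc := (z : Subgroup.center (P ⧸ K)).2
  have hyc : (z : P ⧸ K) ^ k ∈ Subgroup.center (P ⧸ K) := Subgroup.pow_mem _ hzc _
  have h1 : ‖τ' ((z : P ⧸ K) ^ k)‖ = charDegree τ' :=
    H23.TwoDeg.center_le_ZC ⟨τ', hτ'⟩ hyc
  have h2 : ‖τ' (z : P ⧸ K)‖ = charDegree τ' :=
    H23.TwoDeg.center_le_ZC ⟨τ', hτ'⟩ hzc
  have h3 := character_mul_of_norm_eq hc' h1 (z : P ⧸ K)⁻¹
  rw [hfix, isCharacter_inv hc', Complex.mul_conj, Complex.normSq_eq_norm_sq, h2] at h3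
  have hd : (charDegree τ' : ℂ) ≠ 0 := by exact_mod_cast (irr_charDegree_pos hτ').ne'
  have h4 : τ' ((z : P ⧸ K) ^ k * (z : P ⧸ K)⁻¹) = τ' 1 := by
    rw [one_eq_charDegree hc']
    apply mul_right_cancel₀ hd
    rw [h3]
    push_cast
    ring
  have h5 := hfaith _ h4
  have h6 : (z : P ⧸ K) ^ k = (z : P ⧸ K) ^ 1 := by
    rw [pow_one]
    exact mul_inv_eq_one.1 h5
  rw [pow_eq_pow_iff_modEq, hzo] at h6
  exact h6

theorem Sb_index_form (p a : ℕ) (hp : p.Prime) (hcard : Nat.card P = p ^ a) (hn : n = Nat.card P)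
    (hP : ∀ g : P, g ^ n = 1) {τ : P → ℂ} (hτ : IsIrrCharacter P τ) (hne : ∃ g, τ g ≠ τ 1) :
    ∃ t, (Sb hP τ).index = (p - 1) * p ^ t := by
  classical
  haveI : Fact p.Prime := ⟨hp⟩
  have ha : 0 < a := by
    rcases Nat.eq_zero_or_pos a with rfl | h
    · exfalso
      rw [pow_zero] at hcard
      obtain ⟨g, hg⟩ := hne
      have : g = 1 := by
        haveI : Subsingleton P := (Nat.card_eq_one_iff_unique.1 hcard).1
        exact Subsingleton.elim _ _
      rw [this] at hg
      exact hg rfl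
    · exact h
  have hnp : n = p ^ a := hn.trans hcard
  have hpn : p ∣ n := by
    rw [hnp]
    exact dvd_pow_self _ ha.ne'
  let U := (ZMod.unitsMap hpn).ker
  have hle : Sb hP τ ≤ U := by
    intro u hu
    have h1 := Sb_mod_p p a hp hcard hn hP hτ hne hu
    rw [MonoidHom.mem_ker]
    apply Units.ext
    rw [ZMod.unitsMap_val, ← ZMod.natCast_val, Units.val_one]
    have h2 := (ZMod.natCast_eq_natCast_iff _ _ _).2 h1
    simpa using h2
  have hUidx : U.index = p - 1 := by
    have h1 := Subgroup.index_ker (ZMod.unitsMap hpn)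
    rw [MonoidHom.range_eq_top.2 (ZMod.unitsMap_surjective hpn), Subgroup.card_top,
      Nat.card_eq_fintype_card, ZMod.card_units p] at h1
    exact h1
  have h1 : p - 1 ∣ (Sb hP τ).index := by
    rw [← hUidx]
    exact Subgroup.index_dvd_of_le hle
  have h2 : (Sb hP τ).index ∣ Nat.card (ZMod n)ˣ := Subgroup.index_dvd_card _
  rw [Nat.card_eq_fintype_card, ZMod.card_units_eq_totient] at h2
  have h2' : n.totient = (p - 1) * p ^ (a - 1) := by
    rw [hnp, Nat.totient_prime_pow hp ha, mul_comm]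
  rw [h2'] at h2
  obtain ⟨c, hc⟩ := h1
  rw [hc] at h2 ⊢
  have hq : 0 < p - 1 := Nat.sub_pos_of_lt hp.one_lt
  have h3 : c ∣ p ^ (a - 1) := Nat.dvd_of_mul_dvd_mul_left hq h2
  obtain ⟨t, -, ht⟩ := (Nat.dvd_prime_pow hp).1 h3
  exact ⟨t, by rw [ht]⟩

theorem schur_nontrivial (p a : ℕ) (hp : p.Prime) (hcard : Nat.card P = p ^ a) (hn : n = Nat.card P)
    (hP : ∀ g : P, g ^ n = 1) {τ : P → ℂ} (hτ : IsIrrCharacter P τ) (hne : ∃ g, τ g ≠ τ 1) :
    ∃ a' t b, (charKer τ (isCharacter_of_irr hτ)).index = p ^ a' ∧ (orb n τ).card = (p - 1) * p ^ t ∧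
      charDegree τ = p ^ b ∧ (p - 1) * a' ≤ (p ^ b - 1) + (p - 1) * (t + 1) * p ^ b := by
  classical
  have hc := isCharacter_of_irr hτ
  let K := charKer τ hc
  obtain ⟨τ', hτ', hcomp, hfaith, hdeg, hrange⟩ : ∃ τ' : P ⧸ K → ℂ, IsIrrCharacter (P ⧸ K) τ' ∧
      (∀ g : P, τ' (g : P ⧸ K) = τ g) ∧ (∀ y, τ' y = τ' 1 → y = 1) ∧
      charDegree τ' = charDegree τ ∧ Set.range τ' = Set.range τ := descend_ker hτ
  obtain ⟨t, ht⟩ := Sb_index_form p a hp hcard hn hP hτ hne
  have hdvd : K.index ∣ p ^ a := by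
    rw [← hcard]
    exact Subgroup.index_dvd_card K
  obtain ⟨a', -, ha'⟩ := (Nat.dvd_prime_pow hp).1 hdvd
  have hdegdvd : charDegree τ ∣ p ^ a := by
    rw [← hcard]
    haveI : Fintype (IrrCharacter P) := Fintype.ofFinite _
    exact Cfsg.Agent.H22.charDegree_dvd_card ⟨τ, hτ⟩
  obtain ⟨b, -, hb⟩ := (Nat.dvd_prime_pow hp).1 hdegdvd
  refine ⟨a', t, b, ha', ?_, hb, ?_⟩
  · rw [card_orb hP, ht]
  · have ha'pos : 0 < a' := by
      rcases Nat.eq_zero_or_pos a' with h0 | h0
      · exfalso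
        rw [h0, pow_zero, Subgroup.index_eq_one] at ha'
        obtain ⟨g, hg⟩ := hne
        have : g ∈ K := by rw [ha']; trivial
        exact hg this
      · exact h0
    refine schur_pgroup p a' hp ha'pos ha' ⟨τ', hτ'⟩ hfaith (p ^ b) t (hdeg.trans hb) ?_
    change finrank ℚ (IntermediateField.adjoin ℚ (Set.range τ')) = _
    rw [hrange, finrank_eq_index hc (by rw [hn]) hP, ht]

/-- The bound for power-invariant characters. -/
theorem main_pinv (p a : ℕ) (hp : p.Prime) (hcard : Nat.card P = p ^ a) (hn : n = Nat.card P)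
    (hP : ∀ g : P, g ^ n = 1) (N : ℕ) :
    ∀ (d : ℕ) (φ : P → ℂ) (hφ : IsCharacter P φ), charDegree φ = d → d ≤ N → PInv n φ →
      (charKer φ hφ).index ≤ p ^ SS p N d := by
  intro d
  induction d using Nat.strong_induction_on with
  | _ d ih =>
    intro φ hφ hd hdN hinv
    classical
    haveI : Fintype (IrrCharacter P) := Fintype.ofFinite _
    by_cases hcase : ∃ τ : IrrCharacter P, classInner φ τ.1 ≠ 0 ∧ ∃ g, τ.1 g ≠ τ.1 1
    · obtain ⟨⟨τ, hτ⟩, hne, hg⟩ := hcase
      obtain ⟨a', t, b, hK, hO, hdeg, hbound⟩ := schur_nontrivial p a hp hcard hn hP hτ hg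
      obtain ⟨hφ', hinv'⟩ := sub_orbSum hn hP hφ hinv hτ hne
      have h1 : charDegree φ = charDegree (φ - orbSum n τ) + (orb n τ).card * charDegree τ := by
        have e1 := one_eq_charDegree hφ
        have e2 := one_eq_charDegree hφ'
        have e3 := one_eq_charDegree (isCharacter_of_irr hτ)
        have e4 := orbSum_at_one (n := n) τ
        have e5 : (charDegree φ : ℂ) =
            charDegree (φ - orbSum n τ) + (orb n τ).card * charDegree τ := by
          rw [← e1, ← e2, ← e3, Pi.sub_apply, e4]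
          ring
        exact_mod_cast e5
      rw [hO, hdeg, hd] at h1
      have hq : 0 < p - 1 := Nat.sub_pos_of_lt hp.one_lt
      have hpos : 0 < (p - 1) * p ^ t * p ^ b :=
        Nat.mul_pos (Nat.mul_pos hq (pow_pos hp.pos _)) (pow_pos hp.pos _)
      have hIH := ih _ (by omega) _ hφ' rfl (by omega) hinv'
      have hle : (charKer φ hφ).index ≤
          (charKer τ (isCharacter_of_irr hτ)).index * (charKer _ hφ').index := by
        refine le_trans ?_ Subgroup.index_inf_le
        have hfi : (charKer τ (isCharacter_of_irr hτ) ⊓ charKer _ hφ').index ≠ 0 :=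
          Subgroup.index_ne_zero_of_finite
        exact Nat.le_of_dvd (Nat.pos_of_ne_zero hfi)
          (Subgroup.index_dvd_of_le (ker_sub hn hφ hτ hφ'))
      have harith := arith_schur p a' b t N hp hbound (by omega)
      calc (charKer φ hφ).index
          ≤ _ := hle
        _ ≤ p ^ a' * p ^ SS p N (charDegree (φ - orbSum n τ)) := by
            rw [hK]
            exact Nat.mul_le_mul_left _ hIH
        _ = p ^ (a' + SS p N (charDegree (φ - orbSum n τ))) := (pow_add _ _ _).symm
        _ ≤ p ^ SS p N d := by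
            refine Nat.pow_le_pow_right hp.pos ?_
            have h2 := SS_add p N (charDegree (φ - orbSum n τ)) ((p - 1) * p ^ t * p ^ b)
            rw [← h1] at h2
            omega
    · push Not at hcase
      have hall : ∀ g, φ g = φ 1 := by
        intro g
        have hexp := classFunction_expansion φ (isClassFunction_of_isCharacter hφ)
        have e1 := congrFun hexp g
        have e2 := congrFun hexp 1
        simp only [Finset.sum_apply, Pi.smul_apply, smul_eq_mul] at e1 e2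
        rw [e1, e2]
        refine Finset.sum_congr rfl fun τ _ => ?_
        by_cases h0 : classInner φ τ.1 = 0
        · rw [h0, zero_mul, zero_mul]
        · rw [hcase τ h0 g]
      have hKtop : charKer φ hφ = ⊤ := by
        rw [eq_top_iff]
        intro g _
        exact hall g
      rw [hKtop, Subgroup.index_top]
      exact Nat.one_le_pow _ _ hp.pos

end Stab

/-- **The statement.** -/
theorem prat_main {G : Type u} [Group G] [Finite G] (p : ℕ) (hp : p.Prime) (χ : G → ℂ)
    (hχ : IsCharacter G χ) (hfaith : ∀ g : G, χ g = χ 1 → g = 1)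
    (hrat : ∃ r : ℕ, 0 < r ∧ ¬ p ∣ r ∧ ∀ g : G, χ g ∈ IntermediateField.adjoin ℚ
      ({Complex.exp (2 * Real.pi * Complex.I / r)} : Set ℂ))
    (n : ℕ) (hn : charDegree χ = n) :
    (Nat.card G).factorization p ≤ ∑ i ∈ Finset.range (n + 1), n / ((p - 1) * p ^ i) := by
  classical
  haveI : Fact p.Prime := ⟨hp⟩
  haveI : Fintype G := Fintype.ofFinite _
  obtain ⟨P⟩ : Nonempty (Sylow p G) := inferInstance
  haveI : Fintype P := Fintype.ofFinite _
  have hcard : Nat.card P = p ^ (Nat.card G).factorization p := P.card_eq_multiplicity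
  set v := (Nat.card G).factorization p with hv
  obtain ⟨r, hr0, hpr, hrat⟩ := hrat
  haveI hne : NeZero (Nat.card P) := ⟨Nat.card_pos.ne'⟩
  have hexp : ∀ g : P, g ^ Nat.card P = 1 := fun g => pow_card_eq_one'
  have hres : IsCharacter P (fun x : P => χ x) := isCharacter_restrict P hχ
  have hco : (Nat.card P).Coprime r := by
    rw [hcard]
    exact Nat.Coprime.pow_left _ ((Nat.Prime.coprime_iff_not_dvd hp).2 hpr)
  have hinv : PInv (Nat.card P) (fun x : P => χ x) := by
    intro u
    funext x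
    rw [tw_apply]
    set k := (u : ZMod (Nat.card P)).val with hk
    have hkc : k.Coprime (Nat.card P) := val_coprime u
    obtain ⟨k', hk1, hk2⟩ := Nat.chineseRemainder hco k 1
    have h1 : k'.Coprime (Nat.card P) := by
      have := hk1.gcd_eq
      rw [Nat.Coprime, this]
      exact hkc
    have h2 : k'.Coprime r := by
      have := hk2.gcd_eq
      rw [Nat.Coprime, this]
      simp
    have h3 := H23.cov_rat_fix hres hr0.ne' (fun t => hrat t) hk2 (Nat.Coprime.mul_right h1 h2) x
    have h4 : x ^ k' = x ^ k := by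
      rw [pow_eq_pow_iff_modEq]
      exact hk1.of_dvd (orderOf_dvd_natCard x)
    rw [h4] at h3
    exact h3
  have hdeg : charDegree (fun x : P => χ x) = n := by
    have e1 := one_eq_charDegree hres
    have e2 := one_eq_charDegree hχ
    have e3 : χ ((1 : P) : G) = (charDegree χ : ℂ) := e2
    rw [e3, hn] at e1
    exact_mod_cast e1.symm
  have hmain := main_pinv p v hp hcard rfl hexp n n _ hres hdeg le_rfl hinv
  have hKbot : charKer _ hres = ⊥ := by
    rw [eq_bot_iff]
    intro x hx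
    rw [Subgroup.mem_bot]
    have h1 : χ x = χ ((1 : P) : G) := hx
    exact Subtype.ext (hfaith _ h1)
  rw [hKbot, Subgroup.index_bot, hcard] at hmain
  exact (Nat.pow_le_pow_iff_right hp.one_lt).1 hmain

end Cfsg.Agent.H23.FO
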