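import Cfsg.Agent.Lib.H23.BPack

/-!
# Blocks and characters with nonzero rows
-/

set_option autoImplicit false
set_option linter.unusedSectionVars false
set_option linter.style.haveILetI false

namespace Cfsg.Agent.H23.DO

open Module Matrix Cfsg Cfsg.Agent.H22 Cfsg.Agent.H21
open scoped ComplexConjugate

universe u

variable {G : Type u} [Group G] [Finite G] {p : ℕ} [Fact p.Prime] (D : DS G p) {M : Ideal AlgInt}

theorem exists_conj_C (hsq : ¬ p ^ 2 ∣ Nat.card G)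
    (hCdec : ∀ z : G, z * D.x = D.x * z → ∃ (n : ℕ) (y : G), y ∈ D.K ∧ z = D.x ^ n * y)
    (hconj : ∀ w : G, orderOf w = p → ∃ (b : G) (n : ℕ), b * w * b⁻¹ = D.x ^ n) {g : G}
    (hg : ¬ p ∣ (Subgroup.centralizer ({g} : Set G)).index) :
    ∃ (b : G) (m : ℕ) (y : G), y ∈ D.K ∧ b * g * b⁻¹ = D.x ^ m * y := by
  have hpp : p.Prime := Fact.out
  have hpC : p ∣ Nat.card (Subgroup.centralizer ({g} : Set G)) := by
    have h1 : p ∣ Nat.card G := by
      have := orderOf_dvd_natCard D.x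
      rwa [D.hx] at this
    rw [← Subgroup.card_mul_index (Subgroup.centralizer ({g} : Set G))] at h1
    exact (hpp.dvd_mul.mp h1).resolve_right hg
  haveI : Fact p.Prime := ⟨hpp⟩
  obtain ⟨w, hw⟩ := exists_prime_orderOf_dvd_card' p hpC
  have hw' : orderOf (w : G) = p := by
    rw [Subgroup.orderOf_coe]
    exact hw
  obtain ⟨b, n, hb⟩ := hconj _ hw'
  have hcomm : (w : G) * g = g * (w : G) := by
    have := Subgroup.mem_centralizer_iff.mp w.2 g rfl
    exact this.symm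
  have hn : Nat.Coprime n p := by
    rw [Nat.coprime_comm, hpp.coprime_iff_not_dvd]
    rintro ⟨k, rfl⟩
    have h2 : D.x ^ (p * k) = 1 := by rw [pow_mul, D.x_pow, one_pow]
    rw [h2] at hb
    have h3 : (w : G) = 1 := by
      have h4 : b * (w : G) = b := mul_inv_eq_one.mp hb
      exact mul_left_cancel (h4.trans (mul_one b).symm)
    rw [h3, orderOf_one] at hw'
    exact hpp.one_lt.ne hw'
  obtain ⟨r, _, hr⟩ := Nat.exists_mul_mod_eq_one_of_coprime hn hpp.one_lt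
  have hxr : (D.x ^ n) ^ r = D.x := by
    rw [← pow_mul]
    have := pow_mod_orderOf D.x (n * r)
    rw [D.hx, hr, pow_one] at this
    exact this.symm
  let g' := b * g * b⁻¹
  have hg'n : g' * D.x ^ n = D.x ^ n * g' := by
    simp only [g']
    rw [← hb]
    calc b * g * b⁻¹ * (b * (w : G) * b⁻¹) = b * (g * (w : G)) * b⁻¹ := by group
      _ = b * ((w : G) * g) * b⁻¹ := by rw [hcomm]
      _ = _ := by group
  have hg'x : g' * D.x = D.x * g' := by
    have h5 : Commute g' (D.x ^ n) := hg'n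
    have h6 := h5.pow_right r
    rw [hxr] at h6
    exact h6
  obtain ⟨m, y, hy, hz⟩ := hCdec g' hg'x
  exact ⟨b, m, y, hy, hz⟩

theorem mli_pow (hM : IsPModular p M) {χ : G → ℂ} (hχ : IsCharacter G χ) (m : ℕ) {y : G} (hy : y ∈ D.K) :
    MemLocalIdeal M (χ (D.x ^ m * y) - χ y) := by
  haveI hMp : M.IsPrime := hM.2.1.isPrime
  have hpp : p.Prime := Fact.out
  by_cases hm : p ∣ m
  · obtain ⟨k, rfl⟩ := hm
    rw [pow_mul, D.x_pow, one_pow, one_mul, sub_self]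
    exact mli_zero
  · have hcop : Nat.Coprime m p := by
      rw [Nat.coprime_comm, hpp.coprime_iff_not_dvd]
      exact hm
    have hord : orderOf (D.x ^ m) = p ^ 1 := by
      rw [pow_one, Nat.Coprime.orderOf_pow (by rw [D.hx]; exact hcop.symm), D.hx]
    have hc : Commute (D.x ^ m) y := (show Commute D.x y from D.hxK y hy).pow_left m
    exact char_mul_pElement_congr hM hχ hc hord

/-- The central characters of two characters agree when their values on the centralizer are proportional. -/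
theorem sameBlock_of_cong (hM : IsPModular p M) (hsq : ¬ p ^ 2 ∣ Nat.card G)
    (hCdec : ∀ z : G, z * D.x = D.x * z → ∃ (n : ℕ) (y : G), y ∈ D.K ∧ z = D.x ^ n * y)
    (hconj : ∀ w : G, orderOf w = p → ∃ (b : G) (n : ℕ), b * w * b⁻¹ = D.x ^ n)
    {χ₁ χ₂ : IrrCharacter G} (h1 : ¬ p ∣ charDegree χ₁.1) (h2 : ¬ p ∣ charDegree χ₂.1)
    {κ₁ κ₂ : ℂ} {Γ : D.K → ℂ} (hκ₁ : MemLocalRing M κ₁) (hκ₂ : MemLocalRing M κ₂) (hΓ : ∀ y, MemLocalRing M (Γ y))
    (hc₁ : ∀ (y : D.K), MemLocalIdeal M (χ₁.1 y - κ₁ * Γ y))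
    (hc₂ : ∀ (y : D.K), MemLocalIdeal M (χ₂.1 y - κ₂ * Γ y)) :
    SameBlock M χ₁.1 χ₂.1 := by
  classical
  haveI hMp : M.IsPrime := hM.2.1.isPrime
  have hχ₁ : IsCharacter G χ₁.1 := isCharacter_of_irr χ₁.2
  have hχ₂ : IsCharacter G χ₂.1 := isCharacter_of_irr χ₂.2
  have hne₁ := irr_one_ne_zero' χ₁
  have hne₂ := irr_one_ne_zero' χ₂
  have hinv₁ : MemLocalRing M (χ₁.1 1)⁻¹ := by
    rw [one_eq_charDegree hχ₁]
    exact mlr_inv_natCast hM h1
  have hinv₂ : MemLocalRing M (χ₂.1 1)⁻¹ := by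
    rw [one_eq_charDegree hχ₂]
    exact mlr_inv_natCast hM h2
  have hint₁ : ∀ g, MemLocalRing M (χ₁.1 g) := fun g => mlr_of_isIntegral (irr_isIntegral' χ₁ g)
  have hint₂ : ∀ g, MemLocalRing M (χ₂.1 g) := fun g => mlr_of_isIntegral (irr_isIntegral' χ₂ g)
  intro g
  simp only [centralChar]
  by_cases hg : p ∣ (Subgroup.centralizer ({g} : Set G)).index
  · apply mli_sub
    · rw [div_eq_mul_inv]
      exact mli_mul_right (mli_mul_right (mli_natCast_of_dvd hM hg) (hint₁ g)) hinv₁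
    · rw [div_eq_mul_inv]
      exact mli_mul_right (mli_mul_right (mli_natCast_of_dvd hM hg) (hint₂ g)) hinv₂
  · obtain ⟨b, m, y, hy, hb⟩ := exists_conj_C D hsq hCdec hconj hg
    have hv₁ : χ₁.1 g = χ₁.1 (D.x ^ m * y) := by
      rw [← hb]
      exact (H22.isCharacter_conj hχ₁ g b).symm
    have hv₂ : χ₂.1 g = χ₂.1 (D.x ^ m * y) := by
      rw [← hb]
      exact (H22.isCharacter_conj hχ₂ g b).symm
    have hrw : ((Subgroup.centralizer ({g} : Set G)).index : ℂ) * χ₁.1 g / χ₁.1 1 -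
        ((Subgroup.centralizer ({g} : Set G)).index : ℂ) * χ₂.1 g / χ₂.1 1 =
        ((Subgroup.centralizer ({g} : Set G)).index : ℂ) * (χ₁.1 g * χ₂.1 1 - χ₂.1 g * χ₁.1 1) *
          (χ₁.1 1)⁻¹ * (χ₂.1 1)⁻¹ := by
      field_simp
    rw [hrw]
    refine mli_mul_right (mli_mul_right (mli_mul_left ?_ (mlr_natCast _)) hinv₁) hinv₂
    let y' : D.K := ⟨y, hy⟩
    have ha₁ : MemLocalIdeal M (χ₁.1 g - κ₁ * Γ y') := by
      rw [hv₁]
      have := mli_add (mli_pow D hM hχ₁ m hy) (hc₁ y')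
      have h3 : χ₁.1 (D.x ^ m * y) - χ₁.1 y + (χ₁.1 (y' : G) - κ₁ * Γ y') = χ₁.1 (D.x ^ m * y) - κ₁ * Γ y' := by
        simp [y']
      rwa [h3] at this
    have ha₂ : MemLocalIdeal M (χ₂.1 g - κ₂ * Γ y') := by
      rw [hv₂]
      have := mli_add (mli_pow D hM hχ₂ m hy) (hc₂ y')
      have h3 : χ₂.1 (D.x ^ m * y) - χ₂.1 y + (χ₂.1 (y' : G) - κ₂ * Γ y') = χ₂.1 (D.x ^ m * y) - κ₂ * Γ y' := by
        simp [y']
      rwa [h3] at this
    have hb₁ : MemLocalIdeal M (χ₁.1 1 - κ₁ * Γ 1) := by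
      have := hc₁ 1
      rwa [Subgroup.coe_one] at this
    have hb₂ : MemLocalIdeal M (χ₂.1 1 - κ₂ * Γ 1) := by
      have := hc₂ 1
      rwa [Subgroup.coe_one] at this
    have hdec : χ₁.1 g * χ₂.1 1 - χ₂.1 g * χ₁.1 1 =
        (χ₁.1 g - κ₁ * Γ y') * χ₂.1 1 + (κ₁ * Γ y') * (χ₂.1 1 - κ₂ * Γ 1) -
          (χ₂.1 g - κ₂ * Γ y') * χ₁.1 1 - (κ₂ * Γ y') * (χ₁.1 1 - κ₁ * Γ 1) := by
      ring
    rw [hdec]
    refine mli_sub (mli_sub (mli_add (mli_mul_right ha₁ (hint₂ 1)) (mli_mul_left hb₂ (mlr_mul hκ₁ (hΓ y'))))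
      (mli_mul_right ha₂ (hint₁ 1))) (mli_mul_left hb₁ (mlr_mul hκ₂ (hΓ y')))

end Cfsg.Agent.H23.DO
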