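import Cfsg.Agent.Lib.H23.BBlk

/-!
# Blocks and characters with nonzero rows: identification
-/

set_option autoImplicit false
set_option linter.unusedSectionVars false
set_option linter.style.haveILetI false

namespace Cfsg.Agent.H23.DO

open Module Matrix Cfsg Cfsg.Agent.H22 Cfsg.Agent.H21
open scoped ComplexConjugate

universe u

variable {G : Type u} [Group G] [Finite G] {p : ℕ} [Fact p.Prime] (D : DS G p) {M : Ideal AlgInt}
  (θ : NN D →* (ZMod p)ˣ)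
  (hθ : ∀ t : NN D, (t : G) * D.x * (t : G)⁻¹ = D.x ^ (((θ t : (ZMod p)ˣ) : ZMod p)).val)
  (hker : Nat.card θ.ker = p * Nat.card D.K)
  (hCdec : ∀ z : G, z * D.x = D.x * z → ∃ (n : ℕ) (y : G), y ∈ D.K ∧ z = D.x ^ n * y)
  (hconj : ∀ w : G, orderOf w = p → ∃ (b : G) (n : ℕ), b * w * b⁻¹ = D.x ^ n)
  (hsq : ¬ p ^ 2 ∣ Nat.card G)

theorem Gm_mlr [M.IsPrime] (β : IrrCharacter D.K) (y : D.K) : MemLocalRing M (Gm D β y) :=
  mlr_sum _ _ fun γ _ => mlr_of_isIntegral (irr_isIntegral' γ y)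

include hsq hθ in
/-- The values on the complement, modulo the local ideal. -/
theorem mli_val (hM : IsPModular p M) (β : IrrCharacter D.K) {χ : IrrCharacter G} (hχ : SB D β χ) (y : D.K) :
    MemLocalIdeal M (χ.1 y - ((kap D β χ : ℤ) : ℂ) * Gm D β y) := by
  haveI : M.IsPrime := hM.2.1.isPrime
  rw [val_K D β hsq θ hθ hχ y, add_sub_cancel_right]
  refine mli_mul_right (mli_natCast_of_dvd hM (dvd_refl p)) ?_
  exact mlr_sum _ _ fun γ _ => mlr_mul (mlr_natCast _) (mlr_of_isIntegral (irr_isIntegral' γ y))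

include hθ hker hCdec hconj hsq in
theorem sameBlock_SB (hM : IsPModular p M) (β : IrrCharacter D.K) {χ₁ χ₂ : IrrCharacter G} (h₁ : SB D β χ₁)
    (h₂ : SB D β χ₂) : SameBlock M χ₁.1 χ₂.1 :=
  haveI : M.IsPrime := hM.2.1.isPrime
  sameBlock_of_cong D hM hsq hCdec hconj (SB_not_dvd D β θ hθ hker hCdec hsq h₁)
    (SB_not_dvd D β θ hθ hker hCdec hsq h₂) (mlr_intCast _) (mlr_intCast _) (Gm_mlr D β)
    (mli_val D θ hθ hsq hM β h₁) (mli_val D θ hθ hsq hM β h₂)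

open scoped Classical in
theorem sum_irr (γ₁ γ₂ : IrrCharacter D.K) :
    ∑ y : D.K, γ₁.1 y⁻¹ * γ₂.1 y = if γ₂ = γ₁ then ((Fintype.card D.K : ℕ) : ℂ) else 0 := by
  have hK0 : ((Fintype.card D.K : ℕ) : ℂ) ≠ 0 := by exact_mod_cast Fintype.card_ne_zero
  have h2 := classInner_irr γ₂ γ₁
  simp only [classInner] at h2
  have h3 : ∑ y : D.K, γ₁.1 y⁻¹ * γ₂.1 y = ∑ y : D.K, γ₂.1 y * conj (γ₁.1 y) := by
    refine Finset.sum_congr rfl fun y _ => ?_
    rw [irr_inv', mul_comm]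
  have hc : (Nat.card D.K : ℂ) = ((Fintype.card D.K : ℕ) : ℂ) := by
    rw [Nat.card_eq_fintype_card]
  rw [hc] at h2
  rw [h3]
  split_ifs with h
  · rw [if_pos h] at h2
    field_simp at h2
    exact h2
  · rw [if_neg h] at h2
    exact (mul_eq_zero.mp h2).resolve_left (inv_ne_zero hK0)

theorem Gm_inv_sum_self (β : IrrCharacter D.K) :
    ∑ y : D.K, Gm D β y⁻¹ * Gm D β y = ((Fintype.card D.K : ℕ) : ℂ) * ((Orb D β).card : ℂ) := by
  classical
  simp only [Gm, Finset.sum_mul_sum]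
  rw [Finset.sum_comm]
  have h1 : ∀ γ₁ ∈ Orb D β, ∑ y : D.K, ∑ γ₂ ∈ Orb D β, γ₁.1 y⁻¹ * γ₂.1 y = ((Fintype.card D.K : ℕ) : ℂ) := by
    intro γ₁ hγ₁
    rw [Finset.sum_comm]
    simp only [sum_irr]
    rw [Finset.sum_ite_eq' (Orb D β) γ₁, if_pos hγ₁]
  rw [Finset.sum_congr rfl h1, Finset.sum_const, nsmul_eq_mul, mul_comm]

theorem orb_disjoint {β γ : IrrCharacter D.K} (h : ¬ IsOrb D β γ) {δ : IrrCharacter D.K}
    (h₁ : δ ∈ Orb D β) (h₂ : δ ∈ Orb D γ) : False := by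
  obtain ⟨t, rfl⟩ := (mem_Orb D β _).mp h₁
  obtain ⟨t', ht'⟩ := (mem_Orb D γ _).mp h₂
  apply h
  refine ⟨t'⁻¹ * t, ?_⟩
  rw [cjN_mul, irrMap_trans, ht', ← irrMap_trans, ← cjN_mul, inv_mul_cancel, cjN_one, irrMap_refl]

theorem Gm_inv_sum_other {β γ : IrrCharacter D.K} (h : ¬ IsOrb D β γ) :
    ∑ y : D.K, Gm D β y⁻¹ * Gm D γ y = 0 := by
  classical
  simp only [Gm, Finset.sum_mul_sum]
  rw [Finset.sum_comm]
  apply Finset.sum_eq_zero
  intro γ₁ hγ₁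
  rw [Finset.sum_comm]
  apply Finset.sum_eq_zero
  intro γ₂ hγ₂
  rw [sum_irr, if_neg]
  rintro rfl
  exact orb_disjoint D h hγ₁ hγ₂

theorem mli_intCast_dvd (hM : IsPModular p M) {n : ℤ} (h : MemLocalIdeal M (n : ℂ)) : (p : ℤ) ∣ n := by
  haveI hMp : M.IsPrime := hM.2.1.isPrime
  have h1 : MemLocalIdeal M ((n.natAbs : ℕ) : ℂ) := by
    rcases Int.natAbs_eq n with h2 | h2
    · rw [h2] at h
      simpa using h
    · rw [h2] at h
      have := mli_neg h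
      simpa using this
  have h2 := (mli_natCast_iff hM _).mp h1
  exact Int.natCast_dvd.mpr h2

include hsq hθ hker hCdec in
theorem not_sameBlock (hM : IsPModular p M) {β γ : IrrCharacter D.K} (h : ¬ IsOrb D β γ) {χ₁ χ₂ : IrrCharacter G}
    (h₁ : SB D β χ₁) (h₂ : SB D γ χ₂) : ¬ SameBlock M χ₁.1 χ₂.1 := by
  classical
  haveI hMp : M.IsPrime := hM.2.1.isPrime
  have hpp : p.Prime := Fact.out
  intro hsb
  have hd₁ := SB_not_dvd D β θ hθ hker hCdec hsq h₁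
  have hd₂ := SB_not_dvd D γ θ hθ hker hCdec hsq h₂
  have hne₁ := irr_one_ne_zero' χ₁
  have hne₂ := irr_one_ne_zero' χ₂
  have hint₁ : ∀ g, MemLocalRing M (χ₁.1 g) := fun g => mlr_of_isIntegral (irr_isIntegral' χ₁ g)
  have hint₂ : ∀ g, MemLocalRing M (χ₂.1 g) := fun g => mlr_of_isIntegral (irr_isIntegral' χ₂ g)
  let κ₁ : ℂ := ((kap D β χ₁ : ℤ) : ℂ)
  let κ₂ : ℂ := ((kap D γ χ₂ : ℤ) : ℂ)
  -- pointwise congruence
  have hT : ∀ y : D.K, MemLocalIdeal M (κ₁ * Gm D β y * (κ₂ * Gm D γ 1) - κ₂ * Gm D γ y * (κ₁ * Gm D β 1)) := by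
    intro y
    have hs := hsb y
    simp only [centralChar] at hs
    have hidx : ¬ p ∣ (Subgroup.centralizer ({(y : G)} : Set G)).index :=
      not_dvd_index_of_comm D hsq (D.hxK y y.2)
    have hu := mlr_inv_natCast (M := M) hM hidx
    have hidx0 : ((Subgroup.centralizer ({(y : G)} : Set G)).index : ℂ) ≠ 0 := by
      exact_mod_cast (Subgroup.index_ne_zero_of_finite)
    have h3 := mli_mul_right (mli_mul_right (mli_mul_right hs hu) (hint₁ 1)) (hint₂ 1)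
    have h4 : (((Subgroup.centralizer ({(y : G)} : Set G)).index : ℂ) * χ₁.1 y / χ₁.1 1 -
        ((Subgroup.centralizer ({(y : G)} : Set G)).index : ℂ) * χ₂.1 y / χ₂.1 1) *
        ((Subgroup.centralizer ({(y : G)} : Set G)).index : ℂ)⁻¹ * χ₁.1 1 * χ₂.1 1 =
        χ₁.1 y * χ₂.1 1 - χ₂.1 y * χ₁.1 1 := by
      field_simp
    rw [h4] at h3
    have ha₁ := mli_val D θ hθ hsq hM β h₁ y
    have ha₂ := mli_val D θ hθ hsq hM γ h₂ y
    have hb₁ := mli_val D θ hθ hsq hM β h₁ 1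
    have hb₂ := mli_val D θ hθ hsq hM γ h₂ 1
    rw [Subgroup.coe_one] at hb₁ hb₂
    have hdec : κ₁ * Gm D β y * (κ₂ * Gm D γ 1) - κ₂ * Gm D γ y * (κ₁ * Gm D β 1) =
        (χ₁.1 y * χ₂.1 1 - χ₂.1 y * χ₁.1 1) - (χ₁.1 y - κ₁ * Gm D β y) * χ₂.1 1 -
          (κ₁ * Gm D β y) * (χ₂.1 1 - κ₂ * Gm D γ 1) + (χ₂.1 y - κ₂ * Gm D γ y) * χ₁.1 1 +
          (κ₂ * Gm D γ y) * (χ₁.1 1 - κ₁ * Gm D β 1) := by
      ring
    rw [hdec]
    exact mli_add (mli_add (mli_sub (mli_sub h3 (mli_mul_right ha₁ (hint₂ 1)))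
      (mli_mul_left hb₂ (mlr_mul (mlr_intCast _) (Gm_mlr D β y))))
      (mli_mul_right ha₂ (hint₁ 1))) (mli_mul_left hb₁ (mlr_mul (mlr_intCast _) (Gm_mlr D γ y)))
  have hsum : MemLocalIdeal M (∑ y : D.K, Gm D β y⁻¹ *
      (κ₁ * Gm D β y * (κ₂ * Gm D γ 1) - κ₂ * Gm D γ y * (κ₁ * Gm D β 1))) :=
    mli_sum _ _ fun y _ => mli_mul_left (hT y) (Gm_mlr D β y⁻¹)
  have hval : ∑ y : D.K, Gm D β y⁻¹ * (κ₁ * Gm D β y * (κ₂ * Gm D γ 1) - κ₂ * Gm D γ y * (κ₁ * Gm D β 1)) =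
      κ₁ * κ₂ * Gm D γ 1 * (((Fintype.card D.K : ℕ) : ℂ) * ((Orb D β).card : ℂ)) := by
    have h5 : ∀ y : D.K, Gm D β y⁻¹ * (κ₁ * Gm D β y * (κ₂ * Gm D γ 1) - κ₂ * Gm D γ y * (κ₁ * Gm D β 1)) =
        κ₁ * κ₂ * Gm D γ 1 * (Gm D β y⁻¹ * Gm D β y) - κ₁ * κ₂ * Gm D β 1 * (Gm D β y⁻¹ * Gm D γ y) := by
      intro y
      ring
    simp only [h5]
    rw [Finset.sum_sub_distrib, ← Finset.mul_sum, ← Finset.mul_sum, Gm_inv_sum_self, Gm_inv_sum_other D h]
    ring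
  rw [hval, Gm_one] at hsum
  rw [one_eq_charDegree (isCharacter_of_irr γ.2)] at hsum
  have hcast : κ₁ * κ₂ * (((Orb D γ).card : ℂ) * (charDegree γ.1 : ℂ)) *
      (((Fintype.card D.K : ℕ) : ℂ) * ((Orb D β).card : ℂ)) =
      ((kap D β χ₁ * kap D γ χ₂ * (((Orb D γ).card * charDegree γ.1 : ℕ) : ℤ) *
        ((Fintype.card D.K : ℕ) : ℤ) * ((Orb D β).card : ℤ) : ℤ) : ℂ) := by
    simp only [κ₁, κ₂]
    push_cast
    ring
  rw [hcast] at hsum
  have hdvd := mli_intCast_dvd hM hsum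
  have hpI : Prime (p : ℤ) := Nat.prime_iff_prime_int.mp hpp
  have hc₁ := deg_cong D β hsq θ hθ h₁
  have hc₂ := deg_cong D γ hsq θ hθ h₂
  have hnd₁ : ¬ (p : ℤ) ∣ kap D β χ₁ * (((Orb D β).card * charDegree β.1 : ℕ) : ℤ) := by
    intro h6
    apply hd₁
    have h7 := Int.modEq_iff_dvd.mp hc₁
    have h8 := (Int.dvd_iff_dvd_of_dvd_sub h7).mp h6
    exact_mod_cast h8
  have hnd₂ : ¬ (p : ℤ) ∣ kap D γ χ₂ * (((Orb D γ).card * charDegree γ.1 : ℕ) : ℤ) := by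
    intro h6
    apply hd₂
    have h7 := Int.modEq_iff_dvd.mp hc₂
    have h8 := (Int.dvd_iff_dvd_of_dvd_sub h7).mp h6
    exact_mod_cast h8
  have hK : ¬ (p : ℤ) ∣ ((Fintype.card D.K : ℕ) : ℤ) := by
    intro h6
    have h7 : p ∣ Fintype.card D.K := by exact_mod_cast h6
    rw [← Nat.card_eq_fintype_card] at h7
    have h8 := Nat.dvd_gcd h7 (dvd_refl p)
    rw [D.hKp] at h8
    exact hpp.one_lt.ne' (Nat.dvd_one.mp h8)
  have hnk₁ : ¬ (p : ℤ) ∣ kap D β χ₁ := fun h6 => hnd₁ (h6.mul_right _)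
  have hnO₁ : ¬ (p : ℤ) ∣ ((Orb D β).card : ℤ) := by
    intro h6
    apply hnd₁
    refine Dvd.dvd.mul_left ?_ _
    push_cast
    exact h6.mul_right _
  rw [show kap D β χ₁ * kap D γ χ₂ * (((Orb D γ).card * charDegree γ.1 : ℕ) : ℤ) *
        ((Fintype.card D.K : ℕ) : ℤ) * ((Orb D β).card : ℤ) =
      (kap D γ χ₂ * (((Orb D γ).card * charDegree γ.1 : ℕ) : ℤ)) *
        (kap D β χ₁ * (((Fintype.card D.K : ℕ) : ℤ) * ((Orb D β).card : ℤ))) by ring] at hdvd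
  rcases hpI.dvd_or_dvd hdvd with h6 | h6
  · exact hnd₂ h6
  · rcases hpI.dvd_or_dvd h6 with h7 | h7
    · exact hnk₁ h7
    · rcases hpI.dvd_or_dvd h7 with h8 | h8
      · exact hK h8
      · exact hnO₁ h8

include hθ hker hCdec hconj hsq in
/-- The block of a character with a nonzero row. -/
theorem block_iff (hM : IsPModular p M) (β : IrrCharacter D.K) {χ₀ : IrrCharacter G} (h₀ : SB D β χ₀)
    (ψ : IrrCharacter G) : SameBlock M χ₀.1 ψ.1 ↔ SB D β ψ := by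
  classical
  haveI hMp : M.IsPrime := hM.2.1.isPrime
  have hpp : p.Prime := Fact.out
  constructor
  · intro hsb
    by_cases hd : p ∣ charDegree ψ.1
    · exfalso
      have hd' : ¬ p ∣ Nat.card G / charDegree ψ.1 := by
        intro h
        apply hsq
        have h2 : charDegree ψ.1 ∣ Nat.card G := charDegree_dvd_card ψ
        rw [← Nat.mul_div_cancel' h2, pow_two]
        exact mul_dvd_mul hd h
      have h0 := irr_eq_zero_of_defect_zero hM ψ hd' (y := D.x) (by rw [D.hx])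
      have h2 := hsb D.x
      simp only [centralChar, h0, mul_zero, zero_div, sub_zero] at h2
      have hidx : ¬ p ∣ (Subgroup.centralizer ({D.x} : Set G)).index := not_dvd_index_of_comm D hsq rfl
      have hu := mlr_inv_natCast (M := M) hM hidx
      have hidx0 : ((Subgroup.centralizer ({D.x} : Set G)).index : ℂ) ≠ 0 := by
        exact_mod_cast (Subgroup.index_ne_zero_of_finite)
      have hne := irr_one_ne_zero' χ₀
      have h3 := mli_mul_right (mli_mul_right h2 hu) (mlr_of_isIntegral (irr_isIntegral' χ₀ 1))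
      have h4 : ((Subgroup.centralizer ({D.x} : Set G)).index : ℂ) * χ₀.1 D.x / χ₀.1 1 *
          ((Subgroup.centralizer ({D.x} : Set G)).index : ℂ)⁻¹ * χ₀.1 1 = χ₀.1 D.x := by
        field_simp
      rw [h4] at h3
      have h5 := mli_pow D hM (isCharacter_of_irr χ₀.2) 1 D.K.one_mem
      rw [pow_one, mul_one] at h5
      have h6 := mli_sub h3 h5
      rw [sub_sub_cancel, one_eq_charDegree (isCharacter_of_irr χ₀.2), mli_natCast_iff hM] at h6
      exact SB_not_dvd D β θ hθ hker hCdec hsq h₀ h6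
    · have hex : ∃ (γ : IrrCharacter D.K) (u : (ZMod p)ˣ), cRB D γ (u : ZMod p) ψ ≠ 0 := by
        by_contra hcon
        push Not at hcon
        exact hd (not_dvd_of_all_zero D hcon)
      obtain ⟨γ, u, hu⟩ := hex
      by_cases hor : IsOrb D β γ
      · obtain ⟨t, rfl⟩ := hor
        have h1 := cRB_inv D θ hθ t β ψ ((u : ZMod p) * ((θ t : (ZMod p)ˣ) : ZMod p))
        have h2 : (u : ZMod p) * ((θ t : (ZMod p)ˣ) : ZMod p) * (((θ t)⁻¹ : (ZMod p)ˣ) : ZMod p) = (u : ZMod p) := by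
          rw [mul_assoc, ← Units.val_mul, mul_inv_cancel, Units.val_one, mul_one]
        rw [h2] at h1
        refine ⟨u * θ t, ?_⟩
        rw [Units.val_mul, ← h1]
        exact hu
      · exact absurd hsb (not_sameBlock D θ hθ hker hCdec hsq hM hor h₀ ⟨u, hu⟩)
  · intro h
    exact sameBlock_SB D θ hθ hker hCdec hconj hsq hM β h₀ h

end Cfsg.Agent.H23.DO
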