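import Mathlib

/-!
# Averaging operators attached to a matrix representation
-/

set_option autoImplicit false
set_option linter.unusedSectionVars false
set_option linter.style.haveILetI false

namespace Cfsg.Agent.H23.DO

open Matrix

section Psi

variable {𝕜 B K : Type*} [CommRing 𝕜] [Ring B] [Algebra 𝕜 B] [Group K] [Fintype K]
  (R : K →* B) (κ : 𝕜) (φ : K → 𝕜) {E : B}

/-- The averaging operator. -/
noncomputable def Psi (A : B) : B := κ • ∑ y : K, R y * A * R y⁻¹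

variable (hE₁ : ∀ y, E * R y * E = φ y • E) (hE₂ : E = κ • ∑ y, φ y • R y⁻¹)
  (hE₃ : κ * ∑ y, φ y * φ y⁻¹ = 1)

include hE₁ in
theorem corner_key {A : B} (hEA : E * A = A) (hAE : A * E = A) (w : K) :
    A * R w * A = φ w • (A * A) := by
  calc A * R w * A = (A * E) * R w * (E * A) := by rw [hAE, hEA]
    _ = A * (E * R w * E) * A := by simp only [mul_assoc]
    _ = φ w • ((A * E) * A) := by
        rw [hE₁, mul_smul_comm, smul_mul_assoc]
    _ = _ := by rw [hAE]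

include hE₁ hE₂ in
theorem Psi_idem {A : B} (hAA : A * A = A) (hEA : E * A = A) (hAE : A * E = A) :
    Psi R κ A * Psi R κ A = Psi R κ A := by
  have key : ∀ w, A * R w * A = φ w • A := fun w => by
    rw [corner_key R φ hE₁ hEA hAE, hAA]
  have h1 : ∀ y, κ • ∑ z, R y * A * R y⁻¹ * (R z * A * R z⁻¹) = R y * A * R y⁻¹ := by
    intro y
    have h2 : ∀ z, R y * A * R y⁻¹ * (R z * A * R z⁻¹) = φ (y⁻¹ * z) • (R y * A * R z⁻¹) := by
      intro z
      have h3 : R y * A * R y⁻¹ * (R z * A * R z⁻¹) = R y * (A * R (y⁻¹ * z) * A) * R z⁻¹ := by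
        rw [map_mul]
        simp only [mul_assoc]
      rw [h3, key, mul_smul_comm, smul_mul_assoc]
    simp only [h2]
    have h3 : ∑ z, φ (y⁻¹ * z) • (R y * A * R z⁻¹) = ∑ w, φ w • (R y * A * R (y * w)⁻¹) :=
      Fintype.sum_equiv (Equiv.mulLeft y⁻¹) _ _ fun z => by simp
    rw [h3]
    have h4 : ∀ w, φ w • (R y * A * R (y * w)⁻¹) = R y * A * (φ w • R w⁻¹) * R y⁻¹ := by
      intro w
      rw [_root_.mul_inv_rev, map_mul, mul_smul_comm, smul_mul_assoc, mul_assoc (R y * A)]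
    simp only [h4]
    rw [← Finset.sum_mul, ← Finset.mul_sum]
    have h5 : ∀ S : B, κ • (R y * A * S * R y⁻¹) = R y * A * (κ • S) * R y⁻¹ := by
      intro S
      rw [mul_smul_comm, smul_mul_assoc]
    rw [h5, ← hE₂, mul_assoc (R y) A E, hAE]
  calc Psi R κ A * Psi R κ A
      = κ • ∑ y, (R y * A * R y⁻¹ * (κ • ∑ z, R z * A * R z⁻¹)) := by
        simp only [Psi]
        rw [smul_mul_assoc, Finset.sum_mul]
    _ = κ • ∑ y, (κ • ∑ z, R y * A * R y⁻¹ * (R z * A * R z⁻¹)) := by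
        congr 1
        refine Finset.sum_congr rfl fun y _ => ?_
        rw [mul_smul_comm, Finset.mul_sum]
    _ = Psi R κ A := by
        simp only [h1, Psi]

theorem Psi_comm (A : B) (z : K) : R z * Psi R κ A = Psi R κ A * R z := by
  simp only [Psi]
  rw [mul_smul_comm, smul_mul_assoc, Finset.mul_sum, Finset.sum_mul]
  congr 1
  refine Fintype.sum_equiv (Equiv.mulLeft z) _ _ fun y => ?_
  have h1 : R z⁻¹ * R z = 1 := by rw [← map_mul]; simp
  simp only [Equiv.coe_mulLeft, map_mul, _root_.mul_inv_rev, mul_assoc]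
  rw [h1, mul_one]

include hE₁ hE₃ in
theorem corner_Psi {A : B} (hEA : E * A = A) (hAE : A * E = A) : E * Psi R κ A * E = A := by
  have h1 : ∀ y, E * (R y * A * R y⁻¹) * E = (φ y * φ y⁻¹) • A := by
    intro y
    have h2 : E * (R y * A * R y⁻¹) * E = (E * R y * E) * A * (E * R y⁻¹ * E) := by
      calc E * (R y * A * R y⁻¹) * E = E * R y * (E * A * E) * R y⁻¹ * E := by
            rw [mul_assoc E A, hAE, hEA]
            simp only [mul_assoc]
        _ = _ := by simp only [mul_assoc]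
    rw [h2, hE₁, hE₁]
    simp only [smul_mul_assoc, mul_smul_comm, smul_smul]
    rw [hEA, hAE, mul_comm]
  simp only [Psi]
  rw [mul_smul_comm, smul_mul_assoc, Finset.mul_sum, Finset.sum_mul]
  simp only [h1]
  rw [← Finset.sum_smul, smul_smul, hE₃, one_smul]

theorem Psi_conj {u u' : B} (huu : u' * u = 1) (f : K ≃* K) (hf : ∀ y, u * R y * u' = R (f y)) (A : B) :
    u * Psi R κ A * u' = Psi R κ (u * A * u') := by
  simp only [Psi]
  rw [mul_smul_comm, smul_mul_assoc, Finset.mul_sum, Finset.sum_mul]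
  congr 1
  refine Fintype.sum_equiv f.toEquiv _ _ fun y => ?_
  simp only [MulEquiv.toEquiv_eq_coe, MulEquiv.coe_toEquiv]
  have h2 : R (f y)⁻¹ = u * R y⁻¹ * u' := by
    rw [hf, map_inv f]
  rw [h2, ← hf y]
  calc u * (R y * A * R y⁻¹) * u' = u * R y * (u' * u) * A * (u' * u) * R y⁻¹ * u' := by
        rw [huu]
        simp only [mul_one, mul_assoc]
    _ = _ := by simp only [mul_assoc]

end Psi

section Xi

variable {𝕜 B K : Type*} [CommRing 𝕜] [Ring B] [Algebra 𝕜 B] [Group K] [Fintype K] {n : ℕ}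
  (σ : K →* Matrix (Fin n) (Fin n) 𝕜) (κ : 𝕜) (R : K →* B)

/-- The transfer from matrices. -/
noncomputable def Xi (A : Matrix (Fin n) (Fin n) 𝕜) : B := κ • ∑ y : K, Matrix.trace (A * σ y⁻¹) • R y

/-- Orthogonality of matrix coefficients. -/
def HE : Prop := ∀ i a b j, κ * ∑ y : K, σ y i a * σ y⁻¹ b j = if a = b ∧ i = j then 1 else 0

variable {σ κ} (h : HE σ κ)

include h in
theorem he_F (C : Matrix (Fin n) (Fin n) 𝕜) : κ • ∑ y : K, Matrix.trace (C * σ y) • σ y⁻¹ = C := by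
  classical
  ext b j
  simp only [Matrix.smul_apply, Matrix.sum_apply, smul_eq_mul, Matrix.trace, Matrix.diag, Matrix.mul_apply]
  have h1 : ∀ y, (∑ i, ∑ a, C i a * σ y a i) * σ y⁻¹ b j = ∑ i, ∑ a, C i a * (σ y a i * σ y⁻¹ b j) := by
    intro y
    rw [Finset.sum_mul]
    refine Finset.sum_congr rfl fun i _ => ?_
    rw [Finset.sum_mul]
    refine Finset.sum_congr rfl fun a _ => ?_
    ring
  simp only [h1]
  rw [Finset.sum_comm]
  have h2 : ∀ i, ∑ y, ∑ a, C i a * (σ y a i * σ y⁻¹ b j) = ∑ a, C i a * ∑ y, σ y a i * σ y⁻¹ b j := by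
    intro i
    rw [Finset.sum_comm]
    simp only [Finset.mul_sum]
  simp only [h2]
  have h3 : κ * ∑ i, ∑ a, C i a * ∑ y, σ y a i * σ y⁻¹ b j =
      ∑ i, ∑ a, C i a * (κ * ∑ y, σ y a i * σ y⁻¹ b j) := by
    rw [Finset.mul_sum]
    refine Finset.sum_congr rfl fun i _ => ?_
    rw [Finset.mul_sum]
    refine Finset.sum_congr rfl fun a _ => ?_
    ring
  rw [h3]
  simp only [h _ _ _ _]
  rw [Finset.sum_eq_single b]
  · rw [Finset.sum_eq_single j]
    · simp
    · intro a _ ha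
      simp [ha]
    · simp
  · intro i _ hi
    apply Finset.sum_eq_zero
    intro a _
    simp [hi]
  · simp

include h in
theorem he_O (C A : Matrix (Fin n) (Fin n) 𝕜) :
    κ * ∑ y : K, Matrix.trace (C * σ y) * Matrix.trace (A * σ y⁻¹) = Matrix.trace (C * A) := by
  have h1 := congrArg (fun X => Matrix.trace (A * X)) (he_F h C)
  simp only [mul_smul_comm, Finset.mul_sum, Matrix.trace_smul, Matrix.trace_sum, smul_eq_mul] at h1
  rw [Matrix.trace_mul_comm C A, ← h1, Finset.mul_sum]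

include h in
theorem he_S (A : Matrix (Fin n) (Fin n) 𝕜) : κ • ∑ y : K, σ y * A * σ y⁻¹ = Matrix.trace A • 1 := by
  classical
  ext i j
  simp only [Matrix.smul_apply, Matrix.sum_apply, smul_eq_mul, Matrix.mul_apply, Matrix.one_apply]
  have h1 : ∀ y, ∑ b, (∑ a, σ y i a * A a b) * σ y⁻¹ b j = ∑ a, ∑ b, A a b * (σ y i a * σ y⁻¹ b j) := by
    intro y
    simp only [Finset.sum_mul]
    rw [Finset.sum_comm]
    refine Finset.sum_congr rfl fun a _ => Finset.sum_congr rfl fun b _ => ?_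
    ring
  simp only [h1]
  have h2 : κ * ∑ y, ∑ a, ∑ b, A a b * (σ y i a * σ y⁻¹ b j) =
      ∑ a, ∑ b, A a b * (κ * ∑ y, σ y i a * σ y⁻¹ b j) := by
    rw [Finset.sum_comm, Finset.mul_sum]
    refine Finset.sum_congr rfl fun a _ => ?_
    rw [Finset.sum_comm, Finset.mul_sum]
    refine Finset.sum_congr rfl fun b _ => ?_
    simp only [Finset.mul_sum]
    refine Finset.sum_congr rfl fun y _ => ?_
    ring
  rw [h2]
  simp only [h _ _ _ _]
  by_cases hij : i = j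
  · subst hij
    simp only [and_true, mul_ite, mul_one, mul_zero, Finset.sum_ite_eq, Finset.mem_univ, if_true, Matrix.trace,
      Matrix.diag]
  · simp [hij]

theorem Xi_smul (c : 𝕜) (A : Matrix (Fin n) (Fin n) 𝕜) :
    Xi (B := B) σ κ R (c • A) = c • Xi σ κ R A := by
  simp only [Xi, smul_mul_assoc, Matrix.trace_smul, smul_eq_mul, mul_smul, Finset.smul_sum]
  simp only [smul_comm κ c, ← Finset.smul_sum]

theorem Xi_left (y : K) (A : Matrix (Fin n) (Fin n) 𝕜) : R y * Xi σ κ R A = Xi σ κ R (σ y * A) := by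
  simp only [Xi]
  rw [mul_smul_comm, Finset.mul_sum]
  congr 1
  refine Fintype.sum_equiv (Equiv.mulLeft y) _ _ fun z => ?_
  simp only [Equiv.coe_mulLeft]
  rw [mul_smul_comm, ← map_mul]
  congr 1
  rw [_root_.mul_inv_rev, map_mul]
  have h1 : σ y⁻¹ * σ y = 1 := by rw [← map_mul]; simp
  calc Matrix.trace (A * σ z⁻¹) = Matrix.trace ((σ y⁻¹ * σ y) * (A * σ z⁻¹)) := by rw [h1, one_mul]
    _ = Matrix.trace (σ y⁻¹ * (σ y * (A * σ z⁻¹))) := by rw [mul_assoc]
    _ = Matrix.trace ((σ y * (A * σ z⁻¹)) * σ y⁻¹) := by rw [Matrix.trace_mul_comm]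
    _ = _ := by simp only [mul_assoc]

theorem Xi_right (y : K) (A : Matrix (Fin n) (Fin n) 𝕜) : Xi σ κ R A * R y = Xi σ κ R (A * σ y) := by
  simp only [Xi]
  rw [smul_mul_assoc, Finset.sum_mul]
  congr 1
  refine Fintype.sum_equiv (Equiv.mulRight y) _ _ fun z => ?_
  simp only [Equiv.coe_mulRight]
  rw [smul_mul_assoc, ← map_mul]
  congr 1
  rw [_root_.mul_inv_rev, map_mul]
  have h1 : σ y * σ y⁻¹ = 1 := by rw [← map_mul]; simp
  calc Matrix.trace (A * σ z⁻¹) = Matrix.trace (A * (σ y * σ y⁻¹) * σ z⁻¹) := by rw [h1, mul_one]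
    _ = _ := by simp only [mul_assoc]

include h in
theorem Xi_mul (A A' : Matrix (Fin n) (Fin n) 𝕜) : Xi (B := B) σ κ R A * Xi σ κ R A' = Xi σ κ R (A * A') := by
  have h1 : Xi (B := B) σ κ R A * Xi σ κ R A' = κ • ∑ y, Matrix.trace (A * σ y⁻¹) • Xi σ κ R (σ y * A') := by
    conv_lhs => arg 1; rw [Xi]
    rw [smul_mul_assoc, Finset.sum_mul]
    congr 1
    refine Finset.sum_congr rfl fun y _ => ?_
    rw [smul_mul_assoc, Xi_left]
  rw [h1]
  simp only [Xi, Finset.smul_sum, smul_smul]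
  rw [Finset.sum_comm]
  refine Finset.sum_congr rfl fun g _ => ?_
  rw [← Finset.sum_smul]
  congr 1
  have h2 := he_O h (A' * σ g⁻¹) A
  have h3 : Matrix.trace (A * A' * σ g⁻¹) = Matrix.trace (A' * σ g⁻¹ * A) := by
    rw [mul_assoc, Matrix.trace_mul_comm]
  rw [h3, ← h2, Finset.mul_sum, Finset.mul_sum]
  refine Finset.sum_congr rfl fun y _ => ?_
  have h4 : Matrix.trace (σ y * A' * σ g⁻¹) = Matrix.trace (A' * σ g⁻¹ * σ y) := by
    rw [mul_assoc, Matrix.trace_mul_comm]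
  rw [h4]
  ring

theorem Xi_conj {u u' : B} (f : K ≃* K) {M M' : Matrix (Fin n) (Fin n) 𝕜} (hMM : M' * M = 1)
    (hf : ∀ y, u * R y * u' = R (f y)) (hσ : ∀ y, σ (f y) = M * σ y * M') (A : Matrix (Fin n) (Fin n) 𝕜) :
    u * Xi σ κ R A * u' = Xi σ κ R (M * A * M') := by
  simp only [Xi]
  rw [mul_smul_comm, smul_mul_assoc, Finset.mul_sum, Finset.sum_mul]
  congr 1
  refine Fintype.sum_equiv f.toEquiv _ _ fun y => ?_
  simp only [MulEquiv.toEquiv_eq_coe, MulEquiv.coe_toEquiv]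
  rw [mul_smul_comm, smul_mul_assoc, hf]
  congr 1
  rw [← map_inv, hσ]
  have h1 : Matrix.trace (M * A * M' * (M * σ y⁻¹ * M')) = Matrix.trace (A * σ y⁻¹ * (M' * M)) := by
    calc Matrix.trace (M * A * M' * (M * σ y⁻¹ * M')) = Matrix.trace (M * (A * (M' * M) * σ y⁻¹ * M')) := by
          simp only [mul_assoc]
      _ = Matrix.trace (A * (M' * M) * σ y⁻¹ * M' * M) := by
          rw [Matrix.trace_mul_comm]
      _ = _ := by
          rw [hMM, mul_one, mul_assoc _ M' M, hMM, mul_one]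
  rw [h1, hMM, mul_one]

/-- The corner property. -/
theorem Xi_corner {Pm : Matrix (Fin n) (Fin n) 𝕜} (hh : HE σ κ) (hPm : ∀ C, Pm * C * Pm = Matrix.trace (Pm * C) • Pm) (y : K) :
    Xi (B := B) σ κ R Pm * R y * Xi σ κ R Pm = Matrix.trace (Pm * σ y) • Xi σ κ R Pm := by
  rw [Xi_right, Xi_mul R hh, hPm, Xi_smul]

theorem Xi_eq_sum (Pm : Matrix (Fin n) (Fin n) 𝕜) :
    Xi (B := B) σ κ R Pm = κ • ∑ y, Matrix.trace (Pm * σ y) • R y⁻¹ := by
  simp only [Xi]
  congr 1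
  exact Fintype.sum_equiv (Equiv.inv K) _ _ fun y => by simp

include h in
theorem xi_norm {Pm : Matrix (Fin n) (Fin n) 𝕜} (hPm1 : Pm * Pm = Pm) (hPm2 : Matrix.trace Pm = 1) :
    κ * ∑ y, Matrix.trace (Pm * σ y) * Matrix.trace (Pm * σ y⁻¹) = 1 := by
  rw [he_O h, hPm1, hPm2]

end Xi

section Avg

variable {K : Type*} [Group K] [Fintype K] {n : ℕ} {σ : K →* Matrix (Fin n) (Fin n) ℂ} {κ : ℂ}

/-- The average of a coefficient over conjugates is the character. -/
theorem avg_coeff (h : HE σ κ) {Pm : Matrix (Fin n) (Fin n) ℂ} (hPm2 : Matrix.trace Pm = 1) (f : K → ℂ)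
    (hf : ∀ z y, f (z * y * z⁻¹) = f y) :
    κ * ∑ y, Matrix.trace (Pm * σ y⁻¹) * f y =
      ((Fintype.card K : ℕ) : ℂ)⁻¹ * ∑ y, Matrix.trace (σ y⁻¹) * f y := by
  have hc : ((Fintype.card K : ℕ) : ℂ) ≠ 0 := by exact_mod_cast Fintype.card_ne_zero
  have h1 : ∀ z : K, ∑ y, Matrix.trace (Pm * σ y⁻¹) * f y = ∑ y, Matrix.trace (Pm * σ (z * y⁻¹ * z⁻¹)) * f y := by
    intro z
    refine Fintype.sum_equiv (MulAut.conj z⁻¹).toEquiv _ _ fun y => ?_
    simp only [MulEquiv.toEquiv_eq_coe, MulEquiv.coe_toEquiv, MulAut.conj_apply]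
    have hy : z * (z⁻¹ * y * z⁻¹⁻¹)⁻¹ * z⁻¹ = y⁻¹ := by group
    rw [hy, hf]
  have h2 : (Fintype.card K : ℂ) * ∑ y, Matrix.trace (Pm * σ y⁻¹) * f y =
      ∑ y, (∑ z, Matrix.trace (Pm * σ (z * y⁻¹ * z⁻¹))) * f y := by
    have h3 : (Fintype.card K : ℂ) * ∑ y, Matrix.trace (Pm * σ y⁻¹) * f y =
        ∑ z : K, ∑ y, Matrix.trace (Pm * σ (z * y⁻¹ * z⁻¹)) * f y := by
      rw [← Finset.card_univ, ← nsmul_eq_mul, ← Finset.sum_const]
      exact Finset.sum_congr rfl fun z _ => h1 z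
    rw [h3, Finset.sum_comm]
    simp only [Finset.sum_mul]
  have h4 : ∀ y, κ * ∑ z, Matrix.trace (Pm * σ (z * y⁻¹ * z⁻¹)) = Matrix.trace (σ y⁻¹) := by
    intro y
    have h5 := congrArg (fun X => Matrix.trace (Pm * X)) (he_S h (σ y⁻¹))
    simp only [mul_smul_comm, Finset.mul_sum, Matrix.trace_smul, Matrix.trace_sum, smul_eq_mul, mul_one, hPm2] at h5
    rw [← h5]
    simp only [Finset.mul_sum, map_mul]
  rw [eq_inv_mul_iff_mul_eq₀ hc]
  calc (Fintype.card K : ℂ) * (κ * ∑ y, Matrix.trace (Pm * σ y⁻¹) * f y)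
      = κ * ((Fintype.card K : ℂ) * ∑ y, Matrix.trace (Pm * σ y⁻¹) * f y) := by ring
    _ = κ * ∑ y, (∑ z, Matrix.trace (Pm * σ (z * y⁻¹ * z⁻¹))) * f y := by rw [h2]
    _ = ∑ y, (κ * ∑ z, Matrix.trace (Pm * σ (z * y⁻¹ * z⁻¹))) * f y := by
        rw [Finset.mul_sum]
        exact Finset.sum_congr rfl fun y _ => by ring
    _ = _ := by simp only [h4]

end Avg

end Cfsg.Agent.H23.DO
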