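import Cfsg.Agent.Lib.H23.DOIdem

/-!
# The relative trace to the normalizer of a Sylow subgroup of prime order
-/

set_option autoImplicit false
set_option linter.unusedSectionVars false
set_option linter.style.haveILetI false

namespace Cfsg.Agent.H23.DO

open Module

section Orb

variable {α U k : Type*} [DecidableEq α] [Field k] [AddCommGroup U] [Module k U]

theorem sum_free_mem_range {p : ℕ} (hp : p.Prime) (σ : α → α) (hσ : ∀ a, σ^[p] a = a)
    (T : Module.End k U) (f : α → U) (hf : ∀ a, f (σ a) = T (f a)) (Z : Finset α)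
    (hZ : ∀ a ∈ Z, σ a ∈ Z) (hfree : ∀ a ∈ Z, σ a ≠ a) :
    ∑ a ∈ Z, f a ∈ LinearMap.range (∑ i ∈ Finset.range p, T ^ i) := by
  induction' hc : Z.card using Nat.strong_induction_on with n ih generalizing Z
  by_cases hne : Z.Nonempty
  · obtain ⟨a, ha⟩ := hne
    have hit : ∀ i : ℕ, σ^[i] a ∈ Z := by
      intro i
      induction i with
      | zero => simpa using ha
      | succ i ih' =>
        rw [Function.iterate_succ_apply']
        exact hZ _ ih'
    have hfit : ∀ i : ℕ, f (σ^[i] a) = (T ^ i) (f a) := by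
      intro i
      induction i with
      | zero => simp
      | succ i ih' =>
        rw [Function.iterate_succ_apply', hf, ih', pow_succ']
        rfl
    have hper : Function.IsPeriodicPt σ p a := hσ a
    have hinj : Set.InjOn (fun i : ℕ => σ^[i] a) (Finset.range p) := by
      have key : ∀ i j : ℕ, i < j → j < p → σ^[i] a ≠ σ^[j] a := by
        intro i j hij hjp heq
        have h1 : σ^[p - j] (σ^[i] a) = σ^[p - j] (σ^[j] a) := by rw [heq]
        rw [← Function.iterate_add_apply, ← Function.iterate_add_apply] at h1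
        have h2 : p - j + j = p := by omega
        rw [h2, hσ a] at h1
        have hm : Function.IsPeriodicPt σ (p - j + i) a := h1
        have hg := hm.gcd hper
        have hcop : Nat.gcd (p - j + i) p = 1 := by
          have h3 : ¬ p ∣ (p - j + i) := by
            intro hd
            have := Nat.le_of_dvd (by omega) hd
            omega
          exact ((Nat.Prime.coprime_iff_not_dvd hp).mpr h3).symm
        rw [hcop] at hg
        exact hfree a ha hg
      intro i hi j hj hij
      simp only [Finset.mem_coe, Finset.mem_range] at hi hj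
      rcases lt_trichotomy i j with h | h | h
      · exact absurd hij (key i j h hj)
      · exact h
      · exact absurd hij.symm (key j i h hi)
    let O : Finset α := (Finset.range p).image fun i => σ^[i] a
    have hOsub : O ⊆ Z := by
      intro b hb
      obtain ⟨i, -, rfl⟩ := Finset.mem_image.mp hb
      exact hit i
    have hOall : ∀ i : ℕ, σ^[i] a ∈ O := by
      intro i
      refine Finset.mem_image.mpr ⟨i % p, Finset.mem_range.mpr (Nat.mod_lt _ hp.pos), ?_⟩
      exact hper.iterate_mod_apply i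
    have hsumO : ∑ b ∈ O, f b = (∑ i ∈ Finset.range p, T ^ i) (f a) := by
      rw [Finset.sum_image hinj, LinearMap.sum_apply]
      exact Finset.sum_congr rfl fun i _ => hfit i
    have hsplit : ∑ b ∈ Z, f b = ∑ b ∈ O, f b + ∑ b ∈ Z \ O, f b := by
      rw [add_comm, Finset.sum_sdiff hOsub]
    have hcard : (Z \ O).card < n := by
      rw [← hc]
      apply Finset.card_lt_card
      refine ⟨Finset.sdiff_subset, fun h => ?_⟩
      have h1 := h ha
      have h2 := hOall 0
      exact (Finset.mem_sdiff.mp h1).2 (by simpa using h2)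
    have hstable : ∀ b ∈ Z \ O, σ b ∈ Z \ O := by
      intro b hb
      obtain ⟨h1, h2⟩ := Finset.mem_sdiff.mp hb
      refine Finset.mem_sdiff.mpr ⟨hZ b h1, fun h3 => h2 ?_⟩
      obtain ⟨i, -, hi⟩ := Finset.mem_image.mp h3
      have h4 : b = σ^[p - 1 + i] a := by
        have h5 : σ^[p - 1] (σ b) = b := by
          rw [← Function.iterate_succ_apply]
          have : (p - 1).succ = p := by have := hp.pos; omega
          rw [this]
          exact hσ b
        rw [← h5]
        rw [← hi, ← Function.iterate_add_apply]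
      rw [h4]
      exact hOall _
    have hrest := ih _ hcard (Z \ O) hstable (fun b hb => hfree b (Finset.mem_sdiff.mp hb).1) rfl
    rw [hsplit, hsumO]
    exact Submodule.add_mem _ ⟨f a, rfl⟩ hrest
  · rw [Finset.not_nonempty_iff_eq_empty] at hne
    rw [hne, Finset.sum_empty]
    exact Submodule.zero_mem _

end Orb

section Grp

variable {G : Type*} [Group G] [Finite G] {p : ℕ} [hp : Fact p.Prime]

theorem mem_zpowers_of_mem_normalizer {x z : G} (hx : orderOf x = p) (hsq : ¬ p ^ 2 ∣ Nat.card G)
    (hz : z ∈ Subgroup.normalizer ((Subgroup.zpowers x : Subgroup G) : Set G)) (hzp : orderOf z = p) :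
    z ∈ Subgroup.zpowers x := by
  have hP : IsPGroup p (Subgroup.zpowers x) := by
    rw [IsPGroup.iff_card, Nat.card_zpowers, hx]
    exact ⟨1, by simp⟩
  have hQ : IsPGroup p (Subgroup.zpowers z) := by
    rw [IsPGroup.iff_card, Nat.card_zpowers, hzp]
    exact ⟨1, by simp⟩
  have hle : Subgroup.zpowers z ≤ Subgroup.normalizer ((Subgroup.zpowers x : Subgroup G) : Set G) := by
    rw [Subgroup.zpowers_le]
    exact hz
  have hT := hQ.to_sup_of_normal_right' hP hle
  obtain ⟨m, hm⟩ := IsPGroup.iff_card.mp hT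
  have hdvd : Nat.card ↥(Subgroup.zpowers z ⊔ Subgroup.zpowers x) ∣ Nat.card G :=
    Subgroup.card_subgroup_dvd_card _
  have hm1 : m ≤ 1 := by
    by_contra hcon
    apply hsq
    have : p ^ 2 ∣ p ^ m := pow_dvd_pow _ (by omega)
    rw [← hm] at this
    exact this.trans hdvd
  have hcard : Nat.card ↥(Subgroup.zpowers z ⊔ Subgroup.zpowers x) ≤ Nat.card (Subgroup.zpowers x) := by
    rw [hm, Nat.card_zpowers, hx]
    calc p ^ m ≤ p ^ 1 := Nat.pow_le_pow_right hp.out.pos hm1
      _ = p := pow_one p
  have heq : Subgroup.zpowers x = Subgroup.zpowers z ⊔ Subgroup.zpowers x :=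
    Subgroup.eq_of_le_of_card_ge le_sup_right hcard
  rw [heq]
  exact (le_sup_left : Subgroup.zpowers z ≤ _) (Subgroup.mem_zpowers z)

theorem zpowers_eq_of_mem {x z : G} (hx : orderOf x = p) (hz : z ∈ Subgroup.zpowers x) (hzp : orderOf z = p) :
    Subgroup.zpowers z = Subgroup.zpowers x := by
  apply Subgroup.eq_of_le_of_card_ge
  · rw [Subgroup.zpowers_le]; exact hz
  · rw [Nat.card_zpowers, Nat.card_zpowers, hx, hzp]

theorem mem_normalizer_of_conj_mem {x g : G} (hx : orderOf x = p) (h : g⁻¹ * x * g ∈ Subgroup.zpowers x) :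
    g ∈ Subgroup.normalizer ((Subgroup.zpowers x : Subgroup G) : Set G) := by
  have hord : orderOf (g⁻¹ * x * g) = p := by
    rw [← hx]
    have := MulEquiv.orderOf_eq (MulAut.conj g⁻¹) x
    simpa [MulAut.conj_apply] using this
  have hz := zpowers_eq_of_mem hx h hord
  have hxm : x ∈ Subgroup.zpowers (g⁻¹ * x * g) := by
    rw [hz]; exact Subgroup.mem_zpowers x
  obtain ⟨k, hk⟩ := Subgroup.mem_zpowers_iff.mp hxm
  rw [Subgroup.mem_normalizer_iff]
  intro y
  constructor
  · intro hy
    obtain ⟨i, rfl⟩ := Subgroup.mem_zpowers_iff.mp hy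
    have h1 : g * (x ^ i) * g⁻¹ = x ^ (k * i) := by
      have h2 : x ^ k = g * x * g⁻¹ := by
        have h3 : (g⁻¹ * x * g) ^ k = g⁻¹ * x ^ k * g := by
          have := conj_zpow (a := g⁻¹) (b := x) (i := k)
          simpa using this
        rw [h3] at hk
        have h4 : x ^ k = g * (g⁻¹ * x ^ k * g) * g⁻¹ := by group
        rw [h4, hk]
      have h5 : g * (x ^ i) * g⁻¹ = (g * x * g⁻¹) ^ i := by
        rw [conj_zpow]
      rw [h5, ← h2, ← zpow_mul]
    rw [h1]
    exact Subgroup.zpow_mem _ (Subgroup.mem_zpowers x) _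
  · intro hy
    obtain ⟨i, hi⟩ := Subgroup.mem_zpowers_iff.mp hy
    have h1 : y = (g⁻¹ * x * g) ^ i := by
      have h3 : (g⁻¹ * x * g) ^ i = g⁻¹ * x ^ i * g := by
        have := conj_zpow (a := g⁻¹) (b := x) (i := i)
        simpa using this
      rw [h3, hi]
      group
    rw [h1, ← hz]
    exact Subgroup.zpow_mem _ (Subgroup.mem_zpowers _) _

/-- `x` acts without fixed points on the cosets of the normalizer different from the trivial one. -/
theorem smul_ne_of_not_mem {x g : G} (hx : orderOf x = p) (hsq : ¬ p ^ 2 ∣ Nat.card G)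
    (hg : g ∉ Subgroup.normalizer ((Subgroup.zpowers x : Subgroup G) : Set G)) :
    g⁻¹ * x * g ∉ Subgroup.normalizer ((Subgroup.zpowers x : Subgroup G) : Set G) := by
  intro h
  have hord : orderOf (g⁻¹ * x * g) = p := by
    rw [← hx]
    have := MulEquiv.orderOf_eq (MulAut.conj g⁻¹) x
    simpa [MulAut.conj_apply] using this
  exact hg (mem_normalizer_of_conj_mem hx (mem_zpowers_of_mem_normalizer hx hsq h hord))

theorem coprime_index_normalizer {x : G} (hx : orderOf x = p) (hsq : ¬ p ^ 2 ∣ Nat.card G) :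
    ¬ p ∣ (Subgroup.normalizer ((Subgroup.zpowers x : Subgroup G) : Set G)).index := by
  intro h
  apply hsq
  have h1 : p ∣ Nat.card (Subgroup.normalizer ((Subgroup.zpowers x : Subgroup G) : Set G)) := by
    have h2 : Subgroup.zpowers x ≤ Subgroup.normalizer ((Subgroup.zpowers x : Subgroup G) : Set G) := by
      rw [Subgroup.zpowers_le]
      exact mem_normalizer_of_conj_mem hx (by simp)
    have h3 := Subgroup.card_dvd_of_le h2
    rw [Nat.card_zpowers, hx] at h3
    exact h3
  rw [← Subgroup.card_mul_index (Subgroup.normalizer ((Subgroup.zpowers x : Subgroup G) : Set G)), pow_two]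
  exact mul_dvd_mul h1 h

end Grp

section Trace

variable {G : Type*} [Group G] [Finite G] {p : ℕ} [hp : Fact p.Prime]
  {k U : Type*} [Field k] [CharP k p] [AddCommGroup U] [Module k U] [FiniteDimensional k U]

/-- The norm element of `x`. -/
noncomputable def nrm (ρ : G →* Module.End k U) (x : G) (p : ℕ) : Module.End k U :=
  ∑ i ∈ Finset.range p, (ρ x) ^ i

theorem commute_nrm (ρ : G →* Module.End k U) (x : G) (p : ℕ) {A : Module.End k U}
    (h : Commute (ρ x) A) : Commute (nrm ρ x p) A :=
  Commute.sum_left _ _ _ fun i _ => h.pow_left i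

theorem rho_mul_inv (ρ : G →* Module.End k U) (g : G) : ρ g * ρ g⁻¹ = 1 := by
  rw [← map_mul, mul_inv_cancel, map_one]

theorem rho_inv_mul (ρ : G →* Module.End k U) (g : G) : ρ g⁻¹ * ρ g = 1 := by
  rw [← map_mul, inv_mul_cancel, map_one]

/-- Properties of the relative trace from the normalizer. -/
theorem tr_props (ρ : G →* Module.End k U) {x : G} (hx : orderOf x = p) (hsq : ¬ p ^ 2 ∣ Nat.card G)
    [Fintype (G ⧸ Subgroup.normalizer ((Subgroup.zpowers x : Subgroup G) : Set G))]
    (F : Module.End k U)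
    (hF : ∀ n ∈ Subgroup.normalizer ((Subgroup.zpowers x : Subgroup G) : Set G), Commute (ρ n) F) :
    let N := Subgroup.normalizer ((Subgroup.zpowers x : Subgroup G) : Set G)
    let T : Module.End k U := ∑ q : G ⧸ N, ρ q.out * F * ρ q.out⁻¹
    (∀ g, Commute (ρ g) T) ∧ ∀ w, ρ x w = w → T w - F w ∈ LinearMap.range (nrm ρ x p) := by
  classical
  intro N T
  let ψ : G ⧸ N → Module.End k U := fun q => ρ q.out * F * ρ q.out⁻¹
  have hψ : ∀ (g : G) (q : G ⧸ N), ψ (g • q) = ρ g * ψ q * ρ g⁻¹ := by
    intro g q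
    have h1 : g • q = ((g * q.out : G) : G ⧸ N) := by
      conv_lhs => rw [← QuotientGroup.out_eq' q]
      rfl
    obtain ⟨n, hn⟩ := QuotientGroup.mk_out_eq_mul N (g * q.out)
    have h2 : (g • q).out = g * q.out * n := by rw [h1, hn]
    simp only [ψ]
    rw [h2]
    have h3 : ρ (n : G) * F * ρ (n : G)⁻¹ = F := by
      rw [(hF n n.2).eq, mul_assoc, rho_mul_inv, mul_one]
    have h4 : (g * q.out * (n : G))⁻¹ = (n : G)⁻¹ * (q.out⁻¹ * g⁻¹) := by group
    rw [h4, map_mul, map_mul, map_mul, map_mul]
    calc ρ g * ρ q.out * ρ (n : G) * F * (ρ (n : G)⁻¹ * (ρ q.out⁻¹ * ρ g⁻¹))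
        = ρ g * ρ q.out * (ρ (n : G) * F * ρ (n : G)⁻¹) * (ρ q.out⁻¹ * ρ g⁻¹) := by
          simp only [mul_assoc]
      _ = _ := by rw [h3]; simp only [mul_assoc]
  have hTψ : T = ∑ q : G ⧸ N, ψ q := rfl
  refine ⟨?_, ?_⟩
  · intro g
    show ρ g * T = T * ρ g
    have h1 : ρ g * T * ρ g⁻¹ = T := by
      rw [hTψ, Finset.mul_sum, Finset.sum_mul]
      refine Fintype.sum_equiv (MulAction.toPerm g) _ _ fun q => ?_
      exact (hψ g q).symm
    calc ρ g * T = ρ g * T * (ρ g⁻¹ * ρ g) := by rw [rho_inv_mul, mul_one]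
      _ = (ρ g * T * ρ g⁻¹) * ρ g := by simp only [mul_assoc]
      _ = T * ρ g := by rw [h1]
  · intro w hw
    let q₀ : G ⧸ N := ((1 : G) : G ⧸ N)
    have hq₀ : ψ q₀ = F := by
      have h0 : q₀.out ∈ N := by
        have : ((q₀.out : G) : G ⧸ N) = ((1 : G) : G ⧸ N) := QuotientGroup.out_eq' q₀
        have h1 := QuotientGroup.eq.mp this
        simpa using h1
      simp only [ψ]
      rw [(hF _ h0).eq, mul_assoc, rho_mul_inv, mul_one]
    have hxN : x ∈ N := mem_normalizer_of_conj_mem hx (by simp)
    have hinv : ρ x⁻¹ w = w := by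
      have h1 : ρ x⁻¹ (ρ x w) = w := by
        have := congrFun (congrArg DFunLike.coe (rho_inv_mul ρ x)) w
        simpa using this
      rwa [hw] at h1
    let f : G ⧸ N → U := fun q => ψ q w
    have hf : ∀ q, f (x • q) = ρ x (f q) := by
      intro q
      simp only [f]
      rw [hψ]
      show ρ x (ψ q (ρ x⁻¹ w)) = _
      rw [hinv]
    have hsplit : T w - F w = ∑ q ∈ Finset.univ.erase q₀, f q := by
      have h1 : T w = ∑ q, f q := by
        rw [hTψ, LinearMap.sum_apply]
      rw [h1, ← Finset.add_sum_erase _ _ (Finset.mem_univ q₀)]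
      simp only [f]
      rw [hq₀]
      abel
    rw [hsplit]
    have hσ : ∀ q : G ⧸ N, (fun q : G ⧸ N => x • q)^[p] q = q := by
      intro q
      rw [smul_iterate, ← hx, pow_orderOf_eq_one]
      exact one_smul _ _
    have hsx₀ : x • q₀ = q₀ := by
      have : x • q₀ = ((x * 1 : G) : G ⧸ N) := rfl
      rw [this, mul_one]
      exact (QuotientGroup.eq.mpr (by simpa using N.inv_mem hxN))
    exact sum_free_mem_range hp.out (fun q : G ⧸ N => x • q) hσ (ρ x) f hf _
      (by
        intro q hq
        rw [Finset.mem_erase] at hq ⊢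
        refine ⟨fun h => hq.1 ?_, Finset.mem_univ _⟩
        have h1 : x⁻¹ • (x • q) = q := inv_smul_smul x q
        rw [h] at h1
        rw [← h1, inv_smul_eq_iff]
        exact hsx₀.symm)
      (by
        intro q hq heq
        rw [Finset.mem_erase] at hq
        obtain ⟨g, rfl⟩ := QuotientGroup.mk_surjective q
        have h1 : ((x * g : G) : G ⧸ N) = (g : G ⧸ N) := heq
        have h2 := QuotientGroup.eq.mp h1
        have h3 : (x * g)⁻¹ * g = g⁻¹ * x⁻¹ * g := by group
        rw [h3] at h2
        have h4 : g⁻¹ * x * g ∈ N := by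
          have := N.inv_mem h2
          have h5 : (g⁻¹ * x⁻¹ * g)⁻¹ = g⁻¹ * x * g := by group
          rwa [h5] at this
        by_cases hgN : g ∈ N
        · apply hq.1
          exact QuotientGroup.eq.mpr (by simpa using N.inv_mem hgN)
        · exact smul_ne_of_not_mem hx hsq hgN h4)

/-- If the relative trace of an idempotent is invertible then the idempotent is the identity
modulo norms on fixed vectors. -/
theorem of_isUnit_tr (ρ : G →* Module.End k U) {x : G} {F T : Module.End k U}
    (hcT : Commute (ρ x) T) (hu : IsUnit T) (hFx : Commute (ρ x) F) (hFF : F * F = F)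
    (hT : ∀ w, ρ x w = w → T w - F w ∈ LinearMap.range (nrm ρ x p)) :
    ∀ w, ρ x w = w → w - F w ∈ LinearMap.range (nrm ρ x p) := by
  intro w hw
  let w' := w - F w
  have hw' : ρ x w' = w' := by
    simp only [w', map_sub]
    have : ρ x (F w) = F (ρ x w) := congrFun (congrArg DFunLike.coe hFx.eq) w
    rw [this, hw]
  have hFw' : F w' = 0 := by
    simp only [w', map_sub]
    have : F (F w) = F w := congrFun (congrArg DFunLike.coe hFF) w
    rw [this, sub_self]
  have h1 := hT w' hw'
  rw [hFw', sub_zero] at h1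
  obtain ⟨v, hv⟩ := h1
  obtain ⟨Tu, rfl⟩ := hu
  let S : Module.End k U := ((Tu⁻¹ : (Module.End k U)ˣ) : Module.End k U)
  have hST : S * (Tu : Module.End k U) = 1 := Units.inv_mul Tu
  have hTS : (Tu : Module.End k U) * S = 1 := Units.mul_inv Tu
  have hcS : Commute (nrm ρ x p) S := by
    have h2 : Commute (ρ x) S := by
      have h3 : Commute (ρ x) (Tu : Module.End k U) := hcT
      exact h3.units_inv_right
    exact commute_nrm ρ x p h2
  refine ⟨S v, ?_⟩
  have h4 : nrm ρ x p (S v) = S (nrm ρ x p v) := congrFun (congrArg DFunLike.coe hcS.eq) v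
  rw [h4, hv]
  have h5 : S ((Tu : Module.End k U) w') = w' := by
    have := congrFun (congrArg DFunLike.coe hST) w'
    simpa using this
  exact h5

/-- **The dichotomy**: if the commutant of `ρ` is "local" then every idempotent commuting with
the normalizer acts as `0` or `1` on `ker (x - 1) / im (norm)`. -/
theorem dichotomy (ρ : G →* Module.End k U) {x : G} (hx : orderOf x = p) (hsq : ¬ p ^ 2 ∣ Nat.card G)
    (hloc : ∀ S T : Module.End k U, (∀ g, Commute (ρ g) S) → (∀ g, Commute (ρ g) T) → ∀ c : k, c ≠ 0 →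
      S + T = c • 1 → IsUnit S ∨ IsUnit T)
    (E : Module.End k U) (hEE : E * E = E)
    (hE : ∀ n ∈ Subgroup.normalizer ((Subgroup.zpowers x : Subgroup G) : Set G), Commute (ρ n) E) :
    (∀ w, ρ x w = w → E w ∈ LinearMap.range (nrm ρ x p)) ∨
      (∀ w, ρ x w = w → w - E w ∈ LinearMap.range (nrm ρ x p)) := by
  classical
  haveI : Fintype (G ⧸ Subgroup.normalizer ((Subgroup.zpowers x : Subgroup G) : Set G)) := Fintype.ofFinite _
  have hxN : x ∈ Subgroup.normalizer ((Subgroup.zpowers x : Subgroup G) : Set G) :=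
    mem_normalizer_of_conj_mem hx (by simp)
  have hE' : ∀ n ∈ Subgroup.normalizer ((Subgroup.zpowers x : Subgroup G) : Set G), Commute (ρ n) (1 - E) :=
    fun n hn => (Commute.one_right _).sub_right (hE n hn)
  obtain ⟨h1c, h1t⟩ := tr_props ρ hx hsq E hE
  obtain ⟨h2c, h2t⟩ := tr_props ρ hx hsq (1 - E) hE'
  have hsum : (∑ q : G ⧸ Subgroup.normalizer ((Subgroup.zpowers x : Subgroup G) : Set G), ρ q.out * E * ρ q.out⁻¹) + (∑ q : G ⧸ Subgroup.normalizer ((Subgroup.zpowers x : Subgroup G) : Set G), ρ q.out * (1 - E) * ρ q.out⁻¹)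
      = ((Fintype.card (G ⧸ Subgroup.normalizer ((Subgroup.zpowers x : Subgroup G) : Set G)) : ℕ) : k) • (1 : Module.End k U) := by
    rw [← Finset.sum_add_distrib]
    have : ∀ q : G ⧸ Subgroup.normalizer ((Subgroup.zpowers x : Subgroup G) : Set G), ρ q.out * E * ρ q.out⁻¹ + ρ q.out * (1 - E) * ρ q.out⁻¹ = 1 := by
      intro q
      rw [← add_mul, ← mul_add, add_sub_cancel, mul_one, rho_mul_inv]
    rw [Finset.sum_congr rfl fun q _ => this q, Finset.sum_const, Finset.card_univ, Nat.cast_smul_eq_nsmul]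
  have hc : ((Fintype.card (G ⧸ Subgroup.normalizer ((Subgroup.zpowers x : Subgroup G) : Set G)) : ℕ) : k) ≠ 0 := by
    intro h0
    rw [CharP.cast_eq_zero_iff k p] at h0
    apply coprime_index_normalizer hx hsq
    rw [Subgroup.index, ← Nat.card_eq_fintype_card] at *
    exact h0
  rcases hloc _ _ h1c h2c _ hc hsum with hu | hu
  · right
    exact of_isUnit_tr ρ (h1c x) hu (hE x hxN) hEE h1t
  · left
    intro w hw
    have hFF : (1 - E) * (1 - E) = 1 - E := by
      noncomm_ring
      rw [hEE]
      abel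
    have := of_isUnit_tr ρ (h2c x) hu (hE' x hxN) hFF h2t w hw
    have h3 : w - (1 - E) w = E w := by
      simp
    rwa [h3] at this

end Trace

end Cfsg.Agent.H23.DO
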