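import Cfsg.Agent.Lib.H23.BStruct
import Cfsg.Agent.Lib.H23.BXi
import Cfsg.Agent.Lib.H23.DOGreen

/-!
# Orbit sums of idempotents
-/

set_option autoImplicit false
set_option linter.unusedSectionVars false
set_option linter.style.haveILetI false

namespace Cfsg.Agent.H23.DO

open Module

section Orbit

variable {k U G : Type*} [Field k] [AddCommGroup U] [Module k U] [Group G]
  (ρ : G →* Module.End k U) (τ : G) (d : ℕ) (Ah Eh : Module.End k U)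

/-- The conjugate of an idempotent. -/
noncomputable def Tt (i : ℕ) : Module.End k U := ρ (τ ^ i) * Ah * ρ (τ⁻¹ ^ i)

/-- The orbit sum. -/
noncomputable def Ab : Module.End k U := ∑ i ∈ Finset.range d, Tt ρ τ Ah i

theorem rho_pow_inv (i : ℕ) : ρ (τ ^ i) * ρ (τ⁻¹ ^ i) = 1 := by
  rw [← map_mul, inv_pow, mul_inv_cancel, map_one]

theorem rho_inv_pow (i : ℕ) : ρ (τ⁻¹ ^ i) * ρ (τ ^ i) = 1 := by
  rw [← map_mul, inv_pow, inv_mul_cancel, map_one]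

variable {d Ah Eh} (hAA : Ah * Ah = Ah) (hEA : Eh * Ah = Ah) (hAE : Ah * Eh = Ah)
  (hper : ρ (τ ^ d) * Ah = Ah * ρ (τ ^ d))
  (horth : ∀ i j, i < d → j < d → i ≠ j → Eh * ρ (τ⁻¹ ^ i * τ ^ j) * Eh = 0)

include hAA hEA hAE horth in
theorem Tt_mul {i j : ℕ} (hi : i < d) (hj : j < d) :
    Tt ρ τ Ah i * Tt ρ τ Ah j = if i = j then Tt ρ τ Ah i else 0 := by
  split_ifs with h
  · subst h
    simp only [Tt]
    calc ρ (τ ^ i) * Ah * ρ (τ⁻¹ ^ i) * (ρ (τ ^ i) * Ah * ρ (τ⁻¹ ^ i))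
        = ρ (τ ^ i) * Ah * (ρ (τ⁻¹ ^ i) * ρ (τ ^ i)) * Ah * ρ (τ⁻¹ ^ i) := by simp only [mul_assoc]
      _ = ρ (τ ^ i) * (Ah * Ah) * ρ (τ⁻¹ ^ i) := by
          rw [rho_inv_pow, mul_one]; simp only [mul_assoc]
      _ = _ := by rw [hAA]
  · simp only [Tt]
    calc ρ (τ ^ i) * Ah * ρ (τ⁻¹ ^ i) * (ρ (τ ^ j) * Ah * ρ (τ⁻¹ ^ j))
        = ρ (τ ^ i) * (Ah * Eh) * ρ (τ⁻¹ ^ i * τ ^ j) * (Eh * Ah) * ρ (τ⁻¹ ^ j) := by
          rw [hAE, hEA, map_mul]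
          simp only [mul_assoc]
      _ = ρ (τ ^ i) * Ah * (Eh * ρ (τ⁻¹ ^ i * τ ^ j) * Eh) * Ah * ρ (τ⁻¹ ^ j) := by simp only [mul_assoc]
      _ = 0 := by rw [horth i j hi hj h]; simp

include hAA hEA hAE horth in
theorem Ab_idem : Ab ρ τ d Ah * Ab ρ τ d Ah = Ab ρ τ d Ah := by
  simp only [Ab]
  rw [Finset.sum_mul_sum]
  refine Finset.sum_congr rfl fun i hi => ?_
  have hi' := Finset.mem_range.mp hi
  rw [Finset.sum_eq_single i]
  · rw [Tt_mul ρ τ hAA hEA hAE horth hi' hi', if_pos rfl]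
  · intro j hj hne
    rw [Tt_mul ρ τ hAA hEA hAE horth hi' (Finset.mem_range.mp hj), if_neg (Ne.symm hne)]
  · intro h
    exact absurd hi h

include hper in
theorem Ab_comm_tau : Commute (ρ τ) (Ab ρ τ d Ah) := by
  show ρ τ * Ab ρ τ d Ah = Ab ρ τ d Ah * ρ τ
  simp only [Ab]
  rw [Finset.mul_sum, Finset.sum_mul]
  have h1 : ∀ i, ρ τ * Tt ρ τ Ah i = Tt ρ τ Ah (i + 1) * ρ τ := by
    intro i
    simp only [Tt]
    have h2 : ρ (τ⁻¹ ^ (i + 1)) * ρ τ = ρ (τ⁻¹ ^ i) := by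
      rw [pow_succ, map_mul, mul_assoc, ← map_mul, inv_mul_cancel, map_one, mul_one]
    rw [mul_assoc _ _ (ρ τ), h2, pow_succ', map_mul]
    simp only [mul_assoc]
  simp only [h1]
  rw [← Finset.sum_mul, ← Finset.sum_mul]
  congr 1
  have h3 : Tt ρ τ Ah d = Tt ρ τ Ah 0 := by
    simp only [Tt, pow_zero, map_one, one_mul, mul_one]
    rw [hper, mul_assoc, rho_pow_inv, mul_one]
  have h4 := Finset.sum_range_succ' (Tt ρ τ Ah) d
  have h5 := Finset.sum_range_succ (Tt ρ τ Ah) d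
  rw [h5, h3] at h4
  exact (add_right_cancel h4).symm

theorem Ab_comm_of {h : G} (hh : ∀ i, i < d → Commute (ρ (τ⁻¹ ^ i * h * τ ^ i)) Ah) :
    Commute (ρ h) (Ab ρ τ d Ah) := by
  apply Commute.sum_right
  intro i hi
  have h1 := (hh i (Finset.mem_range.mp hi)).eq
  show ρ h * Tt ρ τ Ah i = Tt ρ τ Ah i * ρ h
  simp only [Tt]
  have h2 : ρ h * ρ (τ ^ i) = ρ (τ ^ i) * ρ (τ⁻¹ ^ i * h * τ ^ i) := by
    rw [← map_mul, ← map_mul]
    congr 1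
    rw [inv_pow]
    group
  have h3 : ρ (τ⁻¹ ^ i * h * τ ^ i) * ρ (τ⁻¹ ^ i) = ρ (τ⁻¹ ^ i) * ρ h := by
    rw [← map_mul, ← map_mul]
    congr 1
    rw [inv_pow]
    group
  calc ρ h * (ρ (τ ^ i) * Ah * ρ (τ⁻¹ ^ i)) = (ρ h * ρ (τ ^ i)) * Ah * ρ (τ⁻¹ ^ i) := by simp only [mul_assoc]
    _ = ρ (τ ^ i) * (ρ (τ⁻¹ ^ i * h * τ ^ i) * Ah) * ρ (τ⁻¹ ^ i) := by rw [h2]; simp only [mul_assoc]
    _ = ρ (τ ^ i) * Ah * (ρ (τ⁻¹ ^ i * h * τ ^ i) * ρ (τ⁻¹ ^ i)) := by rw [h1]; simp only [mul_assoc]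
    _ = _ := by rw [h3]; simp only [mul_assoc]

include hAE horth in
theorem Ab_apply (hd : 0 < d) {w : U} (hw : Eh w = w) : Ab ρ τ d Ah w = Ah w := by
  simp only [Ab]
  rw [LinearMap.sum_apply, Finset.sum_eq_single 0]
  · simp [Tt]
  · intro i hi h0
    have h1 := horth i 0 (Finset.mem_range.mp hi) hd h0
    simp only [pow_zero, mul_one] at h1
    have h2 : Ah (ρ (τ⁻¹ ^ i) w) = 0 := by
      calc Ah (ρ (τ⁻¹ ^ i) w) = (Ah * Eh * ρ (τ⁻¹ ^ i) * Eh) w := by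
            simp only [hAE, Module.End.mul_apply, hw]
        _ = (Ah * (Eh * ρ (τ⁻¹ ^ i) * Eh)) w := by simp only [mul_assoc]
        _ = 0 := by rw [h1]; simp
    simp only [Tt, Module.End.mul_apply, h2, map_zero]
  · intro h
    exact absurd (Finset.mem_range.mpr hd) h

end Orbit

end Cfsg.Agent.H23.DO
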