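import Cfsg.Agent.Lib.H23.BEk
import Cfsg.Agent.Lib.H23.BCoreA

/-!
# The local structure for a general character of the complement
-/

set_option autoImplicit false
set_option linter.unusedSectionVars false
set_option linter.style.haveILetI false

namespace Cfsg.Agent.H23.DO

open Module Matrix Cfsg Cfsg.Agent.H22 Cfsg.Agent.H21

universe u

section Gen

variable {𝕜 B K : Type*} [CommRing 𝕜] [Ring B] [Algebra 𝕜 B] [Group K] [Fintype K]

theorem Psi_left_eq (R : K →* B) (κ : 𝕜) {A Eh : B} (hc : ∀ y, Commute Eh (R y)) (hA : Eh * A = A) :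
    Eh * Psi R κ A = Psi R κ A := by
  simp only [Psi]
  rw [mul_smul_comm, Finset.mul_sum]
  congr 1
  refine Finset.sum_congr rfl fun y _ => ?_
  calc Eh * (R y * A * R y⁻¹) = (Eh * R y) * A * R y⁻¹ := by simp only [mul_assoc]
    _ = R y * (Eh * A) * R y⁻¹ := by rw [(hc y).eq]; simp only [mul_assoc]
    _ = _ := by rw [hA]

theorem Psi_right_eq (R : K →* B) (κ : 𝕜) {A Eh : B} (hc : ∀ y, Commute Eh (R y)) (hA : A * Eh = A) :
    Psi R κ A * Eh = Psi R κ A := by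
  simp only [Psi]
  rw [smul_mul_assoc, Finset.sum_mul]
  congr 1
  refine Finset.sum_congr rfl fun y _ => ?_
  calc R y * A * R y⁻¹ * Eh = R y * A * (R y⁻¹ * Eh) := by simp only [mul_assoc]
    _ = R y * (A * Eh) * R y⁻¹ := by rw [← (hc y⁻¹).eq]; simp only [mul_assoc]
    _ = _ := by rw [hA]

end Gen

variable {G : Type u} [Group G] [Finite G] {p : ℕ} [Fact p.Prime] (D : DS G p) [Fintype D.K]
  {V : ValuationSubring ℂ} {ι : Type*} [Fintype ι] [DecidableEq ι]

/-- Reduction to endomorphisms. -/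
noncomputable def tl : Matrix ι ι V →+* Module.End (IsLocalRing.ResidueField V) (ι → IsLocalRing.ResidueField V) :=
  ((Matrix.toLinAlgEquiv' : Matrix ι ι (IsLocalRing.ResidueField V) ≃ₐ[IsLocalRing.ResidueField V]
    ((ι → IsLocalRing.ResidueField V) →ₗ[IsLocalRing.ResidueField V] (ι → IsLocalRing.ResidueField V))).toRingEquiv :
      Matrix ι ι (IsLocalRing.ResidueField V) →+* _).comp rm

theorem tl_apply (X : Matrix ι ι V) (w : ι → IsLocalRing.ResidueField V) : tl X w = rm X *ᵥ w := by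
  simp [tl, Matrix.toLinAlgEquiv'_apply]

theorem tl_smul (c : V) (X : Matrix ι ι V) : tl (c • X) = res V c • tl X := by
  ext w i
  simp only [LinearMap.coe_comp, Function.comp_apply, LinearMap.smul_apply]
  rw [tl_apply, tl_apply]
  have h : rm (c • X) = res V c • rm X := by
    ext a b
    simp [Matrix.map_apply]
  rw [h, Matrix.smul_mulVec]

theorem rb_eq_tl (R : G →* Matrix ι ι V) (g : G) : rb R g = tl (R g) := rfl

theorem nrmE_tl (R : G →* Matrix ι ι V) (x : G) (e : Matrix ι ι V) (u : ι → IsLocalRing.ResidueField V) :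
    nrmE (rb R x) p (tl e u) = (nrmM (rm (R x)) p * rm e) *ᵥ u := by
  simp only [nrmE, nrmM]
  rw [← Matrix.mulVec_mulVec, ← tl_apply e u]
  rw [LinearMap.sum_apply]
  rw [Matrix.sum_mulVec]
  refine Finset.sum_congr rfl fun i _ => ?_
  rw [rb_eq_tl, ← map_pow, tl_apply, map_pow]

/-- `g` stabilizes the character. -/
def Stz (K : Subgroup G) (β : IrrCharacter K) (g : G) : Prop :=
  ∀ y y' : K, (y' : G) = g * y * g⁻¹ → β.1 y' = β.1 y

theorem Stz_inv {K : Subgroup G} {β : IrrCharacter K} {g : G} (h : Stz K β g) : Stz K β g⁻¹ := by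
  intro y y' hy
  have h1 : (y : G) = g * y' * g⁻¹ := by
    rw [hy]
    group
  exact (h y' y h1).symm

/-- The normalizer. -/
abbrev NNs (D : DS G p) : Subgroup G := Subgroup.normalizer ((Subgroup.zpowers D.x : Subgroup G) : Set G)

theorem DS.normK {n : G} (hn : n ∈ NNs D) : ∀ y ∈ D.K, n⁻¹ * y * n ∈ D.K := by
  intro y hy
  have := D.hKN n⁻¹ (Subgroup.inv_mem _ hn) y hy
  simpa using this

section Abs

variable {k U : Type*} [Field k] [AddCommGroup U] [Module k U] [CharP k p] [FiniteDimensional k U]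
  (ρ : G →* Module.End k U) {d : ℕ} {Ah Eh : Module.End k U}

theorem orbit_dich (hsq : ¬ p ^ 2 ∣ Nat.card G)
    (hloc : ∀ S T : Module.End k U, (∀ g, Commute (ρ g) S) → (∀ g, Commute (ρ g) T) → ∀ c : k, c ≠ 0 →
      S + T = c • 1 → IsUnit S ∨ IsUnit T)
    (hAA : Ah * Ah = Ah) (hEA : Eh * Ah = Ah) (hAE : Ah * Eh = Ah)
    (hx : Commute (ρ D.x) Ah) (hK : ∀ y ∈ D.K, Commute (ρ y) Ah) (hτ : Commute (ρ (D.τ ^ d)) Ah)
    (horth : ∀ i j, i < d → j < d → i ≠ j → Eh * ρ (D.τ⁻¹ ^ i * D.τ ^ j) * Eh = 0) :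
    (∀ w, ρ D.x w = w → Ab ρ D.τ d Ah w ∈ LinearMap.range (nrm ρ D.x p)) ∨
      (∀ w, ρ D.x w = w → w - Ab ρ D.τ d Ah w ∈ LinearMap.range (nrm ρ D.x p)) := by
  have hid := Ab_idem ρ D.τ hAA hEA hAE horth
  have hτN : ∀ i : ℕ, D.τ⁻¹ ^ i ∈ NNs D := fun i => Subgroup.pow_mem _ (Subgroup.inv_mem _ D.τ_mem) i
  have hxc : Commute (ρ D.x) (Ab ρ D.τ d Ah) := by
    apply Ab_comm_of
    intro i _
    have h1 : D.τ⁻¹ ^ i * D.x * (D.τ⁻¹ ^ i)⁻¹ ∈ Subgroup.zpowers D.x :=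
      (Subgroup.mem_normalizer_iff.mp (hτN i) D.x).mp (Subgroup.mem_zpowers _)
    have h2 : D.τ⁻¹ ^ i * D.x * D.τ ^ i ∈ Subgroup.zpowers D.x := by
      rw [inv_pow, inv_inv] at h1
      rwa [inv_pow]
    obtain ⟨m, hm⟩ := mem_powers_iff_mem_zpowers.mpr h2
    rw [← hm, map_pow]
    exact hx.pow_left m
  have hyc : ∀ y ∈ D.K, Commute (ρ y) (Ab ρ D.τ d Ah) := by
    intro y hy
    apply Ab_comm_of
    intro i _
    apply hK
    have h1 := D.hKN _ (hτN i) y hy
    rw [inv_pow, inv_inv] at h1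
    rwa [inv_pow]
  have hτc : Commute (ρ D.τ) (Ab ρ D.τ d Ah) := Ab_comm_tau ρ D.τ hτ.eq
  refine dichotomy ρ D.hx hsq hloc _ hid ?_
  intro n hn
  obtain ⟨i, j, y, hy, rfl⟩ := D.hNdec n hn
  rw [map_mul, map_mul, map_pow, map_pow]
  exact ((hτc.pow_left i).mul_left (hxc.pow_left j)).mul_left (hyc y hy)

end Abs

variable (R : G →* Matrix ι ι V)

/-- The restriction to the complement. -/
noncomputable abbrev RK : D.K →* Matrix ι ι V := R.comp D.K.subtype

variable {D} {β : IrrCharacter D.K} {d : ℕ} (B : BD D.K V β (D.τ ^ d) D.e)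

/-- The corner idempotent. -/
noncomputable def eps0 : Matrix ι ι V := Xi B.σ B.κ (RK D R) B.Pm

theorem Xi_one (hV : (p : ℂ) ∈ V.nonunits) : Xi B.σ B.κ (RK D R) 1 = eK D.K R β := by
  simp only [Xi, eK, Finset.smul_sum, smul_smul, one_mul]
  refine Finset.sum_congr rfl fun y _ => ?_
  congr 1
  apply Subtype.ext
  rw [bK_coe hV D.hKp, blockCoeff_single]
  push_cast
  rw [B.hκ, ← Nat.card_eq_fintype_card]
  have h1 : ((Matrix.trace (B.σ y⁻¹) : V) : ℂ) = Matrix.trace (cm (B.σ y⁻¹)) := by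
    simp only [Matrix.trace, Matrix.diag, map_sum]
    push_cast
    rfl
  rw [h1, B.htr]
  ring

theorem eps0_idem : eps0 R B * eps0 R B = eps0 R B := by
  simp only [eps0]
  rw [Xi_mul (RK D R) B.hE, B.hPm1]

theorem eK_eps0 (hV : (p : ℂ) ∈ V.nonunits) : eK D.K R β * eps0 R B = eps0 R B := by
  simp only [eps0]
  rw [← Xi_one R B hV, Xi_mul (RK D R) B.hE, one_mul]

theorem eps0_eK (hV : (p : ℂ) ∈ V.nonunits) : eps0 R B * eK D.K R β = eps0 R B := by
  simp only [eps0]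
  rw [← Xi_one R B hV, Xi_mul (RK D R) B.hE, mul_one]

theorem eps0_comm_x : Commute (R D.x) (eps0 R B) := by
  simp only [eps0, Xi]
  apply Commute.smul_right
  apply Commute.sum_right
  intro y _
  apply Commute.smul_right
  show R D.x * R y = R y * R D.x
  rw [← map_mul, ← map_mul, D.hxK y y.2]

theorem Pm_M' : B.Pm * B.M' = B.lam' • B.Pm := by
  have h1 : B.Pm = B.Pm * B.M * B.M' := by rw [mul_assoc, B.hMM, mul_one]
  rw [B.hPmM, smul_mul_assoc] at h1
  calc B.Pm * B.M' = (B.lam' * B.lam) • (B.Pm * B.M') := by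
        rw [mul_comm, B.hlam, one_smul]
    _ = B.lam' • (B.lam • (B.Pm * B.M')) := by rw [smul_smul]
    _ = _ := by rw [← h1]

theorem eps0_conj : R (D.τ ^ d) * eps0 R B * R (D.τ ^ d)⁻¹ = eps0 R B := by
  simp only [eps0]
  rw [Xi_conj (RK D R) B.f B.hM'M ?_ B.hσf]
  · congr 1
    rw [B.hMPm, smul_mul_assoc, Pm_M', smul_smul, B.hlam, one_smul]
  · intro y
    simp only [RK, MonoidHom.comp_apply, Subgroup.subtype_apply]
    rw [B.hf, map_mul, map_mul]

theorem eps0_comm_tau : Commute (R (D.τ ^ d)) (eps0 R B) := by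
  show R (D.τ ^ d) * eps0 R B = eps0 R B * R (D.τ ^ d)
  conv_rhs => rw [← eps0_conj R B]
  rw [mul_assoc _ _ (R (D.τ ^ d)), ← map_mul, inv_mul_cancel, map_one, mul_one]

theorem eps0_pow (he : (D.τ ^ d) ^ D.e ∈ D.K) : R (D.τ ^ d) ^ D.e * eps0 R B = B.lam ^ D.e • eps0 R B := by
  rw [← map_pow]
  have h1 : R ((D.τ ^ d) ^ D.e) = RK D R ⟨_, he⟩ := rfl
  simp only [eps0]
  rw [h1, Xi_left, B.hz _ rfl, Xi_smul]

/-- The hypothesis on idempotents in the structure theorem. -/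
theorem Hprime (hsq : ¬ p ^ 2 ∣ Nat.card G) (hV : (p : ℂ) ∈ V.nonunits)
    (hloc : ∀ S T : Module.End (IsLocalRing.ResidueField V) (ι → IsLocalRing.ResidueField V),
      (∀ g, Commute (rb R g) S) → (∀ g, Commute (rb R g) T) →
        ∀ c : IsLocalRing.ResidueField V, c ≠ 0 → S + T = c • 1 → IsUnit S ∨ IsUnit T)
    (hd : 0 < d) (hnst : ∀ m, 0 < m → m < d → ¬ Stz D.K β (D.τ ^ m))
    (A : Module.End (IsLocalRing.ResidueField V) (ι → IsLocalRing.ResidueField V))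
    (hAA : A * A = A) (hEA : tl (eps0 R B) * A = A) (hAE : A * tl (eps0 R B) = A)
    (hAx : Commute A (rb R D.x)) (hAτ : Commute A (rb R (D.τ ^ d))) :
    let Rk : D.K →* Module.End (IsLocalRing.ResidueField V) (ι → IsLocalRing.ResidueField V) :=
      (rb R).comp D.K.subtype
    let Ah := Psi Rk (res V B.κ) A
    (∀ w, tl (eK D.K R β) w = w → Ab (rb R) D.τ d Ah w = Ah w) ∧
    (tl (eps0 R B) * Ah * tl (eps0 R B) = A) ∧
    (Ah * tl (eK D.K R β) = Ah) ∧ (Ah * Ah = Ah) ∧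
    ((∀ w, rb R D.x w = w → Ab (rb R) D.τ d Ah w ∈ LinearMap.range (nrm (rb R) D.x p)) ∨
      (∀ w, rb R D.x w = w → w - Ab (rb R) D.τ d Ah w ∈ LinearMap.range (nrm (rb R) D.x p))) := by
  intro Rk Ah
  haveI : CharP (IsLocalRing.ResidueField V) p := charP_res Fact.out hV
  have hKp := D.hKp
  let E₀ := tl (eps0 R B)
  let Eh := tl (eK D.K R β)
  have hRk : ∀ y : D.K, Rk y = tl (R (y : G)) := fun y => rfl
  -- corner data
  let φ : D.K → IsLocalRing.ResidueField V := fun y => res V (Matrix.trace (B.Pm * B.σ y))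
  have hE₁ : ∀ y, E₀ * Rk y * E₀ = φ y • E₀ := by
    intro y
    have h1 := Xi_corner (RK D R) B.hE B.hPm y
    have h2 := congrArg tl h1
    simp only [map_mul, tl_smul] at h2
    exact h2
  have hE₂ : E₀ = res V B.κ • ∑ y, φ y • Rk y⁻¹ := by
    have h1 := Xi_eq_sum (RK D R) (σ := B.σ) (κ := B.κ) B.Pm
    have h2 := congrArg tl h1
    rw [tl_smul, map_sum] at h2
    simp only [tl_smul] at h2
    exact h2
  have hE₃ : res V B.κ * ∑ y, φ y * φ y⁻¹ = 1 := by
    have h1 := xi_norm B.hE B.hPm1 B.hPm2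
    have h2 := congrArg (res V) h1
    rw [map_mul, map_sum, map_one] at h2
    simp only [map_mul] at h2
    exact h2
  have hEE0 : Eh * E₀ = E₀ := by
    simp only [Eh, E₀]
    rw [← map_mul, eK_eps0 R B hV]
  have hE0E : E₀ * Eh = E₀ := by
    simp only [Eh, E₀]
    rw [← map_mul, eps0_eK R B hV]
  have hEc : ∀ y : D.K, Commute Eh (Rk y) := by
    intro y
    rw [hRk]
    exact ((eK_comm_K R hV hKp y.2 β).symm).map tl
  have hAhA : Ah * Ah = Ah := Psi_idem Rk (res V B.κ) φ hE₁ hE₂ hAA hEA hAE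
  have hEA' : Eh * A = A := by rw [← hEA, ← mul_assoc, hEE0]
  have hAE' : A * Eh = A := by rw [← hAE, mul_assoc, hE0E]
  have hAh1 : Eh * Ah = Ah := Psi_left_eq Rk _ hEc hEA'
  have hAh2 : Ah * Eh = Ah := Psi_right_eq Rk _ hEc hAE'
  have hcorner : E₀ * Ah * E₀ = A := corner_Psi Rk (res V B.κ) φ hE₁ hE₃ hEA hAE
  have hconjI : ∀ g : G, (∀ y : D.K, rb R g * Rk y * rb R g⁻¹ = Rk y) → Commute A (rb R g) →
      Commute (rb R g) Ah := by
    intro g h1 h2
    have h3 := Psi_conj Rk (res V B.κ) (u := rb R g) (u' := rb R g⁻¹) (rho_inv_mul _ _) (MulEquiv.refl _)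
      (fun y => h1 y) A
    have h4 : rb R g * A * rb R g⁻¹ = A := by
      rw [← h2.eq, mul_assoc, rho_mul_inv, mul_one]
    rw [h4] at h3
    show rb R g * Ah = Ah * rb R g
    calc rb R g * Ah = rb R g * Ah * (rb R g⁻¹ * rb R g) := by rw [rho_inv_mul, mul_one]
      _ = (rb R g * Ah * rb R g⁻¹) * rb R g := by simp only [mul_assoc]
      _ = _ := by rw [h3]
  have hAhx : Commute (rb R D.x) Ah := by
    apply hconjI _ _ hAx
    intro y
    rw [hRk, rb_eq_tl, rb_eq_tl, ← map_mul, ← map_mul]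
    congr 1
    rw [← map_mul, ← map_mul, D.hxK y y.2]
    simp
  have hAhK : ∀ y ∈ D.K, Commute (rb R y) Ah := fun y hy => Psi_comm Rk (res V B.κ) A ⟨y, hy⟩
  have hAhτ : Commute (rb R (D.τ ^ d)) Ah := by
    have h3 := Psi_conj Rk (res V B.κ) (u := rb R (D.τ ^ d)) (u' := rb R (D.τ ^ d)⁻¹) (rho_inv_mul _ _) B.f
      (fun y => by
        show tl (R (D.τ ^ d)) * tl (R y) * tl (R (D.τ ^ d)⁻¹) = tl (R (B.f y))
        rw [B.hf, ← map_mul, ← map_mul, ← map_mul, ← map_mul]) A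
    have h4 : rb R (D.τ ^ d) * A * rb R (D.τ ^ d)⁻¹ = A := by
      rw [← hAτ.eq, mul_assoc, rho_mul_inv, mul_one]
    rw [h4] at h3
    show rb R (D.τ ^ d) * Ah = Ah * rb R (D.τ ^ d)
    calc rb R (D.τ ^ d) * Ah = rb R (D.τ ^ d) * Ah * (rb R (D.τ ^ d)⁻¹ * rb R (D.τ ^ d)) := by rw [rho_inv_mul, mul_one]
      _ = (rb R (D.τ ^ d) * Ah * rb R (D.τ ^ d)⁻¹) * rb R (D.τ ^ d) := by simp only [mul_assoc]
      _ = _ := by rw [h3]
  have hτN : ∀ i j : ℕ, D.τ⁻¹ ^ i * D.τ ^ j ∈ NNs D := fun i j =>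
    Subgroup.mul_mem _ (Subgroup.pow_mem _ (Subgroup.inv_mem _ D.τ_mem) i) (Subgroup.pow_mem _ D.τ_mem j)
  have horth : ∀ i j, i < d → j < d → i ≠ j → Eh * rb R (D.τ⁻¹ ^ i * D.τ ^ j) * Eh = 0 := by
    intro i j hi hj hij
    simp only [Eh]
    rw [rb_eq_tl, ← map_mul, ← map_mul]
    rw [eK_zero R hV hKp (D.hKN _ (hτN i j)) (D.normK (hτN i j)) β β, map_zero]
    intro hst
    have hst' : Stz D.K β (D.τ⁻¹ ^ i * D.τ ^ j) := hst
    rcases lt_or_gt_of_ne hij with hlt | hgt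
    · apply hnst (j - i) (by omega) (by omega)
      have h1 : D.τ⁻¹ ^ i * D.τ ^ j = D.τ ^ (j - i) := by
        rw [inv_pow]
        obtain ⟨m, rfl⟩ := Nat.exists_eq_add_of_lt hlt
        have : i + m + 1 - i = m + 1 := by omega
        rw [this, show i + m + 1 = i + (m + 1) by omega, pow_add]
        group
      rwa [h1] at hst'
    · apply hnst (i - j) (by omega) (by omega)
      have h1 : D.τ⁻¹ ^ i * D.τ ^ j = (D.τ ^ (i - j))⁻¹ := by
        rw [inv_pow]
        obtain ⟨m, rfl⟩ := Nat.exists_eq_add_of_lt hgt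
        have : j + m + 1 - j = m + 1 := by omega
        rw [this, show j + m + 1 = j + (m + 1) by omega, pow_add]
        group
      rw [h1] at hst'
      have := Stz_inv hst'
      rwa [inv_inv] at this
  refine ⟨fun w hw => Ab_apply (rb R) D.τ hAh2 horth hd hw, hcorner, hAh2, hAhA, ?_⟩
  exact orbit_dich D (rb R) hsq hloc hAhA hAh1 hAh2 hAhx hAhK hAhτ horth

end Cfsg.Agent.H23.DO
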