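import Cfsg.Agent.Lib.H23.BCoreB

/-!
# The local structure for a general character of the complement, continued
-/

set_option autoImplicit false
set_option linter.unusedSectionVars false
set_option linter.style.haveILetI false

namespace Cfsg.Agent.H23.DO

open Module Matrix Cfsg Cfsg.Agent.H22 Cfsg.Agent.H21

universe u

variable {G : Type u} [Group G] [Finite G] {p : ℕ} [Fact p.Prime] {D : DS G p} [Fintype D.K]
  {V : ValuationSubring ℂ} {ι : Type*} [Fintype ι] [DecidableEq ι]
  (R : G →* Matrix ι ι V) {β : IrrCharacter D.K} {d : ℕ} (B : BD D.K V β (D.τ ^ d) D.e)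

section

variable (hsq : ¬ p ^ 2 ∣ Nat.card G) (hV : (p : ℂ) ∈ V.nonunits)
    (hloc : ∀ S T : Module.End (IsLocalRing.ResidueField V) (ι → IsLocalRing.ResidueField V),
      (∀ g, Commute (rb R g) S) → (∀ g, Commute (rb R g) T) →
        ∀ c : IsLocalRing.ResidueField V, c ≠ 0 → S + T = c • 1 → IsUnit S ∨ IsUnit T)
    (hd : 0 < d) (hnst : ∀ m, 0 < m → m < d → ¬ Stz D.K β (D.τ ^ m))

include hsq hV hloc hd hnst in
theorem exists_z_coreB (he : (D.τ ^ d) ^ D.e ∈ D.K) {s₁ : ℕ} (hs₁ : D.τ ^ d * D.x * (D.τ ^ d)⁻¹ = D.x ^ s₁)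
    (hs₁p : Nat.Coprime s₁ p) :
    ∃ z : ι → IsLocalRing.ResidueField V, ∀ w, rb R D.x w = w → tl (eps0 R B) w = w →
      ∃ (c : IsLocalRing.ResidueField V) (u : ι → IsLocalRing.ResidueField V),
        w = c • z + nrmE (rb R D.x) p (tl (eps0 R B) u) := by
  haveI : CharP (IsLocalRing.ResidueField V) p := charP_res Fact.out hV
  obtain ⟨ξ, hξ⟩ := exists_primitive_val (V := V) D.e D.he
  have hek : ((D.e : ℕ) : IsLocalRing.ResidueField V) ≠ 0 := by
    intro h
    have h3 : p ∣ D.e := (CharP.cast_eq_zero_iff (IsLocalRing.ResidueField V) p D.e).mp h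
    have h4 : p ∣ 1 := by
      have := Nat.dvd_gcd h3 (dvd_refl p)
      rw [D.hep] at this
      exact this
    exact (Fact.out : p.Prime).one_lt.ne' (Nat.dvd_one.mp h4)
  let E₀ := tl (eps0 R B)
  let u := rb R (D.τ ^ d)
  let u' := rb R (D.τ ^ d)⁻¹
  let c := res V B.lam'
  let c' := res V B.lam
  have hcc : c * c' = 1 := by
    simp only [c, c']
    rw [← map_mul, mul_comm, B.hlam, map_one]
  have hc'c : c' * c = 1 := by rw [mul_comm, hcc]
  have hEa : Commute E₀ (rb R D.x) := ((eps0_comm_x R B).symm).map tl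
  have hEu : Commute E₀ u := ((eps0_comm_tau R B).symm).map tl
  have hEE : E₀ * E₀ = E₀ := by
    simp only [E₀]
    rw [← map_mul, eps0_idem]
  have hfix : ∀ {w}, E₀ w = w → tl (eK D.K R β) w = w := by
    intro w hw
    have h1 : tl (eK D.K R β) * E₀ = E₀ := by
      simp only [E₀]
      rw [← map_mul, eK_eps0 R B hV]
    rw [← hw]
    exact congrFun (congrArg DFunLike.coe h1) w
  have hnrm : ∀ v, E₀ (nrm (rb R) D.x p v) = nrmE (rb R D.x) p (E₀ v) := by
    intro v
    have h1 : Commute (nrm (rb R) D.x p) E₀ := commute_nrm (rb R) D.x p hEa.symm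
    exact congrFun (congrArg DFunLike.coe h1.symm.eq) v
  refine struct_main' (rb R D.x) (c • u) (c' • u') E₀ s₁ D.e (res V ξ) ?_ ?_ ?_ ?_ hs₁p D.he hek
    (res_primitive hV D.he D.hep hξ) hEE hEa (hEu.smul_right c) ?_ ?_
  · rw [smul_mul_smul_comm, hcc, one_smul]
    exact rho_mul_inv _ _
  · rw [smul_mul_smul_comm, hc'c, one_smul]
    exact rho_inv_mul _ _
  · rw [← map_pow, D.x_pow, map_one]
  · rw [smul_mul_assoc, smul_mul_assoc, mul_smul_comm, smul_smul, hcc, one_smul]
    show rb R _ * rb R _ * rb R _ = _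
    rw [← map_mul, ← map_mul, hs₁, map_pow]
  · rw [_root_.smul_pow, smul_mul_assoc]
    have h1 : u ^ D.e * E₀ = c' ^ D.e • E₀ := by
      have h2 := congrArg tl (eps0_pow R B he)
      rw [map_mul, map_pow tl, tl_smul, map_pow (res V)] at h2
      exact h2
    rw [h1, smul_smul, ← mul_pow, hcc, one_pow, one_smul]
  · intro A hAA hEA hAE hAa hAt
    have hAu : Commute A u := by
      have h1 : u = c' • (c • u) := by rw [smul_smul, hc'c, one_smul]
      rw [h1]
      exact hAt.smul_right c'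
    obtain ⟨h1, h2, h3, h4, h5⟩ := Hprime R B hsq hV hloc hd hnst A hAA hEA hAE hAa hAu
    rcases h5 with h | h
    · left
      intro w hw hEw
      have h6 := h w hw
      rw [h1 w (hfix hEw)] at h6
      obtain ⟨v, hv⟩ := h6
      refine ⟨E₀ v, ?_⟩
      rw [← hnrm, hv]
      have h7 := congrFun (congrArg DFunLike.coe h2) w
      simp only [Module.End.mul_apply] at h7
      have h8 : tl (eps0 R B) w = w := hEw
      rw [h8] at h7
      exact h7
    · right
      intro w hw hEw
      have h6 := h w hw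
      rw [h1 w (hfix hEw)] at h6
      obtain ⟨v, hv⟩ := h6
      refine ⟨E₀ v, ?_⟩
      rw [← hnrm, hv]
      have h7 := congrFun (congrArg DFunLike.coe h2) w
      simp only [Module.End.mul_apply] at h7
      have h8 : tl (eps0 R B) w = w := hEw
      rw [h8] at h7
      rw [map_sub, hEw]
      simp only [E₀]
      rw [h7]

include hsq hV hloc hd hnst in
theorem core_rankB (he : (D.τ ^ d) ^ D.e ∈ D.K) {s₁ : ℕ} (hs₁ : D.τ ^ d * D.x * (D.τ ^ d)⁻¹ = D.x ^ s₁)
    (hs₁p : Nat.Coprime s₁ p) {ζ ζ' : V} (hζ : ζ ^ p = 1) (hζ' : ζ' ^ p = 1) :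
    (cm (Yy (R D.x) (eps0 R B) ζ p)).rank ≤ (cm (Yy (R D.x) (eps0 R B) ζ' p)).rank + 1 := by
  obtain ⟨z, hz⟩ := exists_z_coreB R B hsq hV hloc hd hnst he hs₁ hs₁p
  have hAp : R D.x ^ p = 1 := by rw [← map_pow, D.x_pow, map_one]
  have h1 := ri_bound hV hAp (eps0_comm_x R B) (eps0_idem R B) hζ hζ' z ?_
  · refine h1.trans (Nat.add_le_add_left ?_ _)
    have := finrank_span_le_card (R := IsLocalRing.ResidueField V) ({z} : Set (ι → IsLocalRing.ResidueField V))
    simpa using this
  · intro w h2 h3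
    obtain ⟨c, u, hu⟩ := hz w (by rw [rb_apply]; exact h2) (by rw [tl_apply]; exact h3)
    exact ⟨c, u, by rw [hu, nrmE_tl]⟩

include hsq hV hloc hd hnst in
theorem core_valB {ζ ζ' : V} (hζ : ζ ^ p = 1) (hζ' : ζ' ^ p = 1)
    (hne : (cm (Yy (R D.x) (eps0 R B) ζ p)).rank ≠ (cm (Yy (R D.x) (eps0 R B) ζ' p)).rank)
    (hτd : Commute (rb R (D.τ ^ d)) (tl (eps0 R B)))
    (γ : IrrCharacter D.K) (hγ : ∀ n ∈ NNs D, ¬ ∀ y y' : D.K, (y' : G) = n * y * n⁻¹ → β.1 y' = γ.1 y)
    {n : ℕ} (hn : Nat.Coprime n p) :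
    (cm (R (D.x ^ n) * eK D.K R γ)).trace = 0 := by
  haveI : CharP (IsLocalRing.ResidueField V) p := charP_res Fact.out hV
  have hpp : p.Prime := Fact.out
  have hAp : R D.x ^ p = 1 := by rw [← map_pow, D.x_pow, map_one]
  let E₀ := tl (eps0 R B)
  have hEa : Commute E₀ (rb R D.x) := ((eps0_comm_x R B).symm).map tl
  have hEE : E₀ * E₀ = E₀ := by
    simp only [E₀]
    rw [← map_mul, eps0_idem]
  have hfix : ∀ {w}, E₀ w = w → tl (eK D.K R β) w = w := by
    intro w hw
    have h1 : tl (eK D.K R β) * E₀ = E₀ := by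
      simp only [E₀]
      rw [← map_mul, eK_eps0 R B hV]
    rw [← hw]
    exact congrFun (congrArg DFunLike.coe h1) w
  have hnrm : ∀ v, E₀ (nrm (rb R) D.x p v) = nrmE (rb R D.x) p (E₀ v) := by
    intro v
    have h1 : Commute (nrm (rb R) D.x p) E₀ := commute_nrm (rb R) D.x p hEa.symm
    exact congrFun (congrArg DFunLike.coe h1.symm.eq) v
  obtain ⟨h1, h2, h3, h4, h5⟩ := Hprime R B hsq hV hloc hd hnst E₀ hEE hEE hEE hEa hτd.symm
  rcases h5 with h | h
  · exfalso
    have hz : ∀ w, rm (R D.x) *ᵥ w = w → rm (eps0 R B) *ᵥ w = w →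
        ∃ (c : IsLocalRing.ResidueField V) (u : ι → IsLocalRing.ResidueField V),
          w = c • (0 : ι → IsLocalRing.ResidueField V) + (nrmM (rm (R D.x)) p * rm (eps0 R B)) *ᵥ u := by
      intro w h6 h7
      have hEw : E₀ w = w := by
        simp only [E₀]
        rw [tl_apply]
        exact h7
      have h8 := h w (by rw [rb_apply]; exact h6)
      rw [h1 w (hfix hEw)] at h8
      obtain ⟨v, hv⟩ := h8
      refine ⟨0, v, ?_⟩
      rw [zero_smul, zero_add, ← nrmE_tl]
      show w = nrmE (rb R D.x) p (E₀ v)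
      rw [← hnrm, hv]
      have h9 := congrFun (congrArg DFunLike.coe h2) w
      simp only [Module.End.mul_apply] at h9
      have h10 : tl (eps0 R B) w = w := hEw
      rw [h10] at h9
      exact h9.symm
    apply hne
    apply le_antisymm
    · have := ri_bound hV hAp (eps0_comm_x R B) (eps0_idem R B) hζ hζ' 0 hz
      rwa [finrank_span_zero_aux, add_zero] at this
    · have := ri_bound hV hAp (eps0_comm_x R B) (eps0_idem R B) hζ' hζ 0 hz
      rwa [finrank_span_zero_aux, add_zero] at this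
  · obtain ⟨ω, hω⟩ := exists_primitive_val (V := V) p hpp.pos
    have hee : eK D.K R γ * eK D.K R γ = eK D.K R γ := by
      rw [eK_mul R hV D.hKp, if_pos rfl]
    have hxn : (D.x ^ n) ^ p = 1 := by rw [← pow_mul, mul_comm, pow_mul, D.x_pow, one_pow]
    obtain ⟨m, _, hm⟩ := Nat.exists_mul_mod_eq_one_of_coprime hn hpp.one_lt
    have hxm : (D.x ^ n) ^ m = D.x := by
      rw [← pow_mul]
      have h1 : D.x ^ (n * m) = D.x ^ ((n * m) % p) := by
        have := pow_mod_orderOf D.x (n * m)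
        rw [D.hx] at this
        exact this.symm
      rw [h1, hm, pow_one]
    have hAe : Commute (R (D.x ^ n)) (eK D.K R γ) :=
      eK_comm_cent R (fun y hy => by
        have : Commute D.x y := D.hxK y hy
        exact (this.pow_left n).eq) γ
    refine trace_zero_of_HT hV (by rw [← map_pow, hxn, map_one]) hAe hee hω ?_
    intro w h6 h7
    have h8 : rb R D.x w = w := by
      have h9 : rb R (D.x ^ n) w = w := by rw [rb_apply]; exact h6
      have h10 : ∀ j : ℕ, rb R ((D.x ^ n) ^ j) w = w := by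
        intro j
        induction j with
        | zero => simp
        | succ j ih =>
          rw [pow_succ, map_mul, Module.End.mul_apply, h9, ih]
      have := h10 m
      rwa [hxm] at this
    have hEg : tl (eK D.K R γ) w = w := by
      rw [tl_apply]
      exact h7
    have hτN : ∀ i : ℕ, D.τ⁻¹ ^ i ∈ NNs D := fun i => Subgroup.pow_mem _ (Subgroup.inv_mem _ D.τ_mem) i
    have hAb0 : Ab (rb R) D.τ d (Psi ((rb R).comp D.K.subtype) (res V B.κ) E₀) w = 0 := by
      simp only [Ab]
      rw [LinearMap.sum_apply]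
      apply Finset.sum_eq_zero
      intro i _
      have h9 : tl (eK D.K R β) * rb R (D.τ⁻¹ ^ i) * tl (eK D.K R γ) = 0 := by
        rw [rb_eq_tl, ← map_mul, ← map_mul]
        rw [eK_zero R hV D.hKp (D.hKN _ (hτN i)) (D.normK (hτN i)) γ β (hγ _ (hτN i)), map_zero]
      have h10 : (Psi ((rb R).comp D.K.subtype) (res V B.κ) E₀) (rb R (D.τ⁻¹ ^ i) w) = 0 := by
        have h11 := congrFun (congrArg DFunLike.coe h3) (rb R (D.τ⁻¹ ^ i) w)
        simp only [Module.End.mul_apply] at h11
        rw [← h11]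
        have h12 := congrFun (congrArg DFunLike.coe h9) w
        simp only [Module.End.mul_apply, hEg] at h12
        rw [h12]
        simp
      simp only [Tt, Module.End.mul_apply, h10, map_zero]
    obtain ⟨v, hv⟩ := h w h8
    rw [hAb0, sub_zero] at hv
    refine ⟨v, ?_⟩
    have h9 : nrmM (rm (R (D.x ^ n))) p = nrmM (rm (R D.x)) p := by
      simp only [nrmM]
      rw [map_pow, map_pow]
      exact nrm_pow_eq hpp.pos (by rw [← map_pow, ← map_pow, D.x_pow, map_one, map_one]) hn
    rw [h9, ← nrmE_tl]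
    have hcg : Commute (nrm (rb R) D.x p) (tl (eK D.K R γ)) := by
      apply commute_nrm
      rw [rb_eq_tl]
      exact (eK_comm_cent R (fun y hy => D.hxK y hy) γ).map tl
    have h10 := congrFun (congrArg DFunLike.coe hcg.symm.eq) v
    simp only [Module.End.mul_apply] at h10
    rw [hv, hEg] at h10
    exact h10

end

end Cfsg.Agent.H23.DO
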