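import Cfsg.Agent.Lib.H23.BGal2

/-!
# Blocks of positive defect when the prime divides the group order exactly once
-/

set_option autoImplicit false
set_option linter.unusedSectionVars false
set_option linter.style.haveILetI false

namespace Cfsg.Agent.H23.DO

open Module Matrix Cfsg Cfsg.Agent.H22 Cfsg.Agent.H21
open scoped ComplexConjugate

universe u

variable {G : Type u} [Group G] [Finite G] {p : ℕ} [Fact p.Prime]

theorem exists_sylow_card (hdiv : p ∣ Nat.card G) (hsq : ¬ p ^ 2 ∣ Nat.card G) :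
    ∃ P : Sylow p G, Nat.card P = p := by
  have hpp : p.Prime := Fact.out
  obtain ⟨P⟩ : Nonempty (Sylow p G) := inferInstance
  refine ⟨P, ?_⟩
  rw [P.card_eq_multiplicity]
  have h1 : (Nat.card G).factorization p = 1 := by
    have h2 := (hpp.dvd_iff_one_le_factorization Nat.card_pos.ne').mp hdiv
    have h3 : ¬ 2 ≤ (Nat.card G).factorization p := fun h =>
      hsq ((hpp.pow_dvd_iff_le_factorization Nat.card_pos.ne').mpr h)
    omega
  rw [h1, pow_one]

theorem fact_eq_one (hdiv : p ∣ Nat.card G) (hsq : ¬ p ^ 2 ∣ Nat.card G) :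
    (Nat.card G).factorization p = 1 := by
  have hpp : p.Prime := Fact.out
  have h2 := (hpp.dvd_iff_one_le_factorization Nat.card_pos.ne').mp hdiv
  have h3 : ¬ 2 ≤ (Nat.card G).factorization p := fun h =>
    hsq ((hpp.pow_dvd_iff_le_factorization Nat.card_pos.ne').mpr h)
  omega

theorem ordCompl_facts :
    (Nat.card G / p ^ (Nat.card G).factorization p ≠ 0) ∧
    Nat.Coprime (Nat.card G / p ^ (Nat.card G).factorization p) p ∧
    ∀ u : G, ¬ p ∣ orderOf u → orderOf u ∣ (Nat.card G / p ^ (Nat.card G).factorization p) := by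
  have hpp : p.Prime := Fact.out
  have h0 : Nat.card G ≠ 0 := Nat.card_pos.ne'
  refine ⟨(Nat.ordCompl_pos p h0).ne', (Nat.coprime_ordCompl hpp h0).symm, fun u hu => ?_⟩
  have h1 : orderOf u ∣ Nat.card G := orderOf_dvd_natCard u
  have h2 := Nat.ordProj_mul_ordCompl_eq_self (Nat.card G) p
  rw [← h2] at h1
  have h3 : Nat.Coprime (orderOf u) (p ^ (Nat.card G).factorization p) :=
    Nat.Coprime.pow_right _ ((hpp.coprime_iff_not_dvd.mpr hu).symm)
  exact h3.dvd_of_dvd_mul_left h1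

variable {M : Ideal AlgInt}

open scoped Classical in
theorem s4507_core (hM : IsPModular p M) (hdiv : p ∣ Nat.card G) (hsq : ¬ p ^ 2 ∣ Nat.card G)
    (B : Set (IrrCharacter G)) (hB : IsPBlock M B) (hd : 0 < blockDefect p B) :
    ∃ Y : Set (IrrCharacter G), Y ⊆ B ∧ Y.Nonempty ∧
      (∀ θ ∈ Y, ∀ ψ : IrrCharacter G, (∃ σ : ℂ ≃+* ℂ,
        σ (Complex.exp (2 * Real.pi * Complex.I / ((Nat.card G / p ^ (Nat.card G).factorization p) : ℕ))) =
          Complex.exp (2 * Real.pi * Complex.I / ((Nat.card G / p ^ (Nat.card G).factorization p) : ℕ)) ∧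
        (ψ : G → ℂ) = fun g => σ ((θ : G → ℂ) g)) ↔ ψ ∈ Y) ∧
      (∀ χ ∈ B, χ ∉ Y → ∀ ψ : IrrCharacter G, (∃ σ : ℂ ≃+* ℂ,
        σ (Complex.exp (2 * Real.pi * Complex.I / ((Nat.card G / p ^ (Nat.card G).factorization p) : ℕ))) =
          Complex.exp (2 * Real.pi * Complex.I / ((Nat.card G / p ^ (Nat.card G).factorization p) : ℕ)) ∧
        (ψ : G → ℂ) = fun g => σ ((χ : G → ℂ) g)) → ψ = χ) ∧
      Nat.card Y ∣ p - 1 ∧ Nat.card B = Nat.card Y + (p - 1) / Nat.card Y ∧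
      ∃ δ : IrrCharacter G → ℤ, (∀ χ ∈ B, δ χ = 1 ∨ δ χ = -1) ∧
        ∀ x : G, ¬ p ∣ orderOf x → ∀ θ ∈ Y,
          (∑ᶠ χ ∈ B \ Y, (δ χ : ℂ) * (χ : G → ℂ) x) + (δ θ : ℂ) * (θ : G → ℂ) x = 0 := by
  have hpp : p.Prime := Fact.out
  haveI hMp : M.IsPrime := hM.2.1.isPrime
  obtain ⟨P, hP⟩ := exists_sylow_card (G := G) hdiv hsq
  obtain ⟨D, θ, hθ, hker, hCdec, hconj, -, -, -, -⟩ := exists_data P hP
  -- a character of degree prime to `p` in the block
  have hχ₀ : ∃ χ₀ ∈ B, ¬ p ∣ charDegree χ₀.1 := by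
    obtain ⟨χ, hχ⟩ := hB
    have hne : ((fun χ : IrrCharacter G => (charDegree (χ : G → ℂ)).factorization p) '' B).Nonempty := by
      refine ⟨_, χ, ?_, rfl⟩
      rw [hχ]
      intro g
      rw [sub_self]
      exact mli_zero
    have h1 := Nat.sInf_mem hne
    obtain ⟨χ₀, h2, h3⟩ := h1
    refine ⟨χ₀, h2, ?_⟩
    simp only [blockDefect, fact_eq_one hdiv hsq] at hd
    have h4 : (charDegree χ₀.1).factorization p = 0 := by
      simp only at h3
      omega
    rcases Nat.factorization_eq_zero_iff _ _ |>.mp h4 with h5 | h5 | h5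
    · exact absurd hpp h5
    · exact h5
    · exact absurd h5 (irr_charDegree_pos χ₀.2).ne'
  obtain ⟨χ₀, hχ₀B, hχ₀d⟩ := hχ₀
  obtain ⟨β, hβ⟩ : ∃ β : IrrCharacter D.K, SB D β χ₀ := by
    by_contra hcon
    push Not at hcon
    apply hχ₀d
    apply not_dvd_of_all_zero D
    intro γ u
    by_contra h
    exact hcon γ ⟨u, h⟩
  -- the block is the set of characters with a nonzero row on `β`
  have hbl : ∀ ψ, ψ ∈ B ↔ SB D β ψ := by
    obtain ⟨χ, rfl⟩ := hB
    intro ψ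
    have hχχ₀ : SameBlock M χ.1 χ₀.1 := hχ₀B
    rw [← block_iff D θ hθ hker hCdec hconj hsq hM β hβ ψ]
    constructor
    · intro h g
      have a1 := mli_sub (h g) (hχχ₀ g)
      convert a1 using 1
      ring
    · intro h g
      have a1 := mli_add (hχχ₀ g) (h g)
      rwa [sub_add_sub_cancel] at a1
  obtain ⟨X, Yf, s, σ₀, h1, h2, h3, h4, h5, h6, h7, h8⟩ := pack D β θ hθ hker hCdec hsq
  obtain ⟨hg'0, hg'c, hg'd⟩ := ordCompl_facts (G := G) (p := p)
  set g' := Nat.card G / p ^ (Nat.card G).factorization p with hg'def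
  have hσ0 : (σ₀ : ℂ) ≠ 0 := by
    rcases h4 with h | h <;> simp [h]
  have hYreg : ∀ q q', ∀ g : G, ¬ p ∣ orderOf g → (Yf q).1 g = (Yf q').1 g := by
    intro q q' g hg
    have a1 := h8 q g hg
    have a2 := h8 q' g hg
    rw [← a2] at a1
    have hσ : (-σ₀ : ℂ) ≠ 0 := neg_ne_zero.mpr hσ0
    exact mul_left_cancel₀ hσ a1
  have hSBY : ∀ q, SB D β (Yf q) := fun q => (h7 _).mpr (Or.inr ⟨q, rfl⟩)
  -- the action on the exceptional family
  have act_Y : ∀ (σ : ℂ ≃+* ℂ), σ (Complex.exp (2 * Real.pi * Complex.I / (g' : ℕ))) =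
      Complex.exp (2 * Real.pi * Complex.I / (g' : ℕ)) → ∀ (r : (ZMod p)ˣ), σ (ps (1 : ZMod p)) = ps (r : ZMod p) →
      ∀ q, (fun g => σ ((Yf q).1 g)) = (Yf (((r : (ZMod p)ˣ) : (ZMod p)ˣ ⧸ AB D β θ) * q)).1 := by
    intro σ hσ r hr q
    funext g
    refine sigma_val D θ hθ hCdec hconj hsq β σ g' hg'0 hg'd hσ r hr (hSBY q) (hSBY _) ?_ ?_ g
    · intro u
      rw [h6 q, h6]
      have h9 : (((r⁻¹ * u : (ZMod p)ˣ)) : (ZMod p)ˣ ⧸ AB D β θ) = q ↔
          ((u : (ZMod p)ˣ) : (ZMod p)ˣ ⧸ AB D β θ) = ((r : (ZMod p)ˣ) : (ZMod p)ˣ ⧸ AB D β θ) * q := by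
        rw [QuotientGroup.mk_mul, QuotientGroup.mk_inv, inv_mul_eq_iff_eq_mul]
      simp only [h9]
    · intro g hg
      exact hYreg _ _ g hg
  have act_X : ∀ (σ : ℂ ≃+* ℂ), σ (Complex.exp (2 * Real.pi * Complex.I / (g' : ℕ))) =
      Complex.exp (2 * Real.pi * Complex.I / (g' : ℕ)) → ∀ χ ∈ X, (fun g => σ (χ.1 g)) = χ.1 := by
    intro σ hσ χ hχ
    obtain ⟨r, hr⟩ := exists_sigma_ps (p := p) σ
    have hSB : SB D β χ := (h7 χ).mpr (Or.inl hχ)
    funext g
    refine sigma_val D θ hθ hCdec hconj hsq β σ g' hg'0 hg'd hσ r hr hSB hSB ?_ (fun _ _ => rfl) g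
    intro u
    rw [(h5 χ hχ).2, (h5 χ hχ).2]
  have hAB : Nat.card ((ZMod p)ˣ ⧸ AB D β θ) * Nat.card (AB D β θ) = p - 1 := by
    have h9 := Subgroup.card_eq_card_quotient_mul_card_subgroup (AB D β θ)
    rw [natCard_units_aux] at h9
    exact h9.symm
  have hQpos : 0 < Nat.card ((ZMod p)ˣ ⧸ AB D β θ) := Nat.card_pos
  have hY : Nat.card (Set.range Yf) = Nat.card ((ZMod p)ˣ ⧸ AB D β θ) :=
    Nat.card_range_of_injective h1
  have hBeq : B = (↑X : Set (IrrCharacter G)) ∪ Set.range Yf := by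
    ext ψ
    rw [hbl ψ, h7 ψ]
    rfl
  have hdisj : Disjoint (↑X : Set (IrrCharacter G)) (Set.range Yf) := by
    rw [Set.disjoint_left]
    rintro ψ hψ ⟨q, rfl⟩
    exact h2 q hψ
  have hXc : Nat.card (↑X : Set (IrrCharacter G)) = Nat.card (AB D β θ) := by
    rw [← h3, Nat.card_coe_set_eq, Set.ncard_coe_finset]
  refine ⟨Set.range Yf, ?_, ⟨Yf 1, 1, rfl⟩, ?_, ?_, ?_, ?_, ?_⟩
  · rw [hBeq]
    exact Set.subset_union_right
  · rintro _ ⟨q, rfl⟩ ψ
    constructor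
    · rintro ⟨σ, hσ, hψ⟩
      obtain ⟨r, hr⟩ := exists_sigma_ps (p := p) σ
      refine ⟨((r : (ZMod p)ˣ) : (ZMod p)ˣ ⧸ AB D β θ) * q, ?_⟩
      apply Subtype.ext
      rw [hψ]
      exact (act_Y σ hσ r hr q).symm
    · rintro ⟨q', rfl⟩
      obtain ⟨r, hr⟩ := QuotientGroup.mk_surjective (q' * q⁻¹)
      obtain ⟨σ, hσ1, hσ2⟩ := exists_aut_crt (a := g') (b := p) (Nat.pos_of_ne_zero hg'0) hpp.pos hg'c
        ((r : ZMod p)).val (ZMod.val_coe_unit_coprime r)
      have hσ : σ (Complex.exp (2 * Real.pi * Complex.I / (g' : ℕ))) =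
          Complex.exp (2 * Real.pi * Complex.I / (g' : ℕ)) :=
        hσ1 _ (Complex.isPrimitiveRoot_exp g' hg'0).pow_eq_one
      have hr' : σ (ps (1 : ZMod p)) = ps (r : ZMod p) := by
        rw [hσ2 _ (ps_pow 1), ps_nat]
        simp
      refine ⟨σ, hσ, ?_⟩
      have h9 := act_Y σ hσ r hr' q
      rw [h9, hr, inv_mul_cancel_right]
  · intro χ hχ hχY ψ
    rintro ⟨σ, hσ, hψ⟩
    have hχX : χ ∈ X := by
      rw [hBeq] at hχ
      rcases hχ with h | h
      · exact h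
      · exact absurd h hχY
    apply Subtype.ext
    rw [hψ]
    exact act_X σ hσ χ hχX
  · rw [hY]
    exact ⟨_, hAB.symm⟩
  · rw [hY, hBeq]
    have h9 : (p - 1) / Nat.card ((ZMod p)ˣ ⧸ AB D β θ) = Nat.card (AB D β θ) := by
      rw [← hAB]
      exact Nat.mul_div_cancel_left _ hQpos
    rw [h9, ← hXc, ← hY]
    simp only [Nat.card_coe_set_eq]
    rw [Set.ncard_union_eq hdisj (Set.toFinite _) (Set.toFinite _), add_comm]
  · refine ⟨fun χ => if χ ∈ X then s χ else σ₀, ?_, ?_⟩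
    · intro χ _
      by_cases hχ : χ ∈ X
      · simp only [if_pos hχ]
        exact (h5 χ hχ).1
      · simp only [if_neg hχ]
        exact h4
    · rintro x hx _ ⟨q, rfl⟩
      have h9 : B \ Set.range Yf = (↑X : Set (IrrCharacter G)) := by
        rw [hBeq, Set.union_sdiff_right]
        exact hdisj.sdiff_eq_left
      rw [h9, finsum_mem_coe_finset]
      simp only [if_neg (h2 q)]
      have h10 : ∑ χ ∈ X, (((if χ ∈ X then s χ else σ₀) : ℤ) : ℂ) * χ.1 x = ∑ χ ∈ X, ((s χ : ℤ) : ℂ) * χ.1 x := by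
        refine Finset.sum_congr rfl fun χ hχ => ?_
        rw [if_pos hχ]
      rw [h10, ← h8 q x hx]
      ring

end Cfsg.Agent.H23.DO
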