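import Cfsg.Agent.Lib.H23.BData2
import Cfsg.Agent.Lib.H23.BGal3

/-!
# Counting characters of degree prime to `p` by orbits on the complement
-/

set_option autoImplicit false
set_option linter.unusedSectionVars false
set_option linter.style.haveILetI false

namespace Cfsg.Agent.H23.DO

open Module Matrix Cfsg Cfsg.Agent.H22 Cfsg.Agent.H21
open scoped ComplexConjugate

universe u

section A

variable {G : Type u} [Group G] [Finite G] {p : ℕ} [Fact p.Prime] (D : DS G p)
  (θ : NN D →* (ZMod p)ˣ)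
  (hθ : ∀ t : NN D, (t : G) * D.x * (t : G)⁻¹ = D.x ^ (((θ t : (ZMod p)ˣ) : ZMod p)).val)
  (hker : Nat.card θ.ker = p * Nat.card D.K)
  (hCdec : ∀ z : G, z * D.x = D.x * z → ∃ (n : ℕ) (y : G), y ∈ D.K ∧ z = D.x ^ n * y)
  (hsq : ¬ p ^ 2 ∣ Nat.card G)

include hθ hker hCdec hsq in
theorem card_SB (β : IrrCharacter D.K) :
    Nat.card {χ : IrrCharacter G // SB D β χ} =
      Nat.card (AB D β θ) + (p - 1) / Nat.card (AB D β θ) := by
  classical
  have hpp : p.Prime := Fact.out
  obtain ⟨X, Yf, s, σ, h1, h2, h3, h4, h5, h6, h7, h8⟩ := pack D β θ hθ hker hCdec hsq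
  have hABpos : 0 < Nat.card (AB D β θ) := Nat.card_pos
  have hQ : Nat.card ((ZMod p)ˣ ⧸ AB D β θ) * Nat.card (AB D β θ) = p - 1 := by
    have h9 := Subgroup.card_eq_card_quotient_mul_card_subgroup (AB D β θ)
    rw [natCard_units_aux] at h9
    exact h9.symm
  have hQe : (p - 1) / Nat.card (AB D β θ) = Nat.card ((ZMod p)ˣ ⧸ AB D β θ) := by
    rw [← hQ]
    exact Nat.mul_div_cancel _ hABpos
  have hset : {χ : IrrCharacter G | SB D β χ} = (↑X : Set (IrrCharacter G)) ∪ Set.range Yf := by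
    ext ψ
    exact h7 ψ
  have hdisj : Disjoint (↑X : Set (IrrCharacter G)) (Set.range Yf) := by
    rw [Set.disjoint_left]
    rintro ψ hψ ⟨q, rfl⟩
    exact h2 q hψ
  have hY : Nat.card (Set.range Yf) = Nat.card ((ZMod p)ˣ ⧸ AB D β θ) :=
    Nat.card_range_of_injective h1
  have h10 : Nat.card {χ : IrrCharacter G // SB D β χ} = ({χ : IrrCharacter G | SB D β χ}).ncard := by
    rw [← Nat.card_coe_set_eq]
    rfl
  rw [h10, hset, Set.ncard_union_eq hdisj (Set.toFinite _) (Set.toFinite _), Set.ncard_coe_finset, h3, hQe,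
    ← hY, Nat.card_coe_set_eq]

variable (β γ δ : IrrCharacter D.K)

theorem isOrb_refl : IsOrb D β β := ⟨1, by rw [cjN_one, irrMap_refl]⟩

theorem isOrb_symm (h : IsOrb D β γ) : IsOrb D γ β := by
  obtain ⟨t, rfl⟩ := h
  refine ⟨t⁻¹, ?_⟩
  rw [← irrMap_trans, ← cjN_mul, inv_mul_cancel, cjN_one, irrMap_refl]

theorem isOrb_trans (h : IsOrb D β γ) (h' : IsOrb D γ δ) : IsOrb D β δ := by
  obtain ⟨t, rfl⟩ := h
  obtain ⟨t', rfl⟩ := h'
  refine ⟨t' * t, ?_⟩
  rw [cjN_mul, irrMap_trans]

theorem Orb_eq_of (h : IsOrb D β γ) : Orb D β = Orb D γ := by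
  ext δ'
  rw [mem_Orb, mem_Orb]
  exact ⟨fun h1 => isOrb_trans D _ _ _ (isOrb_symm D _ _ h) h1, fun h1 => isOrb_trans D _ _ _ h h1⟩

theorem isOrb_of_Orb_eq (h : Orb D β = Orb D γ) : IsOrb D β γ := by
  have h1 : γ ∈ Orb D γ := (mem_Orb D γ γ).mpr (isOrb_refl D γ)
  rw [← h] at h1
  exact (mem_Orb D β γ).mp h1

include hθ in
theorem SB_of_orb (h : IsOrb D β γ) {χ : IrrCharacter G} (hχ : SB D β χ) : SB D γ χ := by
  obtain ⟨t, rfl⟩ := h
  obtain ⟨u, hu⟩ := hχ
  refine ⟨u * (θ t)⁻¹, ?_⟩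
  rw [Units.val_mul, cRB_inv D θ hθ t β χ (u : ZMod p)]
  exact hu

include hsq in
theorem orb_of_SB {χ : IrrCharacter G} (h₁ : SB D β χ) (h₂ : SB D γ χ) : IsOrb D β γ := by
  by_contra h
  obtain ⟨u, hu⟩ := h₂
  exact hu (cRB_other D β hsq h₁ h _)

theorem exists_SB_of_not_dvd {χ : IrrCharacter G} (h : ¬ p ∣ charDegree χ.1) : ∃ β : IrrCharacter D.K, SB D β χ := by
  by_contra hcon
  push Not at hcon
  apply h
  apply not_dvd_of_all_zero D
  intro γ u
  by_contra h2
  exact hcon γ ⟨u, h2⟩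

theorem rep_eq_one_of_normal {n : ℕ} {ρ : Representation ℂ G (Fin n → ℂ)} (hρ : ρ.IsIrreducible) {x : G}
    (hn : ∀ h : G, ∃ k : ℕ, h⁻¹ * x * h = x ^ k) {q : ℕ} (hxp : x ^ q = 1)
    (hsum : ∑ i ∈ Finset.range q, ρ.character (x ^ i) ≠ 0) : ρ x = 1 := by
  let U : Subrepresentation ρ :=
    { toSubmodule := LinearMap.ker (ρ x - 1)
      apply_mem_toSubmodule := by
        intro h v hv
        have hv' : ρ x v = v := by
          have := LinearMap.mem_ker.mp hv
          simpa [sub_eq_zero] using this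
        obtain ⟨k, hk⟩ := hn h
        have h1 : x * h = h * x ^ k := by
          rw [← hk]
          group
        have h2 : ρ (x ^ k) v = v := by
          rw [map_pow]
          clear hk h1
          induction k with
          | zero => simp
          | succ k ih =>
            rw [pow_succ, Module.End.mul_apply, hv', ih]
        rw [LinearMap.mem_ker]
        simp only [LinearMap.sub_apply, Module.End.one_apply, sub_eq_zero]
        rw [← Module.End.mul_apply, ← map_mul, h1, map_mul, Module.End.mul_apply, h2] }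
  rcases hρ.eq_bot_or_eq_top U with h | h
  · exfalso
    have hker : LinearMap.ker (ρ x - 1) = ⊥ := congrArg Subrepresentation.toSubmodule h
    have hE : ∑ i ∈ Finset.range q, ρ (x ^ i) = 0 := by
      have h3 : (ρ x - 1) * ∑ i ∈ Finset.range q, ρ (x ^ i) = 0 := by
        simp only [map_pow]
        have h4 := mul_geom_sum (ρ x) q
        rw [h4, ← map_pow, hxp, map_one, sub_self]
      refine LinearMap.ext fun v => ?_
      have h5 : (ρ x - 1) ((∑ i ∈ Finset.range q, ρ (x ^ i)) v) = 0 := by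
        have := congrArg (fun f : Module.End ℂ (Fin n → ℂ) => f v) h3
        simpa using this
      have h6 := LinearMap.ker_eq_bot.mp hker
      have h7 : (ρ x - 1) 0 = 0 := map_zero _
      exact h6 (h5.trans h7.symm)
    apply hsum
    simp only [Representation.character]
    rw [← map_sum, hE, map_zero]
  · have htop : LinearMap.ker (ρ x - 1) = ⊤ := congrArg Subrepresentation.toSubmodule h
    refine LinearMap.ext fun v => ?_
    have h3 : v ∈ LinearMap.ker (ρ x - 1) := by
      rw [htop]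
      exact Submodule.mem_top
    have h4 := LinearMap.mem_ker.mp h3
    simpa [sub_eq_zero] using h4

include hθ hker hCdec hsq in
/-- When the subgroup generated by `x` is normal, every irreducible degree is prime to `p`. -/
theorem not_dvd_of_normal (hn : ∀ h : G, ∃ k : ℕ, h⁻¹ * D.x * h = D.x ^ k) (χ : IrrCharacter G) :
    ¬ p ∣ charDegree χ.1 := by
  classical
  have hpp : p.Prime := Fact.out
  intro hd
  have hzero : ∀ (γ : IrrCharacter D.K) (u : (ZMod p)ˣ), cRB D γ (u : ZMod p) χ = 0 := by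
    intro γ u
    by_contra h
    exact SB_not_dvd D γ θ hθ hker hCdec hsq (χ := χ) ⟨u, h⟩ hd
  have hval : ∀ n : ℕ, n ≠ 0 → n < p → χ.1 (D.x ^ n) = 0 := by
    intro n h0 hn'
    have h1 := expandB D χ n 1
    rw [Subgroup.coe_one, mul_one] at h1
    rw [h1]
    refine Finset.sum_eq_zero fun γ _ => ?_
    rw [cfB_ne D γ χ h0 hn']
    simp [hzero]
  have hne := irr_one_ne_zero' χ
  obtain ⟨n, ρ, hρ, hchar⟩ := χ.2
  have hsum : ∑ i ∈ Finset.range p, ρ.character (D.x ^ i) ≠ 0 := by
    rw [hchar]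
    have h1 : ∑ i ∈ Finset.range p, χ.1 (D.x ^ i) = χ.1 1 := by
      rw [Finset.sum_eq_single 0]
      · simp
      · intro i hi h0
        exact hval i h0 (Finset.mem_range.mp hi)
      · intro h
        exact absurd (Finset.mem_range.mpr hpp.pos) h
    rw [h1]
    exact hne
  have h1 := rep_eq_one_of_normal hρ hn D.x_pow hsum
  have h2 : χ.1 D.x = χ.1 1 := by
    rw [← hchar]
    simp [Representation.character, h1]
  have h3 := hval 1 one_ne_zero hpp.one_lt
  rw [pow_one, h2] at h3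
  exact hne h3

end A

end Cfsg.Agent.H23.DO
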