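import Cfsg.Agent.Lib.H23.BCount

/-!
# Comparison with the normalizer: the count of characters of degree prime to `p`
-/

set_option autoImplicit false
set_option linter.unusedSectionVars false
set_option linter.style.haveILetI false

namespace Cfsg.Agent.H23.DO

open Module Matrix Cfsg Cfsg.Agent.H22 Cfsg.Agent.H21
open scoped ComplexConjugate

universe u

variable {G : Type u} [Group G] [Finite G] {p : ℕ} [Fact p.Prime]

theorem DS.not_dvd_order (D : DS G p) {y : G} (hy : y ∈ D.K) : ¬ p ∣ orderOf y := by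
  have hpp : p.Prime := Fact.out
  intro h
  have h1 := h.trans (Subgroup.orderOf_dvd_natCard D.K hy)
  have h2 := Nat.dvd_gcd h1 (dvd_refl p)
  rw [D.hKp] at h2
  exact hpp.one_lt.ne' (Nat.dvd_one.mp h2)

variable (D : DS G p) (θ : NN D →* (ZMod p)ˣ)
  (hθ : ∀ t : NN D, (t : G) * D.x * (t : G)⁻¹ = D.x ^ (((θ t : (ZMod p)ˣ) : ZMod p)).val)
  (hKmem : ∀ z : G, z * D.x = D.x * z → ¬ p ∣ orderOf z → z ∈ D.K)
  (D' : DS (NN D) p) (θ' : NN D' →* (ZMod p)ˣ)
  (hθ' : ∀ t : NN D', (t : NN D) * D'.x * (t : NN D)⁻¹ = D'.x ^ (((θ' t : (ZMod p)ˣ) : ZMod p)).val)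
  (hKmem' : ∀ z : NN D, z * D'.x = D'.x * z → ¬ p ∣ orderOf z → z ∈ D'.K)
  (hx' : ((D'.x : NN D) : G) = D.x)

include hx' in
theorem comm_iff' (z : NN D) : z * D'.x = D'.x * z ↔ (z : G) * D.x = D.x * (z : G) := by
  constructor
  · intro h
    have := congrArg Subtype.val h
    simpa [hx'] using this
  · intro h
    apply Subtype.ext
    simpa [hx'] using h

theorem K_le_NN : D.K ≤ NN D := fun y hy => by
  apply mem_normalizer_of_conj_mem D.hx
  have h1 : y⁻¹ * D.x * y = D.x := by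
    rw [mul_assoc, D.hxK y hy]
    group
  rw [h1]
  exact Subgroup.mem_zpowers _

/-- The two complements are the same. -/
def phiK (hKmem : ∀ z : G, z * D.x = D.x * z → ¬ p ∣ orderOf z → z ∈ D.K)
    (hKmem' : ∀ z : NN D, z * D'.x = D'.x * z → ¬ p ∣ orderOf z → z ∈ D'.K)
    (hx' : ((D'.x : NN D) : G) = D.x) : D'.K ≃* D.K where
  toFun y := ⟨((y : NN D) : G), hKmem _ ((comm_iff' D D' hx' _).mp (D'.hxK y y.2).symm) (by
    rw [Subgroup.orderOf_coe]
    exact DS.not_dvd_order D' y.2)⟩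
  invFun y := ⟨⟨y, K_le_NN D y.2⟩, hKmem' _ ((comm_iff' D D' hx' _).mpr (D.hxK y y.2).symm) (by
    rw [← Subgroup.orderOf_coe]
    exact DS.not_dvd_order D y.2)⟩
  left_inv y := rfl
  right_inv y := rfl
  map_mul' _ _ := rfl

local notation "φ" => phiK D D' hKmem hKmem' hx'

theorem phiK_coe (y : D'.K) : (((φ) y : D.K) : G) = ((y : NN D) : G) := rfl

theorem cj_compat (t' : NN D') : (cjN D' t').trans (φ) = (φ).trans (cjN D (t' : NN D)) := by
  ext y
  rfl

include hx' in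
theorem exists_lift_NN (t : NN D) : ∃ t' : NN D', (t' : NN D) = t := by
  refine ⟨⟨t, mem_normalizer_of_conj_mem D'.hx ?_⟩, rfl⟩
  have h1 : (t : G)⁻¹ * D.x * (t : G) ∈ Subgroup.zpowers D.x := by
    have := (Subgroup.mem_normalizer_iff.mp (Subgroup.inv_mem _ t.2) D.x).mp (Subgroup.mem_zpowers D.x)
    rwa [inv_inv] at this
  obtain ⟨k, hk⟩ := Subgroup.mem_zpowers_iff.mp h1
  refine Subgroup.mem_zpowers_iff.mpr ⟨k, ?_⟩
  apply Subtype.ext
  simp only [Subgroup.coe_zpow, Subgroup.coe_mul, Subgroup.coe_inv, hx']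
  exact hk

include hx' in
theorem isOrb_iff (β' γ' : IrrCharacter D'.K) :
    IsOrb D (irrMap (φ) β') (irrMap (φ) γ') ↔ IsOrb D' β' γ' := by
  constructor
  · rintro ⟨t, ht⟩
    obtain ⟨t', rfl⟩ := exists_lift_NN D D' hx' t
    refine ⟨t', irrMap_injective (φ) ?_⟩
    rw [ht, ← irrMap_trans, ← irrMap_trans, cj_compat]
  · rintro ⟨t', rfl⟩
    refine ⟨(t' : NN D), ?_⟩
    rw [← irrMap_trans, ← irrMap_trans, cj_compat]

include hθ hθ' hx' in
theorem theta_compat (t' : NN D') : θ' t' = θ (t' : NN D) := by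
  apply Units.ext
  apply val_unique_aux D.hx
  rw [← hθ (t' : NN D)]
  have h1 := congrArg Subtype.val (hθ' t')
  simp only [Subgroup.coe_pow, Subgroup.coe_mul, Subgroup.coe_inv, hx'] at h1
  exact h1.symm

include hx' in
theorem StN_iff (β' : IrrCharacter D'.K) (t' : NN D') :
    t' ∈ StN D' β' ↔ (t' : NN D) ∈ StN D (irrMap (φ) β') := by
  rw [mem_StN, mem_StN]
  constructor
  · intro h y y' hy
    apply h ((φ).symm y) ((φ).symm y')
    apply Subtype.ext
    exact hy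
  · intro h y y' hy
    have h1 := h ((φ) y) ((φ) y') (by
      have := congrArg Subtype.val hy
      exact this)
    rwa [irrMap_apply', irrMap_apply'] at h1

include hθ hθ' hx' in
theorem AB_compat (β' : IrrCharacter D'.K) : AB D' β' θ' = AB D (irrMap (φ) β') θ := by
  ext s
  constructor
  · intro hs
    obtain ⟨t', ht', rfl⟩ := Subgroup.mem_map.mp hs
    rw [theta_compat D θ hθ D' θ' hθ' hx']
    exact Subgroup.mem_map.mpr ⟨_, (StN_iff D hKmem D' hKmem' hx' β' t').mp ht', rfl⟩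
  · intro hs
    obtain ⟨t, ht, rfl⟩ := Subgroup.mem_map.mp hs
    obtain ⟨t', rfl⟩ := exists_lift_NN D D' hx' t
    rw [← theta_compat D θ hθ D' θ' hθ' hx']
    exact Subgroup.mem_map.mpr ⟨t', (StN_iff D hKmem D' hKmem' hx' β' t').mpr ht, rfl⟩

include hθ hKmem hθ' hKmem' hx' in
theorem count_eq (hker : Nat.card θ.ker = p * Nat.card D.K)
    (hCdec : ∀ z : G, z * D.x = D.x * z → ∃ (n : ℕ) (y : G), y ∈ D.K ∧ z = D.x ^ n * y)
    (hsq : ¬ p ^ 2 ∣ Nat.card G)
    (hker' : Nat.card θ'.ker = p * Nat.card D'.K)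
    (hCdec' : ∀ z : NN D, z * D'.x = D'.x * z → ∃ (n : ℕ) (y : NN D), y ∈ D'.K ∧ z = D'.x ^ n * y)
    (hsq' : ¬ p ^ 2 ∣ Nat.card (NN D)) :
    Nat.card {χ : IrrCharacter G // ¬ p ∣ charDegree χ.1} = Nat.card (IrrCharacter (NN D)) := by
  classical
  have hn : ∀ h : NN D, ∃ k : ℕ, h⁻¹ * D'.x * h = D'.x ^ k := by
    intro h
    obtain ⟨t', rfl⟩ := exists_lift_NN D D' hx' h
    have h1 : (t' : NN D)⁻¹ * D'.x * (t' : NN D) ∈ Subgroup.zpowers D'.x := by
      have := (Subgroup.mem_normalizer_iff.mp (Subgroup.inv_mem _ t'.2) D'.x).mp (Subgroup.mem_zpowers D'.x)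
      rwa [inv_inv] at this
    obtain ⟨k, hk⟩ := mem_powers_iff_mem_zpowers.mpr h1
    exact ⟨k, hk.symm⟩
  have hex : ∀ χ : {χ : IrrCharacter G // ¬ p ∣ charDegree χ.1}, ∃ β, SB D β χ.1 :=
    fun χ => exists_SB_of_not_dvd D χ.2
  choose bG hbG using hex
  have hall : ∀ χ' : IrrCharacter (NN D), ¬ p ∣ charDegree χ'.1 :=
    not_dvd_of_normal D' θ' hθ' hker' hCdec' hsq' hn
  have hex' : ∀ χ' : IrrCharacter (NN D), ∃ β', SB D' β' χ' := fun χ' => exists_SB_of_not_dvd D' (hall χ')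
  choose bH hbH using hex'
  let πG : {χ : IrrCharacter G // ¬ p ∣ charDegree χ.1} → Finset (IrrCharacter D.K) := fun χ => Orb D (bG χ)
  let πH : IrrCharacter (NN D) → Finset (IrrCharacter D.K) := fun χ' => Orb D (irrMap (φ) (bH χ'))
  have hfib : ∀ c, Nat.card {a // πG a = c} = Nat.card {b // πH b = c} := by
    intro c
    by_cases hc : ∃ β₀, c = Orb D β₀
    · obtain ⟨β₀, rfl⟩ := hc
      let β₀' : IrrCharacter D'.K := irrMap (φ).symm β₀
      have hβ₀ : irrMap (φ) β₀' = β₀ := irrMap_irrMap_symm _ _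
      have e1 : Nat.card {a // πG a = Orb D β₀} = Nat.card {χ // SB D β₀ χ} := by
        refine Nat.card_congr ⟨fun a => ⟨a.1.1, SB_of_orb D θ hθ (bG a.1) β₀ (isOrb_of_Orb_eq D _ _ a.2) (hbG a.1)⟩,
          fun χ => ⟨⟨χ.1, SB_not_dvd D β₀ θ hθ hker hCdec hsq χ.2⟩,
            Orb_eq_of D _ _ (orb_of_SB D hsq _ _ (hbG _) χ.2)⟩, fun a => rfl, fun χ => rfl⟩
      have e2 : Nat.card {b // πH b = Orb D β₀} = Nat.card {χ // SB D' β₀' χ} := by
        refine Nat.card_congr ⟨fun b => ⟨b.1, SB_of_orb D' θ' hθ' (bH b.1) β₀' ?_ (hbH b.1)⟩,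
          fun χ => ⟨χ.1, ?_⟩, fun a => rfl, fun χ => rfl⟩
        · rw [← isOrb_iff D hKmem D' hKmem' hx', hβ₀]
          exact isOrb_of_Orb_eq D _ _ b.2
        · have h1 := orb_of_SB D' hsq' _ _ (hbH χ.1) χ.2
          rw [← isOrb_iff D hKmem D' hKmem' hx', hβ₀] at h1
          exact Orb_eq_of D _ _ h1
      rw [e1, e2, card_SB D θ hθ hker hCdec hsq β₀, card_SB D' θ' hθ' hker' hCdec' hsq' β₀',
        AB_compat D θ hθ hKmem D' θ' hθ' hKmem' hx', hβ₀]
    · haveI e1 : IsEmpty {a // πG a = c} := ⟨fun a => hc ⟨_, a.2.symm⟩⟩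
      haveI e2 : IsEmpty {b // πH b = c} := ⟨fun a => hc ⟨_, a.2.symm⟩⟩
      rw [Nat.card_of_isEmpty, Nat.card_of_isEmpty]
  have hequiv : ∀ c, {a // πG a = c} ≃ {b // πH b = c} := fun c => by
    haveI := Fintype.ofFinite {a // πG a = c}
    haveI := Fintype.ofFinite {b // πH b = c}
    exact Fintype.equivOfCardEq (by
      rw [← Nat.card_eq_fintype_card, ← Nat.card_eq_fintype_card]
      exact hfib c)
  exact Nat.card_congr (Equiv.ofFiberEquiv hequiv)

theorem s4502_core (hdiv : p ∣ Nat.card G) (hsq : ¬ p ^ 2 ∣ Nat.card G) (P : Sylow p G) :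
    Nat.card {χ : IrrCharacter G // ¬ p ∣ charDegree (χ : G → ℂ)} =
      Nat.card (ConjClasses (Subgroup.normalizer ((P : Subgroup G) : Set G))) := by
  classical
  have hP : Nat.card P = p := by
    rw [P.card_eq_multiplicity, fact_eq_one hdiv hsq, pow_one]
  obtain ⟨D, θ, hθ, hker, hCdec, hconj, hPx, hKmem, -, -⟩ := exists_data P hP
  have hxN : D.x ∈ NN D := by
    apply mem_normalizer_of_conj_mem D.hx
    have h1 : D.x⁻¹ * D.x * D.x = D.x := by group
    rw [h1]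
    exact Subgroup.mem_zpowers _
  let xH : NN D := ⟨D.x, hxN⟩
  have hxH : orderOf xH = p := (Subgroup.orderOf_mk _ _).trans D.hx
  have hsq' : ¬ p ^ 2 ∣ Nat.card (NN D) := fun h => hsq (h.trans (Subgroup.card_subgroup_dvd_card _))
  obtain ⟨D', θ', hDx, hθ', hker', hCdec', hconj', hKmem', -⟩ := exists_data_x hxH hsq'
  have hx' : ((D'.x : NN D) : G) = D.x := by
    rw [hDx]
  rw [← hPx, ← card_irr_eq_card_conjClasses]
  exact count_eq D θ hθ hKmem D' θ' hθ' hKmem' hx' hker hCdec hsq hker' hCdec' hsq'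

end Cfsg.Agent.H23.DO
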