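import Cfsg.Agent.Lib.H23.BData

/-!
# The data attached to an element of order `p`, when `p` divides the order once
-/

set_option autoImplicit false
set_option linter.unusedSectionVars false
set_option linter.style.haveILetI false

namespace Cfsg.Agent.H23.DO

open Module Cfsg

universe u

variable {G : Type u} [Group G] [Finite G] {p : ℕ} [Fact p.Prime]

/-- The data used by the row analysis, for a prescribed generator. -/
theorem exists_data_x {x : G} (hx : orderOf x = p) (hsq : ¬ p ^ 2 ∣ Nat.card G) :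
    ∃ (D : DS G p) (θ : NN D →* (ZMod p)ˣ),
      D.x = x ∧
      (∀ t : NN D, (t : G) * D.x * (t : G)⁻¹ = D.x ^ (((θ t : (ZMod p)ˣ) : ZMod p)).val) ∧
      (Nat.card θ.ker = p * Nat.card D.K) ∧
      (∀ z : G, z * D.x = D.x * z → ∃ (n : ℕ) (y : G), y ∈ D.K ∧ z = D.x ^ n * y) ∧
      (∀ w : G, orderOf w = p → ∃ (b : G) (n : ℕ), b * w * b⁻¹ = D.x ^ n) ∧
      (∀ z : G, z * D.x = D.x * z → ¬ p ∣ orderOf z → z ∈ D.K) ∧
      (∀ t : NN D, θ t = 1 ↔ (t : G) * D.x = D.x * (t : G)) := by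
  classical
  have hpp : p.Prime := Fact.out
  have hcard : Nat.card (Subgroup.zpowers x) = p ^ (Nat.card G).factorization p := by
    have h1 : p ∣ Nat.card G := by
      rw [← hx]
      exact orderOf_dvd_natCard x
    have h2 := (hpp.dvd_iff_one_le_factorization Nat.card_pos.ne').mp h1
    have h3 : ¬ 2 ≤ (Nat.card G).factorization p := fun h =>
      hsq ((hpp.pow_dvd_iff_le_factorization Nat.card_pos.ne').mpr h)
    have h4 : (Nat.card G).factorization p = 1 := by omega
    rw [h4, pow_one, Nat.card_zpowers, hx]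
  let P : Sylow p G := Sylow.ofCard (Subgroup.zpowers x) hcard
  have hPx : Subgroup.zpowers x = (P : Subgroup G) := (Sylow.coe_ofCard _ _).symm
  obtain ⟨K, hK1, hK2, hK3, hK4⟩ := exists_complement hx hsq
  have hordK : ∀ y ∈ K, ¬ p ∣ orderOf y := by
    intro y hy h
    have h1 := h.trans (Subgroup.orderOf_dvd_natCard K hy)
    have h2 := Nat.dvd_gcd h1 (dvd_refl p)
    rw [hK2] at h2
    exact hpp.one_lt.ne' (Nat.dvd_one.mp h2)
  have hKmem : ∀ z : G, z * x = x * z → ¬ p ∣ orderOf z → z ∈ K := by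
    intro z hz hzo
    obtain ⟨n, y, hy, rfl⟩ := hK3 z hz
    by_cases hn : p ∣ n
    · obtain ⟨k, rfl⟩ := hn
      have h1 : x ^ p = 1 := by rw [← hx]; exact pow_orderOf_eq_one x
      rw [pow_mul, h1, one_pow, one_mul]
      exact hy
    · exfalso
      apply hzo
      have hcop : Nat.Coprime n p := by
        rw [Nat.coprime_comm, hpp.coprime_iff_not_dvd]
        exact hn
      have h1 : orderOf (x ^ n) = p := by
        rw [Nat.Coprime.orderOf_pow (by rw [hx]; exact hcop.symm), hx]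
      have hc : Commute (x ^ n) y := (show Commute x y from hK1 y hy).pow_left n
      have hco2 : Nat.Coprime (orderOf (x ^ n)) (orderOf y) := by
        rw [h1, hpp.coprime_iff_not_dvd]
        exact hordK y hy
      rw [hc.orderOf_mul_eq_mul_orderOf_of_coprime hco2, h1]
      exact dvd_mul_right _ _
  have hKN : ∀ n ∈ Subgroup.normalizer ((Subgroup.zpowers x : Subgroup G) : Set G), ∀ y ∈ K, n * y * n⁻¹ ∈ K := by
    intro n hn y hy
    apply hKmem
    · have h1 : n⁻¹ * x * n⁻¹⁻¹ ∈ Subgroup.zpowers x :=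
        (Subgroup.mem_normalizer_iff.mp (Subgroup.inv_mem _ hn) x).mp (Subgroup.mem_zpowers x)
      rw [inv_inv] at h1
      obtain ⟨k, hk⟩ := Subgroup.mem_zpowers_iff.mp h1
      have hc : Commute (x ^ k) y := (show Commute x y from hK1 y hy).zpow_left k
      have h2 : n⁻¹ * x * n = x ^ k := hk.symm
      calc n * y * n⁻¹ * x = n * (y * (n⁻¹ * x * n)) * n⁻¹ := by group
        _ = n * ((n⁻¹ * x * n) * y) * n⁻¹ := by rw [h2, hc.eq]
        _ = x * (n * y * n⁻¹) := by group
    · have h4 : orderOf (n * y * n⁻¹) = orderOf y := by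
        have := MulEquiv.orderOf_eq (MulAut.conj n) y
        simpa [MulAut.conj_apply] using this
      rw [h4]
      exact hordK y hy
  obtain ⟨θ, hθ⟩ := exists_theta hx
  have hkermem : ∀ t : Subgroup.normalizer ((Subgroup.zpowers x : Subgroup G) : Set G),
      θ t = 1 ↔ (t : G) * x = x * (t : G) := by
    intro t
    haveI : Fact (1 < p) := ⟨hpp.one_lt⟩
    constructor
    · intro h
      have h1 := hθ t
      rw [h, Units.val_one, ZMod.val_one, pow_one] at h1
      exact mul_inv_eq_iff_eq_mul.mp h1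
    · intro h
      apply Units.ext
      apply val_unique_aux hx
      rw [← hθ t, Units.val_one, ZMod.val_one, pow_one]
      exact mul_inv_eq_iff_eq_mul.mpr h
  have hCN : ∀ z : G, z * x = x * z → z ∈ Subgroup.normalizer ((Subgroup.zpowers x : Subgroup G) : Set G) := by
    intro z hz
    apply mem_normalizer_of_conj_mem hx
    have : z⁻¹ * x * z = x := by
      rw [mul_assoc, ← hz]
      group
    rw [this]
    exact Subgroup.mem_zpowers x
  have hker : Nat.card θ.ker = p * Nat.card K := by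
    rw [← hK4]
    refine Nat.card_congr ⟨fun z => ⟨z.1.1, mem_cent_zpowers.mpr ((hkermem z.1).mp z.2)⟩,
      fun c => ⟨⟨c.1, hCN c.1 (mem_cent_zpowers.mp c.2)⟩, (hkermem _).mpr (mem_cent_zpowers.mp c.2)⟩, ?_, ?_⟩
    · intro z
      rfl
    · intro c
      rfl
  obtain ⟨e, hrange⟩ : ∃ e, Nat.card θ.range = e := ⟨_, rfl⟩
  have he0 : 0 < e := by
    rw [← hrange]
    exact Nat.card_pos
  have hcop : Nat.Coprime e p := by
    rw [Nat.coprime_comm, hpp.coprime_iff_not_dvd]
    intro h1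
    have h2 : e ∣ Nat.card (ZMod p)ˣ := by
      rw [← hrange]
      exact Subgroup.card_subgroup_dvd_card _
    rw [natCard_units_aux] at h2
    have h3 : p ∣ p - 1 := h1.trans h2
    have h4 := Nat.le_of_dvd (Nat.sub_pos_of_lt hpp.one_lt) h3
    have := hpp.pos
    omega
  obtain ⟨s₀, hs₀⟩ := IsCyclic.exists_monoid_generator (α := θ.range)
  obtain ⟨t₀, ht₀⟩ := s₀.2
  have hs₀e : (s₀ : (ZMod p)ˣ) ^ e = 1 := by
    have h1 : s₀ ^ Nat.card θ.range = 1 := pow_card_eq_one'
    rw [hrange] at h1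
    have := congrArg Subtype.val h1
    simpa using this
  have hu : ∃ u, (p * u) % e = 1 % e := by
    by_cases he1 : e = 1
    · exact ⟨0, by rw [he1]; simp [Nat.mod_one]⟩
    · have he2 : 1 < e := by omega
      obtain ⟨u, _, hu⟩ := Nat.exists_mul_mod_eq_one_of_coprime hcop.symm he2
      exact ⟨u, by rw [hu, Nat.mod_eq_of_lt he2]⟩
  obtain ⟨u, hu⟩ := hu
  let τ₀ := t₀ ^ (p * u)
  have hθτ₀ : θ τ₀ = (s₀ : (ZMod p)ˣ) := by
    simp only [τ₀]
    rw [map_pow, ht₀, pow_eq_pow_mod _ hs₀e, hu, ← pow_eq_pow_mod 1 hs₀e, pow_one]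
  let τ : G := τ₀
  have hτord : ¬ p ∣ orderOf τ := by
    intro h
    have h1 : τ = ((t₀ : G) ^ p) ^ u := by
      simp only [τ, τ₀]
      rw [Subgroup.coe_pow, pow_mul]
    have h2 : orderOf τ ∣ orderOf ((t₀ : G) ^ p) := by
      apply orderOf_dvd_of_pow_eq_one
      rw [h1, ← pow_mul, mul_comm, pow_mul, pow_orderOf_eq_one, one_pow]
    have h3 := h.trans h2
    rw [orderOf_pow' _ hpp.ne_zero] at h3
    by_cases h4 : p ∣ orderOf (t₀ : G)
    · have h5 : Nat.gcd (orderOf (t₀ : G)) p = p := Nat.gcd_eq_right h4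
      rw [h5] at h3
      apply hsq
      have h6 := Nat.mul_dvd_of_dvd_div h4 h3
      rw [pow_two]
      exact h6.trans (orderOf_dvd_natCard _)
    · have h5 : Nat.gcd (orderOf (t₀ : G)) p = 1 := by
        rw [Nat.gcd_comm]
        exact (hpp.coprime_iff_not_dvd).mpr h4
      rw [h5, Nat.div_one] at h3
      exact h4 h3
  have hτe : τ ^ e ∈ K := by
    apply hKmem
    · have h1 : θ (τ₀ ^ e) = 1 := by rw [map_pow, hθτ₀, hs₀e]
      have h2 := (hkermem (τ₀ ^ e)).mp h1
      rw [Subgroup.coe_pow] at h2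
      exact h2
    · intro h
      exact hτord (h.trans (orderOf_pow_dvd e))
  have hNdec : ∀ n ∈ Subgroup.normalizer ((Subgroup.zpowers x : Subgroup G) : Set G),
      ∃ (i j : ℕ) (y : G), y ∈ K ∧ n = τ ^ i * x ^ j * y := by
    intro n hn
    let n' : Subgroup.normalizer ((Subgroup.zpowers x : Subgroup G) : Set G) := ⟨n, hn⟩
    obtain ⟨i, hi⟩ := hs₀ (⟨θ n', ⟨n', rfl⟩⟩ : θ.range)
    have hi' : (s₀ : (ZMod p)ˣ) ^ i = θ n' := by
      have := congrArg Subtype.val hi
      simpa using this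
    let z := (τ₀ ^ i)⁻¹ * n'
    have hz : θ z = 1 := by
      simp only [z]
      rw [map_mul, map_inv, map_pow, hθτ₀, hi', inv_mul_cancel]
    obtain ⟨j, y, hy, hjy⟩ := hK3 _ ((hkermem z).mp hz)
    refine ⟨i, j, y, hy, ?_⟩
    have h1 : n = τ ^ i * (z : G) := by
      have hzc : (z : G) = ((τ₀ ^ i : Subgroup.normalizer ((Subgroup.zpowers x : Subgroup G) : Set G)) : G)⁻¹ * n := rfl
      have hpc : ((τ₀ ^ i : Subgroup.normalizer ((Subgroup.zpowers x : Subgroup G) : Set G)) : G) = τ ^ i :=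
        Subgroup.coe_pow _ _ _
      rw [hzc, hpc, mul_inv_cancel_left]
    rw [h1, hjy, mul_assoc]
  have hconj : ∀ w : G, orderOf w = p → ∃ (b : G) (n : ℕ), b * w * b⁻¹ = x ^ n := by
    intro w hw
    have hpg : IsPGroup p (Subgroup.zpowers w) := by
      rw [IsPGroup.iff_card, Nat.card_zpowers, hw]
      exact ⟨1, (pow_one p).symm⟩
    obtain ⟨Q, hQ⟩ := hpg.exists_le_sylow
    obtain ⟨b, hb⟩ := MulAction.exists_smul_eq G Q P
    have h1 : w ∈ (Q : Subgroup G) := hQ (Subgroup.mem_zpowers w)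
    have h2 : b * w * b⁻¹ ∈ (P : Subgroup G) := by
      rw [← hb, Sylow.coe_subgroup_smul, Subgroup.mem_pointwise_smul_iff_inv_smul_mem]
      have h3 : (MulAut.conj b)⁻¹ • (b * w * b⁻¹) = w := by
        change (MulAut.conj b)⁻¹ (b * w * b⁻¹) = w
        rw [MulAut.conj_inv_apply]
        group
      rw [h3]
      exact h1
    rw [← hPx] at h2
    obtain ⟨n, hn⟩ := mem_powers_iff_mem_zpowers.mpr h2
    exact ⟨b, n, hn.symm⟩
  let D : DS G p :=
    { x := x, K := K, τ := τ, s := ((θ τ₀ : (ZMod p)ˣ) : ZMod p).val, e := e, hx := hx, hxK := hK1, hKN := hKN,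
      hNdec := hNdec, hτ := hθ τ₀, hs := ZMod.val_coe_unit_coprime _, he := he0, hep := hcop, hτe := hτe, hKp := hK2 }
  exact ⟨D, θ, rfl, hθ, hker, hK3, hconj, hKmem, hkermem⟩

end Cfsg.Agent.H23.DO
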