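import Cfsg.Agent.Lib.H23.BExist
import Cfsg.Agent.Lib.H22.Brauer2

/-!
# Central idempotents of a subgroup in a matrix representation
-/

set_option autoImplicit false
set_option linter.unusedSectionVars false
set_option linter.style.haveILetI false

namespace Cfsg.Agent.H23.DO

open Module Matrix Cfsg Cfsg.Agent.H22 Cfsg.Agent.H21
open scoped ComplexConjugate

universe u

variable {G : Type u} [Group G] [Finite G] {p : ℕ} [Fact p.Prime] {V : ValuationSubring ℂ}
  {ι : Type*} [Fintype ι] [DecidableEq ι]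

theorem blockCoeff_single {K : Type*} [Group K] [Finite K] (γ : IrrCharacter K) (y : K) :
    blockCoeff {γ} y = (Nat.card K : ℂ)⁻¹ * (γ.1 1 * γ.1 y⁻¹) := by
  simp only [blockCoeff]
  rw [finsum_mem_singleton, irr_inv']

theorem integral_mem_val {z : ℂ} (hz : IsIntegral ℤ z) : z ∈ V := by
  have h1 : IsIntegral V z := hz.tower_top
  obtain ⟨y, hy⟩ := IsIntegrallyClosed.isIntegral_iff.mp h1
  rw [← hy]
  exact y.2

theorem blockCoeff_mem (hV : (p : ℂ) ∈ V.nonunits) {K : Type*} [Group K] [Finite K]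
    (hKp : Nat.Coprime (Nat.card K) p) (γ : IrrCharacter K) (y : K) : blockCoeff {γ} y ∈ V := by
  rw [blockCoeff_single]
  obtain ⟨c, hc⟩ := exists_val_inv hV hKp
  have hcC : (c : ℂ) = (Nat.card K : ℂ)⁻¹ := by
    have h1 : (c : ℂ) * (Nat.card K : ℂ) = 1 := by
      have := congrArg (fun z : V => (z : ℂ)) hc
      simpa using this
    exact eq_inv_of_mul_eq_one_left h1
  rw [← hcC]
  exact V.mul_mem _ _ c.2 (V.mul_mem _ _ (integral_mem_val (irr_isIntegral' γ 1))
    (integral_mem_val (irr_isIntegral' γ y⁻¹)))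

section

variable (K : Subgroup G) (R : G →* Matrix ι ι V)

open scoped Classical in
/-- The coefficients of the idempotent. -/
noncomputable def bK (γ : IrrCharacter K) (y : K) : V :=
  if h : blockCoeff {γ} y ∈ V then ⟨_, h⟩ else 0

variable {K}

theorem bK_coe (hV : (p : ℂ) ∈ V.nonunits) (hKp : Nat.Coprime (Nat.card K) p) (γ : IrrCharacter K) (y : K) :
    ((bK (V := V) K γ y : V) : ℂ) = blockCoeff {γ} y := by
  simp only [bK]
  rw [dif_pos (blockCoeff_mem hV hKp γ y)]

variable (K) [Fintype K]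

/-- The idempotent of a character of a subgroup. -/
noncomputable def eK (γ : IrrCharacter K) : Matrix ι ι V := ∑ y : K, bK (V := V) K γ y • R (y : G)

variable {K}

theorem sum_smul_mul (a b : K → V) :
    (∑ y : K, a y • R (y : G)) * (∑ y : K, b y • R (y : G)) =
      ∑ z : K, (∑ y : K, a y * b (y⁻¹ * z)) • R (z : G) := by
  rw [Finset.sum_mul_sum]
  simp only [Finset.sum_smul]
  symm
  rw [Finset.sum_comm]
  symm
  refine Finset.sum_congr rfl fun y _ => ?_
  refine Fintype.sum_equiv (Equiv.mulLeft y) _ _ fun y' => ?_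
  simp only [Equiv.coe_mulLeft, inv_mul_cancel_left, Subgroup.coe_mul, map_mul, smul_mul_smul_comm]

theorem eK_mul (hV : (p : ℂ) ∈ V.nonunits) (hKp : Nat.Coprime (Nat.card K) p) (γ δ : IrrCharacter K) :
    eK K R γ * eK K R δ = if γ = δ then eK K R γ else 0 := by
  classical
  simp only [eK]
  rw [sum_smul_mul]
  have h1 : ∀ z : K, ((∑ y : K, bK K γ y * bK K δ (y⁻¹ * z) : V) : ℂ) = blockCoeff ({γ} ∩ {δ}) z := by
    intro z
    have hc := congrFun (blockCoeff_conv (G := K) {γ} {δ}) z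
    rw [← hc]
    simp only [conv]
    push_cast
    refine Finset.sum_congr (Finset.ext fun _ => by simp) fun y _ => ?_
    rw [bK_coe hV hKp, bK_coe hV hKp]
  split_ifs with h
  · subst h
    refine Finset.sum_congr rfl fun z _ => ?_
    congr 1
    apply Subtype.ext
    rw [h1, bK_coe hV hKp]
    simp
  · apply Finset.sum_eq_zero
    intro z _
    have h2 : ({γ} ∩ {δ} : Set (IrrCharacter K)) = ∅ := by
      ext χ
      simp only [Set.mem_inter_iff, Set.mem_singleton_iff, Set.mem_empty_iff_false, iff_false, not_and]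
      rintro rfl
      exact h
    have h3 : (∑ y : K, bK K γ y * bK K δ (y⁻¹ * z) : V) = 0 := by
      apply Subtype.ext
      rw [h1, h2, blockCoeff_empty]
      rfl
    rw [h3, zero_smul]

theorem bK_conj (hV : (p : ℂ) ∈ V.nonunits) (hKp : Nat.Coprime (Nat.card K) p) (f : K ≃* K) (γ : IrrCharacter K) (y : K) :
    bK K (irrMap f γ) (f y) = bK (V := V) K γ y := by
  apply Subtype.ext
  have h1 : (irrMap f γ).1 1 = γ.1 1 := by rw [irrMap_apply, map_one]
  have h2 : (irrMap f γ).1 (f y)⁻¹ = γ.1 y⁻¹ := by rw [← map_inv, irrMap_apply']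
  rw [bK_coe hV hKp, bK_coe hV hKp, blockCoeff_single, blockCoeff_single, h1, h2]

theorem eK_conj (hV : (p : ℂ) ∈ V.nonunits) (hKp : Nat.Coprime (Nat.card K) p) (f : K ≃* K) (n : G)
    (hf : ∀ y, (f y : G) = n * y * n⁻¹) (γ : IrrCharacter K) :
    R n * eK K R γ * R n⁻¹ = eK K R (irrMap f γ) := by
  simp only [eK]
  rw [Finset.mul_sum, Finset.sum_mul]
  refine Fintype.sum_equiv f.toEquiv _ _ fun y => ?_
  simp only [MulEquiv.toEquiv_eq_coe, MulEquiv.coe_toEquiv]
  rw [bK_conj hV hKp, hf, map_mul, map_mul, mul_smul_comm, smul_mul_assoc]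

theorem eK_comm_cent {z : G} (hz : ∀ y ∈ K, z * y = y * z) (γ : IrrCharacter K) :
    Commute (R z) (eK K R γ) := by
  apply Commute.sum_right
  intro y _
  apply Commute.smul_right
  show R z * R y = R y * R z
  rw [← map_mul, ← map_mul, hz y y.2]

theorem eK_comm_K (hV : (p : ℂ) ∈ V.nonunits) (hKp : Nat.Coprime (Nat.card K) p) {z : G} (hz : z ∈ K) (γ : IrrCharacter K) :
    Commute (R z) (eK K R γ) := by
  show R z * eK K R γ = eK K R γ * R z
  simp only [eK]
  rw [Finset.mul_sum, Finset.sum_mul]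
  let z' : K := ⟨z, hz⟩
  refine Fintype.sum_equiv (MulAut.conj z').toEquiv _ _ fun y => ?_
  simp only [MulEquiv.toEquiv_eq_coe, MulEquiv.coe_toEquiv, MulAut.conj_apply]
  have h1 : bK K γ (z' * y * z'⁻¹) = bK (V := V) K γ y := by
    apply Subtype.ext
    rw [bK_coe hV hKp, bK_coe hV hKp]
    exact blockCoeff_isClass _ _ _
  rw [h1, mul_smul_comm, smul_mul_assoc, ← map_mul, ← map_mul]
  congr 2
  simp [z']

/-- The conjugation automorphism. -/
noncomputable def conjK {n : G} (h1 : ∀ y ∈ K, n * y * n⁻¹ ∈ K) (h2 : ∀ y ∈ K, n⁻¹ * y * n ∈ K) : K ≃* K :=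
  { toFun := fun y => ⟨n * y * n⁻¹, h1 _ y.2⟩
    invFun := fun y => ⟨n⁻¹ * y * n, h2 _ y.2⟩
    left_inv := fun y => by ext; simp [mul_assoc]
    right_inv := fun y => by ext; simp [mul_assoc]
    map_mul' := fun y z => by ext; simp [mul_assoc] }

/-- If conjugation by `n` does not carry `γ` to `δ`, the idempotents are orthogonal. -/
theorem eK_zero (hV : (p : ℂ) ∈ V.nonunits) (hKp : Nat.Coprime (Nat.card K) p) {n : G}
    (h1 : ∀ y ∈ K, n * y * n⁻¹ ∈ K) (h2 : ∀ y ∈ K, n⁻¹ * y * n ∈ K) (γ δ : IrrCharacter K)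
    (h : ¬ ∀ y y' : K, (y' : G) = n * y * n⁻¹ → δ.1 y' = γ.1 y) :
    eK K R δ * R n * eK K R γ = 0 := by
  have h3 : R n * eK K R γ = eK K R (irrMap (conjK h1 h2) γ) * R n := by
    rw [← eK_conj R hV hKp (conjK h1 h2) n (fun y => rfl)]
    rw [mul_assoc, ← map_mul, inv_mul_cancel, map_one, mul_one]
  rw [mul_assoc, h3, ← mul_assoc, eK_mul R hV hKp, if_neg, zero_mul]
  rintro rfl
  apply h
  intro y y' hy
  have h4 : y' = conjK h1 h2 y := Subtype.ext hy
  rw [h4, irrMap_apply']

end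

end Cfsg.Agent.H23.DO
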