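import Cfsg.Agent.Lib.H23.DOCore
import Cfsg.Agent.Lib.H22.Brauer2
import Cfsg.Agent.Lib.H21.GradedUnit

/-!
# Lattices in the regular module
-/

set_option autoImplicit false
set_option linter.unusedSectionVars false
set_option linter.style.haveILetI false

namespace Cfsg.Agent.H23.DO

open Module Matrix Cfsg Cfsg.Agent.H22 Cfsg.Agent.H21

variable {G : Type*} [Group G] [Finite G] {V : ValuationSubring ℂ}

/-- Left translation on functions. -/
noncomputable def Lt (g : G) : (G → ℂ) →ₗ[ℂ] (G → ℂ) := LinearMap.funLeft ℂ ℂ (fun h => g⁻¹ * h)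

theorem Lt_apply (g : G) (z : G → ℂ) (h : G) : Lt g z h = z (g⁻¹ * h) := rfl

theorem Lt_mul (g g' : G) (z : G → ℂ) : Lt (g * g') z = Lt g (Lt g' z) := by
  funext h
  simp only [Lt_apply, _root_.mul_inv_rev, mul_assoc]

theorem Lt_one (z : G → ℂ) : Lt (1 : G) z = z := by
  funext h
  simp [Lt_apply]

theorem conv_Lt_left (g : G) (z w : G → ℂ) : conv (Lt g z) w = Lt g (conv z w) := by
  funext k
  simp only [Lt_apply, conv]
  refine Fintype.sum_equiv (Equiv.mulLeft g⁻¹) _ _ fun h => ?_
  simp only [Equiv.coe_mulLeft]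
  congr 2
  group

theorem conv_eq_sum (z w : G → ℂ) : conv z w = ∑ h, z h • Lt h w := by
  funext k
  simp only [conv, Finset.sum_apply, Pi.smul_apply, smul_eq_mul, Lt_apply]

theorem li_ext {E : Type*} [AddCommGroup E] [Module ℂ E] {n : ℕ} {b : Fin n → E}
    (hli : LinearIndependent ℂ b) {α β : Fin n → ℂ} (h : ∑ i, α i • b i = ∑ i, β i • b i) : α = β := by
  have := Fintype.linearIndependent_iff.mp hli (fun i => α i - β i)
    (by simp [sub_smul, Finset.sum_sub_distrib, h])
  funext i
  exact sub_eq_zero.mp (this i)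

theorem exists_lattice_aux {E Γ : Type*} [AddCommGroup E] [Module ℂ E] [Group Γ] [Fintype Γ]
    (L : Γ → E →ₗ[ℂ] E) (hL1 : ∀ z, L 1 z = z) (hLm : ∀ g g' z, L (g * g') z = L g (L g' z)) (r : E) :
    ∃ (n : ℕ) (b : Fin n → E) (R : Γ →* Matrix (Fin n) (Fin n) V) (u : Fin n → V)
      (vc : Fin n → Γ → V), LinearIndependent ℂ b ∧
      (∀ g a, L g (b a) = ∑ c, (((R g c a : V) : ℂ)) • b c) ∧
      r = ∑ a, ((u a : V) : ℂ) • b a ∧ ∀ a, b a = ∑ g, ((vc a g : V) : ℂ) • L g r := by
  classical
  let l := (Finset.univ : Finset Γ).toList.map (fun g => L g r)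
  obtain ⟨n, b, hli, hspan⟩ := exists_vbasis (V := V) l
  have hset : {w | w ∈ l} = Set.range (fun g => L g r) := by
    ext w
    simp [l]
  rw [hset] at hspan
  have hb : ∀ a, ∃ c : Γ → V, ∑ g, c g • L g r = b a := by
    intro a
    apply (Submodule.mem_span_range_iff_exists_fun V).mp
    rw [← hspan]
    exact Submodule.subset_span ⟨a, rfl⟩
  choose vc hvc using hb
  have hL : ∀ g a, L g (b a) ∈ Submodule.span V (Set.range b) := by
    intro g a
    rw [hspan, ← hvc a, map_sum]
    refine Submodule.sum_mem _ fun h _ => ?_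
    have h1 : L g (vc a h • L h r) = vc a h • L (g * h) r := by
      rw [v_smul_def, map_smul, hLm, v_smul_def]
    rw [h1]
    exact Submodule.smul_mem _ _ (Submodule.subset_span ⟨g * h, rfl⟩)
  have hR : ∀ g a, ∃ c : Fin n → V, ∑ i, c i • b i = L g (b a) := fun g a =>
    (Submodule.mem_span_range_iff_exists_fun V).mp (hL g a)
  choose R0 hR0 using hR
  have hR0' : ∀ g a, ∑ i, ((R0 g a i : V) : ℂ) • b i = L g (b a) := by
    intro g a
    rw [← hR0 g a]
    exact Finset.sum_congr rfl fun i _ => (v_smul_def _ _).symm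
  have hone : ∀ a c, R0 (1 : Γ) a c = if c = a then 1 else 0 := by
    intro a c
    have h1 : ∑ i, ((R0 (1 : Γ) a i : V) : ℂ) • b i = ∑ i, (if i = a then (1 : ℂ) else 0) • b i := by
      rw [hR0', hL1]
      simp
    have h2 := congrFun (li_ext hli h1) c
    apply Subtype.ext
    rw [h2]
    split_ifs <;> simp
  have hmul : ∀ g g' a c, R0 (g * g') a c = ∑ d, R0 g d c * R0 g' a d := by
    intro g g' a c
    have h1 : ∑ i, ((R0 (g * g') a i : V) : ℂ) • b i =
        ∑ i, (∑ d, ((R0 g d i : V) : ℂ) * ((R0 g' a d : V) : ℂ)) • b i := by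
      rw [hR0', hLm, ← hR0' g' a, map_sum]
      simp only [map_smul, ← hR0' g]
      simp only [Finset.smul_sum, Finset.sum_smul, smul_smul]
      rw [Finset.sum_comm]
      refine Finset.sum_congr rfl fun i _ => Finset.sum_congr rfl fun d _ => ?_
      rw [mul_comm]
    have h2 := congrFun (li_ext hli h1) c
    apply Subtype.ext
    rw [h2]
    simp
  let R : Γ →* Matrix (Fin n) (Fin n) V :=
    { toFun := fun g => Matrix.of fun c a => R0 g a c
      map_one' := by
        ext c a
        simp [hone, Matrix.one_apply]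
      map_mul' := by
        intro g g'
        ext c a
        simp [hmul, Matrix.mul_apply] }
  have hrin : r ∈ Submodule.span V (Set.range b) := by
    rw [hspan]
    refine Submodule.subset_span ⟨1, hL1 r⟩
  obtain ⟨u, hu⟩ := (Submodule.mem_span_range_iff_exists_fun V).mp hrin
  refine ⟨n, b, R, u, vc, hli, ?_, ?_, ?_⟩
  · intro g a
    exact (hR0' g a).symm
  · rw [← hu]
    exact Finset.sum_congr rfl fun i _ => v_smul_def _ _
  · intro a
    rw [← hvc a]
    exact Finset.sum_congr rfl fun i _ => v_smul_def _ _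

theorem exists_lattice (r : G → ℂ) :
    ∃ (n : ℕ) (b : Fin n → (G → ℂ)) (R : G →* Matrix (Fin n) (Fin n) V) (u : Fin n → V)
      (vc : Fin n → G → V), LinearIndependent ℂ b ∧
      (∀ g a, Lt g (b a) = ∑ c, (((R g c a : V) : ℂ)) • b c) ∧
      r = ∑ a, ((u a : V) : ℂ) • b a ∧ ∀ a, b a = ∑ g, ((vc a g : V) : ℂ) • Lt g r :=
  exists_lattice_aux Lt Lt_one Lt_mul r

theorem trace_lattice {n : ℕ} {b : Fin n → (G → ℂ)} {R : G →* Matrix (Fin n) (Fin n) V}
    {u : Fin n → V} {vc : Fin n → G → V} {r : G → ℂ} (hli : LinearIndependent ℂ b)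
    (hR : ∀ g a, Lt g (b a) = ∑ c, (((R g c a : V) : ℂ)) • b c)
    (hru : r = ∑ a, ((u a : V) : ℂ) • b a) (hb : ∀ a, b a = ∑ g, ((vc a g : V) : ℂ) • Lt g r)
    (hrr : conv r r = r) (g : G) :
    (cm (R g)).trace = ∑ h, r (h⁻¹ * g⁻¹ * h) := by
  classical
  let ιb : (Fin n → ℂ) →ₗ[ℂ] (G → ℂ) :=
    { toFun := fun d => ∑ i, d i • b i
      map_add' := fun d d' => by simp [add_smul, Finset.sum_add_distrib]
      map_smul' := fun c d => by simp [mul_smul, Finset.smul_sum] }
  have hιb : ∀ d, ιb d = ∑ i, d i • b i := fun _ => rfl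
  have hinj : LinearMap.ker ιb = ⊥ := by
    rw [LinearMap.ker_eq_bot']
    intro d hd
    have h1 : ∑ i, d i • b i = ∑ i, (0 : Fin n → ℂ) i • b i := by
      rw [← hιb, hd]
      simp
    exact li_ext hli h1
  obtain ⟨q, hq⟩ := ιb.exists_leftInverse_of_injective hinj
  have hqι : ∀ d, q (ιb d) = d := fun d => by
    have := congrArg (fun f => f d) hq
    simpa using this
  let Pr : (G → ℂ) →ₗ[ℂ] (G → ℂ) :=
    { toFun := fun z => conv z r
      map_add' := fun z w => by
        funext k
        simp only [conv, Pi.add_apply, add_mul, Finset.sum_add_distrib]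
      map_smul' := fun c z => by
        funext k
        simp only [conv, Pi.smul_apply, smul_eq_mul, RingHom.id_apply, Finset.mul_sum]
        exact Finset.sum_congr rfl fun h _ => by ring }
  have hPr : ∀ z, Pr z = conv z r := fun _ => rfl
  have hPrL : ∀ g, Pr (Lt g r) = Lt g r := by
    intro g
    rw [hPr, conv_Lt_left, hrr]
  have hPrb : ∀ a, Pr (b a) = b a := by
    intro a
    rw [hb a, map_sum]
    exact Finset.sum_congr rfl fun g _ => by rw [map_smul, hPrL]
  have hLb : ∀ g a, Lt g (b a) = ιb (fun c => ((R g c a : V) : ℂ)) := fun g a => hR g a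
  have hrange : ∀ z, Pr z ∈ LinearMap.range ιb := by
    intro z
    rw [hPr, conv_eq_sum]
    refine Submodule.sum_mem _ fun h _ => Submodule.smul_mem _ _ ?_
    rw [hru, map_sum]
    refine Submodule.sum_mem _ fun a _ => ?_
    rw [map_smul, hLb]
    exact Submodule.smul_mem _ _ ⟨_, rfl⟩
  have hfact : ∀ z, ιb (q (Pr z)) = Pr z := by
    intro z
    obtain ⟨d, hd⟩ := hrange z
    rw [← hd, hqι]
  have hT : LinearMap.trace ℂ (G → ℂ) (Lt g ∘ₗ Pr) = (cm (R g)).trace := by
    have h1 : Lt g ∘ₗ Pr = (Lt g ∘ₗ ιb) ∘ₗ (q ∘ₗ Pr) := by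
      apply LinearMap.ext
      intro z
      simp only [LinearMap.comp_apply, hfact]
    rw [h1, LinearMap.trace_comp_comm']
    have h2 : (q ∘ₗ Pr) ∘ₗ (Lt g ∘ₗ ιb) = Matrix.toLin' (cm (R g)) := by
      apply LinearMap.ext
      intro d
      simp only [LinearMap.comp_apply, Matrix.toLin'_apply]
      have h3 : Lt g (ιb d) = ιb (cm (R g) *ᵥ d) := by
        rw [hιb, map_sum, hιb]
        simp only [map_smul, hR]
        simp only [Matrix.mulVec, dotProduct, Finset.sum_smul, Finset.smul_sum, smul_smul]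
        rw [Finset.sum_comm]
        refine Finset.sum_congr rfl fun i _ => Finset.sum_congr rfl fun d' _ => ?_
        rw [mul_comm]
        rfl
      have h4 : ∀ d', Pr (ιb d') = ιb d' := by
        intro d'
        rw [hιb, map_sum]
        exact Finset.sum_congr rfl fun i _ => by rw [map_smul, hPrb]
      rw [h3, h4, hqι]
    rw [h2, LinearMap.trace_eq_matrix_trace ℂ (Pi.basisFun ℂ (Fin n)), LinearMap.toMatrix_eq_toMatrix',
      LinearMap.toMatrix'_toLin']
  rw [← hT, LinearMap.trace_eq_matrix_trace ℂ (Pi.basisFun ℂ G), LinearMap.toMatrix_eq_toMatrix']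
  simp only [Matrix.trace, Matrix.diag, LinearMap.toMatrix'_apply, LinearMap.comp_apply]
  refine Finset.sum_congr rfl fun h _ => ?_
  rw [Lt_apply, hPr]
  simp only [conv]
  rw [Finset.sum_eq_single h]
  · simp [mul_assoc]
  · intro k _ hk
    simp [hk]
  · simp

end Cfsg.Agent.H23.DO
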