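import Cfsg.Agent.Lib.H23.DOStruct

/-!
# Eigenspace multiplicities of a `p`-element and the reduction modulo the maximal ideal
-/

set_option autoImplicit false
set_option linter.unusedSectionVars false
set_option linter.style.haveILetI false

namespace Cfsg.Agent.H23.DO

open Module Matrix

section Geom

variable {R : Type*} [Ring R]

theorem geom_mul_self {T : R} {m : ℕ} (hT : T ^ m = 1) :
    T * ∑ i ∈ Finset.range m, T ^ i = ∑ i ∈ Finset.range m, T ^ i := by
  have h1 : T * ∑ i ∈ Finset.range m, T ^ i = ∑ i ∈ Finset.range m, T ^ (i + 1) := by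
    rw [Finset.mul_sum]
    exact Finset.sum_congr rfl fun i _ => (pow_succ' T i).symm
  have h4 := Finset.sum_range_succ' (fun i => T ^ i) m
  have h5 := Finset.sum_range_succ (fun i => T ^ i) m
  rw [h5, hT] at h4
  simp only [pow_zero] at h4
  rw [h1]
  exact (add_right_cancel h4).symm

theorem geom_pow_mul_self {T : R} {m : ℕ} (hT : T ^ m = 1) (j : ℕ) :
    T ^ j * ∑ i ∈ Finset.range m, T ^ i = ∑ i ∈ Finset.range m, T ^ i := by
  induction j with
  | zero => simp
  | succ j ih => rw [pow_succ, mul_assoc, geom_mul_self hT, ih]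

theorem geom_sq {T : R} {m : ℕ} (hT : T ^ m = 1) :
    (∑ i ∈ Finset.range m, T ^ i) * (∑ i ∈ Finset.range m, T ^ i) = m • ∑ i ∈ Finset.range m, T ^ i := by
  rw [Finset.sum_mul, Finset.sum_congr rfl fun j _ => geom_pow_mul_self hT j, Finset.sum_const,
    Finset.card_range]

end Geom

section IdemTrace

variable {ι : Type*} [Fintype ι] [DecidableEq ι]

theorem rank_eq_trace_of_idem (P : Matrix ι ι ℂ) (hP : P * P = P) : (P.rank : ℂ) = P.trace := by
  have hf : IsIdempotentElem (Matrix.toLin' P) := by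
    show Matrix.toLin' P * Matrix.toLin' P = Matrix.toLin' P
    rw [Module.End.mul_eq_comp, ← Matrix.toLin'_mul, hP]
  have h1 := (LinearMap.IsIdempotentElem.isProj_range _ hf).trace
  have h2 : LinearMap.trace ℂ (ι → ℂ) (Matrix.toLin' P) = P.trace := by
    rw [LinearMap.trace_eq_matrix_trace ℂ (Pi.basisFun ℂ ι), LinearMap.toMatrix_eq_toMatrix',
      LinearMap.toMatrix'_toLin']
  rw [← h2, h1]
  rfl

end IdemTrace

section Val

variable {V : ValuationSubring ℂ} {ι : Type*} [Fintype ι] [DecidableEq ι]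

/-- The map to complex matrices. -/
noncomputable abbrev cm : Matrix ι ι V →+* Matrix ι ι ℂ := (V.subtype).mapMatrix

/-- The map to matrices over the residue field. -/
noncomputable abbrev rm : Matrix ι ι V →+* Matrix ι ι (IsLocalRing.ResidueField V) := (res V).mapMatrix

/-- The operator `Σ (ζ⁻¹ A)ⁿ` times `e`. -/
noncomputable def Yy (A e : Matrix ι ι V) (ζ : V) (p : ℕ) : Matrix ι ι V :=
  (∑ n ∈ Finset.range p, (ζ ^ (p - 1) • A) ^ n) * e

theorem res_eq_one_of_pow {p : ℕ} [Fact p.Prime] (hV : (p : ℂ) ∈ V.nonunits) {ζ : V} (hζ : ζ ^ p = 1) :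
    res V ζ = 1 := by
  haveI : CharP (IsLocalRing.ResidueField V) p := charP_res (Fact.out) hV
  have h1 : (res V ζ - 1) ^ p = 0 := by
    rw [sub_pow_char, one_pow, ← map_pow, hζ, map_one, sub_self]
  exact sub_eq_zero.mp (pow_eq_zero_iff (Fact.out : p.Prime).ne_zero |>.mp h1)

/-- The norm matrix over the residue field. -/
noncomputable def nrmM (A : Matrix ι ι (IsLocalRing.ResidueField V)) (p : ℕ) :
    Matrix ι ι (IsLocalRing.ResidueField V) :=
  ∑ n ∈ Finset.range p, A ^ n

theorem rm_Yy {p : ℕ} [Fact p.Prime] (hV : (p : ℂ) ∈ V.nonunits) (A e : Matrix ι ι V) {ζ : V} (hζ : ζ ^ p = 1) :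
    rm (Yy A e ζ p) = nrmM (rm A) p * rm e := by
  simp only [Yy, map_mul, map_sum, map_pow, nrmM]
  congr 1
  refine Finset.sum_congr rfl fun n _ => ?_
  have h1 : rm (ζ ^ (p - 1) • A) = rm A := by
    ext i j
    simp only [rm, RingHom.mapMatrix_apply, Matrix.map_apply, Matrix.smul_apply, smul_eq_mul, map_mul,
      map_pow, res_eq_one_of_pow hV hζ, one_pow, one_mul]
  rw [h1]

theorem A_mul_Yy {p : ℕ} [Fact p.Prime] {A e : Matrix ι ι V} (hAp : A ^ p = 1) {ζ : V} (hζ : ζ ^ p = 1) :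
    A * Yy A e ζ p = ζ • Yy A e ζ p := by
  have hp1 : p - 1 + 1 = p := Nat.sub_add_cancel (Fact.out : p.Prime).one_le
  have hT : (ζ ^ (p - 1) • A) ^ p = 1 := by
    rw [_root_.smul_pow, hAp, ← pow_mul, mul_comm, pow_mul, hζ, one_pow, one_smul]
  have h1 := geom_mul_self hT
  simp only [Yy]
  rw [← mul_assoc, ← smul_mul_assoc]
  congr 1
  have h2 : ζ • ((ζ ^ (p - 1) • A) * ∑ n ∈ Finset.range p, (ζ ^ (p - 1) • A) ^ n) = A * ∑ n ∈ Finset.range p, (ζ ^ (p - 1) • A) ^ n := by
    rw [smul_mul_assoc, smul_smul, ← pow_succ', hp1, hζ, one_smul]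
  rw [← h2, h1]

theorem e_mul_Yy {p : ℕ} {A e : Matrix ι ι V} (hAe : Commute A e) (hee : e * e = e) {ζ : V} :
    e * Yy A e ζ p = Yy A e ζ p := by
  simp only [Yy]
  have h1 : Commute e (∑ n ∈ Finset.range p, (ζ ^ (p - 1) • A) ^ n) :=
    Commute.sum_right _ _ _ fun n _ => ((hAe.symm.smul_right _).pow_right n)
  rw [← mul_assoc, h1.eq, mul_assoc, hee]

/-- The kernel operator. -/
noncomputable def Bb (A e : Matrix ι ι V) (ζ : V) : Matrix ι ι V := (A - ζ • 1) * e + (1 - e)

theorem Bb_mul_Yy {p : ℕ} [Fact p.Prime] {A e : Matrix ι ι V} (hAp : A ^ p = 1) (hAe : Commute A e)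
    (hee : e * e = e) {ζ : V} (hζ : ζ ^ p = 1) : Bb A e ζ * Yy A e ζ p = 0 := by
  simp only [Bb, add_mul, sub_mul, mul_assoc, one_mul, e_mul_Yy hAe hee, smul_mul_assoc, A_mul_Yy hAp hζ]
  simp

theorem rank_add_rank_le {p : ℕ} [Fact p.Prime] {A e : Matrix ι ι V} (hAp : A ^ p = 1) (hAe : Commute A e)
    (hee : e * e = e) {ζ : V} (hζ : ζ ^ p = 1) :
    (rm (Bb A e ζ)).rank + (cm (Yy A e ζ p)).rank ≤ Fintype.card ι := by
  have h1 : cm (Bb A e ζ) * cm (Yy A e ζ p) = 0 := by
    rw [← map_mul, Bb_mul_Yy hAp hAe hee hζ, map_zero]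
  have h2 := Matrix.rank_add_rank_le_card_of_mul_eq_zero h1
  have h3 : (rm (Bb A e ζ)).rank ≤ (cm (Bb A e ζ)).rank := rank_res_le (Bb A e ζ)
  omega

end Val

section Res

variable {k : Type*} [Field k] {ι : Type*} [Fintype ι] [DecidableEq ι]

/-- The kernel of `(A-1)e + (1-e)` consists of the vectors fixed by `A` and by `e`. -/
theorem mem_ker_B {A e : Matrix ι ι k} (hAe : Commute A e) (hee : e * e = e) {w : ι → k}
    (hw : ((A - 1) * e + (1 - e)) *ᵥ w = 0) : A *ᵥ w = w ∧ e *ᵥ w = w := by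
  have h1 : e * ((A - 1) * e + (1 - e)) = (A - 1) * e := by
    have h2 : e * (A - 1) = (A - 1) * e := by
      rw [mul_sub, sub_mul, mul_one, one_mul, hAe.eq]
    rw [mul_add, ← mul_assoc, h2, mul_assoc, hee, mul_sub, mul_one, hee, sub_self, add_zero]
  have h3 : ((A - 1) * e) *ᵥ w = 0 := by
    rw [← h1, ← Matrix.mulVec_mulVec, hw, Matrix.mulVec_zero]
  have h4 : (1 - e) *ᵥ w = 0 := by
    rw [add_mulVec, h3, zero_add] at hw
    exact hw
  have h5 : e *ᵥ w = w := by
    rw [sub_mulVec, one_mulVec] at h4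
    exact (sub_eq_zero.mp h4).symm
  refine ⟨?_, h5⟩
  rw [← Matrix.mulVec_mulVec, h5, sub_mulVec, one_mulVec] at h3
  exact sub_eq_zero.mp h3

/-- If the fixed vectors below `e` are a line modulo norms, the kernel is small. -/
theorem card_le_of_fixed {A e N : Matrix ι ι k} (hAe : Commute A e) (hee : e * e = e) (z : ι → k)
    (hz : ∀ w, A *ᵥ w = w → e *ᵥ w = w → ∃ (c : k) (u : ι → k), w = c • z + (N * e) *ᵥ u) :
    Fintype.card ι ≤ ((A - 1) * e + (1 - e)).rank + (N * e).rank + finrank k (Submodule.span k {z}) := by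
  let B := (A - 1) * e + (1 - e)
  have h1 : LinearMap.ker B.mulVecLin ≤ Submodule.span k {z} ⊔ LinearMap.range (N * e).mulVecLin := by
    intro w hw
    have hw' : B *ᵥ w = 0 := hw
    obtain ⟨h2, h3⟩ := mem_ker_B hAe hee hw'
    obtain ⟨c, u, h4⟩ := hz w h2 h3
    rw [h4]
    exact Submodule.add_mem_sup (Submodule.smul_mem _ _ (Submodule.mem_span_singleton_self z))
      ⟨u, rfl⟩
  have h2 := LinearMap.finrank_range_add_finrank_ker B.mulVecLin
  rw [Module.finrank_fintype_fun_eq_card] at h2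
  have h3 := Submodule.finrank_mono h1
  have h4 := Submodule.finrank_add_le_finrank_add_finrank (Submodule.span k {z}) (LinearMap.range (N * e).mulVecLin)
  have h5 : B.rank = finrank k (LinearMap.range B.mulVecLin) := rfl
  have h6 : (N * e).rank = finrank k (LinearMap.range (N * e).mulVecLin) := rfl
  rw [h5, h6]
  omega

end Res

section Bound

variable {V : ValuationSubring ℂ} {ι : Type*} [Fintype ι] [DecidableEq ι]

theorem rm_Bb {p : ℕ} [Fact p.Prime] (hV : (p : ℂ) ∈ V.nonunits) (A e : Matrix ι ι V) {ζ : V} (hζ : ζ ^ p = 1) :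
    rm (Bb A e ζ) = (rm A - 1) * rm e + (1 - rm e) := by
  simp only [Bb, map_add, map_mul, map_sub, map_one]
  congr 3
  ext i j
  simp only [rm, RingHom.mapMatrix_apply, Matrix.map_apply, Matrix.smul_apply, smul_eq_mul, map_mul,
    res_eq_one_of_pow hV hζ, one_mul]
  rw [Matrix.one_apply, Matrix.one_apply]
  split_ifs
  · exact map_one _
  · exact map_zero _

/-- **The multiplicity bound.** -/
theorem ri_bound {p : ℕ} [Fact p.Prime] (hV : (p : ℂ) ∈ V.nonunits) {A e : Matrix ι ι V} (hAp : A ^ p = 1)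
    (hAe : Commute A e) (hee : e * e = e) {ζ ζ' : V} (hζ : ζ ^ p = 1) (hζ' : ζ' ^ p = 1)
    (z : ι → IsLocalRing.ResidueField V)
    (hz : ∀ w, rm A *ᵥ w = w → rm e *ᵥ w = w →
      ∃ (c : IsLocalRing.ResidueField V) (u : ι → IsLocalRing.ResidueField V),
        w = c • z + (nrmM (rm A) p * rm e) *ᵥ u) :
    (cm (Yy A e ζ p)).rank ≤ (cm (Yy A e ζ' p)).rank +
      finrank (IsLocalRing.ResidueField V) (Submodule.span (IsLocalRing.ResidueField V) {z}) := by
  have hAe' : Commute (rm A) (rm e) := hAe.map rm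
  have hee' : rm e * rm e = rm e := by rw [← map_mul, hee]
  have h1 := rank_add_rank_le hAp hAe hee hζ
  have h2 := card_le_of_fixed hAe' hee' z hz
  rw [← rm_Bb hV A e hζ] at h2
  have h3 : (nrmM (rm A) p * rm e).rank ≤ (cm (Yy A e ζ' p)).rank := by
    rw [← rm_Yy hV A e hζ']
    exact rank_res_le (Yy A e ζ' p)
  omega

theorem cm_smul (c : V) (M : Matrix ι ι V) : cm (c • M) = (c : ℂ) • cm M := by
  ext i j
  show V.subtype (c * M i j) = (c : ℂ) * V.subtype (M i j)
  exact map_mul _ _ _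

/-- Over `ℂ`, `(1/p) Y` is idempotent, so the rank of `Y` is given by a trace. -/
theorem rank_Yy_eq {p : ℕ} [Fact p.Prime] {A e : Matrix ι ι V} (hAp : A ^ p = 1) (hAe : Commute A e)
    (hee : e * e = e) {ζ : V} (hζ : ζ ^ p = 1) :
    ((cm (Yy A e ζ p)).rank : ℂ) * (p : ℂ) =
      ∑ n ∈ Finset.range p, ((ζ : ℂ) ^ (p - 1)) ^ n * (cm (A ^ n * e)).trace := by
  have hp0 : (p : ℂ) ≠ 0 := by exact_mod_cast (Fact.out : p.Prime).ne_zero
  let T := ζ ^ (p - 1) • A
  have hT : T ^ p = 1 := by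
    simp only [T]
    rw [_root_.smul_pow, hAp, ← pow_mul, mul_comm, pow_mul, hζ, one_pow, one_smul]
  let S := ∑ n ∈ Finset.range p, T ^ n
  have hS2 : S * S = p • S := geom_sq hT
  have hSe : Commute S e := Commute.sum_left _ _ _ fun n _ => ((hAe.smul_left _).pow_left n)
  have hY : Yy A e ζ p = S * e := rfl
  have hYY : Yy A e ζ p * Yy A e ζ p = p • Yy A e ζ p := by
    rw [hY]
    calc S * e * (S * e) = S * (e * S) * e := by simp only [mul_assoc]
      _ = S * (S * e) * e := by rw [hSe.symm.eq]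
      _ = (S * S) * (e * e) := by simp only [mul_assoc]
      _ = p • (S * e) := by rw [hS2, hee, smul_mul_assoc]
  let P : Matrix ι ι ℂ := (p : ℂ)⁻¹ • cm (Yy A e ζ p)
  have hPP : P * P = P := by
    simp only [P, smul_mul_assoc, mul_smul_comm, ← map_mul, hYY, smul_smul]
    rw [map_nsmul, ← Nat.cast_smul_eq_nsmul ℂ, smul_smul]
    congr 1
    field_simp
  have h1 := rank_eq_trace_of_idem P hPP
  have h2 : P.rank = (cm (Yy A e ζ p)).rank := by
    simp only [P]
    exact Matrix.rank_smul_of_mem_nonZeroDivisors _ (mem_nonZeroDivisors_of_ne_zero (inv_ne_zero hp0))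
  rw [h2] at h1
  rw [h1]
  simp only [P, Matrix.trace_smul, smul_eq_mul]
  have h3 : (cm (Yy A e ζ p)).trace = ∑ n ∈ Finset.range p, ((ζ : ℂ) ^ (p - 1)) ^ n * (cm (A ^ n * e)).trace := by
    rw [hY]
    simp only [S, T, Finset.sum_mul, map_sum, Matrix.trace_sum]
    refine Finset.sum_congr rfl fun n _ => ?_
    rw [_root_.smul_pow, smul_mul_assoc]
    rw [cm_smul, Matrix.trace_smul, smul_eq_mul]
    rfl
  rw [← h3]
  field_simp

theorem nrm_pow_eq {R : Type*} [Ring R] {T : R} {p : ℕ} (hp : 0 < p) (hT : T ^ p = 1) {n : ℕ}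
    (hn : Nat.Coprime n p) :
    ∑ i ∈ Finset.range p, (T ^ n) ^ i = ∑ i ∈ Finset.range p, T ^ i := by
  classical
  have hinj : Set.InjOn (fun i : ℕ => n * i % p) (Finset.range p) := by
    intro i hi j hj hij
    simp only [Finset.mem_coe, Finset.mem_range] at hi hj
    have h1 : n * i ≡ n * j [MOD p] := hij
    have h2 : i ≡ j [MOD p] := Nat.ModEq.cancel_left_of_coprime (by rw [Nat.gcd_comm]; exact hn) h1
    exact Nat.ModEq.eq_of_lt_of_lt h2 hi hj
  have himg : (Finset.range p).image (fun i : ℕ => n * i % p) = Finset.range p := by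
    apply Finset.eq_of_subset_of_card_le
    · intro a ha
      obtain ⟨i, _, rfl⟩ := Finset.mem_image.mp ha
      exact Finset.mem_range.mpr (Nat.mod_lt _ hp)
    · rw [Finset.card_image_of_injOn hinj]
  nth_rewrite 2 [← himg]
  rw [Finset.sum_image hinj]
  refine Finset.sum_congr rfl fun i _ => ?_
  rw [← pow_mul]
  conv_lhs => rw [← Nat.div_add_mod (n * i) p, pow_add, pow_mul, hT, one_pow, one_mul]

theorem root_mem_val {z : ℂ} {n : ℕ} (hn : n ≠ 0) (hz : z ^ n = 1) : z ∈ V := by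
  rw [← ValuationSubring.valuation_le_one_iff]
  by_contra hcon
  push Not at hcon
  have h1 : V.valuation (z ^ n) = 1 := by rw [hz, map_one]
  rw [map_pow] at h1
  have h2 : 1 < V.valuation z ^ n := one_lt_pow₀ hcon hn
  rw [h1] at h2
  exact lt_irrefl _ h2

theorem trace_zero_of_equal_ranks {p : ℕ} [Fact p.Prime] {A e : Matrix ι ι V} (hAp : A ^ p = 1)
    (hAe : Commute A e) (hee : e * e = e) {ω : V} (hω : IsPrimitiveRoot (ω : ℂ) p) (r : ℕ)
    (hr : ∀ l, (cm (Yy A e (ω ^ l) p)).rank = r) : (cm (A * e)).trace = 0 := by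
  have hpp : p.Prime := Fact.out
  have hp0 : (p : ℂ) ≠ 0 := by exact_mod_cast hpp.ne_zero
  have hωp : ω ^ p = 1 := by
    apply Subtype.ext
    have := hω.pow_eq_one
    simpa using this
  let t : ℕ → ℂ := fun n => (cm (A ^ n * e)).trace
  have h1 : ∀ l, (r : ℂ) * (p : ℂ) = ∑ n ∈ Finset.range p, (((ω : ℂ) ^ l) ^ (p - 1)) ^ n * t n := by
    intro l
    have h2 := rank_Yy_eq hAp hAe hee (ζ := ω ^ l) (by rw [← pow_mul, mul_comm, pow_mul, hωp, one_pow])
    rw [hr] at h2
    rw [h2]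
    refine Finset.sum_congr rfl fun n _ => ?_
    have h4 : ((ω ^ l : V) : ℂ) = V.subtype (ω ^ l) := rfl
    rw [h4, map_pow]
    rfl
  have h2 : ∑ l ∈ Finset.range p, (ω : ℂ) ^ l * ((r : ℂ) * (p : ℂ)) = 0 := by
    rw [← Finset.sum_mul]
    have h3 : ∑ l ∈ Finset.range p, (ω : ℂ) ^ l = 0 := hω.geom_sum_eq_zero hpp.one_lt
    rw [h3, zero_mul]
  have h3 : ∑ l ∈ Finset.range p, (ω : ℂ) ^ l * ((r : ℂ) * (p : ℂ)) = (p : ℂ) * t 1 := by
    have h4 : ∀ l, (ω : ℂ) ^ l * ((r : ℂ) * (p : ℂ)) =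
        ∑ n ∈ Finset.range p, ((ω : ℂ) ^ (1 + (p - 1) * n)) ^ l * t n := by
      intro l
      rw [h1 l, Finset.mul_sum]
      refine Finset.sum_congr rfl fun n _ => ?_
      rw [← mul_assoc]
      congr 1
      rw [← pow_mul, ← pow_mul, ← pow_mul, ← pow_add]
      congr 1
      ring
    rw [Finset.sum_congr rfl fun l _ => h4 l, Finset.sum_comm]
    have h5 : ∀ n ∈ Finset.range p, ∑ l ∈ Finset.range p, ((ω : ℂ) ^ (1 + (p - 1) * n)) ^ l * t n =
        if n = 1 then (p : ℂ) * t 1 else 0 := by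
      intro n hn
      have hn' := Finset.mem_range.mp hn
      rw [← Finset.sum_mul]
      split_ifs with hn1
      · subst hn1
        have h6 : (ω : ℂ) ^ (1 + (p - 1) * 1) = 1 := by
          have : 1 + (p - 1) * 1 = p := by have := hpp.one_lt; omega
          rw [this]
          exact hω.pow_eq_one
        rw [h6]
        simp
      · have h6 : (ω : ℂ) ^ (1 + (p - 1) * n) ≠ 1 := by
          intro h7
          have h8 := (hω.pow_eq_one_iff_dvd _).mp h7
          -- `p ∣ 1 + (p-1) n`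
          have hp1 := hpp.one_lt
          have h9 : 1 + (p - 1) * n + (n - 1) = p * n ∨ n = 0 := by
            rcases Nat.eq_zero_or_pos n with h | h
            · right; exact h
            · left
              obtain ⟨q, rfl⟩ : ∃ q, p = q + 1 := ⟨p - 1, by omega⟩
              obtain ⟨m, rfl⟩ : ∃ m, n = m + 1 := ⟨n - 1, by omega⟩
              simp only [Nat.add_sub_cancel]
              ring
          rcases h9 with h9 | h9
          · have h10 : p ∣ n - 1 := by
              have h11 : p ∣ 1 + (p - 1) * n + (n - 1) := by rw [h9]; exact dvd_mul_right _ _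
              exact (Nat.dvd_add_right h8).mp h11
            have h12 : n - 1 = 0 := Nat.eq_zero_of_dvd_of_lt h10 (by omega)
            have hnpos : n ≠ 1 := hn1
            have hn0 : n = 0 := by omega
            subst hn0
            simp at h8
            exact hpp.one_lt.ne' h8
          · subst h9
            simp at h8
            exact hpp.one_lt.ne' h8
        have h7 : ((ω : ℂ) ^ (1 + (p - 1) * n)) ^ p = 1 := by
          rw [← pow_mul, mul_comm, pow_mul, hω.pow_eq_one, one_pow]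
        have h8 := geom_sum_mul ((ω : ℂ) ^ (1 + (p - 1) * n)) p
        rw [h7, sub_self] at h8
        rw [(mul_eq_zero.mp h8).resolve_right (sub_ne_zero.mpr h6), zero_mul]
    rw [Finset.sum_congr rfl h5, Finset.sum_ite_eq' (Finset.range p) 1]
    rw [if_pos (Finset.mem_range.mpr hpp.one_lt)]
  have h4 : t 1 = 0 := by
    have h5 : (p : ℂ) * t 1 = 0 := by rw [← h3, h2]
    exact (mul_eq_zero.mp h5).resolve_left hp0
  simpa [t] using h4

end Bound

end Cfsg.Agent.H23.DO
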