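import Cfsg.Agent.Lib.H23.BXi
import Cfsg.Agent.Lib.H23.DOLat
import Cfsg.Agent.Lib.H23.DORank

/-!
# Existence of rank one idempotents in a matrix representation
-/

set_option autoImplicit false
set_option linter.unusedSectionVars false
set_option linter.style.haveILetI false

namespace Cfsg.Agent.H23.DO

open Matrix

section Schur

variable {K : Type*} [Group K] [Fintype K] {n : ℕ}

theorem he_of_schur (σ : K →* Matrix (Fin n) (Fin n) ℂ) (hn : n ≠ 0)
    (hS : ∀ X : Matrix (Fin n) (Fin n) ℂ, (∀ z, σ z * X = X * σ z) → ∃ c : ℂ, X = c • 1) :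
    HE σ ((n : ℂ) * ((Fintype.card K : ℕ) : ℂ)⁻¹) := by
  classical
  intro i a b j
  have hn' : (n : ℂ) ≠ 0 := by exact_mod_cast hn
  have hK' : ((Fintype.card K : ℕ) : ℂ) ≠ 0 := by exact_mod_cast Fintype.card_ne_zero
  let X : Matrix (Fin n) (Fin n) ℂ := ∑ y, σ y * Matrix.single a b 1 * σ y⁻¹
  have hX : ∀ z, σ z * X = X * σ z := by
    intro z
    simp only [X]
    rw [Finset.mul_sum, Finset.sum_mul]
    refine Fintype.sum_equiv (Equiv.mulLeft z) _ _ fun y => ?_
    have h1 : σ z⁻¹ * σ z = 1 := by rw [← map_mul]; simp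
    simp only [Equiv.coe_mulLeft]
    rw [map_mul σ z y, _root_.mul_inv_rev, map_mul σ y⁻¹ z⁻¹]
    calc σ z * (σ y * Matrix.single a b 1 * σ y⁻¹)
        = σ z * σ y * Matrix.single a b 1 * σ y⁻¹ * (σ z⁻¹ * σ z) := by
          rw [h1, mul_one]
          simp only [mul_assoc]
      _ = _ := by simp only [mul_assoc]
  obtain ⟨c, hc⟩ := hS X hX
  have htr : Matrix.trace X = if a = b then ((Fintype.card K : ℕ) : ℂ) else 0 := by
    simp only [X]
    rw [Matrix.trace_sum]
    have h1 : ∀ y, Matrix.trace (σ y * Matrix.single a b (1:ℂ) * σ y⁻¹) = if a = b then 1 else 0 := by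
      intro y
      rw [Matrix.trace_mul_comm, ← mul_assoc, ← map_mul]
      simp only [inv_mul_cancel, map_one, one_mul]
      split_ifs with hab
      · subst hab
        exact Matrix.trace_single_eq_same _ _
      · exact Matrix.trace_single_eq_of_ne _ _ _ hab
    simp only [h1]
    split_ifs <;> simp
  have hcn : c * (n : ℂ) = if a = b then ((Fintype.card K : ℕ) : ℂ) else 0 := by
    rw [← htr, hc]
    simp
  have hij : X i j = ∑ y, σ y i a * σ y⁻¹ b j := by
    simp only [X]
    rw [Matrix.sum_apply]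
    refine Finset.sum_congr rfl fun y _ => ?_
    rw [Matrix.mul_apply, Finset.sum_eq_single b]
    · rw [Matrix.mul_single_apply_same, mul_one]
    · intro d _ hd
      rw [Matrix.mul_single_apply_of_ne _ a b i d hd (σ y), zero_mul]
    · simp
  rw [← hij, hc]
  simp only [Matrix.smul_apply, Matrix.one_apply, smul_eq_mul]
  have hc2 : c = (if a = b then ((Fintype.card K : ℕ) : ℂ) else 0) / (n : ℂ) := by
    rw [← hcn]
    field_simp
  rw [hc2]
  by_cases hab : a = b <;> by_cases hij' : i = j <;> simp [hab, hij'] <;> field_simp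

end Schur

section Rank

variable {V : ValuationSubring ℂ} {ι : Type*} [Fintype ι] [DecidableEq ι]

/-- A matrix of order prime to the residue characteristic has a rank one eigen-idempotent. -/
theorem exists_Pm {p : ℕ} [Fact p.Prime] (hV : (p : ℂ) ∈ V.nonunits) (hι : Nonempty ι) {o : ℕ} (ho : 0 < o)
    (hop : Nat.Coprime o p) {A : Matrix ι ι V} (hA : A ^ o = 1) :
    ∃ (Pm : Matrix ι ι V) (lam lam' : V), lam * lam' = 1 ∧
      (∀ C, Pm * C * Pm = Matrix.trace (Pm * C) • Pm) ∧ Pm * Pm = Pm ∧ Matrix.trace Pm = 1 ∧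
      A * Pm = lam • Pm ∧ Pm * A = lam • Pm := by
  classical
  obtain ⟨dinv, hdinv⟩ := exists_val_inv hV hop
  obtain ⟨ξ, hξ⟩ := exists_primitive_val (V := V) o ho
  have hξd : ξ ^ o = 1 := by
    apply Subtype.ext
    have := hξ.pow_eq_one
    simpa using this
  let ξ' : V := ξ ^ (o - 1)
  have hξξ' : ξ * ξ' = 1 := by
    simp only [ξ']
    rw [← pow_succ', Nat.sub_add_cancel ho, hξd]
  have hξ'd : ξ' ^ o = 1 := by
    simp only [ξ']
    rw [← pow_mul, mul_comm, pow_mul, hξd, one_pow]
  have hξ'p : IsPrimitiveRoot ((ξ' : V) : ℂ) o := by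
    have h1 : ((ξ' : V) : ℂ) = (ξ : ℂ) ^ (o - 1) := by
      simp only [ξ']
      push_cast
      rfl
    rw [h1]
    apply hξ.pow_of_coprime
    have : Nat.Coprime o (o - 1) := by
      have h2 : Nat.Coprime (o - 1 + 1) (o - 1) := by simp
      rwa [Nat.sub_add_cancel ho] at h2
    exact this.symm
  let T : ℕ → Matrix ι ι V := fun j => (ξ' ^ j) • A
  have hTd : ∀ j, T j ^ o = 1 := by
    intro j
    simp only [T]
    rw [_root_.smul_pow, hA, ← pow_mul, mul_comm, pow_mul, hξ'd, one_pow, one_smul]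
  let S : ℕ → Matrix ι ι V := fun j => ∑ i ∈ Finset.range o, T j ^ i
  let E : ℕ → Matrix ι ι V := fun j => dinv • S j
  have hEE : ∀ j, E j * E j = E j := by
    intro j
    simp only [E]
    rw [smul_mul_smul_comm, geom_sq (hTd j)]
    rw [← Nat.cast_smul_eq_nsmul V o, smul_smul]
    congr 1
    rw [mul_assoc, hdinv, mul_one]
  have hYS : ∀ j, A * S j = (ξ ^ j) • S j := by
    intro j
    have h1 : T j * S j = S j := geom_mul_self (hTd j)
    have h2 : A = (ξ ^ j) • T j := by
      simp only [T]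
      rw [smul_smul, ← mul_pow, hξξ', one_pow, one_smul]
    conv_lhs => rw [h2]
    rw [smul_mul_assoc, h1]
  have hYE : ∀ j, A * E j = (ξ ^ j) • E j := by
    intro j
    simp only [E]
    rw [mul_smul_comm, hYS, smul_comm]
  have hEY : ∀ j, E j * A = (ξ ^ j) • E j := by
    intro j
    have hc : Commute (E j) A := by
      simp only [E, S, T]
      apply Commute.smul_left
      apply Commute.sum_left
      intro i _
      apply Commute.pow_left
      apply Commute.smul_left
      exact Commute.refl A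
    rw [hc.eq, hYE]
  have hS1 : ∑ j ∈ Finset.range o, E j = 1 := by
    simp only [E, S, T, _root_.smul_pow]
    rw [← Finset.smul_sum, Finset.sum_comm]
    have h1 : ∀ i ∈ Finset.range o, ∑ j ∈ Finset.range o, ((ξ' ^ j) ^ i) • A ^ i =
        if i = 0 then (o : V) • (1 : Matrix ι ι V) else 0 := by
      intro i hi
      rw [← Finset.sum_smul]
      split_ifs with h0
      · subst h0
        simp
      · have h2 : ∑ j ∈ Finset.range o, (ξ' ^ j) ^ i = 0 := by
          have h3 : ∀ j, (ξ' ^ j) ^ i = (ξ' ^ i) ^ j := fun j => pow_right_comm _ _ _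
          simp only [h3]
          have h4 : (ξ' ^ i - 1) * ∑ j ∈ Finset.range o, (ξ' ^ i) ^ j = 0 := by
            rw [mul_comm, geom_sum_mul, ← pow_mul, mul_comm, pow_mul, hξ'd, one_pow, sub_self]
          have h5 : ξ' ^ i - 1 ≠ 0 := by
            intro h6
            have h7 : ξ' ^ i = 1 := sub_eq_zero.mp h6
            have h8 : ((ξ' : V) : ℂ) ^ i = 1 := by
              have := congrArg (fun z : V => (z : ℂ)) h7
              simpa using this
            exact hξ'p.pow_ne_one_of_pos_of_lt h0 (Finset.mem_range.mp hi) h8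
          exact (mul_eq_zero.mp h4).resolve_left h5
        rw [h2, zero_smul]
    rw [Finset.sum_congr rfl h1, Finset.sum_ite_eq' (Finset.range o) 0, if_pos (Finset.mem_range.mpr ho),
      smul_smul, hdinv, one_smul]
  -- a unit entry
  have hunit : ∃ j r c, IsUnit (E j r c) := by
    by_contra hcon
    push Not at hcon
    obtain ⟨i₀⟩ := hι
    have h1 : ∑ j ∈ Finset.range o, E j i₀ i₀ = 1 := by
      have := congrArg (fun X : Matrix ι ι V => X i₀ i₀) hS1
      simpa [Matrix.sum_apply] using this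
    have h2 : (∑ j ∈ Finset.range o, E j i₀ i₀) ∈ IsLocalRing.maximalIdeal V :=
      Ideal.sum_mem _ fun j _ => (IsLocalRing.mem_maximalIdeal _).mpr (hcon j i₀ i₀)
    rw [h1] at h2
    exact ((IsLocalRing.mem_maximalIdeal _).mp h2) isUnit_one
  obtain ⟨j, r, c, ⟨u, hu⟩⟩ := hunit
  let f := E j
  let u' : V := (u⁻¹ : Vˣ)
  have huu : u' * f r c = 1 := by
    simp only [f, u', ← hu]
    simp
  have hff : f * f = f := hEE j
  let v : ι → V := fun a => f a c
  let w : ι → V := fun b => u' * f r b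
  have hwv : w ⬝ᵥ v = 1 := by
    simp only [dotProduct, w, v]
    have h1 : (f * f) r c = f r c := by rw [hff]
    rw [Matrix.mul_apply] at h1
    simp only [mul_assoc]
    rw [← Finset.mul_sum, h1, huu]
  let Pm : Matrix ι ι V := Matrix.vecMulVec v w
  have hPC : ∀ C : Matrix ι ι V, Matrix.trace (Pm * C) = w ⬝ᵥ (C *ᵥ v) := by
    intro C
    simp only [Pm]
    rw [Matrix.trace_mul_comm, Matrix.mul_vecMulVec, Matrix.trace_vecMulVec, dotProduct_comm]
  have hPCP : ∀ C, Pm * C * Pm = Matrix.trace (Pm * C) • Pm := by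
    intro C
    rw [hPC]
    simp only [Pm]
    rw [mul_assoc, Matrix.mul_vecMulVec]
    ext a b
    simp only [Matrix.mul_apply, Matrix.vecMulVec_apply, Matrix.smul_apply, smul_eq_mul]
    have h1 : ∀ d, v a * w d * ((C *ᵥ v) d * w b) = (w d * (C *ᵥ v) d) * (v a * w b) := by
      intro d
      ring
    simp only [h1]
    rw [← Finset.sum_mul]
    rfl
  have hAv : A *ᵥ v = (ξ ^ j) • v := by
    funext a
    have h1 := congrFun (congrFun (hYE j) a) c
    simpa [Matrix.mul_apply, Matrix.mulVec, dotProduct, f, v] using h1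
  have hAw : w ᵥ* A = (ξ ^ j) • w := by
    funext b
    have h1 := congrFun (congrFun (hEY j) r) b
    simp only [Matrix.vecMul, dotProduct, w, Pi.smul_apply, smul_eq_mul]
    simp only [mul_assoc]
    rw [← Finset.mul_sum]
    have h2 : ∑ d, f r d * A d b = (ξ ^ j) * f r b := by
      simpa [Matrix.mul_apply, f] using h1
    rw [h2]
    ring
  have htrP : Matrix.trace Pm = 1 := by
    simp only [Pm]
    rw [Matrix.trace_vecMulVec, dotProduct_comm, hwv]
  refine ⟨Pm, ξ ^ j, ξ' ^ j, ?_, hPCP, ?_, ?_, ?_, ?_⟩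
  · rw [← mul_pow, hξξ', one_pow]
  · have h1 := hPCP 1
    simp only [mul_one] at h1
    rw [h1, htrP, one_smul]
  · exact htrP
  · simp only [Pm]
    rw [Matrix.mul_vecMulVec, hAv, Matrix.smul_vecMulVec]
  · simp only [Pm]
    rw [Matrix.vecMulVec_mul, hAw, Matrix.vecMulVec_smul]

end Rank

end Cfsg.Agent.H23.DO
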