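import Cfsg.Agent.Lib.H23.BExA
import Cfsg.Agent.Lib.H04.Cliff.Extend
import Cfsg.Agent.Lib.H22.Transport

/-!
# A matrix representation of an invariant character over a valuation ring
-/

set_option autoImplicit false
set_option linter.unusedSectionVars false
set_option linter.style.haveILetI false

namespace Cfsg.Agent.H23.DO

open Module Matrix Cfsg Cfsg.Agent.H22 Cfsg.Agent.H21

universe u

/-- The data attached to an invariant character. -/
structure BD {G : Type u} [Group G] (K : Subgroup G) [Fintype K] (V : ValuationSubring ℂ)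
    (β : IrrCharacter K) (τ₁ : G) (e₁ : ℕ) where
  n : ℕ
  hn : n ≠ 0
  σ : K →* Matrix (Fin n) (Fin n) V
  κ : V
  hE : HE σ κ
  hEC : HE ((cm (V := V) (ι := Fin n)).toMonoidHom.comp σ) (κ : ℂ)
  htr : ∀ y, Matrix.trace (cm (σ y)) = β.1 y
  hκ : (κ : ℂ) = β.1 1 * ((Fintype.card K : ℕ) : ℂ)⁻¹
  f : K ≃* K
  hf : ∀ y, (f y : G) = τ₁ * y * τ₁⁻¹
  M : Matrix (Fin n) (Fin n) V
  M' : Matrix (Fin n) (Fin n) V
  hMM : M * M' = 1
  hM'M : M' * M = 1
  hσf : ∀ y, σ (f y) = M * σ y * M'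
  Pm : Matrix (Fin n) (Fin n) V
  hPm : ∀ C, Pm * C * Pm = Matrix.trace (Pm * C) • Pm
  hPm1 : Pm * Pm = Pm
  hPm2 : Matrix.trace Pm = 1
  lam : V
  lam' : V
  hlam : lam * lam' = 1
  hMPm : M * Pm = lam • Pm
  hPmM : Pm * M = lam • Pm
  hz : ∀ z : K, (z : G) = τ₁ ^ e₁ → σ z * Pm = lam ^ e₁ • Pm

theorem exists_BD {G : Type u} [Group G] [Finite G] (V : ValuationSubring ℂ) {p : ℕ} [Fact p.Prime]
    (hV : (p : ℂ) ∈ V.nonunits) (K : Subgroup G) [Fintype K] (St : Subgroup G) (hKSt : K ≤ St)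
    (β : IrrCharacter K) (hSt : ∀ g ∈ St, ∀ y y' : K, (y' : G) = g * y * g⁻¹ → β.1 y' = β.1 y)
    (hStN : St ≤ Subgroup.normalizer (K : Set G)) (τ₁ : G) (hτ₁ : τ₁ ∈ St) (e₁ : ℕ)
    (hop : Nat.Coprime (orderOf τ₁) p)
    (hKp : Nat.Coprime (Nat.card K) p) : Nonempty (BD K V β τ₁ e₁) := by
  classical
  haveI : Fintype G := Fintype.ofFinite G
  have hconjK : ∀ g ∈ St, ∀ y ∈ K, g * y * g⁻¹ ∈ K := fun g hg y hy =>
    (Subgroup.mem_normalizer_iff.mp (hStN hg) y).mp hy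
  have hτn : ∀ n : ℤ, τ₁ ^ n ∈ St := fun n => St.zpow_mem hτ₁ n
  let H : Subgroup G :=
    { carrier := {g | ∃ n : ℤ, ∃ y ∈ K, g = y * τ₁ ^ n}
      mul_mem' := by
        rintro _ _ ⟨n, y, hy, rfl⟩ ⟨m, y', hy', rfl⟩
        exact ⟨n + m, y * (τ₁ ^ n * y' * (τ₁ ^ n)⁻¹), K.mul_mem hy (hconjK _ (hτn n) _ hy'), by
          rw [_root_.zpow_add]; group⟩
      one_mem' := ⟨0, 1, K.one_mem, by simp⟩
      inv_mem' := by
        rintro _ ⟨n, y, hy, rfl⟩
        exact ⟨-n, τ₁ ^ (-n) * y⁻¹ * (τ₁ ^ (-n))⁻¹, hconjK _ (hτn _) _ (K.inv_mem hy), by group⟩ }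
  haveI : Fintype H := Fintype.ofFinite H
  have hHSt : H ≤ St := by
    rintro _ ⟨n, y, hy, rfl⟩
    exact St.mul_mem (hKSt hy) (hτn n)
  have hKH : K ≤ H := fun y hy => ⟨0, y, hy, by simp⟩
  let τ' : H := ⟨τ₁, ⟨1, 1, K.one_mem, by simp⟩⟩
  let K' : Subgroup H := K.subgroupOf H
  haveI hK'n : K'.Normal := by
    constructor
    intro n hn g
    exact Subgroup.mem_subgroupOf.mpr (hconjK g (hHSt g.2) n (Subgroup.mem_subgroupOf.mp hn))
  let e : K' ≃* K := Subgroup.subgroupOfEquivOfLe hKH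
  have he : ∀ y : K', (e y : G) = ((y : H) : G) := fun y => rfl
  let β' : IrrCharacter K' := irrMap e.symm β
  have hβ' : ∀ y : K', β'.1 y = β.1 (e y) := fun y => rfl
  obtain ⟨n, ρ, hρ, hch⟩ := β'.2
  have hinv : ∀ (g : H) (y : K'), ρ.character (Cfsg.Agent.H04.Cliff.cj K' g y) = ρ.character y := by
    intro g y
    rw [hch, hβ', hβ']
    exact hSt g (hHSt g.2) (e y) (e (Cfsg.Agent.H04.Cliff.cj K' g y)) rfl
  have hcyc : IsCyclic (H ⧸ K') := by
    refine ⟨⟨(τ' : H ⧸ K'), fun q => ?_⟩⟩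
    induction q using QuotientGroup.induction_on with
    | H h =>
      obtain ⟨h, ⟨m, y, hy, hh⟩⟩ := h
      refine ⟨m, ?_⟩
      show ((τ' : H ⧸ K')) ^ m = _
      rw [← QuotientGroup.mk_zpow]
      apply QuotientGroup.eq.mpr
      apply Subgroup.mem_subgroupOf.mpr
      have h1 := hconjK _ (hτn (-m)) y hy
      have h2 : (((τ' ^ m)⁻¹ * ⟨h, ⟨m, y, hy, hh⟩⟩ : H) : G) = τ₁ ^ (-m) * y * (τ₁ ^ (-m))⁻¹ := by
        simp only [Subgroup.coe_mul, Subgroup.coe_inv, Subgroup.coe_zpow]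
        rw [hh]
        simp only [τ']
        group
      rw [h2]
      exact h1
  obtain ⟨τt, hτirr, hτt⟩ := Cfsg.Agent.H04.Cliff.extends_of_cyclic hρ hinv hcyc
  have hn : n ≠ 0 := by
    rintro rfl
    have h1 := irr_one_ne_zero' β'
    rw [← hch] at h1
    simp at h1
  haveI hne : NeZero n := ⟨hn⟩
  let r : Fin n → ℂ := fun _ => 1
  have hr0 : r ≠ 0 := by
    intro h
    have := congrFun h 0
    simp [r] at this
  obtain ⟨m, b, R, u, vc, hli, hL, hru, hb⟩ := exists_lattice_aux (V := V) (fun g : H => τt g)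
    (by simp) (by simp) r
  have hm : m ≠ 0 := by
    rintro rfl
    apply hr0
    rw [hru]
    simp
  let Sm : Submodule ℂ (Fin n → ℂ) := Submodule.span ℂ (Set.range b)
  have hinvS : ∀ (g : H) ⦃w : Fin n → ℂ⦄, w ∈ Sm → τt g w ∈ Sm := by
    intro g w hw
    induction hw using Submodule.span_induction with
    | mem x hx =>
      obtain ⟨a, rfl⟩ := hx
      rw [hL]
      exact Submodule.sum_mem _ fun c _ => Submodule.smul_mem _ _ (Submodule.subset_span ⟨c, rfl⟩)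
    | zero => simp
    | add x y _ _ hx hy => rw [map_add]; exact Submodule.add_mem _ hx hy
    | smul c x _ hx => rw [map_smul]; exact Submodule.smul_mem _ _ hx
  let S : Subrepresentation τt := ⟨Sm, hinvS⟩
  have hSm : Sm = ⊤ := by
    haveI := hτirr
    rcases eq_bot_or_eq_top S with h | h
    · exfalso
      have h1 : r ∈ Sm := by
        rw [hru]
        exact Submodule.sum_mem _ fun c _ => Submodule.smul_mem _ _ (Submodule.subset_span ⟨c, rfl⟩)
      have h2 : Sm = ⊥ := congrArg Subrepresentation.toSubmodule h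
      rw [h2] at h1
      exact hr0 ((Submodule.mem_bot ℂ).mp h1)
    · exact congrArg Subrepresentation.toSubmodule h
  let 𝔟 : Module.Basis (Fin m) ℂ (Fin n → ℂ) := Module.Basis.mk hli (by
    show ⊤ ≤ Sm
    rw [hSm])
  have h𝔟 : ∀ a, 𝔟 a = b a := fun a => Module.Basis.mk_apply _ _ _
  have hτL : ∀ g : H, τt g = Matrix.toLin 𝔟 𝔟 (cm (R g)) := by
    intro g
    apply 𝔟.ext
    intro a
    rw [Matrix.toLin_self, h𝔟, hL]
    refine Finset.sum_congr rfl fun c _ => ?_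
    rw [h𝔟]
    rfl
  have htrH : ∀ g : H, Matrix.trace (cm (R g)) = τt.character g := by
    intro g
    show _ = LinearMap.trace ℂ _ (τt g)
    rw [hτL, LinearMap.trace_eq_matrix_trace ℂ 𝔟, LinearMap.toMatrix_toLin]
  let inc : K →* H := Subgroup.inclusion hKH
  let σ : K →* Matrix (Fin m) (Fin m) V := R.comp inc
  let toK' : K → K' := fun y => ⟨inc y, Subgroup.mem_subgroupOf.mpr y.2⟩
  have hS : ∀ X : Matrix (Fin m) (Fin m) ℂ,
      (∀ z, ((cm (V := V) (ι := Fin m)).toMonoidHom.comp σ) z * X = X * ((cm (V := V) (ι := Fin m)).toMonoidHom.comp σ) z) →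
      ∃ c : ℂ, X = c • 1 := by
    intro X hX
    have hcomm : ∀ g : K', (Matrix.toLin 𝔟 𝔟 X) ∘ₗ ρ g = ρ g ∘ₗ (Matrix.toLin 𝔟 𝔟 X) := by
      intro g
      rw [← hτt g, hτL, ← Matrix.toLin_mul, ← Matrix.toLin_mul]
      congr 1
      have h1 := hX (e g)
      have h2 : ((cm (V := V) (ι := Fin m)).toMonoidHom.comp σ) (e g) = cm (R (g : H)) := rfl
      rw [h2] at h1
      exact h1.symm
    obtain ⟨c, hc⟩ := schur_scalar ρ hρ _ hcomm
    refine ⟨c, ?_⟩
    apply (Matrix.toLin 𝔟 𝔟).injective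
    rw [map_smul, Matrix.toLin_one]
    exact hc
  have hKp' : Nat.Coprime (Fintype.card K) p := by
    rw [← Nat.card_eq_fintype_card]
    exact hKp
  obtain ⟨kinv, hkinv⟩ := exists_val_inv hV hKp'
  have hkC : (kinv : ℂ) = ((Fintype.card K : ℕ) : ℂ)⁻¹ := by
    have h1 : (kinv : ℂ) * ((Fintype.card K : ℕ) : ℂ) = 1 := by
      have := congrArg (fun z : V => (z : ℂ)) hkinv
      simpa using this
    exact eq_inv_of_mul_eq_one_left h1
  let κ : V := (m : V) * kinv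
  have hκC : (κ : ℂ) = (m : ℂ) * ((Fintype.card K : ℕ) : ℂ)⁻¹ := by
    simp only [κ]
    push_cast
    rw [hkC]
  have hEC : HE ((cm (V := V) (ι := Fin m)).toMonoidHom.comp σ) (κ : ℂ) := by
    rw [hκC]
    exact he_of_schur _ hm hS
  have hE : HE σ κ := by
    intro i a c j
    apply Subtype.ext
    have h1 := hEC i a c j
    have h2 : ((κ * ∑ y, σ y i a * σ y⁻¹ c j : V) : ℂ) =
        (κ : ℂ) * ∑ y, ((cm (V := V) (ι := Fin m)).toMonoidHom.comp σ) y i a *
          ((cm (V := V) (ι := Fin m)).toMonoidHom.comp σ) y⁻¹ c j := by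
      push_cast
      rfl
    rw [h2, h1]
    split_ifs <;> simp
  let f : K ≃* K :=
    { toFun := fun y => ⟨τ₁ * y * τ₁⁻¹, hconjK _ hτ₁ _ y.2⟩
      invFun := fun y => ⟨τ₁⁻¹ * y * τ₁, by
        have := hconjK _ (St.inv_mem hτ₁) _ y.2
        simpa using this⟩
      left_inv := fun y => by ext; simp [mul_assoc]
      right_inv := fun y => by ext; simp [mul_assoc]
      map_mul' := fun y z => by ext; simp [mul_assoc] }
  have hoH : τ' ^ orderOf τ₁ = 1 := by
    apply Subtype.ext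
    simp [τ', pow_orderOf_eq_one]
  obtain ⟨Pm, lam, lam', hlam, hPm, hPm1, hPm2, hMPm, hPmM⟩ := exists_Pm hV ⟨⟨0, Nat.pos_of_ne_zero hm⟩⟩
    (orderOf_pos τ₁) hop (A := R τ') (by rw [← map_pow, hoH, map_one])
  have hσ1 : ∀ y, Matrix.trace (cm (σ y)) = β.1 y := by
    intro y
    have h1 := htrH (inc y)
    have h2 : τt.character (inc y) = ρ.character (toK' y) := by
      show LinearMap.trace ℂ _ (τt (inc y)) = LinearMap.trace ℂ _ (ρ (toK' y))
      rw [← hτt (toK' y)]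
    rw [h2, hch, hβ'] at h1
    exact h1
  have hpowM : ∀ k : ℕ, (R τ') ^ k * Pm = lam ^ k • Pm := by
    intro k
    induction k with
    | zero => simp
    | succ k ih =>
      rw [pow_succ, mul_assoc, hMPm, mul_smul_comm, ih, smul_smul, pow_succ, mul_comm]
  refine ⟨⟨m, hm, σ, κ, hE, hEC, hσ1, ?_, f, fun y => rfl, R τ', R τ'⁻¹, ?_, ?_, ?_, Pm, hPm, hPm1, hPm2,
    lam, lam', hlam, hMPm, hPmM, ?_⟩⟩
  · rw [← hσ1 1, hκC]
    simp
  · rw [← map_mul]; simp
  · rw [← map_mul]; simp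
  · intro y
    show R (inc (f y)) = R τ' * R (inc y) * R τ'⁻¹
    rw [← map_mul, ← map_mul]
    rfl
  · intro z hz
    have h1 : inc z = τ' ^ e₁ := by
      apply Subtype.ext
      simp [inc, τ', hz]
    have h2 : σ z = (R τ') ^ e₁ := by
      show R (inc z) = _
      rw [h1, map_pow]
    rw [h2, hpowM]

end Cfsg.Agent.H23.DO
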