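import Cfsg.Agent.Lib.H23.BData
import Cfsg.Agent.Lib.H22.PiKer4

/-!
# Restriction to the complement, and the congruence with the induced central character
-/

set_option autoImplicit false
set_option linter.unusedSectionVars false
set_option linter.style.haveILetI false

namespace Cfsg.Agent.H23.DO

open Module Matrix Cfsg Cfsg.Agent.H22 Cfsg.Agent.H21
open scoped ComplexConjugate

universe u

theorem irr_comp_of_ker {C L : Type*} [Group C] [Finite C] [Group L] (f : L →* C) {χ : C → ℂ}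
    (hχ : IsIrrCharacter C χ) {z : C} (hz : χ z = χ 1)
    (hgen : ∀ c : C, ∃ (n : ℕ) (y : L), c = z ^ n * f y) :
    IsIrrCharacter L (χ ∘ f) := by
  obtain ⟨n, ρ, hρ, rfl⟩ := hχ
  have h1 : ρ z = 1 := by
    rw [← character_eq_finrank_iff]
    simpa using hz
  refine ⟨n, ρ.comp f, ?_, rfl⟩
  have hnt : Nontrivial (Fin n → ℂ) := by
    by_contra hV
    rw [not_nontrivial_iff_subsingleton] at hV
    obtain ⟨a, b, hab⟩ := (inferInstance : Nontrivial (Subrepresentation ρ)).exists_pair_ne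
    apply hab
    apply Subrepresentation.toSubmodule_injective
    exact Subsingleton.elim _ _
  have : Nontrivial (Subrepresentation (ρ.comp f)) := by
    refine ⟨⟨⊥, ⊤, ?_⟩⟩
    intro h
    have := congrArg Subrepresentation.toSubmodule h
    exact (bot_ne_top : (⊥ : Submodule ℂ (Fin n → ℂ)) ≠ ⊤) this
  refine { eq_bot_or_eq_top := fun S => ?_ }
  let S' : Subrepresentation ρ :=
    { toSubmodule := S.toSubmodule
      apply_mem_toSubmodule := by
        intro g v hv
        obtain ⟨k, y, rfl⟩ := hgen g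
        rw [map_mul, map_pow, h1, one_pow, one_mul]
        exact S.apply_mem_toSubmodule y hv }
  rcases hρ.eq_bot_or_eq_top S' with h' | h'
  · left
    apply Subrepresentation.toSubmodule_injective
    have := congrArg Subrepresentation.toSubmodule h'
    exact this
  · right
    apply Subrepresentation.toSubmodule_injective
    have := congrArg Subrepresentation.toSubmodule h'
    exact this

theorem char_pow_mul_of_ker {G : Type*} [Group G] [Finite G] {χ : G → ℂ} (hχ : IsCharacter G χ) {n : G}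
    (h : χ n = χ 1) (k : ℕ) (g : G) : χ (n ^ k * g) = χ g := by
  induction k with
  | zero => simp
  | succ k ih =>
    rw [pow_succ', mul_assoc, char_mul_of_ker hχ h, ih]

variable {G : Type u} [Group G] [Finite G] {p : ℕ} [Fact p.Prime] (D : DS G p) {M : Ideal AlgInt}
  (hCdec : ∀ z : G, z * D.x = D.x * z → ∃ (n : ℕ) (y : G), y ∈ D.K ∧ z = D.x ^ n * y)

abbrev CC : Subgroup G := Subgroup.centralizer ((Subgroup.zpowers D.x : Subgroup G) : Set G)

theorem K_le_CC : D.K ≤ CC D := fun y hy => mem_cent_zpowers.mpr (D.hxK y hy).symm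

def inclK : D.K →* CC D := Subgroup.inclusion (K_le_CC D)

@[simp] theorem inclK_coe (y : D.K) : ((inclK D y : CC D) : G) = y := rfl

def xC : CC D := ⟨D.x, mem_cent_zpowers.mpr rfl⟩

@[simp] theorem xC_coe : ((xC D : CC D) : G) = D.x := rfl

include hCdec in
theorem CC_gen (c : CC D) : ∃ (n : ℕ) (y : D.K), c = xC D ^ n * inclK D y := by
  obtain ⟨n, y, hy, h⟩ := hCdec c (mem_cent_zpowers.mp c.2)
  refine ⟨n, ⟨y, hy⟩, ?_⟩
  apply Subtype.ext
  simp [h]

/-- The restriction of a character of the centralizer with the subgroup in its kernel. -/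
def resK (θ₀ : IrrCharacter (CC D)) (hx : θ₀.1 (xC D) = θ₀.1 1) : IrrCharacter D.K :=
  ⟨θ₀.1 ∘ inclK D, irr_comp_of_ker (inclK D) θ₀.2 hx (CC_gen D hCdec)⟩

theorem resK_apply (θ₀ : IrrCharacter (CC D)) (hx : θ₀.1 (xC D) = θ₀.1 1) (y : D.K) :
    (resK D hCdec θ₀ hx).1 y = θ₀.1 (inclK D y) := rfl

/-- Conjugation by elements of the normalizer on the centralizer. -/
theorem conj_mem_CC (t : NN D) (c : CC D) : (t : G) * c * (t : G)⁻¹ ∈ CC D := by
  apply mem_cent_zpowers.mpr
  have h1 : (t : G)⁻¹ * D.x * (t : G) ∈ Subgroup.zpowers D.x := by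
    have := (Subgroup.mem_normalizer_iff.mp (Subgroup.inv_mem _ t.2) D.x).mp (Subgroup.mem_zpowers D.x)
    rwa [inv_inv] at this
  have h2 := (Subgroup.mem_centralizer_iff.mp c.2 _ h1)
  calc (t : G) * c * (t : G)⁻¹ * D.x = (t : G) * (c * ((t : G)⁻¹ * D.x * (t : G))) * (t : G)⁻¹ := by group
    _ = (t : G) * (((t : G)⁻¹ * D.x * (t : G)) * c) * (t : G)⁻¹ := by rw [h2]
    _ = D.x * ((t : G) * c * (t : G)⁻¹) := by group

def conjC (t : NN D) (c : CC D) : CC D := ⟨(t : G) * c * (t : G)⁻¹, conj_mem_CC D t c⟩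

@[simp] theorem conjC_coe (t : NN D) (c : CC D) : ((conjC D t c : CC D) : G) = (t : G) * c * (t : G)⁻¹ := rfl

def conjCE (t : NN D) : CC D ≃ CC D where
  toFun := conjC D t
  invFun := conjC D t⁻¹
  left_inv c := by
    apply Subtype.ext
    simp [mul_assoc]
  right_inv c := by
    apply Subtype.ext
    simp [mul_assoc]

section Cong

variable (θ : NN D →* (ZMod p)ˣ)
  (hθ : ∀ t : NN D, (t : G) * D.x * (t : G)⁻¹ = D.x ^ (((θ t : (ZMod p)ˣ) : ZMod p)).val)
  (hker : Nat.card θ.ker = p * Nat.card D.K)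
  (hconj : ∀ w : G, orderOf w = p → ∃ (b : G) (n : ℕ), b * w * b⁻¹ = D.x ^ n)
  (hsq : ¬ p ^ 2 ∣ Nat.card G)
  (θ₀ : IrrCharacter (CC D)) (hx : θ₀.1 (xC D) = θ₀.1 1)

local notation "β₀" => resK D hCdec θ₀ hx

include hx in
theorem theta_eq (c : CC D) {n : ℕ} {y : D.K} (h : (c : G) = D.x ^ n * y) : θ₀.1 c = θ₀.1 (inclK D y) := by
  have h1 : c = xC D ^ n * inclK D y := by
    apply Subtype.ext
    simp [h]
  rw [h1]
  exact char_pow_mul_of_ker (isCharacter_of_irr θ₀.2) hx n _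

include hθ in
/-- The value of a conjugate of the restriction. -/
theorem orb_val (t : NN D) (c : CC D) {n : ℕ} {y : D.K} (h : (c : G) = D.x ^ n * y) :
    (irrMap (cjN D t) β₀).1 y = θ₀.1 (conjC D t⁻¹ c) := by
  have h1 : (irrMap (cjN D t) β₀).1 y = θ₀.1 (inclK D ((cjN D t).symm y)) := rfl
  rw [h1]
  symm
  apply theta_eq D θ₀ hx (n := (((θ t⁻¹ : (ZMod p)ˣ) : ZMod p) * (n : ZMod p)).val)
  have h2 := conj_form D θ hθ t⁻¹ n y.2
  rw [conjC_coe, h, h2]
  congr 1
  have h4 := cjN_coe D t ((cjN D t).symm y)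
  rw [MulEquiv.apply_symm_apply] at h4
  rw [h4, Subgroup.coe_inv]
  group

include hθ in
theorem orb_val_Gm (γ : IrrCharacter D.K) (hγ : γ ∈ Orb D β₀) :
    ∃ t : NN D, ∀ (c : CC D) (n : ℕ) (y : D.K), (c : G) = D.x ^ n * y → γ.1 y = θ₀.1 (conjC D t⁻¹ c) := by
  obtain ⟨t, rfl⟩ := (mem_Orb D β₀ γ).mp hγ
  exact ⟨t, fun c n y h => orb_val D hCdec θ hθ θ₀ hx t c h⟩

open scoped Classical in
/-- Sum over a conjugacy class meeting the centralizer, by conjugates. -/
theorem sum_conj_theta (t : NN D) (g : G) :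
    ∑ c : CC D, (if IsConj g (c : G) then θ₀.1 (conjC D t⁻¹ c) else 0) =
      ∑ c : CC D, if IsConj g (c : G) then θ₀.1 c else 0 := by
  refine Fintype.sum_equiv (conjCE D t⁻¹) _ _ fun c => ?_
  have h : IsConj g ((conjCE D t⁻¹ c : CC D) : G) ↔ IsConj g (c : G) := by
    have h1 : IsConj (c : G) ((conjCE D t⁻¹ c : CC D) : G) := by
      rw [isConj_iff]
      exact ⟨(t⁻¹ : NN D), rfl⟩
    exact ⟨fun h2 => h2.trans h1.symm, fun h2 => h2.trans h1⟩
  simp only [h]
  rfl

include hθ hsq in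
/-- Values on the centralizer of a character with a nonzero row, modulo the local ideal. -/
theorem mli_val_C (hM : IsPModular p M) {χ : IrrCharacter G} (hχ : SB D β₀ χ) :
    ∃ tf : IrrCharacter D.K → NN D, (∀ c : CC D, MemLocalIdeal M
      (χ.1 c - ((kap D β₀ χ : ℤ) : ℂ) * ∑ γ ∈ Orb D β₀, θ₀.1 (conjC D (tf γ)⁻¹ c))) := by
  classical
  haveI : M.IsPrime := hM.2.1.isPrime
  have hex : ∀ γ : IrrCharacter D.K, ∃ t : NN D, γ ∈ Orb D β₀ →
      ∀ (c : CC D) (n : ℕ) (y : D.K), (c : G) = D.x ^ n * y → γ.1 y = θ₀.1 (conjC D t⁻¹ c) := by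
    intro γ
    by_cases hγ : γ ∈ Orb D β₀
    · obtain ⟨t, ht⟩ := orb_val_Gm D hCdec θ hθ θ₀ hx γ hγ
      exact ⟨t, fun _ => ht⟩
    · exact ⟨1, fun h => absurd h hγ⟩
  choose tf htf using hex
  refine ⟨tf, fun c => ?_⟩
  obtain ⟨n, y, hy, hc⟩ := hCdec c (mem_cent_zpowers.mp c.2)
  let y' : D.K := ⟨y, hy⟩
  have hcy : (c : G) = D.x ^ n * (y' : G) := hc
  have h1 : ∑ γ ∈ Orb D β₀, θ₀.1 (conjC D (tf γ)⁻¹ c) = Gm D β₀ y' := by
    refine Finset.sum_congr rfl fun γ hγ => ?_
    exact (htf γ hγ c n y' hcy).symm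
  rw [h1, hcy]
  have h2 := mli_pow D hM (isCharacter_of_irr χ.2) n y'.2
  have h3 := mli_val D θ hθ hsq hM β₀ hχ y'
  have h4 := mli_add h2 h3
  rwa [sub_add_sub_cancel] at h4

include hθ hsq hker in
/-- The central character of a character with a nonzero row agrees with the induced one. -/
theorem induced_cong (hM : IsPModular p M) {χ : IrrCharacter G} (hχ : SB D β₀ χ) (g : G) :
    MemLocalIdeal M (inducedCentralChar (CC D) θ₀.1 g - centralChar χ.1 g) := by
  classical
  haveI hMp : M.IsPrime := hM.2.1.isPrime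
  have hpp : p.Prime := Fact.out
  obtain ⟨tf, htf⟩ := mli_val_C D hCdec θ hθ hsq θ₀ hx hM hχ
  let S : ℂ := ∑ c : CC D, if IsConj g (c : G) then θ₀.1 c else 0
  let A : ℂ := ∑ h : G, if IsConj g h then χ.1 h else 0
  let κ : ℂ := ((kap D β₀ χ : ℤ) : ℂ) * ((Orb D β₀).card : ℂ)
  have hA : A = ((Subgroup.centralizer ({g} : Set G)).index : ℂ) * χ.1 g := by
    have h5 : ∀ h : G, (if IsConj g h then χ.1 h else 0) = if IsConj h g then χ.1 g else 0 := by
      intro h
      by_cases hc : IsConj g h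
      · rw [if_pos hc, if_pos hc.symm]
        obtain ⟨c, rfl⟩ := isConj_iff.mp hc
        exact irr_conj' χ g c
      · rw [if_neg hc, if_neg (fun h2 => hc h2.symm)]
    simp only [A, h5]
    rw [Finset.sum_ite, Finset.sum_const_zero, add_zero, Finset.sum_const, nsmul_eq_mul]
    congr 1
    rw [← card_isConj_eq_index g, Nat.card_eq_fintype_card, Fintype.card_subtype]
  have hS : inducedCentralChar (CC D) θ₀.1 g = S / θ₀.1 1 := by
    rw [inducedCentralChar_eq_sum]
    simp only [S]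
    rw [Finset.sum_div]
    refine Finset.sum_congr rfl fun c _ => ?_
    split_ifs <;> simp
  have hPg : IsPGroup p (Subgroup.zpowers D.x : Subgroup G) := by
    rw [IsPGroup.iff_card, Nat.card_zpowers, D.hx]
    exact ⟨1, (pow_one p).symm⟩
  have h1 : MemLocalIdeal M (A - ∑ c : CC D, if IsConj g (c : G) then χ.1 c else 0) := by
    refine mli_sum_conj hM (Subgroup.zpowers D.x) hPg (fun h : G => if IsConj g h then χ.1 h else 0) ?_ ?_
    · intro h
      by_cases hc : IsConj g h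
      · simp only [if_pos hc]
        exact mlr_of_isIntegral (irr_isIntegral' χ h)
      · simp only [if_neg hc]
        simpa using mlr_natCast (M := M) 0
    · intro q _ h
      have h6 : IsConj g (q * h * q⁻¹) ↔ IsConj g h := by
        have h7 : IsConj h (q * h * q⁻¹) := isConj_iff.mpr ⟨q, rfl⟩
        exact ⟨fun h8 => h8.trans h7.symm, fun h8 => h8.trans h7⟩
      simp only [h6]
      split_ifs
      · exact irr_conj' χ h q
      · rfl
  have h2 : MemLocalIdeal M ((∑ c : CC D, if IsConj g (c : G) then χ.1 c else 0) - κ * S) := by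
    have h3 : MemLocalIdeal M (∑ c : CC D, if IsConj g (c : G) then
        χ.1 c - ((kap D β₀ χ : ℤ) : ℂ) * ∑ γ ∈ Orb D β₀, θ₀.1 (conjC D (tf γ)⁻¹ c) else 0) := by
      refine mli_sum _ _ fun c _ => ?_
      split_ifs
      · exact htf c
      · exact mli_zero
    convert h3 using 1
    have h4 : ∀ c : CC D, (if IsConj g (c : G) then
        χ.1 c - ((kap D β₀ χ : ℤ) : ℂ) * ∑ γ ∈ Orb D β₀, θ₀.1 (conjC D (tf γ)⁻¹ c) else 0) =
        (if IsConj g (c : G) then χ.1 c else 0) - ((kap D β₀ χ : ℤ) : ℂ) *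
          ∑ γ ∈ Orb D β₀, if IsConj g (c : G) then θ₀.1 (conjC D (tf γ)⁻¹ c) else 0 := by
      intro c
      split_ifs <;> simp
    simp only [h4]
    rw [Finset.sum_sub_distrib, ← Finset.mul_sum, Finset.sum_comm]
    simp only [sum_conj_theta]
    rw [Finset.sum_const, nsmul_eq_mul]
    simp only [κ, S]
    ring
  have h3 := mli_add h1 h2
  rw [sub_add_sub_cancel] at h3
  have hb : θ₀.1 1 = (resK D hCdec θ₀ hx).1 1 := by
    rw [resK_apply, map_one]
  have h4 : MemLocalIdeal M (χ.1 1 - κ * θ₀.1 1) := by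
    have h5 := mli_val D θ hθ hsq hM β₀ hχ 1
    rw [Gm_one] at h5
    rw [hb]
    have h6 : κ * (resK D hCdec θ₀ hx).1 1 = ((kap D β₀ χ : ℤ) : ℂ) * (((Orb D β₀).card : ℂ) * (resK D hCdec θ₀ hx).1 1) := by
      simp only [κ]
      ring
    rw [h6]
    exact h5
  have hd₁ := SB_not_dvd D β₀ θ hθ hker hCdec hsq hχ
  have hd₂ := not_dvd_deg_K D β₀
  have hu₁ := mlr_inv_natCast (M := M) hM hd₁
  have hu₂ := mlr_inv_natCast (M := M) hM hd₂
  rw [← one_eq_charDegree (isCharacter_of_irr χ.2)] at hu₁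
  rw [← one_eq_charDegree (isCharacter_of_irr (β₀).2), ← hb] at hu₂
  have hne₁ := irr_one_ne_zero' χ
  have hne₂ := irr_one_ne_zero' θ₀
  have hfin : inducedCentralChar (CC D) θ₀.1 g - centralChar χ.1 g =
      (S * (χ.1 1 - κ * θ₀.1 1) - θ₀.1 1 * (A - κ * S)) * (χ.1 1)⁻¹ * (θ₀.1 1)⁻¹ := by
    rw [hS]
    simp only [centralChar]
    rw [← hA]
    field_simp
    ring
  rw [hfin]
  have hSr : MemLocalRing M S := by
    refine mlr_sum _ _ fun c _ => ?_
    split_ifs
    · exact mlr_of_isIntegral (irr_isIntegral' θ₀ c)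
    · simpa using mlr_natCast (M := M) 0
  exact mli_mul_right (mli_mul_right (mli_sub (mli_mul_left h4 hSr)
    (mli_mul_left h3 (mlr_of_isIntegral (irr_isIntegral' θ₀ 1)))) hu₁) hu₂

end Cong

end Cfsg.Agent.H23.DO
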