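import Cfsg.Agent.Lib.H23.BFin

/-!
# Blocks with defect group of prime order: the block of a character of the centralizer
-/

set_option autoImplicit false
set_option linter.unusedSectionVars false
set_option linter.style.haveILetI false

namespace Cfsg.Agent.H23.DO

open Module Matrix Cfsg Cfsg.Agent.H22 Cfsg.Agent.H21
open scoped ComplexConjugate

universe u

variable {G : Type u} [Group G] [Finite G] {p : ℕ} [Fact p.Prime] (D : DS G p) {M : Ideal AlgInt}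
  (hCdec : ∀ z : G, z * D.x = D.x * z → ∃ (n : ℕ) (y : G), y ∈ D.K ∧ z = D.x ^ n * y)
  (θ : NN D →* (ZMod p)ˣ)
  (hθ : ∀ t : NN D, (t : G) * D.x * (t : G)⁻¹ = D.x ^ (((θ t : (ZMod p)ˣ) : ZMod p)).val)
  (hker : Nat.card θ.ker = p * Nat.card D.K)
  (hconj : ∀ w : G, orderOf w = p → ∃ (b : G) (n : ℕ), b * w * b⁻¹ = D.x ^ n)
  (hsq : ¬ p ^ 2 ∣ Nat.card G)
  (θ₀ : IrrCharacter (CC D)) (hx : θ₀.1 (xC D) = θ₀.1 1)

local notation "β₀" => resK D hCdec θ₀ hx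

include hθ hker hconj hsq in
theorem block_eq (hM : IsPModular p M) {B : Set (IrrCharacter G)} (hB : IsPBlock M B)
    {b : Set (IrrCharacter (CC D))} (hind : IsInducedBlock M (CC D) b B) (hθ₀ : θ₀ ∈ b) :
    ∀ ψ, ψ ∈ B ↔ SB D β₀ ψ := by
  classical
  haveI : M.IsPrime := hM.2.1.isPrime
  obtain ⟨X, Yf, s, σ, h1, h2, h3, h4, h5, h6, h7, h8⟩ := pack D β₀ θ hθ hker hCdec hsq
  have hχ₁ : SB D β₀ (Yf 1) := (h7 _).mpr (Or.inr ⟨1, rfl⟩)
  obtain ⟨χ, rfl⟩ := hB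
  have hχχ : χ ∈ blockOf M χ.1 := fun g => by
    rw [sub_self]
    exact mli_zero
  have hsb : SameBlock M (Yf 1).1 χ.1 := fun g => by
    have a1 := hind.2.2 θ₀ hθ₀ χ hχχ g
    have a2 := induced_cong D hCdec θ hθ hker hsq θ₀ hx hM hχ₁ g
    have a3 := mli_sub a1 a2
    convert a3 using 1
    ring
  intro ψ
  rw [← block_iff D θ hθ hker hCdec hconj hsq hM β₀ hχ₁ ψ]
  constructor
  · intro h g
    have a1 := mli_add (hsb g) (h g)
    rwa [sub_add_sub_cancel] at a1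
  · intro h g
    have a1 := mli_sub (h g) (hsb g)
    convert a1 using 1
    ring

include hθ in
theorem mem_T_iff (t : NN D) :
    (∀ c c' : CC D, (c' : G) = t * c * (t : G)⁻¹ → θ₀.1 c' = θ₀.1 c) ↔ Stz D.K β₀ (t : G) := by
  constructor
  · intro h y y' hy
    exact h (inclK D y) (inclK D y') hy
  · intro h c c' hc'
    obtain ⟨n, y, hy, hc⟩ := hCdec c (mem_cent_zpowers.mp c.2)
    let y' : D.K := ⟨y, hy⟩
    let z : D.K := cjN D t y'
    have h1 : θ₀.1 c = θ₀.1 (inclK D y') := theta_eq D θ₀ hx c (n := n) (y := y') hc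
    have h2 := conj_form D θ hθ t n hy
    have h3 : θ₀.1 c' = θ₀.1 (inclK D z) := by
      apply theta_eq D θ₀ hx c' (n := (((θ t : (ZMod p)ˣ) : ZMod p) * (n : ZMod p)).val) (y := z)
      rw [hc', hc, h2]
      rfl
    rw [h1, h3]
    exact h y' z rfl

include hθ hCdec in
theorem card_AB_eq (hkm : ∀ t : NN D, θ t = 1 ↔ (t : G) * D.x = D.x * (t : G)) (T : Subgroup G)
    (hT : ∀ g : G, g ∈ T ↔ (g ∈ NN D ∧ ∀ c c' : CC D, (c' : G) = g * c * g⁻¹ → θ₀.1 c' = θ₀.1 c)) :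
    (CC D).relIndex T = Nat.card (AB D β₀ θ) := by
  have hTN : T ≤ NN D := fun g hg => ((hT g).mp hg).1
  let φ : T →* (ZMod p)ˣ := θ.comp (Subgroup.inclusion hTN)
  have h1 : (CC D).subgroupOf T = φ.ker := by
    ext t
    rw [Subgroup.mem_subgroupOf, MonoidHom.mem_ker, mem_cent_zpowers]
    exact (hkm (Subgroup.inclusion hTN t)).symm
  have h2 : φ.range = AB D β₀ θ := by
    ext s
    constructor
    · rintro ⟨t, rfl⟩
      refine Subgroup.mem_map.mpr ⟨Subgroup.inclusion hTN t, ?_, rfl⟩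
      exact (mem_T_iff D hCdec θ hθ θ₀ hx _).mp ((hT t).mp t.2).2
    · intro hs
      obtain ⟨t, ht, rfl⟩ := Subgroup.mem_map.mp hs
      have h3 : (t : G) ∈ T := (hT t).mpr ⟨t.2, (mem_T_iff D hCdec θ hθ θ₀ hx t).mpr ht⟩
      exact ⟨⟨t, h3⟩, rfl⟩
  rw [Subgroup.relIndex, h1, Subgroup.index_ker, h2]

theorem charDegree_resK : charDegree (β₀).1 = charDegree θ₀.1 := by
  have h1 : (β₀).1 1 = θ₀.1 1 := by
    rw [resK_apply, map_one]
  rw [one_eq_charDegree (isCharacter_of_irr (β₀).2), one_eq_charDegree (isCharacter_of_irr θ₀.2)] at h1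
  exact_mod_cast h1

open scoped Classical in
include hθ hker hCdec hconj hsq hx in
/-- The structure of a block with a defect group of prime order. -/
theorem s4442_core (hM : IsPModular p M) (hkm : ∀ t : NN D, θ t = 1 ↔ (t : G) * D.x = D.x * (t : G))
    {B : Set (IrrCharacter G)} (hB : IsPBlock M B)
    {b : Set (IrrCharacter (CC D))} (hind : IsInducedBlock M (CC D) b B) (hθ₀ : θ₀ ∈ b)
    (T : Subgroup G)
    (hT : ∀ g : G, g ∈ T ↔ (g ∈ NN D ∧ ∀ c c' : CC D, (c' : G) = g * c * g⁻¹ → θ₀.1 c' = θ₀.1 c))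
    (e f : ℕ) (he : (CC D).relIndex T = e) (hf : Nat.card θ.range = f) :
    e ∣ p - 1 ∧ Nat.card B = e + (p - 1) / e ∧ ∃ X Y : Set (IrrCharacter G), B = X ∪ Y ∧ Disjoint X Y ∧
      Nat.card X = e ∧ Nat.card Y = (p - 1) / e ∧
      (∀ χ ∈ X, (charDegree (χ : G → ℂ) : ℤ) ≡ ((f / e * charDegree θ₀.1 : ℕ) : ℤ) [ZMOD p] ∨
        (charDegree (χ : G → ℂ) : ℤ) ≡ -((f / e * charDegree θ₀.1 : ℕ) : ℤ) [ZMOD p]) ∧
      (∃ ε : ℤ, (ε = 1 ∨ ε = -1) ∧ ∀ ψ ∈ Y, (charDegree (ψ : G → ℂ) : ℤ) ≡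
        ε * ((f * charDegree θ₀.1 : ℕ) : ℤ) [ZMOD p]) ∧
      ∀ ψ ∈ Y, ∀ ψ' ∈ Y, ∀ g : G, ¬ p ∣ orderOf g → (ψ : G → ℂ) g = (ψ' : G → ℂ) g := by
  have hpp : p.Prime := Fact.out
  have hbl := block_eq D hCdec θ hθ hker hconj hsq θ₀ hx hM hB hind hθ₀
  obtain ⟨X, Yf, s, σ, h1, h2, h3, h4, h5, h6, h7, h8⟩ := pack D β₀ θ hθ hker hCdec hsq
  have hAB : Nat.card (AB D β₀ θ) = e := by
    rw [← he]
    exact (card_AB_eq D hCdec θ hθ θ₀ hx hkm T hT).symm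
  have hmul := Orb_card_mul D β₀ θ hθ hCdec
  rw [hAB, hf] at hmul
  have he0 : 0 < e := by
    rw [← hAB]
    exact Nat.card_pos
  have hfe : f / e = (Orb D β₀).card := by
    rw [← hmul]
    exact Nat.mul_div_cancel _ he0
  have hQ : Nat.card ((ZMod p)ˣ ⧸ AB D β₀ θ) * e = p - 1 := by
    have h9 := Subgroup.card_eq_card_quotient_mul_card_subgroup (AB D β₀ θ)
    rw [hAB, natCard_units_aux] at h9
    exact h9.symm
  have hQe : (p - 1) / e = Nat.card ((ZMod p)ˣ ⧸ AB D β₀ θ) := by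
    rw [← hQ]
    exact Nat.mul_div_cancel _ he0
  have hdeg := charDegree_resK D hCdec θ₀ hx
  have hX : Nat.card (↑X : Set (IrrCharacter G)) = e := by
    rw [← hAB, ← h3, Nat.card_coe_set_eq, Set.ncard_coe_finset]
  have hY : Nat.card (Set.range Yf) = Nat.card ((ZMod p)ˣ ⧸ AB D β₀ θ) :=
    Nat.card_range_of_injective h1
  have hBeq : B = (↑X : Set (IrrCharacter G)) ∪ Set.range Yf := by
    ext ψ
    rw [hbl ψ, h7 ψ]
    rfl
  have hdisj : Disjoint (↑X : Set (IrrCharacter G)) (Set.range Yf) := by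
    rw [Set.disjoint_left]
    rintro ψ hψ ⟨q, rfl⟩
    exact h2 q hψ
  refine ⟨⟨_, hQ.symm.trans (mul_comm _ _)⟩, ?_, ↑X, Set.range Yf, hBeq, hdisj, hX, by rw [hY, hQe], ?_, ⟨-σ, ?_, ?_⟩, ?_⟩
  · rw [hBeq, hQe, ← hX, ← hY]
    simp only [Nat.card_coe_set_eq]
    exact Set.ncard_union_eq hdisj (Set.toFinite _) (Set.toFinite _)
  · intro χ hχ
    have hχ' : χ ∈ X := hχ
    obtain ⟨hs, hc⟩ := h5 χ hχ'
    have hSB : SB D β₀ χ := (h7 χ).mpr (Or.inl hχ')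
    have h9 := deg_cong D β₀ hsq θ hθ hSB
    rw [kap_const D β₀ hc] at h9
    have hn : (((Orb D β₀).card * charDegree (β₀).1 : ℕ) : ℤ) = ((f / e * charDegree θ₀.1 : ℕ) : ℤ) := by
      rw [hfe, hdeg]
    rw [hn] at h9
    have h10 : (charDegree χ.1 : ℤ) ≡ s χ * ((f / e * charDegree θ₀.1 : ℕ) : ℤ) [ZMOD p] :=
      h9.trans (Int.modEq_iff_dvd.mpr ⟨s χ * ((f / e * charDegree θ₀.1 : ℕ) : ℤ), by ring⟩)
    rcases hs with hs | hs
    · left
      rwa [hs, one_mul] at h10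
    · right
      rwa [hs, neg_one_mul] at h10
  · rcases h4 with h | h <;> simp [h]
  · rintro ψ ⟨q, rfl⟩
    have hSB : SB D β₀ (Yf q) := (h7 _).mpr (Or.inr ⟨q, rfl⟩)
    have h9 := deg_cong D β₀ hsq θ hθ hSB
    rw [kap_coset D β₀ θ q (h6 q), hAB] at h9
    have hn : -((e : ℤ) * σ) * (((Orb D β₀).card * charDegree (β₀).1 : ℕ) : ℤ) =
        -σ * ((f * charDegree θ₀.1 : ℕ) : ℤ) := by
      rw [← hmul, hdeg]
      push_cast
      ring
    rw [hn] at h9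
    exact h9
  · rintro ψ ⟨q, rfl⟩ ψ' ⟨q', rfl⟩ g hg
    have a1 := h8 q g hg
    have a2 := h8 q' g hg
    rw [← a2] at a1
    have hσ : (-σ : ℂ) ≠ 0 := by
      rcases h4 with h | h <;> simp [h]
    exact mul_left_cancel₀ hσ a1

include hCdec in
theorem s4442_Q (hM : IsPModular p M) (hkm : ∀ t : NN D, θ t = 1 ↔ (t : G) * D.x = D.x * (t : G))
    (hθ : ∀ t : NN D, (t : G) * D.x * (t : G)⁻¹ = D.x ^ (((θ t : (ZMod p)ˣ) : ZMod p)).val)
    (hker : Nat.card θ.ker = p * Nat.card D.K)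
    (hconj : ∀ w : G, orderOf w = p → ∃ (b : G) (n : ℕ), b * w * b⁻¹ = D.x ^ n)
    (hsq : ¬ p ^ 2 ∣ Nat.card G)
    (Q : Subgroup G) (hQ : Subgroup.zpowers D.x = Q)
    (hrange : Nat.card θ.range = (Subgroup.centralizer (Q : Set G)).relIndex (Subgroup.normalizer (Q : Set G)))
    (B : Set (IrrCharacter G)) (hB : IsPBlock M B)
    (b : Set (IrrCharacter (Subgroup.centralizer (Q : Set G))))
    (hind : IsInducedBlock M (Subgroup.centralizer (Q : Set G)) b B)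
    (θ₀ : IrrCharacter (Subgroup.centralizer (Q : Set G))) (hθ₀ : θ₀ ∈ b)
    (hθP : ∀ x : Subgroup.centralizer (Q : Set G), (x : G) ∈ Q →
      (θ₀ : Subgroup.centralizer (Q : Set G) → ℂ) x = (θ₀ : Subgroup.centralizer (Q : Set G) → ℂ) 1)
    (T : Subgroup G)
    (hT : ∀ g : G, g ∈ T ↔ (g ∈ Subgroup.normalizer (Q : Set G) ∧ ∀ c c' : Subgroup.centralizer (Q : Set G),
      (c' : G) = g * c * g⁻¹ → (θ₀ : Subgroup.centralizer (Q : Set G) → ℂ) c' =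
        (θ₀ : Subgroup.centralizer (Q : Set G) → ℂ) c))
    (e f : ℕ) (he : (Subgroup.centralizer (Q : Set G)).relIndex T = e)
    (hf : (Subgroup.centralizer (Q : Set G)).relIndex (Subgroup.normalizer (Q : Set G)) = f) :
    e ∣ p - 1 ∧ Nat.card B = e + (p - 1) / e ∧ ∃ X Y : Set (IrrCharacter G), B = X ∪ Y ∧ Disjoint X Y ∧
      Nat.card X = e ∧ Nat.card Y = (p - 1) / e ∧
      (∀ χ ∈ X, (charDegree (χ : G → ℂ) : ℤ) ≡
          ((f / e * charDegree (θ₀ : Subgroup.centralizer (Q : Set G) → ℂ) : ℕ) : ℤ) [ZMOD p] ∨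
        (charDegree (χ : G → ℂ) : ℤ) ≡
          -((f / e * charDegree (θ₀ : Subgroup.centralizer (Q : Set G) → ℂ) : ℕ) : ℤ) [ZMOD p]) ∧
      (∃ ε : ℤ, (ε = 1 ∨ ε = -1) ∧ ∀ ψ ∈ Y, (charDegree (ψ : G → ℂ) : ℤ) ≡
        ε * ((f * charDegree (θ₀ : Subgroup.centralizer (Q : Set G) → ℂ) : ℕ) : ℤ) [ZMOD p]) ∧
      ∀ ψ ∈ Y, ∀ ψ' ∈ Y, ∀ g : G, ¬ p ∣ orderOf g → (ψ : G → ℂ) g = (ψ' : G → ℂ) g := by
  subst hQ
  have hx : θ₀.1 (xC D) = θ₀.1 1 := hθP (xC D) (Subgroup.mem_zpowers D.x)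
  exact s4442_core D hCdec θ hθ hker hconj hsq θ₀ hx hM hkm hB hind hθ₀ T hT e f he (hrange.trans hf)

end Cfsg.Agent.H23.DO
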