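import Mathlib.FieldTheory.IsAlgClosed.Classification
import Mathlib.Analysis.Complex.Polynomial.Basic
import Mathlib.NumberTheory.Cyclotomic.Gal
import Mathlib.RingTheory.Polynomial.Cyclotomic.Roots
import Mathlib.NumberTheory.Cyclotomic.PrimitiveRoots
import Mathlib.Analysis.SpecialFunctions.Complex.Circle

/-!
# Automorphisms of the complex field with prescribed action on roots of unity
-/

set_option autoImplicit false
set_option linter.style.haveILetI false

namespace Cfsg.Agent.H23.DO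

open Polynomial

theorem exists_ext_aut {F : Type} [Field F] [Algebra F ℂ] (τ : F ≃+* F) :
    ∃ σ : ℂ ≃+* ℂ, ∀ a : F, σ (algebraMap F ℂ a) = algebraMap F ℂ (τ a) := by
  obtain ⟨s, hs⟩ := exists_isTranscendenceBasis F ℂ
  let v : s → ℂ := Subtype.val
  haveI := IsAlgClosed.isAlgClosure_of_transcendence_basis v hs
  let e : Algebra.adjoin F (Set.range v) ≃+* Algebra.adjoin F (Set.range v) :=
    hs.1.aevalEquiv.symm.toRingEquiv.trans
      ((MvPolynomial.mapEquiv s τ).trans hs.1.aevalEquiv.toRingEquiv)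
  refine ⟨IsAlgClosure.equivOfEquiv ℂ ℂ e, fun a => ?_⟩
  have h1 := IsAlgClosure.equivOfEquiv_algebraMap ℂ ℂ e (algebraMap F _ a)
  have h2 : e (algebraMap F (Algebra.adjoin F (Set.range v)) a) = algebraMap F _ (τ a) := by
    have h3 : hs.1.aevalEquiv.symm (algebraMap F (Algebra.adjoin F (Set.range v)) a) =
        MvPolynomial.C a := by
      rw [AlgEquiv.commutes]
      rfl
    have h4 : e (algebraMap F (Algebra.adjoin F (Set.range v)) a) =
        hs.1.aevalEquiv (MvPolynomial.mapEquiv s τ (hs.1.aevalEquiv.symm (algebraMap F _ a))) := rfl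
    rw [h4, h3]
    have h5 : MvPolynomial.mapEquiv s τ (MvPolynomial.C a) = MvPolynomial.C (τ a) := by
      exact MvPolynomial.map_C _ _
    rw [h5]
    have h6 : (MvPolynomial.C (τ a) : MvPolynomial s F) = algebraMap F _ (τ a) := rfl
    rw [h6, AlgEquiv.commutes]
  rw [h2] at h1
  exact h1

theorem exists_aut_pow (n : ℕ) (hn : 0 < n) (k : ℕ) (hk : k.Coprime n) :
    ∃ σ : ℂ ≃+* ℂ, ∀ μ : ℂ, μ ^ n = 1 → σ μ = μ ^ k := by
  haveI : NeZero n := ⟨hn.ne'⟩
  haveI : NeZero ((n : ℕ) : ℚ) := ⟨by exact_mod_cast hn.ne'⟩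
  haveI : IsCyclotomicExtension {n} ℚ (CyclotomicField n ℚ) := CyclotomicField.isCyclotomicExtension n ℚ
  have hζ := IsCyclotomicExtension.zeta_spec n ℚ (CyclotomicField n ℚ)
  set ζ : CyclotomicField n ℚ := IsCyclotomicExtension.zeta n ℚ (CyclotomicField n ℚ) with hζdef
  have hμ : IsPrimitiveRoot (ζ ^ k) n := hζ.pow_of_coprime k hk
  have hirr : Irreducible (cyclotomic n ℚ) := cyclotomic.irreducible_rat hn
  let τ := IsCyclotomicExtension.fromZetaAut hμ hirr
  have hτ : τ ζ = ζ ^ k := IsCyclotomicExtension.fromZetaAut_spec hμ hirr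
  let ι : CyclotomicField n ℚ →ₐ[ℚ] ℂ := IsAlgClosed.lift
  letI : Algebra (CyclotomicField n ℚ) ℂ := ι.toRingHom.toAlgebra
  obtain ⟨σ, hσ⟩ := exists_ext_aut (F := CyclotomicField n ℚ) τ.toRingEquiv
  refine ⟨σ, fun μ hμ' => ?_⟩
  have hζ' : IsPrimitiveRoot (ι ζ) n := hζ.map_of_injective ι.toRingHom.injective
  obtain ⟨i, -, rfl⟩ := hζ'.eq_pow_of_pow_eq_one hμ'
  rw [map_pow]
  have h1 : σ (ι ζ) = ι (ζ ^ k) := by
    have := hσ ζ
    rw [show τ.toRingEquiv ζ = ζ ^ k from hτ] at this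
    exact this
  rw [h1, map_pow, ← pow_mul, ← pow_mul, mul_comm]

/-- An automorphism fixing the roots of unity of order dividing `a` and raising those of order
dividing `b` to the power `r`, for `a` and `b` coprime and `r` prime to `b`. -/
theorem exists_aut_crt {a b : ℕ} (ha : 0 < a) (hb : 0 < b) (hab : a.Coprime b) (r : ℕ) (hr : r.Coprime b) :
    ∃ σ : ℂ ≃+* ℂ, (∀ μ : ℂ, μ ^ a = 1 → σ μ = μ) ∧ ∀ μ : ℂ, μ ^ b = 1 → σ μ = μ ^ r := by
  let k := Nat.chineseRemainder hab 1 r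
  have hk1 : (k : ℕ) ≡ 1 [MOD a] := k.2.1
  have hk2 : (k : ℕ) ≡ r [MOD b] := k.2.2
  have hca : Nat.Coprime k a := by
    rw [Nat.Coprime, hk1.gcd_eq]
    simp
  have hcb : Nat.Coprime k b := by
    rw [Nat.Coprime, hk2.gcd_eq]
    exact hr
  obtain ⟨σ, hσ⟩ := exists_aut_pow (a * b) (Nat.mul_pos ha hb) k (Nat.Coprime.mul_right hca hcb)
  refine ⟨σ, fun μ hμ => ?_, fun μ hμ => ?_⟩
  · rw [hσ μ (by rw [pow_mul, hμ, one_pow])]
    have := pow_eq_pow_mod (k : ℕ) hμ
    rw [this, hk1, ← pow_eq_pow_mod 1 hμ, pow_one]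
  · rw [hσ μ (by rw [mul_comm, pow_mul, hμ, one_pow])]
    have := pow_eq_pow_mod (k : ℕ) hμ
    rw [this, hk2, ← pow_eq_pow_mod r hμ]

end Cfsg.Agent.H23.DO
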