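import Cfsg.Agent.Lib.H23.BFin2
import Cfsg.Agent.Lib.H23.BGal
import Cfsg.Agent.Lib.H21.PConj

/-!
# Field automorphisms acting on characters with nonzero rows
-/

set_option autoImplicit false
set_option linter.unusedSectionVars false
set_option linter.style.haveILetI false

namespace Cfsg.Agent.H23.DO

open Module Matrix Cfsg Cfsg.Agent.H22 Cfsg.Agent.H21
open scoped ComplexConjugate

universe u

variable {G : Type u} [Group G] [Finite G] {p : ℕ} [Fact p.Prime]

theorem ps_injective : Function.Injective (ps : ZMod p → ℂ) := by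
  haveI : NeZero p := ⟨(Fact.out : p.Prime).ne_zero⟩
  exact ZMod.injective_stdAddChar

theorem ps_nat (a : ZMod p) (n : ℕ) : ps (a) ^ n = ps ((n : ZMod p) * a) := by
  rw [← AddChar.map_nsmul_eq_pow]
  congr 1
  simp

theorem ps_eq_pow (a : ZMod p) : ps a = ps (1 : ZMod p) ^ a.val := by
  rw [ps_nat]
  simp

theorem exists_sigma_ps (σ : ℂ ≃+* ℂ) : ∃ r : (ZMod p)ˣ, σ (ps (1 : ZMod p)) = ps (r : ZMod p) := by
  have hpp : p.Prime := Fact.out
  haveI : Fact (1 < p) := ⟨hpp.one_lt⟩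
  have h1 : (ps (1 : ZMod p)) ≠ 1 := by
    intro h
    rw [← ps_zero (p := p)] at h
    exact one_ne_zero (ps_injective h)
  have h2 : orderOf (ps (1 : ZMod p)) = p := orderOf_eq_prime (ps_pow 1) h1
  have h3 : IsPrimitiveRoot (ps (1 : ZMod p)) p := by
    have := IsPrimitiveRoot.orderOf (ps (1 : ZMod p))
    rwa [h2] at this
  have h4 : σ (ps (1 : ZMod p)) ^ p = 1 := by
    rw [← map_pow, ps_pow, map_one]
  haveI : NeZero p := ⟨hpp.ne_zero⟩
  obtain ⟨i, -, hi⟩ := h3.eq_pow_of_pow_eq_one h4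
  have h5 : σ (ps (1 : ZMod p)) = ps ((i : ZMod p)) := by
    rw [← hi, ps_nat]
    simp
  have h6 : (i : ZMod p) ≠ 0 := by
    intro h
    rw [h, ps_zero] at h5
    apply h1
    apply σ.injective
    rw [h5, map_one]
  exact ⟨Units.mk0 _ h6, h5⟩

theorem sigma_ps (σ : ℂ ≃+* ℂ) {r : (ZMod p)ˣ} (hr : σ (ps (1 : ZMod p)) = ps (r : ZMod p)) (a : ZMod p) :
    σ (ps a) = ps ((r : ZMod p) * a) := by
  rw [ps_eq_pow a, map_pow, hr, ps_nat]
  congr 1
  simp [mul_comm]

theorem not_dvd_index_of_dvd_order (hsq : ¬ p ^ 2 ∣ Nat.card G) {g : G} (hg : p ∣ orderOf g) :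
    ¬ p ∣ (Subgroup.centralizer ({g} : Set G)).index := by
  intro h
  have hgm : g ∈ Subgroup.centralizer ({g} : Set G) := by
    rw [Subgroup.mem_centralizer_iff]
    rintro w hw
    rw [Set.mem_singleton_iff.mp hw]
  have h1 : orderOf g ∣ Nat.card (Subgroup.centralizer ({g} : Set G)) := by
    have := orderOf_dvd_natCard (⟨g, hgm⟩ : Subgroup.centralizer ({g} : Set G))
    rwa [Subgroup.orderOf_mk] at this
  apply hsq
  rw [← (Subgroup.centralizer ({g} : Set G)).card_mul_index, pow_two]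
  exact mul_dvd_mul (hg.trans h1) h

variable (D : DS G p)
  (θ : NN D →* (ZMod p)ˣ)
  (hθ : ∀ t : NN D, (t : G) * D.x * (t : G)⁻¹ = D.x ^ (((θ t : (ZMod p)ˣ) : ZMod p)).val)
  (hCdec : ∀ z : G, z * D.x = D.x * z → ∃ (n : ℕ) (y : G), y ∈ D.K ∧ z = D.x ^ n * y)
  (hconj : ∀ w : G, orderOf w = p → ∃ (b : G) (n : ℕ), b * w * b⁻¹ = D.x ^ n)
  (hsq : ¬ p ^ 2 ∣ Nat.card G)
  (β : IrrCharacter D.K)

/-- The normal form of a singular element up to conjugacy. -/
theorem exists_sing_form {g : G} (hg : p ∣ orderOf g) (hC : ¬ p ^ 2 ∣ Nat.card G)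
    (hCdec : ∀ z : G, z * D.x = D.x * z → ∃ (n : ℕ) (y : G), y ∈ D.K ∧ z = D.x ^ n * y)
    (hconj : ∀ w : G, orderOf w = p → ∃ (b : G) (n : ℕ), b * w * b⁻¹ = D.x ^ n) :
    ∃ (b : G) (n : ℕ) (y : D.K), n ≠ 0 ∧ n < p ∧ b * g * b⁻¹ = D.x ^ n * (y : G) := by
  have hpp : p.Prime := Fact.out
  obtain ⟨b, m, y, hy, hb⟩ := exists_conj_C D hC hCdec hconj (not_dvd_index_of_dvd_order hC hg)
  refine ⟨b, m % p, ⟨y, hy⟩, ?_, Nat.mod_lt _ hpp.pos, ?_⟩
  · intro h0
    have h1 : D.x ^ m = 1 := by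
      rw [← Nat.mod_add_div m p, h0, zero_add, pow_mul, D.x_pow, one_pow]
    rw [h1, one_mul] at hb
    have h2 : orderOf (b * g * b⁻¹) = orderOf g := by
      have := MulEquiv.orderOf_eq (MulAut.conj b) g
      simpa [MulAut.conj_apply] using this
    rw [hb] at h2
    have h3 : p ∣ Nat.card D.K := by
      have h4 := Subgroup.orderOf_dvd_natCard D.K hy
      rw [h2] at h4
      exact hg.trans h4
    have h5 := Nat.dvd_gcd h3 (dvd_refl p)
    rw [D.hKp] at h5
    exact hpp.one_lt.ne' (Nat.dvd_one.mp h5)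
  · rw [hb]
    congr 1
    conv_lhs => rw [← Nat.mod_add_div m p]
    rw [pow_add, pow_mul, D.x_pow, one_pow, mul_one]

include hθ hconj hCdec hsq in
/-- Field automorphisms act on characters with nonzero rows through the rows. -/
theorem sigma_val (σ : ℂ ≃+* ℂ) (g' : ℕ) (hg' : g' ≠ 0) (hdvd : ∀ u : G, ¬ p ∣ orderOf u → orderOf u ∣ g')
    (hσ : σ (Complex.exp (2 * Real.pi * Complex.I / (g' : ℕ))) = Complex.exp (2 * Real.pi * Complex.I / (g' : ℕ)))
    (r : (ZMod p)ˣ) (hr : σ (ps (1 : ZMod p)) = ps (r : ZMod p))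
    {χ χ' : IrrCharacter G} (hχ : SB D β χ) (hχ' : SB D β χ')
    (hrow : ∀ u : (ZMod p)ˣ, cRB D β ((r⁻¹ * u : (ZMod p)ˣ) : ZMod p) χ = cRB D β (u : ZMod p) χ')
    (hreg : ∀ g : G, ¬ p ∣ orderOf g → χ.1 g = χ'.1 g) (g : G) : σ (χ.1 g) = χ'.1 g := by
  classical
  have hpp : p.Prime := Fact.out
  by_cases hg : p ∣ orderOf g
  · obtain ⟨b, n, y, h0, hn, hb⟩ := exists_sing_form D hg hsq hCdec hconj
    have h1 : χ.1 g = χ.1 (D.x ^ n * (y : G)) := by
      rw [← hb, irr_conj']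
    have h2 : χ'.1 g = χ'.1 (D.x ^ n * (y : G)) := by
      rw [← hb, irr_conj']
    rw [h1, h2, val_sing D β hsq hχ h0 hn y, val_sing D β hsq hχ' h0 hn y, map_sum]
    refine Finset.sum_congr rfl fun γ hγ => ?_
    have hy : σ (γ.1 y) = γ.1 y := by
      refine sigma_fix_character hg' hσ (isCharacter_of_irr γ.2) ?_
      have h3 : ¬ p ∣ orderOf ((y : D.K) : G) := by
        intro h4
        have h5 := h4.trans (Subgroup.orderOf_dvd_natCard D.K y.2)
        have h6 := Nat.dvd_gcd h5 (dvd_refl p)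
        rw [D.hKp] at h6
        exact hpp.one_lt.ne' (Nat.dvd_one.mp h6)
      rw [← Subgroup.orderOf_coe]
      exact hdvd _ h3
    rw [map_mul, hy]
    congr 1
    rw [map_neg, map_sum]
    congr 1
    obtain ⟨t, rfl⟩ := (mem_Orb D β γ).mp hγ
    have hinv : ∀ (χ'' : IrrCharacter G) (w : (ZMod p)ˣ),
        cRB D (irrMap (cjN D t) β) ((w * (θ t)⁻¹ : (ZMod p)ˣ) : ZMod p) χ'' = cRB D β (w : ZMod p) χ'' := by
      intro χ'' w
      have := cRB_inv D θ hθ t β χ'' (w : ZMod p)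
      rwa [← Units.val_mul] at this
    refine Fintype.sum_equiv (Equiv.mulLeft r) _ _ fun u => ?_
    simp only [Equiv.coe_mulLeft]
    rw [map_mul, map_intCast, sigma_ps σ hr]
    have h3 : cRB D (irrMap (cjN D t) β) (u : ZMod p) χ = cRB D (irrMap (cjN D t) β) ((r * u : (ZMod p)ˣ) : ZMod p) χ' := by
      have h4 := hinv χ (u * θ t)
      rw [mul_assoc, mul_inv_cancel, mul_one] at h4
      have h5 := hinv χ' (r * u * θ t)
      rw [mul_assoc (r * u), mul_inv_cancel, mul_one] at h5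
      rw [h4, h5, ← hrow (r * u * θ t)]
      congr 2
      rw [show r⁻¹ * (r * u * θ t) = u * θ t by group]
    rw [h3, Units.val_mul, mul_assoc]
  · by_cases hχe : χ = χ'
    · subst hχe
      exact sigma_fix_character hg' hσ (isCharacter_of_irr χ.2) (hdvd g hg)
    · rw [← hreg g hg]
      exact sigma_fix_character hg' hσ (isCharacter_of_irr χ.2) (hdvd g hg)

end Cfsg.Agent.H23.DO
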