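import Cfsg.Agent.Lib.H23.DOBlk

/-!
# The principal block for a Sylow subgroup of prime order, from the data
-/

set_option autoImplicit false
set_option linter.unusedSectionVars false
set_option linter.style.haveILetI false

namespace Cfsg.Agent.H23.DO

open Module Matrix Cfsg Cfsg.Agent.H22 Cfsg.Agent.H21
open scoped ComplexConjugate

universe u

variable {G : Type u} [Group G] [Finite G] {p : ℕ} [Fact p.Prime] (D : DS G p) {M : Ideal AlgInt}
  (θ : NN D →* (ZMod p)ˣ)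
  (hθ : ∀ t : NN D, (t : G) * D.x * (t : G)⁻¹ = D.x ^ (((θ t : (ZMod p)ˣ) : ZMod p)).val)
  (hker : Nat.card θ.ker = p * Nat.card D.K)

open scoped Classical in
include hθ hker in
theorem gramU (a b : (ZMod p)ˣ) : ∑ χ : IrrCharacter G, cR D (a : ZMod p) χ * cR D (b : ZMod p) χ =
    ((Nat.card θ.range : ℕ) : ℤ) + if a * b⁻¹ ∈ θ.range then 1 else 0 := by
  have h1 := gram_form D θ hθ hker a b
  have hiff : ∀ s : (ZMod p)ˣ, ((b : ZMod p) * (s : ZMod p) = (a : ZMod p)) ↔ s = a * b⁻¹ := by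
    intro s
    constructor
    · intro h
      have h2 : b * s = a := Units.ext (by simpa using h)
      rw [← h2, mul_comm b s, mul_inv_cancel_right]
    · rintro rfl
      rw [← Units.val_mul, mul_comm a, ← mul_assoc, mul_inv_cancel, one_mul]
  simp only [hiff] at h1
  rw [Finset.sum_add_distrib, Finset.sum_ite_eq'] at h1
  simp only [mem_AA, Finset.sum_const, nsmul_eq_mul, mul_one] at h1
  have hcard : (AA D θ).card = Nat.card θ.range := by
    simp only [AA]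
    rw [← Fintype.card_subtype, ← Nat.card_eq_fintype_card]
  rw [hcard] at h1
  have h2 : ((∑ χ : IrrCharacter G, cR D (a : ZMod p) χ * cR D (b : ZMod p) χ : ℤ) : ℂ) =
      ((((Nat.card θ.range : ℕ) : ℤ) + if a * b⁻¹ ∈ θ.range then 1 else 0 : ℤ) : ℂ) := by
    push_cast
    exact h1
  exact_mod_cast h2

include hθ hker in
theorem cR_eq_of_mem {a b : (ZMod p)ˣ} (h : a * b⁻¹ ∈ θ.range) (χ : IrrCharacter G) :
    cR D (a : ZMod p) χ = cR D (b : ZMod p) χ := by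
  classical
  have hab := gramU D θ hθ hker a b
  have haa := gramU D θ hθ hker a a
  have hbb := gramU D θ hθ hker b b
  rw [if_pos h] at hab
  rw [mul_inv_cancel, if_pos θ.range.one_mem] at haa hbb
  have h0 : ∑ χ : IrrCharacter G, (cR D (a : ZMod p) χ - cR D (b : ZMod p) χ) *
      (cR D (a : ZMod p) χ - cR D (b : ZMod p) χ) = 0 := by
    have h1 : ∀ χ : IrrCharacter G, (cR D (a : ZMod p) χ - cR D (b : ZMod p) χ) *
      (cR D (a : ZMod p) χ - cR D (b : ZMod p) χ) = cR D (a : ZMod p) χ * cR D (a : ZMod p) χ +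
        cR D (b : ZMod p) χ * cR D (b : ZMod p) χ - 2 * (cR D (a : ZMod p) χ * cR D (b : ZMod p) χ) := by
      intro χ
      ring
    simp only [h1]
    rw [Finset.sum_sub_distrib, Finset.sum_add_distrib, ← Finset.mul_sum, haa, hbb, hab]
    ring
  have h2 := (Finset.sum_eq_zero_iff_of_nonneg (fun χ _ => mul_self_nonneg _)).mp h0 χ (Finset.mem_univ χ)
  exact sub_eq_zero.mp (mul_self_eq_zero.mp h2)

theorem card_units_aux : Fintype.card (ZMod p)ˣ = p - 1 := by convert ZMod.card_units p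

theorem natCard_units_aux : Nat.card (ZMod p)ˣ = p - 1 := by
  rw [Nat.card_eq_fintype_card]
  exact card_units_aux

theorem card_fiber_aux (A : Subgroup (ZMod p)ˣ) (q : (ZMod p)ˣ ⧸ A) [DecidableEq ((ZMod p)ˣ ⧸ A)] :
    (Finset.univ.filter (fun u : (ZMod p)ˣ => ((u : (ZMod p)ˣ ⧸ A) = q))).card = Nat.card A := by
  classical
  have hq : q ∈ Set.range (QuotientGroup.mk' A) := QuotientGroup.mk'_surjective A q
  have h1 := MonoidHom.card_fiber_eq_of_mem_range (QuotientGroup.mk' A) hq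
    (⟨1, map_one _⟩ : (1 : (ZMod p)ˣ ⧸ A) ∈ Set.range (QuotientGroup.mk' A))
  have h2 : (Finset.univ.filter (fun u : (ZMod p)ˣ => ((u : (ZMod p)ˣ ⧸ A) = q))).card =
      (Finset.univ.filter (fun u : (ZMod p)ˣ => (QuotientGroup.mk' A u = q))).card := rfl
  rw [h2, h1, ← Fintype.card_subtype, ← Nat.card_eq_fintype_card]
  refine Nat.card_congr (Equiv.subtypeEquivRight fun u => ?_)
  rw [QuotientGroup.mk'_apply, QuotientGroup.eq_one_iff]

include hθ hker in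
theorem main_of_data (hM : IsPModular p M) (hsq : ¬ p ^ 2 ∣ Nat.card G)
    (hCdec : ∀ z : G, z * D.x = D.x * z → ∃ (n : ℕ) (y : G), y ∈ D.K ∧ z = D.x ^ n * y)
    (hconj : ∀ w : G, orderOf w = p → ∃ (b : G) (n : ℕ), b * w * b⁻¹ = D.x ^ n)
    (e : ℕ) (he : Nat.card θ.range = e) :
    ∃ X Y : Set (IrrCharacter G), principalBlock M G = X ∪ Y ∧ Disjoint X Y ∧ Nat.card X = e ∧
      Nat.card Y = (p - 1) / e ∧ ∃ (εX : IrrCharacter G → ℤ) (ε : ℤ),
      (∀ χ ∈ X, (εX χ = 1 ∨ εX χ = -1) ∧ (charDegree (χ : G → ℂ) : ℤ) ≡ εX χ [ZMOD p] ∧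
        ∀ n : ℕ, Nat.Coprime n p → ∀ y ∈ D.K, (χ : G → ℂ) (D.x ^ n * y) = (εX χ : ℂ)) ∧
      (ε = 1 ∨ ε = -1) ∧
      (∀ θ ∈ Y, (charDegree (θ : G → ℂ) : ℤ) ≡ ε * (e : ℤ) [ZMOD p]) ∧
      (∀ θ ∈ Y, ∀ θ' ∈ Y, ∀ g : G, ¬ p ∣ orderOf g → (θ : G → ℂ) g = (θ' : G → ℂ) g) ∧
      ∀ θ ∈ Y, ∀ g : G, ¬ p ∣ orderOf g →
        (ε : ℂ) * (θ : G → ℂ) g = ∑ᶠ χ ∈ X, (εX χ : ℂ) * (χ : G → ℂ) g := by
  classical
  have hpp : p.Prime := Fact.out
  obtain ⟨V, hV⟩ := exists_val p hpp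
  let A : Subgroup (ZMod p)ˣ := θ.range
  let Q := (ZMod p)ˣ ⧸ A
  let cq : Q → IrrCharacter G → ℤ := fun q χ => cR D ((Quotient.out q : (ZMod p)ˣ) : ZMod p) χ
  have hdesc : ∀ (u : (ZMod p)ˣ) (χ : IrrCharacter G), cR D (u : ZMod p) χ = cq (u : Q) χ := by
    intro u χ
    simp only [cq]
    apply cR_eq_of_mem D θ hθ hker
    have h1 : ((Quotient.out (u : Q) : (ZMod p)ˣ) : Q) = (u : Q) := QuotientGroup.out_eq' _
    have h2 := QuotientGroup.eq.mp h1
    have h3 : u * (Quotient.out (u : Q) : (ZMod p)ˣ)⁻¹ = (Quotient.out (u : Q) : (ZMod p)ˣ)⁻¹ * u := mul_comm _ _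
    rw [h3]
    exact h2
  have hgen : ∀ q q' : Q, q ≠ q' → (Quotient.out q : (ZMod p)ˣ) * (Quotient.out q' : (ZMod p)ˣ)⁻¹ ∉ A := by
    intro q q' hne hmem
    apply hne
    have h1 : ((Quotient.out q : (ZMod p)ˣ) : Q) = q := QuotientGroup.out_eq' _
    have h2 : ((Quotient.out q' : (ZMod p)ˣ) : Q) = q' := QuotientGroup.out_eq' _
    rw [← h1, ← h2]
    apply QuotientGroup.eq.mpr
    have h3 : (Quotient.out q : (ZMod p)ˣ)⁻¹ * (Quotient.out q' : (ZMod p)ˣ) =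
        ((Quotient.out q : (ZMod p)ˣ) * (Quotient.out q' : (ZMod p)ˣ)⁻¹)⁻¹ := by
      rw [_root_.mul_inv_rev, inv_inv, mul_comm]
    rw [h3]
    exact A.inv_mem hmem
  have hT1 : ∀ q χ, cq q χ = 0 ∨ cq q χ = 1 ∨ cq q χ = -1 := fun q χ => (T1 D hsq hV χ _).1
  have hG1 : ∀ q, ∑ χ, cq q χ * cq q χ = (e : ℤ) + 1 := by
    intro q
    simp only [cq]
    rw [gramU D θ hθ hker, mul_inv_cancel, if_pos θ.range.one_mem, he]
  have hG2 : ∀ q q', q ≠ q' → ∑ χ, cq q χ * cq q' χ = (e : ℤ) := by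
    intro q q' hne
    simp only [cq]
    rw [gramU D θ hθ hker, if_neg (hgen q q' hne), he, add_zero]
  let Γ := {g : G // ¬ p ∣ orderOf g}
  let g₀ : Γ := ⟨1, by
    rw [orderOf_one]
    exact hpp.one_lt.ne' ∘ Nat.dvd_one.mp⟩
  let val : IrrCharacter G → Γ → ℂ := fun χ g => χ.1 g.1
  have hV' : ∀ q g, ∑ χ, (cq q χ : ℂ) * val χ g = 0 := fun q g => Ff_regular D _ g.2
  have hpos : ∀ χ : IrrCharacter G, 0 < (charDegree χ.1 : ℝ) := by
    intro χ
    exact_mod_cast irr_charDegree_pos χ.2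
  have hr₀ : ∀ χ : IrrCharacter G, val χ g₀ = (((charDegree χ.1 : ℝ)) : ℂ) := by
    intro χ
    simp only [val, g₀]
    rw [one_eq_charDegree (isCharacter_of_irr χ.2)]
    push_cast
    rfl
  have hT2 : ∀ q χ₁ χ₂, χ₁ ≠ χ₂ → cq q χ₁ = cq q χ₂ → cq q χ₁ ≠ 0 → (∀ g, val χ₁ g = val χ₂ g) → False := by
    intro q χ₁ χ₂ hne h1 h2 h3
    exact T2 D hsq hV hne _ h1 h2 (fun g hg => h3 ⟨g, hg⟩)
  haveI : Nonempty Q := ⟨(1 : (ZMod p)ˣ)⟩
  obtain ⟨θY, Xf, s, σ, hinj, hdis, hcard, hσ, hX, hY, hrest⟩ :=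
    sunflower hT1 e hG1 hG2 g₀ (fun χ => (charDegree χ.1 : ℝ)) hpos hr₀ hV' hT2
  -- the values
  have hsome : ∀ χ : IrrCharacter G, (∃ q, cq q χ ≠ 0) → ∀ n : ℕ, Nat.Coprime n p → ∀ y ∈ D.K,
      χ.1 (D.x ^ n * y) = χ.1 (D.x ^ n) := by
    rintro χ ⟨q, hq⟩ n hn y hy
    have h1 := (T1 D hsq hV χ _).2 hq n hn y hy
    have h2 := (T1 D hsq hV χ _).2 hq n hn 1 D.K.one_mem
    rw [mul_one] at h2
    rw [h1, h2]
  have havg : ∀ χ : IrrCharacter G, (∃ q, cq q χ ≠ 0) → ∀ n : ℕ, n ≠ 0 → n < p → χ.1 (D.x ^ n) =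
      -∑ u : (ZMod p)ˣ, ((cR D (u : ZMod p) χ : ℤ) : ℂ) * ps ((u : ZMod p) * (n : ZMod p)) := by
    rintro χ ⟨q, hq⟩ n h0 hn
    have h2 := (T1 D hsq hV χ _).2 hq n (coprime_of_lt h0 hn) 1 D.K.one_mem
    rw [mul_one] at h2
    rw [h2]
    exact avg_eq_rows D χ h0 hn
  have hq₀ : ∃ q : Q, True := ⟨(1 : (ZMod p)ˣ), trivial⟩
  have hsX : ∀ χ ∈ Xf, s χ ≠ 0 := by
    intro χ hχ
    rcases (hX χ hχ).1 with h | h <;> rw [h] <;> norm_num
  have hσ0 : σ ≠ 0 := by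
    rcases hσ with h | h <;> rw [h] <;> norm_num
  have hsomeX : ∀ χ ∈ Xf, ∃ q, cq q χ ≠ 0 := by
    intro χ hχ
    obtain ⟨q, _⟩ := hq₀
    exact ⟨q, by rw [(hX χ hχ).2 q]; exact hsX χ hχ⟩
  have hsomeY : ∀ q : Q, ∃ q', cq q' (θY q) ≠ 0 := by
    intro q
    exact ⟨q, by rw [hY, if_pos rfl]; exact hσ0⟩
  have hcu : (Fintype.card (ZMod p)ˣ : ℤ) = (p : ℤ) - 1 := by
    rw [card_units_aux, Nat.cast_sub hpp.one_lt.le]
    simp
  -- degrees on `X`
  have hdegX : ∀ χ ∈ Xf, (charDegree χ.1 : ℤ) ≡ s χ [ZMOD p] := by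
    intro χ hχ
    have h1 := deg_rows D χ (havg χ (hsomeX χ hχ))
    have h2 : ∑ u : (ZMod p)ˣ, cR D (u : ZMod p) χ = ((p : ℤ) - 1) * s χ := by
      have h3 : ∀ u : (ZMod p)ˣ, cR D (u : ZMod p) χ = s χ := fun u => by
        rw [hdesc, (hX χ hχ).2]
      simp only [h3, Finset.sum_const, Finset.card_univ, nsmul_eq_mul]
      rw [hcu]
    rw [h2] at h1
    rw [Int.modEq_iff_dvd]
    have h4 := Int.dvd_of_emod_eq_zero h1
    have h5 : s χ - (charDegree χ.1 : ℤ) = (p : ℤ) * s χ - ((charDegree χ.1 : ℤ) + ((p : ℤ) - 1) * s χ) := by ring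
    rw [h5]
    exact dvd_sub (dvd_mul_right _ _) h4
  have hsumY : ∀ q : Q, ∑ u : (ZMod p)ˣ, cR D (u : ZMod p) (θY q) = (e : ℤ) * σ := by
    intro q
    have h3 : ∀ u : (ZMod p)ˣ, cR D (u : ZMod p) (θY q) = if (u : Q) = q then σ else 0 := fun u => by
      rw [hdesc, hY]
      by_cases h : (u : Q) = q
      · rw [if_pos h, if_pos h.symm]
      · rw [if_neg h, if_neg (Ne.symm h)]
    simp only [h3]
    rw [Finset.sum_ite, Finset.sum_const_zero, add_zero, Finset.sum_const, nsmul_eq_mul]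
    congr 2
    have := card_fiber_aux A q
    rw [this]
    exact he
  have hdegY : ∀ q : Q, (charDegree (θY q).1 : ℤ) ≡ (-σ) * (e : ℤ) [ZMOD p] := by
    intro q
    have h1 := deg_rows D (θY q) (havg _ (hsomeY q))
    rw [hsumY] at h1
    rw [Int.modEq_iff_dvd]
    have h4 := Int.dvd_of_emod_eq_zero h1
    have h5 : (-σ) * (e : ℤ) - (charDegree (θY q).1 : ℤ) = -((charDegree (θY q).1 : ℤ) + (e : ℤ) * σ) := by ring
    rw [h5]
    exact (dvd_neg).mpr h4
  -- `e` is prime to `p`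
  have hep : ¬ (p : ℤ) ∣ (e : ℤ) := by
    intro h
    have h1 : p ∣ e := by exact_mod_cast h
    have h2 : e ∣ Nat.card (ZMod p)ˣ := by
      rw [← he]
      exact Subgroup.card_subgroup_dvd_card _
    rw [natCard_units_aux] at h2
    have h3 : p ∣ p - 1 := h1.trans h2
    have h4 := Nat.le_of_dvd (Nat.sub_pos_of_lt hpp.one_lt) h3
    have := hpp.pos
    omega
  have hnp1 : ¬ (p : ℤ) ∣ 1 := by
    intro h
    have h1 : p ∣ 1 := by exact_mod_cast h
    exact hpp.one_lt.ne' (Nat.dvd_one.mp h1)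
  have hregular : ∀ (q : Q) (g : G), ¬ p ∣ orderOf g →
      (-σ : ℂ) * (θY q).1 g = ∑ χ ∈ Xf, ((s χ : ℤ) : ℂ) * χ.1 g := by
    intro q g hg
    have h1 := Ff_regular D ((Quotient.out q : (ZMod p)ˣ) : ZMod p) hg
    simp only [Ff] at h1
    have h2 : ∑ χ : IrrCharacter G, ((cq q χ : ℤ) : ℂ) * χ.1 g =
        ∑ χ ∈ insert (θY q) Xf, ((cq q χ : ℤ) : ℂ) * χ.1 g := by
      symm
      apply Finset.sum_subset (Finset.subset_univ _)
      intro χ _ hχ
      have h3 : χ ∉ Xf := fun h => hχ (Finset.mem_insert_of_mem h)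
      have h4 : χ ≠ θY q := fun h => hχ (by rw [h]; exact Finset.mem_insert_self _ _)
      by_cases h5 : χ ∈ Set.range θY
      · obtain ⟨q', rfl⟩ := h5
        have h6 : q' ≠ q := fun h => h4 (by rw [h])
        rw [hY, if_neg h6]
        simp
      · rw [hrest χ h3 h5 q]
        simp
    have h1' : ∑ χ : IrrCharacter G, ((cq q χ : ℤ) : ℂ) * χ.1 g = 0 := h1
    rw [h2, Finset.sum_insert (hdis q), hY, if_pos rfl] at h1'
    have h3 : ∑ χ ∈ Xf, ((cq q χ : ℤ) : ℂ) * χ.1 g = ∑ χ ∈ Xf, ((s χ : ℤ) : ℂ) * χ.1 g :=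
      Finset.sum_congr rfl fun χ hχ => by rw [(hX χ hχ).2 q]
    rw [h3] at h1'
    linear_combination -h1'
  refine ⟨(Xf : Set (IrrCharacter G)), Set.range θY, ?_, ?_, ?_, ?_, s, -σ, ?_, ?_, ?_, ?_, ?_⟩
  · -- the block
    ext χ
    constructor
    · intro hB
      obtain ⟨u, hu⟩ := row_of_block D hM hsq χ hB
      rw [hdesc] at hu
      by_contra hcon
      have h1 : χ ∉ Xf := fun h => hcon (Or.inl h)
      have h2 : χ ∉ Set.range θY := fun h => hcon (Or.inr h)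
      exact hu (hrest χ h1 h2 _)
    · rintro (hχ | ⟨q, rfl⟩)
      · have hχ' : χ ∈ Xf := hχ
        refine block_of_values D hM hsq χ hCdec hconj (hsome χ (hsomeX χ hχ')) ?_
        intro h
        have h1 : (p : ℤ) ∣ (charDegree χ.1 : ℤ) := by exact_mod_cast h
        have h2 := (Int.modEq_iff_dvd.mp (hdegX χ hχ'))
        have h3 : (p : ℤ) ∣ s χ := by
          have := dvd_add h2 h1
          simpa using this
        rcases (hX χ hχ').1 with h4 | h4
        · rw [h4] at h3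
          exact hnp1 h3
        · rw [h4] at h3
          exact hnp1 ((dvd_neg).mp h3)
      · refine block_of_values D hM hsq _ hCdec hconj (hsome _ (hsomeY q)) ?_
        intro h
        have h1 : (p : ℤ) ∣ (charDegree (θY q).1 : ℤ) := by exact_mod_cast h
        have h2 := (Int.modEq_iff_dvd.mp (hdegY q))
        have h3 : (p : ℤ) ∣ (-σ) * (e : ℤ) := by
          have := dvd_add h2 h1
          simpa using this
        rcases hσ with h4 | h4
        · rw [h4] at h3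
          have h5 : (p : ℤ) ∣ (e : ℤ) := by simpa using h3
          exact hep h5
        · rw [h4] at h3
          have h5 : (p : ℤ) ∣ (e : ℤ) := by simpa using h3
          exact hep h5
  · rw [Set.disjoint_left]
    rintro χ hχ ⟨q, rfl⟩
    exact hdis q hχ
  · rw [Nat.card_coe_set_eq, Set.ncard_coe_finset, hcard]
  · rw [Nat.card_range_of_injective hinj]
    have h1 := Subgroup.card_eq_card_quotient_mul_card_subgroup A
    rw [natCard_units_aux] at h1
    have h2 : Nat.card A = e := he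
    rw [h2] at h1
    have he0 : 0 < e := by
      rw [← h2]
      exact Nat.card_pos
    rw [h1, Nat.mul_div_cancel _ he0]
  · intro χ hχ
    have hχ' : χ ∈ Xf := hχ
    refine ⟨(hX χ hχ').1, hdegX χ hχ', ?_⟩
    intro n hn y hy
    rw [hsome χ (hsomeX χ hχ') n hn y hy]
    have h1 : D.x ^ n = D.x ^ (n % p) := by
      have := pow_mod_orderOf D.x n
      rw [D.hx] at this
      exact this.symm
    have h0 : n % p ≠ 0 := by
      intro h
      have h2 : p ∣ n := Nat.dvd_of_mod_eq_zero h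
      have h3 := Nat.dvd_gcd h2 (dvd_refl p)
      rw [hn] at h3
      exact hpp.one_lt.ne' (Nat.dvd_one.mp h3)
    rw [h1, havg χ (hsomeX χ hχ') _ h0 (Nat.mod_lt _ hpp.pos)]
    have h3 : ∀ u : (ZMod p)ˣ, ((cR D (u : ZMod p) χ : ℤ) : ℂ) = ((s χ : ℤ) : ℂ) := fun u => by
      rw [hdesc, (hX χ hχ').2]
    simp only [h3]
    rw [← Finset.mul_sum, ps_sum_units h0 (Nat.mod_lt _ hpp.pos)]
    ring
  · rcases hσ with h | h
    · right
      rw [h]
    · left
      rw [h]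
      norm_num
  · rintro _ ⟨q, rfl⟩
    exact hdegY q
  · rintro _ ⟨q, rfl⟩ _ ⟨q', rfl⟩ g hg
    have h1 := hregular q g hg
    have h2 := hregular q' g hg
    have h3 : (-σ : ℂ) ≠ 0 := by
      have : (σ : ℂ) ≠ 0 := by exact_mod_cast hσ0
      exact neg_ne_zero.mpr this
    exact mul_left_cancel₀ h3 (h1.trans h2.symm)
  · rintro _ ⟨q, rfl⟩ g hg
    have h1 := hregular q g hg
    rw [finsum_mem_coe_finset]
    push_cast
    exact h1

end Cfsg.Agent.H23.DO
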