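import Cfsg.Agent.Lib.H23.BRow4
import Cfsg.Agent.Lib.H23.DOMain

/-!
# The structure of the rows attached to a character of the complement
-/

set_option autoImplicit false
set_option linter.unusedSectionVars false
set_option linter.style.haveILetI false

namespace Cfsg.Agent.H23.DO

open Module Matrix Cfsg Cfsg.Agent.H22 Cfsg.Agent.H21
open scoped ComplexConjugate

universe u

variable {G : Type u} [Group G] [Finite G] {p : ℕ} [Fact p.Prime] (D : DS G p) (β : IrrCharacter D.K)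
  (θ : NN D →* (ZMod p)ˣ)
  (hθ : ∀ t : NN D, (t : G) * D.x * (t : G)⁻¹ = D.x ^ (((θ t : (ZMod p)ˣ) : ZMod p)).val)
  (hker : Nat.card θ.ker = p * Nat.card D.K)
  (hCdec : ∀ z : G, z * D.x = D.x * z → ∃ (n : ℕ) (y : G), y ∈ D.K ∧ z = D.x ^ n * y)
  (hsq : ¬ p ^ 2 ∣ Nat.card G)

open scoped Classical in
include hθ hker hCdec hsq in
theorem main_orbit (e : ℕ) (he : Nat.card (AB D β θ) = e) :
    ∃ (X : Finset (IrrCharacter G)) (Yf : ((ZMod p)ˣ ⧸ AB D β θ) → IrrCharacter G) (s : IrrCharacter G → ℤ) (σ : ℤ),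
      Function.Injective Yf ∧ (∀ q, Yf q ∉ X) ∧ X.card = e ∧ (σ = 1 ∨ σ = -1) ∧
      (∀ χ ∈ X, (s χ = 1 ∨ s χ = -1) ∧ ∀ u : (ZMod p)ˣ, cRB D β (u : ZMod p) χ = s χ) ∧
      (∀ q, ∀ u : (ZMod p)ˣ, cRB D β (u : ZMod p) (Yf q) =
        if ((u : (ZMod p)ˣ ⧸ AB D β θ)) = q then σ else 0) ∧
      (∀ χ, χ ∉ X → χ ∉ Set.range Yf → ∀ u : (ZMod p)ˣ, cRB D β (u : ZMod p) χ = 0) ∧
      (∀ q, ∀ g : G, ¬ p ∣ orderOf g → (-σ : ℂ) * (Yf q).1 g = ∑ χ ∈ X, ((s χ : ℤ) : ℂ) * χ.1 g) := by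
  classical
  have hpp : p.Prime := Fact.out
  obtain ⟨V, hV⟩ := exists_val p hpp
  let A : Subgroup (ZMod p)ˣ := AB D β θ
  let Q := (ZMod p)ˣ ⧸ A
  let cq : Q → IrrCharacter G → ℤ := fun q χ => cRB D β ((Quotient.out q : (ZMod p)ˣ) : ZMod p) χ
  have hdesc : ∀ (u : (ZMod p)ˣ) (χ : IrrCharacter G), cRB D β (u : ZMod p) χ = cq (u : Q) χ := by
    intro u χ
    simp only [cq]
    apply cRB_eq_of_mem D β θ hθ hker hCdec
    have h1 : ((Quotient.out (u : Q) : (ZMod p)ˣ) : Q) = (u : Q) := QuotientGroup.out_eq' _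
    have h2 := QuotientGroup.eq.mp h1
    have h3 : u * (Quotient.out (u : Q) : (ZMod p)ˣ)⁻¹ = (Quotient.out (u : Q) : (ZMod p)ˣ)⁻¹ * u := mul_comm _ _
    rw [h3]
    exact h2
  have hgen : ∀ q q' : Q, q ≠ q' → (Quotient.out q : (ZMod p)ˣ) * (Quotient.out q' : (ZMod p)ˣ)⁻¹ ∉ A := by
    intro q q' hne hmem
    apply hne
    have h1 : ((Quotient.out q : (ZMod p)ˣ) : Q) = q := QuotientGroup.out_eq' _
    have h2 : ((Quotient.out q' : (ZMod p)ˣ) : Q) = q' := QuotientGroup.out_eq' _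
    rw [← h1, ← h2]
    apply QuotientGroup.eq.mpr
    have h3 : (Quotient.out q : (ZMod p)ˣ)⁻¹ * (Quotient.out q' : (ZMod p)ˣ) =
        ((Quotient.out q : (ZMod p)ˣ) * (Quotient.out q' : (ZMod p)ˣ)⁻¹)⁻¹ := by
      rw [_root_.mul_inv_rev, inv_inv, mul_comm]
    rw [h3]
    exact A.inv_mem hmem
  have hT1 : ∀ q χ, cq q χ = 0 ∨ cq q χ = 1 ∨ cq q χ = -1 := fun q χ => (T1B D β hsq hV χ _).1
  have hG1 : ∀ q, ∑ χ, cq q χ * cq q χ = (e : ℤ) + 1 := by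
    intro q
    simp only [cq]
    rw [gramUB D β θ hθ hker hCdec, mul_inv_cancel, if_pos (AB D β θ).one_mem, he]
  have hG2 : ∀ q q', q ≠ q' → ∑ χ, cq q χ * cq q' χ = (e : ℤ) := by
    intro q q' hne
    simp only [cq]
    rw [gramUB D β θ hθ hker hCdec, if_neg (hgen q q' hne), he, add_zero]
  let Γ := {g : G // ¬ p ∣ orderOf g}
  let g₀ : Γ := ⟨1, by
    rw [orderOf_one]
    exact hpp.one_lt.ne' ∘ Nat.dvd_one.mp⟩
  let val : IrrCharacter G → Γ → ℂ := fun χ g => χ.1 g.1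
  have hV' : ∀ q g, ∑ χ, (cq q χ : ℂ) * val χ g = 0 := fun q g => FfB_regular D β _ g.2
  have hpos : ∀ χ : IrrCharacter G, 0 < (charDegree χ.1 : ℝ) := by
    intro χ
    exact_mod_cast irr_charDegree_pos χ.2
  have hr₀ : ∀ χ : IrrCharacter G, val χ g₀ = (((charDegree χ.1 : ℝ)) : ℂ) := by
    intro χ
    simp only [val, g₀]
    rw [one_eq_charDegree (isCharacter_of_irr χ.2)]
    push_cast
    rfl
  have hT2 : ∀ q χ₁ χ₂, χ₁ ≠ χ₂ → cq q χ₁ = cq q χ₂ → cq q χ₁ ≠ 0 → (∀ g, val χ₁ g = val χ₂ g) → False := by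
    intro q χ₁ χ₂ hne h1 h2 h3
    exact T2B D β hsq hV hne _ h1 h2 (fun g hg => h3 ⟨g, hg⟩)
  haveI : Nonempty Q := ⟨(1 : (ZMod p)ˣ)⟩
  obtain ⟨θY, Xf, s, σ, hinj, hdis, hcard, hσ, hX, hY, hrest⟩ :=
    sunflower hT1 e hG1 hG2 g₀ (fun χ => (charDegree χ.1 : ℝ)) hpos hr₀ hV' hT2
  have hregular : ∀ (q : Q) (g : G), ¬ p ∣ orderOf g →
      (-σ : ℂ) * (θY q).1 g = ∑ χ ∈ Xf, ((s χ : ℤ) : ℂ) * χ.1 g := by
    intro q g hg
    have h1 := FfB_regular D β ((Quotient.out q : (ZMod p)ˣ) : ZMod p) hg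
    simp only [FfB] at h1
    have h2 : ∑ χ : IrrCharacter G, ((cq q χ : ℤ) : ℂ) * χ.1 g =
        ∑ χ ∈ insert (θY q) Xf, ((cq q χ : ℤ) : ℂ) * χ.1 g := by
      symm
      apply Finset.sum_subset (Finset.subset_univ _)
      intro χ _ hχ
      have h3 : χ ∉ Xf := fun h => hχ (Finset.mem_insert_of_mem h)
      have h4 : χ ≠ θY q := fun h => hχ (by rw [h]; exact Finset.mem_insert_self _ _)
      by_cases h5 : χ ∈ Set.range θY
      · obtain ⟨q', rfl⟩ := h5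
        have h6 : q' ≠ q := fun h => h4 (by rw [h])
        rw [hY, if_neg h6]
        simp
      · rw [hrest χ h3 h5 q]
        simp
    have h1' : ∑ χ : IrrCharacter G, ((cq q χ : ℤ) : ℂ) * χ.1 g = 0 := h1
    rw [h2, Finset.sum_insert (hdis q), hY, if_pos rfl] at h1'
    have h3 : ∑ χ ∈ Xf, ((cq q χ : ℤ) : ℂ) * χ.1 g = ∑ χ ∈ Xf, ((s χ : ℤ) : ℂ) * χ.1 g :=
      Finset.sum_congr rfl fun χ hχ => by rw [(hX χ hχ).2 q]
    rw [h3] at h1'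
    linear_combination -h1'
  refine ⟨Xf, θY, s, σ, hinj, hdis, hcard, hσ, ?_, ?_, ?_, hregular⟩
  · intro χ hχ
    refine ⟨(hX χ hχ).1, fun u => ?_⟩
    rw [hdesc, (hX χ hχ).2]
  · intro q u
    rw [hdesc, hY]
    by_cases h : (u : Q) = q
    · rw [if_pos h.symm]
      exact (if_pos h).symm
    · rw [if_neg (Ne.symm h)]
      exact (if_neg h).symm
  · intro χ h1 h2 u
    rw [hdesc, hrest χ h1 h2]

end Cfsg.Agent.H23.DO
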