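import Cfsg.Agent.Lib.H23.BVal

/-!
# Packaging the structure of the rows
-/

set_option autoImplicit false
set_option linter.unusedSectionVars false
set_option linter.style.haveILetI false

namespace Cfsg.Agent.H23.DO

open Module Matrix Cfsg Cfsg.Agent.H22 Cfsg.Agent.H21
open scoped ComplexConjugate

universe u

variable {G : Type u} [Group G] [Finite G] {p : ℕ} [Fact p.Prime] (D : DS G p) (β : IrrCharacter D.K)

theorem cjN_mul (t₁ t₂ : NN D) : cjN D (t₁ * t₂) = (cjN D t₂).trans (cjN D t₁) := by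
  ext y
  simp only [MulEquiv.trans_apply, cjN_coe, Subgroup.coe_mul]
  group

theorem cjN_one : cjN D 1 = MulEquiv.refl _ := by
  ext y
  simp [cjN_coe]

theorem Orb_card_eq_index : (Orb D β).card = (StN D β).index := by
  classical
  letI act : MulAction (NN D) (IrrCharacter D.K) :=
    { smul := fun t γ => irrMap (cjN D t) γ
      one_smul := fun γ => by
        show irrMap (cjN D 1) γ = γ
        rw [cjN_one, irrMap_refl]
      mul_smul := fun t₁ t₂ γ => by
        show irrMap (cjN D (t₁ * t₂)) γ = irrMap (cjN D t₁) (irrMap (cjN D t₂) γ)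
        rw [cjN_mul, irrMap_trans] }
  have hs : ∀ (t : NN D) (γ : IrrCharacter D.K), t • γ = irrMap (cjN D t) γ := fun _ _ => rfl
  have h1 := MulAction.index_stabilizer (NN D) β
  have h2 : MulAction.stabilizer (NN D) β = StN D β := by
    ext t
    rw [MulAction.mem_stabilizer_iff, hs, mem_StN]
    constructor
    · intro h y y' hy
      have h4 : y' = cjN D t y := Subtype.ext hy
      rw [h4]
      conv_lhs => rw [← h]
      rw [irrMap_apply']
    · intro h
      apply Subtype.ext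
      funext y
      show β.1 ((cjN D t).symm y) = β.1 y
      have := h ((cjN D t).symm y) y (by
        rw [← cjN_coe, MulEquiv.apply_symm_apply])
      exact this.symm
  have h3 : MulAction.orbit (NN D) β = (Orb D β : Set (IrrCharacter D.K)) := by
    ext γ
    simp only [Finset.mem_coe, mem_Orb]
    constructor
    · rintro ⟨t, rfl⟩
      exact ⟨t, rfl⟩
    · rintro ⟨t, rfl⟩
      exact ⟨t, rfl⟩
  rw [h2, h3, Set.ncard_coe_finset] at h1
  exact h1.symm

section

variable (θ : NN D →* (ZMod p)ˣ)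
  (hθ : ∀ t : NN D, (t : G) * D.x * (t : G)⁻¹ = D.x ^ (((θ t : (ZMod p)ˣ) : ZMod p)).val)
  (hker : Nat.card θ.ker = p * Nat.card D.K)
  (hCdec : ∀ z : G, z * D.x = D.x * z → ∃ (n : ℕ) (y : G), y ∈ D.K ∧ z = D.x ^ n * y)
  (hsq : ¬ p ^ 2 ∣ Nat.card G)

include hθ hCdec in
theorem Orb_card_mul : (Orb D β).card * Nat.card (AB D β θ) = Nat.card θ.range := by
  have h1 := Subgroup.index_map (H := StN D β) θ
  have h2 : StN D β ⊔ θ.ker = StN D β := by
    apply sup_eq_left.mpr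
    intro t ht
    exact Stz_of_comm D β hCdec (ker_val_one D θ hθ ht)
  rw [h2, ← Orb_card_eq_index] at h1
  have h3 := Subgroup.card_mul_index (AB D β θ)
  have h4 := Subgroup.card_mul_index θ.range
  have h5 : (θ.range).index ≠ 0 := Subgroup.index_ne_zero_of_finite
  have h6 : (AB D β θ).index = (Orb D β).card * θ.range.index := h1
  rw [h6, ← h4] at h3
  apply Nat.eq_of_mul_eq_mul_right (Nat.pos_of_ne_zero h5)
  rw [← h3]
  ring

theorem card_range_dvd : Nat.card θ.range ∣ p - 1 := by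
  rw [← natCard_units_aux (p := p)]
  exact Subgroup.card_subgroup_dvd_card _

theorem not_dvd_of_dvd_pred {n : ℕ} (h : n ∣ p - 1) : ¬ p ∣ n := by
  intro h1
  have hpp : p.Prime := Fact.out
  have h3 : p ∣ p - 1 := h1.trans h
  have h4 := Nat.le_of_dvd (Nat.sub_pos_of_lt hpp.one_lt) h3
  have := hpp.pos
  omega

theorem not_dvd_deg_K (γ : IrrCharacter D.K) : ¬ p ∣ charDegree γ.1 := by
  intro h
  have hpp : p.Prime := Fact.out
  have h1 := h.trans (charDegree_dvd_card γ)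
  have h2 := Nat.dvd_gcd h1 (dvd_refl p)
  rw [D.hKp] at h2
  exact hpp.one_lt.ne' (Nat.dvd_one.mp h2)

theorem kap_const {χ : IrrCharacter G} {c : ℤ} (h : ∀ u : (ZMod p)ˣ, cRB D β (u : ZMod p) χ = c) :
    kap D β χ = -(((p : ℤ) - 1) * c) := by
  have hpp : p.Prime := Fact.out
  simp only [kap, h, Finset.sum_const, Finset.card_univ, nsmul_eq_mul]
  rw [card_units_aux, Nat.cast_sub hpp.one_lt.le]
  simp

open scoped Classical in
theorem kap_coset {χ : IrrCharacter G} {σ : ℤ} (q : (ZMod p)ˣ ⧸ AB D β θ)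
    (h : ∀ u : (ZMod p)ˣ, cRB D β (u : ZMod p) χ = if ((u : (ZMod p)ˣ ⧸ AB D β θ)) = q then σ else 0) :
    kap D β χ = -((Nat.card (AB D β θ) : ℤ) * σ) := by
  simp only [kap, h]
  rw [Finset.sum_ite, Finset.sum_const_zero, add_zero, Finset.sum_const, nsmul_eq_mul]
  congr 2
  have := card_fiber_aux (AB D β θ) q
  exact_mod_cast this

open scoped Classical in
include hθ hker hCdec hsq in
theorem pack :
    ∃ (X : Finset (IrrCharacter G)) (Yf : ((ZMod p)ˣ ⧸ AB D β θ) → IrrCharacter G) (s : IrrCharacter G → ℤ) (σ : ℤ),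
      Function.Injective Yf ∧ (∀ q, Yf q ∉ X) ∧ X.card = Nat.card (AB D β θ) ∧ (σ = 1 ∨ σ = -1) ∧
      (∀ χ ∈ X, (s χ = 1 ∨ s χ = -1) ∧ ∀ u : (ZMod p)ˣ, cRB D β (u : ZMod p) χ = s χ) ∧
      (∀ q, ∀ u : (ZMod p)ˣ, cRB D β (u : ZMod p) (Yf q) =
        if ((u : (ZMod p)ˣ ⧸ AB D β θ)) = q then σ else 0) ∧
      (∀ χ, SB D β χ ↔ χ ∈ X ∨ χ ∈ Set.range Yf) ∧
      (∀ q, ∀ g : G, ¬ p ∣ orderOf g → (-σ : ℂ) * (Yf q).1 g = ∑ χ ∈ X, ((s χ : ℤ) : ℂ) * χ.1 g) := by
  obtain ⟨X, Yf, s, σ, h1, h2, h3, h4, h5, h6, h7, h8⟩ := main_orbit D β θ hθ hker hCdec hsq _ rfl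
  refine ⟨X, Yf, s, σ, h1, h2, h3, h4, h5, h6, ?_, h8⟩
  intro χ
  constructor
  · rintro ⟨u, hu⟩
    by_contra hcon
    push Not at hcon
    exact hu (h7 χ hcon.1 hcon.2 u)
  · rintro (hχ | ⟨q, rfl⟩)
    · haveI : Nonempty (ZMod p)ˣ := ⟨1⟩
      refine ⟨1, ?_⟩
      rw [(h5 χ hχ).2]
      rcases (h5 χ hχ).1 with h | h <;> rw [h] <;> norm_num
    · obtain ⟨u, rfl⟩ := QuotientGroup.mk_surjective q
      refine ⟨u, ?_⟩
      rw [h6]
      simp only [if_true]
      rcases h4 with h | h <;> rw [h] <;> norm_num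

include hθ hker hCdec hsq in
theorem SB_not_dvd {χ : IrrCharacter G} (hχ : SB D β χ) : ¬ p ∣ charDegree χ.1 := by
  classical
  have hpp : p.Prime := Fact.out
  obtain ⟨X, Yf, s, σ, h1, h2, h3, h4, h5, h6, h7, h8⟩ := pack D β θ hθ hker hCdec hsq
  have hmul := Orb_card_mul D β θ hθ hCdec
  have hrd := card_range_dvd D θ
  have hOrb : ¬ p ∣ (Orb D β).card := not_dvd_of_dvd_pred (Dvd.dvd.trans ⟨_, hmul.symm⟩ hrd)
  have hAB : ¬ p ∣ Nat.card (AB D β θ) := not_dvd_of_dvd_pred (Dvd.dvd.trans ⟨_, by rw [← hmul, mul_comm]⟩ hrd)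
  have hdeg := not_dvd_deg_K D β
  have hpI : Prime (p : ℤ) := Nat.prime_iff_prime_int.mp hpp
  intro hd
  have h9 := deg_cong D β hsq θ hθ hχ
  have h10 : (p : ℤ) ∣ kap D β χ * (((Orb D β).card * charDegree β.1 : ℕ) : ℤ) := by
    have h11 := (Int.modEq_iff_dvd.mp h9)
    have h12 : (p : ℤ) ∣ (charDegree χ.1 : ℤ) := by exact_mod_cast hd
    exact (Int.dvd_iff_dvd_of_dvd_sub h11).mpr h12
  rcases hpI.dvd_or_dvd h10 with h11 | h11
  · rcases (h7 χ).mp hχ with hX | ⟨q, rfl⟩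
    · rw [kap_const D β (h5 χ hX).2] at h11
      have h12 : (p : ℤ) ∣ s χ := by
        have h13 : s χ = (p : ℤ) * s χ + -(((p : ℤ) - 1) * s χ) := by ring
        rw [h13]
        exact dvd_add (dvd_mul_right _ _) h11
      have h14 : (p : ℤ) ∣ 1 := by
        rcases (h5 χ hX).1 with h | h
        · rwa [h] at h12
        · rw [h] at h12
          exact (dvd_neg).mp h12
      have := Int.natCast_dvd_natCast.mp (by simpa using h14 : ((p : ℕ) : ℤ) ∣ ((1 : ℕ) : ℤ))
      exact hpp.one_lt.ne' (Nat.dvd_one.mp this)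
    · rw [kap_coset D β θ q (h6 q)] at h11
      have h12 : (p : ℤ) ∣ (Nat.card (AB D β θ) : ℤ) * σ := (dvd_neg).mp h11
      have h13 : (p : ℤ) ∣ (Nat.card (AB D β θ) : ℤ) := by
        rcases h4 with h | h
        · rwa [h, mul_one] at h12
        · rw [h] at h12
          simpa using h12
      exact hAB (by exact_mod_cast h13)
  · have h12 : p ∣ (Orb D β).card * charDegree β.1 := by exact_mod_cast h11
    rcases hpp.dvd_mul.mp h12 with h13 | h13
    · exact hOrb h13
    · exact hdeg h13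

end

end Cfsg.Agent.H23.DO
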