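import Cfsg.Agent.Lib.H23.DOMain
import Cfsg.Agent.Lib.H19.CyclicSylow

/-!
# Construction of the data from a Sylow subgroup of prime order
-/

set_option autoImplicit false
set_option linter.unusedSectionVars false
set_option linter.style.haveILetI false

namespace Cfsg.Agent.H23.DO

open Module Cfsg

universe u

variable {G : Type u} [Group G] [Finite G] {p : ℕ} [Fact p.Prime]

theorem mem_cent_zpowers {x z : G} :
    z ∈ Subgroup.centralizer ((Subgroup.zpowers x : Subgroup G) : Set G) ↔ z * x = x * z := by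
  constructor
  · intro h
    exact (Subgroup.mem_centralizer_iff.mp h x (Subgroup.mem_zpowers x)).symm
  · intro h
    rw [Subgroup.mem_centralizer_iff]
    intro w hw
    obtain ⟨k, rfl⟩ := Subgroup.mem_zpowers_iff.mp hw
    have hc : Commute x z := h.symm
    exact (hc.zpow_left k).eq

theorem exists_complement {x : G} (hx : orderOf x = p) (hsq : ¬ p ^ 2 ∣ Nat.card G) :
    ∃ K : Subgroup G, (∀ y ∈ K, x * y = y * x) ∧ Nat.Coprime (Nat.card K) p ∧
      (∀ z, z * x = x * z → ∃ (n : ℕ) (y : G), y ∈ K ∧ z = x ^ n * y) ∧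
      Nat.card (Subgroup.centralizer ((Subgroup.zpowers x : Subgroup G) : Set G)) = p * Nat.card K := by
  classical
  have hpp : p.Prime := Fact.out
  let A := Subgroup.centralizer ((Subgroup.zpowers x : Subgroup G) : Set G)
  have hxA : x ∈ A := mem_cent_zpowers.mpr rfl
  let x' : A := ⟨x, hxA⟩
  have hx' : orderOf x' = p := by
    rw [← Subgroup.orderOf_coe x']
    exact hx
  have hpg : IsPGroup p (Subgroup.zpowers x') := by
    rw [IsPGroup.iff_card, Nat.card_zpowers, hx']
    exact ⟨1, (pow_one p).symm⟩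
  obtain ⟨S, hS⟩ := hpg.exists_le_sylow
  have hAdvd : Nat.card A ∣ Nat.card G := Subgroup.card_subgroup_dvd_card A
  have hScard : Nat.card S ≤ p := by
    obtain ⟨k, hk⟩ := IsPGroup.iff_card.mp S.2
    have h1 : p ^ k ∣ Nat.card A := by
      rw [← hk]
      exact Subgroup.card_subgroup_dvd_card (S : Subgroup A)
    have h2 : k ≤ 1 := by
      by_contra h3
      apply hsq
      exact (pow_dvd_pow p (by omega : 2 ≤ k)).trans (h1.trans hAdvd)
    rw [hk]
    calc p ^ k ≤ p ^ 1 := Nat.pow_le_pow_right hpp.pos h2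
      _ = p := pow_one p
  have hSeq : Subgroup.zpowers x' = (S : Subgroup A) := by
    apply Subgroup.eq_of_le_of_card_ge hS
    rw [Nat.card_zpowers, hx']
    exact hScard
  have hScard' : Nat.card S = p := by
    have h1 : Nat.card (Subgroup.zpowers x') = p := by rw [Nat.card_zpowers, hx']
    have h2 : Nat.card ((S : Subgroup A) : Type _) = Nat.card (Subgroup.zpowers x') := by rw [hSeq]
    exact h2.trans h1
  have hzA : ∀ (a : A) (s : A), s ∈ (S : Subgroup A) → s * a = a * s := by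
    intro a s hs
    rw [← hSeq] at hs
    obtain ⟨k, rfl⟩ := Subgroup.mem_zpowers_iff.mp hs
    have hc : Commute x' a := by
      apply Subtype.ext
      have := (mem_cent_zpowers.mp a.2)
      exact this.symm
    exact (hc.zpow_left k).eq
  have hP : Subgroup.normalizer ((S : Subgroup A) : Set A) ≤ Subgroup.centralizer ((S : Subgroup A) : Set A) := by
    intro a _
    rw [Subgroup.mem_centralizer_iff]
    intro s hs
    exact hzA a s hs
  obtain ⟨R, _, hR⟩ := H19.burnside_complement S hP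
  let K : Subgroup G := R.map A.subtype
  have hKcard : Nat.card K = Nat.card R := by
    exact Nat.card_congr (R.equivMapOfInjective A.subtype A.subtype_injective).symm.toEquiv
  have hmul : Nat.card R * Nat.card S = Nat.card A := hR.card_mul_card
  refine ⟨K, ?_, ?_, ?_, ?_⟩
  · rintro _ ⟨y, _, rfl⟩
    exact (mem_cent_zpowers.mp y.2).symm
  · rw [hKcard, Nat.coprime_comm, hpp.coprime_iff_not_dvd]
    intro h
    apply hsq
    rw [hScard'] at hmul
    rw [pow_two]
    exact (mul_dvd_mul h (dvd_refl p)).trans (by rw [hmul]; exact hAdvd)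
  · intro z hz
    have hzA' : z ∈ A := mem_cent_zpowers.mpr hz
    obtain ⟨⟨r, s⟩, hrs⟩ := hR.2 (⟨z, hzA'⟩ : A)
    simp only at hrs
    have hs : (s : A) ∈ Subgroup.zpowers x' := by
      rw [hSeq]
      exact s.2
    have hs' := mem_powers_iff_mem_zpowers.mpr hs
    obtain ⟨n, hn⟩ := hs'
    refine ⟨n, ((r : A) : G), ⟨r, r.2, rfl⟩, ?_⟩
    have h1 : z = ((r : A) : G) * ((s : A) : G) := by
      have := congrArg Subtype.val hrs
      simpa using this.symm
    have h2 : ((s : A) : G) = x ^ n := by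
      rw [← hn]
      simp [x']
    have h3 : ((s : A) : G) * ((r : A) : G) = ((r : A) : G) * ((s : A) : G) := by
      have := hzA (r : A) (s : A) s.2
      exact congrArg Subtype.val this
    rw [h1, ← h3, h2]
  · rw [hKcard, ← hmul, hScard', mul_comm]

theorem pow_val_aux {x : G} (hx : orderOf x = p) {a : ZMod p} {n : ℕ} (h : (n : ZMod p) = a) :
    x ^ n = x ^ a.val := by
  have h1 : a.val = n % p := by
    rw [← h, ZMod.val_natCast]
  have h2 := pow_mod_orderOf x n
  rw [hx] at h2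
  rw [h1, h2]

theorem val_unique_aux {x : G} (hx : orderOf x = p) {a b : ZMod p} (h : x ^ a.val = x ^ b.val) : a = b := by
  have h9 := pow_injOn_Iio_orderOf (x := x)
  rw [hx] at h9
  exact ZMod.val_injective p (h9 (Set.mem_Iio.mpr (ZMod.val_lt a)) (Set.mem_Iio.mpr (ZMod.val_lt b)) h)

/-- The homomorphism attached to the action of the normalizer. -/
theorem exists_theta {x : G} (hx : orderOf x = p) :
    ∃ θ : (Subgroup.normalizer ((Subgroup.zpowers x : Subgroup G) : Set G)) →* (ZMod p)ˣ,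
      ∀ t : Subgroup.normalizer ((Subgroup.zpowers x : Subgroup G) : Set G),
        (t : G) * x * (t : G)⁻¹ = x ^ ((θ t : (ZMod p)ˣ) : ZMod p).val := by
  classical
  have hpp : p.Prime := Fact.out
  have hex : ∀ t : Subgroup.normalizer ((Subgroup.zpowers x : Subgroup G) : Set G),
      ∃ a : ZMod p, (t : G) * x * (t : G)⁻¹ = x ^ a.val := by
    intro t
    have h1 : (t : G) * x * (t : G)⁻¹ ∈ Subgroup.zpowers x :=
      (Subgroup.mem_normalizer_iff.mp t.2 x).mp (Subgroup.mem_zpowers x)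
    obtain ⟨n, hn⟩ := mem_powers_iff_mem_zpowers.mpr h1
    exact ⟨(n : ZMod p), by rw [← hn]; exact pow_val_aux hx rfl⟩
  choose sf hsf using hex
  have hone : sf 1 = 1 := by
    apply val_unique_aux hx
    have h1 := hsf 1
    simp only [OneMemClass.coe_one, one_mul, inv_one, mul_one] at h1
    rw [← h1]
    haveI : Fact (1 < p) := ⟨hpp.one_lt⟩
    rw [ZMod.val_one, pow_one]
  have hmul : ∀ t₁ t₂, sf (t₁ * t₂) = sf t₁ * sf t₂ := by
    intro t₁ t₂
    apply val_unique_aux hx
    rw [← hsf]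
    have h1 : ((t₁ * t₂ : Subgroup.normalizer ((Subgroup.zpowers x : Subgroup G) : Set G)) : G) * x *
        ((t₁ * t₂ : Subgroup.normalizer ((Subgroup.zpowers x : Subgroup G) : Set G)) : G)⁻¹ =
        (t₁ : G) * ((t₂ : G) * x * (t₂ : G)⁻¹) * (t₁ : G)⁻¹ := by
      rw [Subgroup.coe_mul]
      group
    rw [h1, hsf t₂, ← conj_pow, hsf t₁, ← pow_mul]
    apply pow_val_aux hx
    push_cast
    simp
  let θ₀ : (Subgroup.normalizer ((Subgroup.zpowers x : Subgroup G) : Set G)) →* ZMod p :=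
    { toFun := sf, map_one' := hone, map_mul' := hmul }
  refine ⟨θ₀.toHomUnits, ?_⟩
  intro t
  rw [MonoidHom.coe_toHomUnits]
  exact hsf t

theorem s4441_main (M : Ideal AlgInt) (hM : IsPModular p M) (P : Sylow p G) (hP : Nat.card P = p) (e : ℕ)
    (he : (Subgroup.centralizer ((P : Subgroup G) : Set G)).relIndex (Subgroup.normalizer ((P : Subgroup G) : Set G)) = e) :
    ∃ X Y : Set (IrrCharacter G), principalBlock M G = X ∪ Y ∧ Disjoint X Y ∧ Nat.card X = e ∧
      Nat.card Y = (p - 1) / e ∧ ∃ (εX : IrrCharacter G → ℤ) (ε : ℤ),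
      (∀ χ ∈ X, (εX χ = 1 ∨ εX χ = -1) ∧ (charDegree (χ : G → ℂ) : ℤ) ≡ εX χ [ZMOD p] ∧
        ∀ x : G, x ∈ (P : Subgroup G) → x ≠ 1 → ∀ y : G, y ∈ Subgroup.centralizer ((P : Subgroup G) : Set G) →
          ¬ p ∣ orderOf y → (χ : G → ℂ) (x * y) = (εX χ : ℂ)) ∧
      (ε = 1 ∨ ε = -1) ∧
      (∀ θ ∈ Y, (charDegree (θ : G → ℂ) : ℤ) ≡ ε * (e : ℤ) [ZMOD p]) ∧
      (∀ θ ∈ Y, ∀ θ' ∈ Y, ∀ g : G, ¬ p ∣ orderOf g → (θ : G → ℂ) g = (θ' : G → ℂ) g) ∧
      ∀ θ ∈ Y, ∀ g : G, ¬ p ∣ orderOf g →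
        (ε : ℂ) * (θ : G → ℂ) g = ∑ᶠ χ ∈ X, (εX χ : ℂ) * (χ : G → ℂ) g := by
  classical
  have hpp : p.Prime := Fact.out
  obtain ⟨x₀, hx₀⟩ := exists_prime_orderOf_dvd_card' (G := P) p (by rw [hP])
  let x : G := x₀
  have hx : orderOf x = p := by
    rw [← hx₀]
    exact Subgroup.orderOf_coe x₀
  have hxP : x ∈ (P : Subgroup G) := x₀.2
  have hPx : Subgroup.zpowers x = (P : Subgroup G) := by
    apply Subgroup.eq_of_le_of_card_ge (Subgroup.zpowers_le.mpr hxP)
    rw [Nat.card_zpowers, hx]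
    exact hP.le
  have hsq : ¬ p ^ 2 ∣ Nat.card G := by
    intro h
    have h1 := P.card_eq_multiplicity
    rw [hP] at h1
    have h2 := (hpp.pow_dvd_iff_le_factorization Nat.card_pos.ne').mp h
    have h3 : p ^ 2 ≤ p ^ (Nat.card G).factorization p := Nat.pow_le_pow_right hpp.pos h2
    rw [← h1] at h3
    have h4 : p ^ 1 < p ^ 2 := Nat.pow_lt_pow_right hpp.one_lt (by norm_num)
    rw [pow_one] at h4
    omega
  obtain ⟨K, hK1, hK2, hK3, hK4⟩ := exists_complement hx hsq
  have hordK : ∀ y ∈ K, ¬ p ∣ orderOf y := by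
    intro y hy h
    have h1 := h.trans (Subgroup.orderOf_dvd_natCard K hy)
    have h2 := Nat.dvd_gcd h1 (dvd_refl p)
    rw [hK2] at h2
    exact hpp.one_lt.ne' (Nat.dvd_one.mp h2)
  have hKmem : ∀ z : G, z * x = x * z → ¬ p ∣ orderOf z → z ∈ K := by
    intro z hz hzo
    obtain ⟨n, y, hy, rfl⟩ := hK3 z hz
    by_cases hn : p ∣ n
    · obtain ⟨k, rfl⟩ := hn
      have h1 : x ^ p = 1 := by rw [← hx]; exact pow_orderOf_eq_one x
      rw [pow_mul, h1, one_pow, one_mul]
      exact hy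
    · exfalso
      apply hzo
      have hcop : Nat.Coprime n p := by
        rw [Nat.coprime_comm, hpp.coprime_iff_not_dvd]
        exact hn
      have h1 : orderOf (x ^ n) = p := by
        rw [Nat.Coprime.orderOf_pow (by rw [hx]; exact hcop.symm), hx]
      have hc : Commute (x ^ n) y := (show Commute x y from hK1 y hy).pow_left n
      have hco2 : Nat.Coprime (orderOf (x ^ n)) (orderOf y) := by
        rw [h1, hpp.coprime_iff_not_dvd]
        exact hordK y hy
      rw [hc.orderOf_mul_eq_mul_orderOf_of_coprime hco2, h1]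
      exact dvd_mul_right _ _
  have hKN : ∀ n ∈ Subgroup.normalizer ((Subgroup.zpowers x : Subgroup G) : Set G), ∀ y ∈ K, n * y * n⁻¹ ∈ K := by
    intro n hn y hy
    apply hKmem
    · have h1 : n⁻¹ * x * n⁻¹⁻¹ ∈ Subgroup.zpowers x :=
        (Subgroup.mem_normalizer_iff.mp (Subgroup.inv_mem _ hn) x).mp (Subgroup.mem_zpowers x)
      rw [inv_inv] at h1
      obtain ⟨k, hk⟩ := Subgroup.mem_zpowers_iff.mp h1
      have hc : Commute (x ^ k) y := (show Commute x y from hK1 y hy).zpow_left k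
      have h2 : n⁻¹ * x * n = x ^ k := hk.symm
      calc n * y * n⁻¹ * x = n * (y * (n⁻¹ * x * n)) * n⁻¹ := by group
        _ = n * ((n⁻¹ * x * n) * y) * n⁻¹ := by rw [h2, hc.eq]
        _ = x * (n * y * n⁻¹) := by group
    · have h4 : orderOf (n * y * n⁻¹) = orderOf y := by
        have := MulEquiv.orderOf_eq (MulAut.conj n) y
        simpa [MulAut.conj_apply] using this
      rw [h4]
      exact hordK y hy
  obtain ⟨θ, hθ⟩ := exists_theta hx
  have hkermem : ∀ t : Subgroup.normalizer ((Subgroup.zpowers x : Subgroup G) : Set G),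
      θ t = 1 ↔ (t : G) * x = x * (t : G) := by
    intro t
    haveI : Fact (1 < p) := ⟨hpp.one_lt⟩
    constructor
    · intro h
      have h1 := hθ t
      rw [h, Units.val_one, ZMod.val_one, pow_one] at h1
      exact mul_inv_eq_iff_eq_mul.mp h1
    · intro h
      apply Units.ext
      apply val_unique_aux hx
      rw [← hθ t, Units.val_one, ZMod.val_one, pow_one]
      exact mul_inv_eq_iff_eq_mul.mpr h
  have hCN : ∀ z : G, z * x = x * z → z ∈ Subgroup.normalizer ((Subgroup.zpowers x : Subgroup G) : Set G) := by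
    intro z hz
    apply mem_normalizer_of_conj_mem hx
    have : z⁻¹ * x * z = x := by
      rw [mul_assoc, ← hz]
      group
    rw [this]
    exact Subgroup.mem_zpowers x
  have hker : Nat.card θ.ker = p * Nat.card K := by
    rw [← hK4]
    refine Nat.card_congr ⟨fun z => ⟨z.1.1, mem_cent_zpowers.mpr ((hkermem z.1).mp z.2)⟩,
      fun c => ⟨⟨c.1, hCN c.1 (mem_cent_zpowers.mp c.2)⟩, (hkermem _).mpr (mem_cent_zpowers.mp c.2)⟩, ?_, ?_⟩
    · intro z
      rfl
    · intro c
      rfl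
  have hrange : Nat.card θ.range = e := by
    rw [← Subgroup.index_ker, ← he, ← hPx]
    simp only [Subgroup.relIndex]
    congr 1
    ext t
    rw [MonoidHom.mem_ker, hkermem, Subgroup.mem_subgroupOf, mem_cent_zpowers]
  have he0 : 0 < e := by
    rw [← hrange]
    exact Nat.card_pos
  have hcop : Nat.Coprime e p := by
    rw [Nat.coprime_comm, hpp.coprime_iff_not_dvd]
    intro h1
    have h2 : e ∣ Nat.card (ZMod p)ˣ := by
      rw [← hrange]
      exact Subgroup.card_subgroup_dvd_card _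
    rw [natCard_units_aux] at h2
    have h3 : p ∣ p - 1 := h1.trans h2
    have h4 := Nat.le_of_dvd (Nat.sub_pos_of_lt hpp.one_lt) h3
    have := hpp.pos
    omega
  obtain ⟨s₀, hs₀⟩ := IsCyclic.exists_monoid_generator (α := θ.range)
  obtain ⟨t₀, ht₀⟩ := s₀.2
  have hs₀e : (s₀ : (ZMod p)ˣ) ^ e = 1 := by
    have h1 : s₀ ^ Nat.card θ.range = 1 := pow_card_eq_one'
    rw [hrange] at h1
    have := congrArg Subtype.val h1
    simpa using this
  have hu : ∃ u, (p * u) % e = 1 % e := by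
    by_cases he1 : e = 1
    · exact ⟨0, by rw [he1]; simp [Nat.mod_one]⟩
    · have he2 : 1 < e := by omega
      obtain ⟨u, _, hu⟩ := Nat.exists_mul_mod_eq_one_of_coprime hcop.symm he2
      exact ⟨u, by rw [hu, Nat.mod_eq_of_lt he2]⟩
  obtain ⟨u, hu⟩ := hu
  let τ₀ := t₀ ^ (p * u)
  have hθτ₀ : θ τ₀ = (s₀ : (ZMod p)ˣ) := by
    simp only [τ₀]
    rw [map_pow, ht₀, pow_eq_pow_mod _ hs₀e, hu, ← pow_eq_pow_mod 1 hs₀e, pow_one]
  let τ : G := τ₀
  have hτord : ¬ p ∣ orderOf τ := by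
    intro h
    have h1 : τ = ((t₀ : G) ^ p) ^ u := by
      simp only [τ, τ₀]
      rw [Subgroup.coe_pow, pow_mul]
    have h2 : orderOf τ ∣ orderOf ((t₀ : G) ^ p) := by
      apply orderOf_dvd_of_pow_eq_one
      rw [h1, ← pow_mul, mul_comm, pow_mul, pow_orderOf_eq_one, one_pow]
    have h3 := h.trans h2
    rw [orderOf_pow' _ hpp.ne_zero] at h3
    by_cases h4 : p ∣ orderOf (t₀ : G)
    · have h5 : Nat.gcd (orderOf (t₀ : G)) p = p := Nat.gcd_eq_right h4
      rw [h5] at h3
      apply hsq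
      have h6 := Nat.mul_dvd_of_dvd_div h4 h3
      rw [pow_two]
      exact h6.trans (orderOf_dvd_natCard _)
    · have h5 : Nat.gcd (orderOf (t₀ : G)) p = 1 := by
        rw [Nat.gcd_comm]
        exact (hpp.coprime_iff_not_dvd).mpr h4
      rw [h5, Nat.div_one] at h3
      exact h4 h3
  have hτe : τ ^ e ∈ K := by
    apply hKmem
    · have h1 : θ (τ₀ ^ e) = 1 := by rw [map_pow, hθτ₀, hs₀e]
      have h2 := (hkermem (τ₀ ^ e)).mp h1
      rw [Subgroup.coe_pow] at h2
      exact h2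
    · intro h
      exact hτord (h.trans (orderOf_pow_dvd e))
  have hNdec : ∀ n ∈ Subgroup.normalizer ((Subgroup.zpowers x : Subgroup G) : Set G),
      ∃ (i j : ℕ) (y : G), y ∈ K ∧ n = τ ^ i * x ^ j * y := by
    intro n hn
    let n' : Subgroup.normalizer ((Subgroup.zpowers x : Subgroup G) : Set G) := ⟨n, hn⟩
    obtain ⟨i, hi⟩ := hs₀ (⟨θ n', ⟨n', rfl⟩⟩ : θ.range)
    have hi' : (s₀ : (ZMod p)ˣ) ^ i = θ n' := by
      have := congrArg Subtype.val hi
      simpa using this
    let z := (τ₀ ^ i)⁻¹ * n'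
    have hz : θ z = 1 := by
      simp only [z]
      rw [map_mul, map_inv, map_pow, hθτ₀, hi', inv_mul_cancel]
    obtain ⟨j, y, hy, hjy⟩ := hK3 _ ((hkermem z).mp hz)
    refine ⟨i, j, y, hy, ?_⟩
    have h1 : n = τ ^ i * (z : G) := by
      have hzc : (z : G) = ((τ₀ ^ i : Subgroup.normalizer ((Subgroup.zpowers x : Subgroup G) : Set G)) : G)⁻¹ * n := rfl
      have hpc : ((τ₀ ^ i : Subgroup.normalizer ((Subgroup.zpowers x : Subgroup G) : Set G)) : G) = τ ^ i :=
        Subgroup.coe_pow _ _ _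
      rw [hzc, hpc, mul_inv_cancel_left]
    rw [h1, hjy, mul_assoc]
  have hconj : ∀ w : G, orderOf w = p → ∃ (b : G) (n : ℕ), b * w * b⁻¹ = x ^ n := by
    intro w hw
    have hpg : IsPGroup p (Subgroup.zpowers w) := by
      rw [IsPGroup.iff_card, Nat.card_zpowers, hw]
      exact ⟨1, (pow_one p).symm⟩
    obtain ⟨Q, hQ⟩ := hpg.exists_le_sylow
    obtain ⟨b, hb⟩ := MulAction.exists_smul_eq G Q P
    have h1 : w ∈ (Q : Subgroup G) := hQ (Subgroup.mem_zpowers w)
    have h2 : b * w * b⁻¹ ∈ (P : Subgroup G) := by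
      rw [← hb, Sylow.coe_subgroup_smul, Subgroup.mem_pointwise_smul_iff_inv_smul_mem]
      have h3 : (MulAut.conj b)⁻¹ • (b * w * b⁻¹) = w := by
        change (MulAut.conj b)⁻¹ (b * w * b⁻¹) = w
        rw [MulAut.conj_inv_apply]
        group
      rw [h3]
      exact h1
    rw [← hPx] at h2
    obtain ⟨n, hn⟩ := mem_powers_iff_mem_zpowers.mpr h2
    exact ⟨b, n, hn.symm⟩
  let D : DS G p :=
    { x := x, K := K, τ := τ, s := ((θ τ₀ : (ZMod p)ˣ) : ZMod p).val, e := e, hx := hx, hxK := hK1, hKN := hKN,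
      hNdec := hNdec, hτ := hθ τ₀, hs := ZMod.val_coe_unit_coprime _, he := he0, hep := hcop, hτe := hτe, hKp := hK2 }
  obtain ⟨X, Y, h1, h2, h3, h4, εX, ε, h5, h6, h7, h8, h9⟩ :=
    main_of_data (M := M) D θ hθ hker hM hsq hK3 hconj e hrange
  refine ⟨X, Y, h1, h2, h3, h4, εX, ε, ?_, h6, h7, h8, h9⟩
  intro χ hχ
  obtain ⟨h10, h11, h12⟩ := h5 χ hχ
  refine ⟨h10, h11, ?_⟩
  intro x' hx' hne y hy hyo
  rw [← hPx] at hx' hy
  obtain ⟨n, rfl⟩ := mem_powers_iff_mem_zpowers.mpr hx'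
  have hn : Nat.Coprime n p := by
    rw [Nat.coprime_comm, hpp.coprime_iff_not_dvd]
    rintro ⟨k, rfl⟩
    apply hne
    have h13 : x ^ p = 1 := by rw [← hx]; exact pow_orderOf_eq_one x
    simp only
    rw [pow_mul, h13, one_pow]
  exact h12 n hn y (hKmem y (mem_cent_zpowers.mp hy) hyo)

end Cfsg.Agent.H23.DO
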