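import Cfsg.Agent.Lib.H23.BThm
import Cfsg.Agent.Lib.H23.DOData

/-!
# Rows attached to a character of the complement
-/

set_option autoImplicit false
set_option linter.unusedSectionVars false
set_option linter.style.haveILetI false

namespace Cfsg.Agent.H23.DO

open Module Matrix Cfsg Cfsg.Agent.H22 Cfsg.Agent.H21
open scoped ComplexConjugate

universe u

variable {G : Type u} [Group G] [Finite G] {p : ℕ} [Fact p.Prime] (D : DS G p) (β : IrrCharacter D.K)

/-- The multiplicity of the product of a character of `⟨x⟩` and `β`. -/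
noncomputable def muB (χ : G → ℂ) (a : ZMod p) : ℂ :=
  (p : ℂ)⁻¹ * (((Fintype.card D.K : ℕ) : ℂ)⁻¹ *
    ∑ n ∈ Finset.range p, ∑ y : D.K, ps (-(a * (n : ZMod p))) * (β.1 y⁻¹ * χ (D.x ^ n * (y : G))))

theorem mThetaB_eq (Θ : G → ℂ) (a : ZMod p) : mThetaB D β Θ (ps a) = muB D β Θ a := by
  simp only [mThetaB, muB, ps_pow_eq]

theorem muB_Thet (T : Set (IrrCharacter G)) (c : G → ℂ) (a : ZMod p) :
    muB D β (Thet T c) a = ∑ χ : IrrCharacter G, eB T χ * chv χ.1 c * muB D β χ.1 a := by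
  simp only [muB, Thet, Finset.mul_sum]
  symm
  rw [Finset.sum_comm]
  refine Finset.sum_congr rfl fun n _ => ?_
  rw [Finset.sum_comm]
  refine Finset.sum_congr rfl fun y _ => ?_
  refine Finset.sum_congr rfl fun χ _ => ?_
  ring

/-- A matrix form of `β`, over some valuation ring. -/
theorem exists_BD_one (V : ValuationSubring ℂ) (hV : (p : ℂ) ∈ V.nonunits) : Nonempty (BD D.K V β 1 0) := by
  refine exists_BD V hV D.K D.K le_rfl β ?_ Subgroup.le_normalizer 1 D.K.one_mem 0 (by simp) D.hKp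
  intro g hg y y' hy
  have h1 : y' = (⟨g, hg⟩ : D.K) * y * (⟨g, hg⟩ : D.K)⁻¹ := Subtype.ext hy
  rw [h1]
  exact irr_conj' β y _

theorem DS.cls_xn {χ : G → ℂ} (hχ : IsCharacter G χ) (n : ℕ) (z y : D.K) :
    χ (D.x ^ n * ((z * y * z⁻¹ : D.K) : G)) = χ (D.x ^ n * (y : G)) := by
  have hc : Commute (D.x ^ n) (z : G) := (show Commute D.x (z : G) from D.hxK z z.2).pow_left n
  have h1 : D.x ^ n * ((z * y * z⁻¹ : D.K) : G) = (z : G) * (D.x ^ n * (y : G)) * (z : G)⁻¹ := by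
    simp only [Subgroup.coe_mul, Subgroup.coe_inv]
    calc D.x ^ n * ((z : G) * y * (z : G)⁻¹) = (D.x ^ n * (z : G)) * y * (z : G)⁻¹ := by group
      _ = _ := by rw [hc.eq]; group
  rw [h1]
  exact H22.isCharacter_conj hχ _ _

theorem muB_nat {χ : G → ℂ} (hχ : IsCharacter G χ) (a : ZMod p) : ∃ m : ℕ, muB D β χ a = m := by
  classical
  obtain ⟨V, hV⟩ := exists_val p Fact.out
  obtain ⟨B⟩ := exists_BD_one D β V hV
  have hχ' := hχ
  obtain ⟨d, ρ, rfl⟩ := hχ
  have hpp : p.Prime := Fact.out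
  have hp0 : (p : ℂ) ≠ 0 := by exact_mod_cast hpp.ne_zero
  have hK0 : ((Fintype.card D.K : ℕ) : ℂ) ≠ 0 := by exact_mod_cast Fintype.card_ne_zero
  let T : Module.End ℂ (Fin d → ℂ) := ps (-a) • ρ D.x
  have hTp : T ^ p = 1 := by
    simp only [T]
    rw [_root_.smul_pow, ps_pow, one_smul, ← map_pow, D.x_pow, map_one]
  let S : Module.End ℂ (Fin d → ℂ) := ∑ i ∈ Finset.range p, T ^ i
  have hSS : S * S = p • S := geom_sq hTp
  let RK : D.K →* Module.End ℂ (Fin d → ℂ) := ρ.comp D.K.subtype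
  let σC := (cm (V := V) (ι := Fin B.n)).toMonoidHom.comp B.σ
  let PmC := cm B.Pm
  have hPmC : Matrix.trace PmC = 1 := by
    simp only [PmC]
    rw [← coe_trace, B.hPm2]
    simp
  let E : Module.End ℂ (Fin d → ℂ) := Xi σC (B.κ : ℂ) RK PmC
  have hEE : E * E = E := by
    simp only [E]
    rw [Xi_mul RK B.hEC]
    simp only [PmC]
    rw [← map_mul, B.hPm1]
  have hTE : Commute T E := by
    simp only [T, E, Xi]
    apply Commute.smul_left
    apply Commute.smul_right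
    apply Commute.sum_right
    intro y _
    apply Commute.smul_right
    show ρ D.x * ρ (y : G) = ρ (y : G) * ρ D.x
    rw [← map_mul, ← map_mul, D.hxK y y.2]
  have hSE : Commute S E := Commute.sum_left _ _ _ fun i _ => hTE.pow_left i
  let P : Module.End ℂ (Fin d → ℂ) := ((p : ℂ)⁻¹ • S) * E
  have hPP : P * P = P := by
    simp only [P]
    calc (p : ℂ)⁻¹ • S * E * ((p : ℂ)⁻¹ • S * E) = ((p : ℂ)⁻¹ • S * ((p : ℂ)⁻¹ • S)) * (E * E) := by
          have h1 : Commute ((p : ℂ)⁻¹ • S) E := hSE.smul_left _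
          rw [mul_assoc, ← mul_assoc E, ← h1.eq, mul_assoc, mul_assoc]
      _ = _ := by
          rw [hEE, smul_mul_smul_comm, hSS]
          congr 1
          rw [← Nat.cast_smul_eq_nsmul ℂ, smul_smul]
          have : (p : ℂ)⁻¹ * (p : ℂ)⁻¹ * (p : ℂ) = (p : ℂ)⁻¹ := by field_simp
          rw [this]
  obtain ⟨m, hm⟩ := trace_idem_nat P hPP
  refine ⟨m, ?_⟩
  rw [← hm]
  have htrE : ∀ n : ℕ, LinearMap.trace ℂ _ ((ρ D.x) ^ n * E) =
      ((Fintype.card D.K : ℕ) : ℂ)⁻¹ * ∑ y : D.K, β.1 y⁻¹ * ρ.character (D.x ^ n * (y : G)) := by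
    intro n
    have h1 := avg_coeff B.hEC hPmC (fun y : D.K => ρ.character (D.x ^ n * (y : G))) (D.cls_xn hχ' n)
    simp only [σC, MonoidHom.comp_apply, RingHom.toMonoidHom_eq_coe, MonoidHom.coe_coe, B.htr] at h1
    rw [← h1]
    simp only [E, Xi]
    rw [mul_smul_comm, map_smul, smul_eq_mul, Finset.mul_sum, map_sum]
    congr 1
    refine Finset.sum_congr rfl fun y _ => ?_
    rw [mul_smul_comm, map_smul, smul_eq_mul]
    congr 1
    show LinearMap.trace ℂ _ ((ρ D.x) ^ n * ρ (y : G)) = _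
    rw [← map_pow, ← map_mul]
    rfl
  simp only [P, S, muB]
  rw [smul_mul_assoc, map_smul, smul_eq_mul]
  congr 1
  rw [Finset.sum_mul, map_sum, Finset.mul_sum]
  refine Finset.sum_congr rfl fun n _ => ?_
  simp only [T]
  rw [_root_.smul_pow, smul_mul_assoc, map_smul, smul_eq_mul, htrE, ← AddChar.map_nsmul_eq_pow]
  have h3 : n • (-a) = -(a * (n : ZMod p)) := by
    simp only [nsmul_eq_mul]
    ring
  rw [h3, Finset.mul_sum, Finset.mul_sum, Finset.mul_sum]
  refine Finset.sum_congr rfl fun y _ => ?_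
  ring

/-- The multiplicities as natural numbers. -/
noncomputable def mNB (χ : IrrCharacter G) (a : ZMod p) : ℕ :=
  Classical.choose (muB_nat D β (isCharacter_of_irr χ.2) a)

theorem mNB_spec (χ : IrrCharacter G) (a : ZMod p) : (mNB D β χ a : ℂ) = muB D β χ.1 a :=
  (Classical.choose_spec (muB_nat D β (isCharacter_of_irr χ.2) a)).symm

/-- The integer rows. -/
noncomputable def cRB (a : ZMod p) (χ : IrrCharacter G) : ℤ := (mNB D β χ 0 : ℤ) - (mNB D β χ a : ℤ)

theorem cRB_cast (a : ZMod p) (χ : IrrCharacter G) :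
    ((cRB D β a χ : ℤ) : ℂ) = muB D β χ.1 0 - muB D β χ.1 a := by
  simp only [cRB]
  push_cast
  rw [mNB_spec, mNB_spec]

theorem cRB_form (a : ZMod p) (χ : IrrCharacter G) : ((cRB D β a χ : ℤ) : ℂ) =
    (p : ℂ)⁻¹ * (((Fintype.card D.K : ℕ) : ℂ)⁻¹ *
      ∑ n ∈ Finset.range p, ∑ y : D.K, (1 - ps (-(a * (n : ZMod p)))) * (β.1 y⁻¹ * χ.1 (D.x ^ n * (y : G)))) := by
  rw [cRB_cast]
  simp only [muB]
  rw [dbl_sub]
  congr 2
  refine Finset.sum_congr rfl fun n _ => Finset.sum_congr rfl fun y _ => ?_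
  simp [ps_zero, sub_mul]

theorem muB_conj_form (χ : IrrCharacter G) (a : ZMod p) : muB D β χ.1 a =
    (p : ℂ)⁻¹ * (((Fintype.card D.K : ℕ) : ℂ)⁻¹ *
      ∑ n ∈ Finset.range p, ∑ y : D.K, ps (a * (n : ZMod p)) * (β.1 y * conj (χ.1 (D.x ^ n * (y : G))))) := by
  have h1 : conj (muB D β χ.1 a) = muB D β χ.1 a := by
    rw [← mNB_spec]
    simp
  rw [← h1]
  simp only [muB]
  simp only [map_mul, map_inv₀, map_sum, Complex.conj_natCast, ps_conj, neg_neg, irr_inv', Complex.conj_conj]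

theorem cRB_conj_form (a : ZMod p) (χ : IrrCharacter G) : ((cRB D β a χ : ℤ) : ℂ) =
    (p : ℂ)⁻¹ * (((Fintype.card D.K : ℕ) : ℂ)⁻¹ *
      ∑ n ∈ Finset.range p, ∑ y : D.K, (1 - ps (a * (n : ZMod p))) * (β.1 y * conj (χ.1 (D.x ^ n * (y : G))))) := by
  rw [cRB_cast, muB_conj_form, muB_conj_form]
  rw [dbl_sub]
  congr 2
  refine Finset.sum_congr rfl fun n _ => Finset.sum_congr rfl fun y _ => ?_
  simp [ps_zero, sub_mul]

/-- The sum of characters weighted by a row. -/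
noncomputable def FfB (b : ZMod p) (g : G) : ℂ := ∑ χ : IrrCharacter G, ((cRB D β b χ : ℤ) : ℂ) * χ.1 g

open scoped Classical in
theorem FfB_eq (b : ZMod p) (g : G) : FfB D β b g =
    (p : ℂ)⁻¹ * (((Fintype.card D.K : ℕ) : ℂ)⁻¹ *
      ∑ n ∈ Finset.range p, ∑ y : D.K, (1 - ps (b * (n : ZMod p))) * (β.1 y *
        ∑ t : G, if t * g * t⁻¹ = D.x ^ n * (y : G) then (1 : ℂ) else 0)) := by
  simp only [← col_eq_count]
  simp only [FfB, cRB_conj_form]
  simp only [Finset.sum_mul, Finset.mul_sum]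
  rw [Finset.sum_comm]
  refine Finset.sum_congr rfl fun n _ => ?_
  rw [Finset.sum_comm]
  refine Finset.sum_congr rfl fun y _ => ?_
  refine Finset.sum_congr rfl fun χ _ => ?_
  ring

theorem FfB_regular (b : ZMod p) {g : G} (hg : ¬ p ∣ orderOf g) : FfB D β b g = 0 := by
  classical
  rw [FfB_eq]
  have h : ∀ n ∈ Finset.range p, ∀ y : D.K, (1 - ps (b * (n : ZMod p))) * (β.1 y *
        (∑ t : G, if t * g * t⁻¹ = D.x ^ n * (y : G) then (1 : ℂ) else 0)) = 0 := by
    intro n hn y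
    by_cases h0 : n = 0
    · subst h0
      simp [ps_zero]
    · have h1 : ∑ t : G, (if t * g * t⁻¹ = D.x ^ n * (y : G) then (1 : ℂ) else 0) = 0 := by
        apply Finset.sum_eq_zero
        intro t _
        rw [if_neg]
        intro h2
        apply hg
        have h3 := D.orderOf_mul n (coprime_of_lt h0 (Finset.mem_range.mp hn)) y.2
        rw [← h2] at h3
        have h4 : orderOf (t * g * t⁻¹) = orderOf g := by
          have := MulEquiv.orderOf_eq (MulAut.conj t) g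
          simpa [MulAut.conj_apply] using this
        rwa [h4] at h3
      rw [h1, mul_zero, mul_zero]
  rw [Finset.sum_eq_zero fun n hn => Finset.sum_eq_zero fun y _ => h n hn y]
  simp

end Cfsg.Agent.H23.DO
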