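import Cfsg.Agent.Lib.H23.BRow

/-!
# Rows attached to a character of the complement: inner products
-/

set_option autoImplicit false
set_option linter.unusedSectionVars false
set_option linter.style.haveILetI false

namespace Cfsg.Agent.H23.DO

open Module Matrix Cfsg Cfsg.Agent.H22 Cfsg.Agent.H21
open scoped ComplexConjugate

universe u

variable {G : Type u} [Group G] [Finite G] {p : ℕ} [Fact p.Prime] (D : DS G p) (β : IrrCharacter D.K)

theorem conj_ne_of_notN {t : G} (ht : t ∉ NN D) {k : ℕ} (hk : Nat.Coprime k p) {z : G} (hz : z ∈ D.K)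
    (n : ℕ) (y : D.K) : t * (D.x ^ k * z) * t⁻¹ ≠ D.x ^ n * (y : G) := by
  intro h
  apply ht
  let m := Nat.card D.K
  have hy1 : (y : G) ^ m = 1 := orderOf_dvd_iff_pow_eq_one.mp (Subgroup.orderOf_dvd_natCard D.K y.2)
  have hz1 : z ^ m = 1 := orderOf_dvd_iff_pow_eq_one.mp (Subgroup.orderOf_dvd_natCard D.K hz)
  have hc1 : Commute (D.x ^ k) z := (show Commute D.x z from D.hxK z hz).pow_left k
  have hc2 : Commute (D.x ^ n) (y : G) := (show Commute D.x (y : G) from D.hxK y y.2).pow_left n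
  have h2 : t * D.x ^ (k * m) * t⁻¹ = D.x ^ (n * m) := by
    have h3 : (t * (D.x ^ k * z) * t⁻¹) ^ m = (D.x ^ n * (y : G)) ^ m := by rw [h]
    rw [conj_pow, hc1.mul_pow, hc2.mul_pow, hz1, hy1, mul_one, mul_one, ← pow_mul, ← pow_mul] at h3
    exact h3
  have hcop : Nat.Coprime (k * m) p := Nat.Coprime.mul_left hk D.hKp
  obtain ⟨r, _, hr⟩ := Nat.exists_mul_mod_eq_one_of_coprime hcop (Fact.out : p.Prime).one_lt
  have h3 : D.x ^ (k * m * r) = D.x := by
    have := pow_mod_orderOf D.x (k * m * r)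
    rw [D.hx, hr, pow_one] at this
    exact this.symm
  have h4 : t * D.x * t⁻¹ ∈ Subgroup.zpowers D.x := by
    have h5 : t * D.x * t⁻¹ = (t * D.x ^ (k * m) * t⁻¹) ^ r := by
      rw [conj_pow, ← pow_mul, h3]
    rw [h5, h2]
    exact Subgroup.pow_mem _ (Subgroup.pow_mem _ (Subgroup.mem_zpowers _) _) _
  have h6 : t⁻¹ ∈ NN D := by
    apply mem_normalizer_of_conj_mem D.hx
    rw [inv_inv]
    exact h4
  have := Subgroup.inv_mem _ h6
  simpa using this

section Theta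

variable (θ : NN D →* (ZMod p)ˣ)
  (hθ : ∀ t : NN D, (t : G) * D.x * (t : G)⁻¹ = D.x ^ (((θ t : (ZMod p)ˣ) : ZMod p)).val)
  (hker : Nat.card θ.ker = p * Nat.card D.K)

open scoped Classical in
/-- The inner count. -/
noncomputable def innerB (b : ZMod p) (g t : G) : ℂ :=
  ∑ n ∈ Finset.range p, ∑ y : D.K, (1 - ps (b * (n : ZMod p))) * (β.1 y *
    if t * g * t⁻¹ = D.x ^ n * (y : G) then (1 : ℂ) else 0)

include hθ in
theorem innerB_N (b : ZMod p) (t : NN D) {k : ℕ} (z : D.K) :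
    innerB D β b (D.x ^ k * z) (t : G) = (1 - ps (b * (((θ t : (ZMod p)ˣ) : ZMod p) * (k : ZMod p)))) *
      β.1 ⟨(t : G) * z * (t : G)⁻¹, D.hKN t t.2 z z.2⟩ := by
  classical
  simp only [innerB]
  let s : ZMod p := ((θ t : (ZMod p)ˣ) : ZMod p) * (k : ZMod p)
  have hform := conj_form D θ hθ t k z.2
  have hz' : (t : G) * z * (t : G)⁻¹ ∈ D.K := D.hKN t t.2 z z.2
  have hlt : s.val < p := ZMod.val_lt s
  rw [Finset.sum_eq_single s.val]
  · rw [Finset.sum_eq_single (⟨_, hz'⟩ : D.K)]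
    · rw [if_pos hform]
      simp [s, ZMod.natCast_zmod_val]
    · intro y _ hy
      rw [if_neg, mul_zero, mul_zero]
      intro h
      rw [hform] at h
      exact hy (Subtype.ext (D.dec_unique hlt hlt hz' y.2 h).2.symm)
    · simp
  · intro n hn hne
    apply Finset.sum_eq_zero
    intro y _
    rw [if_neg, mul_zero, mul_zero]
    intro h
    rw [hform] at h
    exact hne (D.dec_unique hlt (Finset.mem_range.mp hn) hz' y.2 h).1.symm
  · intro h
    exact absurd (Finset.mem_range.mpr hlt) h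

theorem innerB_notN (b : ZMod p) {t : G} (ht : t ∉ NN D) {k : ℕ} (hk : Nat.Coprime k p) {z : G} (hz : z ∈ D.K) :
    innerB D β b (D.x ^ k * z) t = 0 := by
  classical
  simp only [innerB]
  apply Finset.sum_eq_zero
  intro n _
  apply Finset.sum_eq_zero
  intro y _
  rw [if_neg (conj_ne_of_notN D ht hk hz n y), mul_zero, mul_zero]

include hθ in
theorem FfB_sing (b : ZMod p) {k : ℕ} (hk : Nat.Coprime k p) (z : D.K) :
    FfB D β b (D.x ^ k * z) = (p : ℂ)⁻¹ * (((Fintype.card D.K : ℕ) : ℂ)⁻¹ *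
      ∑ t : NN D, (1 - ps (b * (((θ t : (ZMod p)ˣ) : ZMod p) * (k : ZMod p)))) *
        β.1 ⟨(t : G) * z * (t : G)⁻¹, D.hKN t t.2 z z.2⟩) := by
  classical
  rw [FfB_eq]
  have h1 : ∑ n ∈ Finset.range p, ∑ y : D.K, (1 - ps (b * (n : ZMod p))) * (β.1 y *
        ∑ t : G, (if t * (D.x ^ k * z) * t⁻¹ = D.x ^ n * (y : G) then (1 : ℂ) else 0)) =
      ∑ t : G, innerB D β b (D.x ^ k * z) t := by
    simp only [innerB, Finset.mul_sum]
    symm
    rw [Finset.sum_comm]
    refine Finset.sum_congr rfl fun n _ => ?_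
    rw [Finset.sum_comm]
  rw [h1, sum_subgroup_of_zero (H := NN D) _ (fun t ht => innerB_notN D β b ht hk z.2)]
  congr 2
  exact Finset.sum_congr rfl fun t _ => innerB_N D β θ hθ b t z

open scoped Classical in
/-- The sum over the complement of a product of `β` with a conjugate. -/
theorem sum_conj_orth (t : NN D) :
    ∑ y : D.K, β.1 y⁻¹ * β.1 ⟨(t : G) * y * (t : G)⁻¹, D.hKN t t.2 y y.2⟩ =
      if Stz D.K β (t : G) then ((Fintype.card D.K : ℕ) : ℂ) else 0 := by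
  classical
  have hK0 : ((Fintype.card D.K : ℕ) : ℂ) ≠ 0 := by exact_mod_cast Fintype.card_ne_zero
  let f : D.K ≃* D.K := conjK (D.hKN t t.2) (D.normK t.2)
  let β' : IrrCharacter D.K := irrMap f.symm β
  have h1 : ∀ y : D.K, β'.1 y = β.1 ⟨(t : G) * y * (t : G)⁻¹, D.hKN t t.2 y y.2⟩ := fun y => rfl
  have h2 := classInner_irr β' β
  simp only [classInner] at h2
  have h3 : ∑ y : D.K, β.1 y⁻¹ * β.1 ⟨(t : G) * y * (t : G)⁻¹, D.hKN t t.2 y y.2⟩ =
      ∑ y : D.K, β'.1 y * conj (β.1 y) := by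
    refine Finset.sum_congr rfl fun y _ => ?_
    rw [h1, irr_inv', mul_comm]
  rw [h3]
  have hiff : β' = β ↔ Stz D.K β (t : G) := by
    constructor
    · intro h y y' hy
      have h4 : y' = f y := Subtype.ext hy
      have h5 := congrArg (fun b : IrrCharacter D.K => b.1 y) h
      simp only [h1] at h5
      rw [h4]
      exact h5
    · intro h
      apply Subtype.ext
      funext y
      rw [h1]
      exact h y _ rfl
  have hc : (Nat.card D.K : ℂ) = ((Fintype.card D.K : ℕ) : ℂ) := by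
    rw [Nat.card_eq_fintype_card]
  rw [hc] at h2
  by_cases hs : Stz D.K β (t : G)
  · rw [if_pos hs]
    rw [if_pos (hiff.mpr hs)] at h2
    field_simp at h2
    exact h2
  · rw [if_neg hs]
    rw [if_neg (fun h => hs (hiff.mp h))] at h2
    exact (mul_eq_zero.mp h2).resolve_left (inv_ne_zero hK0)

/-- The stabilizer in the normalizer. -/
def StN : Subgroup (NN D) where
  carrier := {t | Stz D.K β (t : G)}
  mul_mem' := by
    intro t₁ t₂ h₁ h₂ y y' hy
    let y₂ : D.K := ⟨(t₂ : G) * y * (t₂ : G)⁻¹, D.hKN t₂ t₂.2 y y.2⟩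
    have h3 : β.1 y₂ = β.1 y := h₂ y y₂ rfl
    have h4 : β.1 y' = β.1 y₂ := h₁ y₂ y' (by
      rw [hy]
      simp only [Subgroup.coe_mul, y₂]
      group)
    rw [h4, h3]
  one_mem' := by
    intro y y' hy
    have : y' = y := Subtype.ext (by simpa using hy)
    rw [this]
  inv_mem' := fun {t} h => Stz_inv h

theorem mem_StN (t : NN D) : t ∈ StN D β ↔ Stz D.K β (t : G) := Iff.rfl

variable (hCdec : ∀ z : G, z * D.x = D.x * z → ∃ (n : ℕ) (y : G), y ∈ D.K ∧ z = D.x ^ n * y)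

include hCdec in
theorem Stz_of_comm {t : G} (ht : t * D.x = D.x * t) : Stz D.K β t := by
  obtain ⟨n, y₀, hy₀, rfl⟩ := hCdec t ht
  intro y y' hy
  have hc : Commute (D.x ^ n) (y : G) := (show Commute D.x (y : G) from D.hxK y y.2).pow_left n
  have h1 : y' = (⟨y₀, hy₀⟩ : D.K) * y * (⟨y₀, hy₀⟩ : D.K)⁻¹ := by
    apply Subtype.ext
    rw [hy]
    simp only [Subgroup.coe_mul, Subgroup.coe_inv]
    calc D.x ^ n * y₀ * y * (D.x ^ n * y₀)⁻¹ = D.x ^ n * (y₀ * y * y₀⁻¹) * (D.x ^ n)⁻¹ := by group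
      _ = _ := by
        have hc' : Commute (D.x ^ n) (y₀ * y * y₀⁻¹) := by
          have hc0 : Commute (D.x ^ n) y₀ := (show Commute D.x y₀ from D.hxK y₀ hy₀).pow_left n
          exact (hc0.mul_right hc).mul_right hc0.inv_right
        rw [hc'.eq]
        group
  rw [h1]
  exact irr_conj' β y _

include hθ in
theorem ker_val_one {t : NN D} (h : θ t = 1) : (t : G) * D.x = D.x * (t : G) := by
  haveI : Fact (1 < p) := ⟨(Fact.out : p.Prime).one_lt⟩
  have h1 := hθ t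
  rw [h, Units.val_one, ZMod.val_one, pow_one] at h1
  exact mul_inv_eq_iff_eq_mul.mp h1

/-- The image of the stabilizer. -/
noncomputable abbrev AB : Subgroup (ZMod p)ˣ := (StN D β).map θ

include hθ hCdec in
theorem mem_AB (t : NN D) : θ t ∈ AB D β θ ↔ Stz D.K β (t : G) := by
  constructor
  · rintro ⟨t', ht', h⟩
    have h1 : θ (t * t'⁻¹) = 1 := by
      rw [map_mul, map_inv, ← h, mul_inv_cancel]
    have h2 := Stz_of_comm D β hCdec (ker_val_one D θ hθ h1)
    have h3 : t * t'⁻¹ ∈ StN D β := h2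
    have h4 : t ∈ StN D β := by
      have := Subgroup.mul_mem _ h3 ht'
      simpa using this
    exact h4
  · intro h
    exact ⟨t, h, rfl⟩

open scoped Classical in
/-- The image of the stabilizer, as a finite set. -/
noncomputable def ABf : Finset (ZMod p)ˣ := Finset.univ.filter (fun s => s ∈ AB D β θ)

theorem mem_ABf (s : (ZMod p)ˣ) : s ∈ ABf D β θ ↔ s ∈ AB D β θ := by
  classical
  simp [ABf]

include hθ hker hCdec in
theorem gram_formB (a b : (ZMod p)ˣ) : ∑ χ : IrrCharacter G, ((cRB D β a χ : ℤ) : ℂ) * ((cRB D β b χ : ℤ) : ℂ) =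
    ∑ s ∈ ABf D β θ, (1 + if (b : ZMod p) * (s : ZMod p) = (a : ZMod p) then (1 : ℂ) else 0) := by
  classical
  have hpp : p.Prime := Fact.out
  have hp0 : (p : ℂ) ≠ 0 := by exact_mod_cast hpp.ne_zero
  have hK0 : ((Fintype.card D.K : ℕ) : ℂ) ≠ 0 := by exact_mod_cast Fintype.card_ne_zero
  have h1 : ∑ χ : IrrCharacter G, ((cRB D β a χ : ℤ) : ℂ) * ((cRB D β b χ : ℤ) : ℂ) =
      (p : ℂ)⁻¹ * (((Fintype.card D.K : ℕ) : ℂ)⁻¹ *
        ∑ n ∈ Finset.range p, ∑ y : D.K, (1 - ps (-((a : ZMod p) * (n : ZMod p)))) *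
          (β.1 y⁻¹ * FfB D β b (D.x ^ n * (y : G)))) := by
    simp only [cRB_form D β (a : ZMod p), FfB]
    simp only [Finset.sum_mul, Finset.mul_sum]
    rw [Finset.sum_comm]
    refine Finset.sum_congr rfl fun n _ => ?_
    rw [Finset.sum_comm]
    refine Finset.sum_congr rfl fun y _ => Finset.sum_congr rfl fun χ _ => ?_
    ring
  rw [h1]
  have h2 : ∀ n ∈ Finset.range p, ∀ y : D.K, (1 - ps (-((a : ZMod p) * (n : ZMod p)))) *
        (β.1 y⁻¹ * FfB D β b (D.x ^ n * (y : G))) =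
      (p : ℂ)⁻¹ * (((Fintype.card D.K : ℕ) : ℂ)⁻¹ * ∑ t : NN D,
        ((1 - ps (-(a : ZMod p) * (n : ZMod p))) * (1 - ps (((b : ZMod p) * ((θ t : (ZMod p)ˣ) : ZMod p)) * (n : ZMod p)))) *
          (β.1 y⁻¹ * β.1 ⟨(t : G) * y * (t : G)⁻¹, D.hKN t t.2 y y.2⟩)) := by
    intro n hn y
    by_cases h0 : n = 0
    · subst h0
      simp [ps_zero]
    · rw [FfB_sing D β θ hθ _ (coprime_of_lt h0 (Finset.mem_range.mp hn)) y]
      simp only [Finset.mul_sum, neg_mul]
      refine Finset.sum_congr rfl fun t _ => ?_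
      rw [mul_assoc (b : ZMod p)]
      ring
  rw [Finset.sum_congr rfl fun n hn => Finset.sum_congr rfl fun y _ => h2 n hn y]
  -- exchange the sums
  have h3 : ∑ n ∈ Finset.range p, ∑ y : D.K, (p : ℂ)⁻¹ * (((Fintype.card D.K : ℕ) : ℂ)⁻¹ * ∑ t : NN D,
        ((1 - ps (-(a : ZMod p) * (n : ZMod p))) * (1 - ps (((b : ZMod p) * ((θ t : (ZMod p)ˣ) : ZMod p)) * (n : ZMod p)))) *
          (β.1 y⁻¹ * β.1 ⟨(t : G) * y * (t : G)⁻¹, D.hKN t t.2 y y.2⟩)) =
      (p : ℂ)⁻¹ * (((Fintype.card D.K : ℕ) : ℂ)⁻¹ * ∑ t : NN D,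
        (∑ n ∈ Finset.range p, (1 - ps (-(a : ZMod p) * (n : ZMod p))) *
            (1 - ps (((b : ZMod p) * ((θ t : (ZMod p)ˣ) : ZMod p)) * (n : ZMod p)))) *
          ∑ y : D.K, β.1 y⁻¹ * β.1 ⟨(t : G) * y * (t : G)⁻¹, D.hKN t t.2 y y.2⟩) := by
    simp only [← Finset.mul_sum]
    congr 2
    simp only [Finset.sum_mul_sum]
    calc _ = ∑ n ∈ Finset.range p, ∑ t : NN D, ∑ y : D.K, ((1 - ps (-(a : ZMod p) * (n : ZMod p))) * (1 - ps (((b : ZMod p) * ((θ t : (ZMod p)ˣ) : ZMod p)) * (n : ZMod p)))) *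
          (β.1 y⁻¹ * β.1 ⟨(t : G) * y * (t : G)⁻¹, D.hKN t t.2 y y.2⟩) :=
            Finset.sum_congr rfl fun n _ => Finset.sum_comm
      _ = _ := Finset.sum_comm
  rw [h3]
  simp only [sum_conj_orth D β]
  let H : (ZMod p)ˣ → ℂ := fun s => if s ∈ AB D β θ then
    (1 + if (b : ZMod p) * (s : ZMod p) = (a : ZMod p) then (1 : ℂ) else 0) else 0
  have h4 : ∀ t : NN D, (∑ n ∈ Finset.range p, (1 - ps (-(a : ZMod p) * (n : ZMod p))) *
        (1 - ps (((b : ZMod p) * ((θ t : (ZMod p)ˣ) : ZMod p)) * (n : ZMod p)))) *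
      (if Stz D.K β (t : G) then ((Fintype.card D.K : ℕ) : ℂ) else 0) =
      ((p : ℂ) * ((Fintype.card D.K : ℕ) : ℂ)) * H (θ t) := by
    intro t
    rw [sum_two _ _ (neg_ne_zero.mpr a.ne_zero) (mul_ne_zero b.ne_zero (θ t).ne_zero)]
    have h5 : (-(a : ZMod p) + (b : ZMod p) * ((θ t : (ZMod p)ˣ) : ZMod p) = 0) ↔
        (b : ZMod p) * ((θ t : (ZMod p)ˣ) : ZMod p) = (a : ZMod p) := by
      constructor
      · intro h
        linear_combination h
      · intro h
        rw [h]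
        ring
    simp only [h5, H, mem_AB D β θ hθ hCdec]
    by_cases h6 : Stz D.K β (t : G)
    · rw [if_pos h6, if_pos h6]
      split_ifs <;> ring
    · rw [if_neg h6, if_neg h6]
      ring
  simp only [h4]
  rw [← Finset.mul_sum, sum_fiber D θ H, hker]
  push_cast
  rw [Nat.card_eq_fintype_card (α := D.K)]
  have h7 : ∑ s ∈ AA D θ, H s = ∑ s ∈ ABf D β θ, (1 + if (b : ZMod p) * (s : ZMod p) = (a : ZMod p) then (1 : ℂ) else 0) := by
    simp only [H]
    rw [← Finset.sum_filter]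
    refine Finset.sum_congr ?_ fun _ _ => rfl
    ext s
    simp only [Finset.mem_filter, mem_AA, mem_ABf]
    constructor
    · exact fun h => h.2
    · intro h
      refine ⟨?_, h⟩
      obtain ⟨t, _, rfl⟩ := h
      exact ⟨t, rfl⟩
  rw [h7]
  generalize (∑ s ∈ ABf D β θ, (1 + if (b : ZMod p) * (s : ZMod p) = (a : ZMod p) then (1 : ℂ) else 0)) = S
  field_simp

end Theta

end Cfsg.Agent.H23.DO
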