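import Cfsg.Agent.Lib.H23.BRow2

/-!
# Rows attached to a character of the complement: bounds from the main theorem
-/

set_option autoImplicit false
set_option linter.unusedSectionVars false
set_option linter.style.haveILetI false

namespace Cfsg.Agent.H23.DO

open Module Matrix Cfsg Cfsg.Agent.H22 Cfsg.Agent.H21
open scoped ComplexConjugate

universe u

variable {G : Type u} [Group G] [Finite G] {p : ℕ} [Fact p.Prime] (D : DS G p) (β : IrrCharacter D.K)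

section Gram

variable (θ : NN D →* (ZMod p)ˣ)
  (hθ : ∀ t : NN D, (t : G) * D.x * (t : G)⁻¹ = D.x ^ (((θ t : (ZMod p)ˣ) : ZMod p)).val)
  (hker : Nat.card θ.ker = p * Nat.card D.K)
  (hCdec : ∀ z : G, z * D.x = D.x * z → ∃ (n : ℕ) (y : G), y ∈ D.K ∧ z = D.x ^ n * y)

open scoped Classical in
include hθ hker hCdec in
theorem gramUB (a b : (ZMod p)ˣ) : ∑ χ : IrrCharacter G, cRB D β (a : ZMod p) χ * cRB D β (b : ZMod p) χ =
    ((Nat.card (AB D β θ) : ℕ) : ℤ) + if a * b⁻¹ ∈ AB D β θ then 1 else 0 := by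
  have h1 := gram_formB D β θ hθ hker hCdec a b
  have hiff : ∀ s : (ZMod p)ˣ, ((b : ZMod p) * (s : ZMod p) = (a : ZMod p)) ↔ s = a * b⁻¹ := by
    intro s
    constructor
    · intro h
      have h2 : b * s = a := Units.ext (by simpa using h)
      rw [← h2, mul_comm b s, mul_inv_cancel_right]
    · rintro rfl
      rw [← Units.val_mul, mul_comm a, ← mul_assoc, mul_inv_cancel, one_mul]
  simp only [hiff] at h1
  rw [Finset.sum_add_distrib, Finset.sum_ite_eq'] at h1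
  simp only [mem_ABf, Finset.sum_const, nsmul_eq_mul, mul_one] at h1
  have hcard : (ABf D β θ).card = Nat.card (AB D β θ) := by
    simp only [ABf]
    rw [← Fintype.card_subtype, ← Nat.card_eq_fintype_card]
  rw [hcard] at h1
  have h2 : ((∑ χ : IrrCharacter G, cRB D β (a : ZMod p) χ * cRB D β (b : ZMod p) χ : ℤ) : ℂ) =
      (((Nat.card (AB D β θ) : ℕ) : ℤ) + if a * b⁻¹ ∈ AB D β θ then 1 else 0 : ℤ) := by
    push_cast
    exact h1
  exact_mod_cast h2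

include hθ hker hCdec in
theorem cRB_eq_of_mem {a b : (ZMod p)ˣ} (h : a * b⁻¹ ∈ AB D β θ) (χ : IrrCharacter G) :
    cRB D β (a : ZMod p) χ = cRB D β (b : ZMod p) χ := by
  classical
  have hab := gramUB D β θ hθ hker hCdec a b
  have haa := gramUB D β θ hθ hker hCdec a a
  have hbb := gramUB D β θ hθ hker hCdec b b
  rw [if_pos h] at hab
  rw [mul_inv_cancel, if_pos (AB D β θ).one_mem] at haa hbb
  have h0 : ∑ χ : IrrCharacter G, (cRB D β (a : ZMod p) χ - cRB D β (b : ZMod p) χ) *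
      (cRB D β (a : ZMod p) χ - cRB D β (b : ZMod p) χ) = 0 := by
    have h1 : ∀ χ : IrrCharacter G, (cRB D β (a : ZMod p) χ - cRB D β (b : ZMod p) χ) *
      (cRB D β (a : ZMod p) χ - cRB D β (b : ZMod p) χ) = cRB D β (a : ZMod p) χ * cRB D β (a : ZMod p) χ +
        cRB D β (b : ZMod p) χ * cRB D β (b : ZMod p) χ - 2 * (cRB D β (a : ZMod p) χ * cRB D β (b : ZMod p) χ) := by
      intro χ
      ring
    simp only [h1]
    rw [Finset.sum_sub_distrib, Finset.sum_add_distrib, ← Finset.mul_sum, haa, hbb, hab]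
    ring
  have h2 := (Finset.sum_eq_zero_iff_of_nonneg (fun χ _ => mul_self_nonneg _)).mp h0 χ (Finset.mem_univ χ)
  exact sub_eq_zero.mp (mul_self_eq_zero.mp h2)

end Gram

theorem DS.K_le_NN {y : G} (hy : y ∈ D.K) : y ∈ NN D := by
  apply mem_normalizer_of_conj_mem D.hx
  have h1 : y⁻¹ * D.x * y = D.x := by
    rw [mul_assoc, D.hxK y hy]
    group
  rw [h1]
  exact Subgroup.mem_zpowers _

/-- Existence of the minimal power and the matrix data. -/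
theorem exists_dB {V : ValuationSubring ℂ} (hV : (p : ℂ) ∈ V.nonunits) :
    ∃ (d : ℕ) (_ : BD D.K V β (D.τ ^ d) D.e), 0 < d ∧ (∀ m, 0 < m → m < d → ¬ Stz D.K β (D.τ ^ m)) ∧
      (D.τ ^ d) ^ D.e ∈ D.K ∧ ∃ s₁ : ℕ, D.τ ^ d * D.x * (D.τ ^ d)⁻¹ = D.x ^ s₁ ∧ Nat.Coprime s₁ p := by
  classical
  have hpp : p.Prime := Fact.out
  have hKst : ∀ y ∈ D.K, Stz D.K β y := by
    intro g hg y y' hy
    have h1 : y' = (⟨g, hg⟩ : D.K) * y * (⟨g, hg⟩ : D.K)⁻¹ := Subtype.ext hy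
    rw [h1]
    exact irr_conj' β y _
  have hex : ∃ m, 0 < m ∧ Stz D.K β (D.τ ^ m) := ⟨D.e, D.he, hKst _ D.hτe⟩
  let d := Nat.find hex
  have hd : 0 < d ∧ Stz D.K β (D.τ ^ d) := Nat.find_spec hex
  have hmin : ∀ m, 0 < m → m < d → ¬ Stz D.K β (D.τ ^ m) := fun m h0 h1 h2 => Nat.find_min hex h1 ⟨h0, h2⟩
  let St : Subgroup G := (StN D β).map (NN D).subtype
  have hKSt : D.K ≤ St := fun y hy => ⟨⟨y, D.K_le_NN hy⟩, hKst y hy, rfl⟩
  have hSt : ∀ g ∈ St, ∀ y y' : D.K, (y' : G) = g * y * g⁻¹ → β.1 y' = β.1 y := by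
    rintro _ ⟨t, ht, rfl⟩ y y' hy
    exact ht y y' hy
  have hStN : St ≤ Subgroup.normalizer (D.K : Set G) := by
    rintro _ ⟨t, _, rfl⟩
    rw [Subgroup.mem_normalizer_iff]
    intro h
    constructor
    · exact D.hKN t t.2 h
    · intro hh
      have := D.normK t.2 _ hh
      simpa [mul_assoc] using this
  have hτd : D.τ ^ d ∈ NN D := Subgroup.pow_mem _ D.τ_mem d
  have hmem : D.τ ^ d ∈ St := ⟨⟨_, hτd⟩, hd.2, rfl⟩
  have hord : Nat.Coprime (orderOf (D.τ ^ d)) p := by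
    have h1 : orderOf D.τ ∣ D.e * Nat.card D.K := by
      apply orderOf_dvd_of_pow_eq_one
      rw [pow_mul]
      exact orderOf_dvd_iff_pow_eq_one.mp (Subgroup.orderOf_dvd_natCard D.K D.hτe)
    have h2 : Nat.Coprime (D.e * Nat.card D.K) p := Nat.Coprime.mul_left D.hep D.hKp
    exact Nat.Coprime.coprime_dvd_left ((orderOf_pow_dvd d).trans h1) h2
  obtain ⟨B⟩ := exists_BD V hV D.K St hKSt β hSt hStN (D.τ ^ d) hmem D.e hord D.hKp
  refine ⟨d, B, hd.1, hmin, ?_, D.s ^ d, ?_, Nat.Coprime.pow_left _ D.hs⟩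
  · rw [← pow_mul, mul_comm, pow_mul]
    exact Subgroup.pow_mem _ D.hτe d
  · have h1 : ∀ m : ℕ, D.τ ^ m * D.x * (D.τ ^ m)⁻¹ = D.x ^ (D.s ^ m) := by
      intro m
      induction m with
      | zero => simp
      | succ m ih =>
        have h2 : D.τ ^ (m + 1) * D.x * (D.τ ^ (m + 1))⁻¹ = D.τ ^ m * (D.τ * D.x * D.τ⁻¹) * (D.τ ^ m)⁻¹ := by
          rw [pow_succ]
          group
        rw [h2, D.hτ, ← conj_pow, ih, ← pow_mul, pow_succ]
    exact h1 d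

variable (hsq : ¬ p ^ 2 ∣ Nat.card G) {V : ValuationSubring ℂ} (hV : (p : ℂ) ∈ V.nonunits)

include hsq hV in
theorem T1B (χ : IrrCharacter G) (a : ZMod p) :
    (cRB D β a χ = 0 ∨ cRB D β a χ = 1 ∨ cRB D β a χ = -1) ∧
      (cRB D β a χ ≠ 0 → ∀ γ : IrrCharacter D.K,
        (∀ n ∈ NNs D, ¬ ∀ y y' : D.K, (y' : G) = n * y * n⁻¹ → β.1 y' = γ.1 y) → ∀ n : ℕ, Nat.Coprime n p →
        ∑ y : D.K, γ.1 y⁻¹ * χ.1 (D.x ^ n * (y : G)) = 0) := by
  classical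
  obtain ⟨ε, hεε, hne, hprim⟩ := exists_primitive (V := V) χ.1 (irr_one_ne_zero' χ)
  obtain ⟨N, hN⟩ := chv_nat (isCharacter_of_irr χ.2) (c := cf ε) (by rw [← cf_mul, hεε])
  have hN0 : N ≠ 0 := by
    rintro rfl
    apply hne
    rw [hN]
    simp
  obtain ⟨d, B, hd, hnst, he, s₁, hs₁, hs₁p⟩ := exists_dB D β hV
  obtain ⟨rk, h1, h2, h3⟩ := thmB (V := V) hsq hV hεε hprim {χ} B hd hnst he hs₁ hs₁p
  have hThet : ∀ g, Thet {χ} (cf ε) g = (N : ℂ) * χ.1 g := by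
    intro g
    simp only [Thet, mul_assoc]
    rw [sum_eB_single χ (fun χ' => chv χ'.1 (cf ε) * χ'.1 g), hN]
  have hrk : ∀ b : ZMod p, rk (zt V b) = N * mNB D β χ b := by
    intro b
    have h4 := h1 (zt V b) (zt_pow V b)
    have h5 : (((zt V b : V)) : ℂ) = ps b := rfl
    rw [h5, mThetaB_eq, muB_Thet] at h4
    simp only [mul_assoc] at h4
    rw [sum_eB_single χ (fun χ' => chv χ'.1 (cf ε) * muB D β χ'.1 b), hN, ← mNB_spec] at h4
    exact_mod_cast h4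
  have hb1 := h2 (zt V 0) (zt V a) (zt_pow V 0) (zt_pow V a)
  have hb2 := h2 (zt V a) (zt V 0) (zt_pow V a) (zt_pow V 0)
  rw [hrk, hrk] at hb1 hb2
  have hNpos : 1 ≤ N := Nat.one_le_iff_ne_zero.mpr hN0
  simp only [cRB]
  refine ⟨?_, ?_⟩
  · have h4 : mNB D β χ 0 ≤ mNB D β χ a + 1 := by
      by_contra h
      have h5 : mNB D β χ a + 2 ≤ mNB D β χ 0 := by omega
      have h6 : N * (mNB D β χ a + 2) ≤ N * mNB D β χ 0 := Nat.mul_le_mul_left N h5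
      nlinarith
    have h7 : mNB D β χ a ≤ mNB D β χ 0 + 1 := by
      by_contra h
      have h5 : mNB D β χ 0 + 2 ≤ mNB D β χ a := by omega
      have h6 : N * (mNB D β χ 0 + 2) ≤ N * mNB D β χ a := Nat.mul_le_mul_left N h5
      nlinarith
    omega
  · intro hc γ hγ n hn
    have hne' : rk (zt V (0 : ZMod p)) ≠ rk (zt V a) := by
      rw [hrk, hrk]
      intro h
      have h8 := Nat.eq_of_mul_eq_mul_left (Nat.pos_of_ne_zero hN0) h
      apply hc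
      rw [h8]
      simp
    have h9 := h3 (zt V 0) (zt V a) (zt_pow V 0) (zt_pow V a) hne' γ hγ n hn
    simp only [hThet] at h9
    have h10 : ∑ y : D.K, γ.1 y⁻¹ * ((N : ℂ) * χ.1 (D.x ^ n * (y : G))) =
        (N : ℂ) * ∑ y : D.K, γ.1 y⁻¹ * χ.1 (D.x ^ n * (y : G)) := by
      rw [Finset.mul_sum]
      exact Finset.sum_congr rfl fun y _ => by ring
    rw [h10] at h9
    have hNC : (N : ℂ) ≠ 0 := by exact_mod_cast hN0
    exact (mul_eq_zero.mp h9).resolve_left hNC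

include hsq hV in
theorem T2B {χ₁ χ₂ : IrrCharacter G} (hne : χ₁ ≠ χ₂) (a : ZMod p) (h1 : cRB D β a χ₁ = cRB D β a χ₂)
    (h2 : cRB D β a χ₁ ≠ 0) (hreg : ∀ g : G, ¬ p ∣ orderOf g → χ₁.1 g = χ₂.1 g) : False := by
  classical
  obtain ⟨ε, hεε, hne1, hprim⟩ := exists_primitive (V := V) χ₁.1 (irr_one_ne_zero' χ₁)
  have hcc : conv (cf ε) (cf ε) = cf ε := by rw [← cf_mul, hεε]
  obtain ⟨N₁, hN₁⟩ := chv_nat (isCharacter_of_irr χ₁.2) hcc
  obtain ⟨N₂, hN₂⟩ := chv_nat (isCharacter_of_irr χ₂.2) hcc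
  have heq := chv_eq_of_regular hsq hV hεε hreg
  have hN10 : N₁ ≠ 0 := by
    rintro rfl
    apply hne1
    rw [hN₁]
    simp
  have hN20 : N₂ ≠ 0 := by
    rintro rfl
    apply hne1
    rw [heq, hN₂]
    simp
  obtain ⟨d, B, hd, hnst, he, s₁, hs₁, hs₁p⟩ := exists_dB D β hV
  obtain ⟨rk, h3, h4, _⟩ := thmB (V := V) hsq hV hεε hprim {χ₁, χ₂} B hd hnst he hs₁ hs₁p
  have hrk : ∀ b : ZMod p, rk (zt V b) = N₁ * mNB D β χ₁ b + N₂ * mNB D β χ₂ b := by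
    intro b
    have h5 := h3 (zt V b) (zt_pow V b)
    have h6 : (((zt V b : V)) : ℂ) = ps b := rfl
    rw [h6, mThetaB_eq, muB_Thet] at h5
    simp only [mul_assoc] at h5
    rw [sum_eB_pair hne (fun χ' => chv χ'.1 (cf ε) * muB D β χ'.1 b), hN₁, hN₂, ← mNB_spec, ← mNB_spec] at h5
    exact_mod_cast h5
  have hb1 := h4 (zt V 0) (zt V a) (zt_pow V 0) (zt_pow V a)
  have hb2 := h4 (zt V a) (zt V 0) (zt_pow V a) (zt_pow V 0)
  rw [hrk, hrk] at hb1 hb2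
  simp only [cRB] at h1 h2
  have hN1' : (1 : ℤ) ≤ N₁ := by exact_mod_cast Nat.one_le_iff_ne_zero.mpr hN10
  have hN2' : (1 : ℤ) ≤ N₂ := by exact_mod_cast Nat.one_le_iff_ne_zero.mpr hN20
  have hb1' : (N₁ : ℤ) * mNB D β χ₁ 0 + N₂ * mNB D β χ₂ 0 ≤ N₁ * mNB D β χ₁ a + N₂ * mNB D β χ₂ a + 1 := by exact_mod_cast hb1
  have hb2' : (N₁ : ℤ) * mNB D β χ₁ a + N₂ * mNB D β χ₂ a ≤ N₁ * mNB D β χ₁ 0 + N₂ * mNB D β χ₂ 0 + 1 := by exact_mod_cast hb2
  set v : ℤ := (mNB D β χ₁ 0 : ℤ) - mNB D β χ₁ a with hv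
  have hv2 : (mNB D β χ₂ 0 : ℤ) - mNB D β χ₂ a = v := h1.symm
  have h7 : (N₁ : ℤ) * mNB D β χ₁ 0 + N₂ * mNB D β χ₂ 0 - (N₁ * mNB D β χ₁ a + N₂ * mNB D β χ₂ a) = (N₁ + N₂) * v := by
    have e1 : (mNB D β χ₂ 0 : ℤ) = v + mNB D β χ₂ a := by linarith
    have e2 : (mNB D β χ₁ 0 : ℤ) = v + mNB D β χ₁ a := by rw [hv]; ring
    rw [e1, e2]
    ring
  have h8 : (N₁ + N₂ : ℤ) * v ≤ 1 := by linarith
  have h9 : -1 ≤ (N₁ + N₂ : ℤ) * v := by linarith
  have h10 : v ≠ 0 := h2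
  rcases lt_or_gt_of_ne h10 with h11 | h11
  · have h12 : v ≤ -1 := by omega
    nlinarith
  · have h12 : 1 ≤ v := by omega
    nlinarith

end Cfsg.Agent.H23.DO
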