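import Cfsg.Agent.Lib.H23.BRow3

/-!
# Rows attached to a character of the complement: Fourier inversion and invariance
-/

set_option autoImplicit false
set_option linter.unusedSectionVars false
set_option linter.style.haveILetI false

namespace Cfsg.Agent.H23.DO

open Module Matrix Cfsg Cfsg.Agent.H22 Cfsg.Agent.H21
open scoped ComplexConjugate

universe u

variable {G : Type u} [Group G] [Finite G] {p : ℕ} [Fact p.Prime] (D : DS G p) (β : IrrCharacter D.K)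

theorem fourierB (χ : G → ℂ) {n : ℕ} (hn : n < p) :
    ((Fintype.card D.K : ℕ) : ℂ)⁻¹ * ∑ y : D.K, (β.1 y⁻¹ * χ (D.x ^ n * (y : G))) =
      ∑ a : ZMod p, muB D β χ a * ps (a * (n : ZMod p)) := by
  classical
  have hpp : p.Prime := Fact.out
  have hp0 : (p : ℂ) ≠ 0 := by exact_mod_cast hpp.ne_zero
  simp only [muB]
  have h1 : ∀ a : ZMod p, (p : ℂ)⁻¹ * (((Fintype.card D.K : ℕ) : ℂ)⁻¹ *
      ∑ n' ∈ Finset.range p, ∑ y : D.K, ps (-(a * (n' : ZMod p))) * (β.1 y⁻¹ * χ (D.x ^ n' * (y : G)))) * ps (a * (n : ZMod p)) =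
      (p : ℂ)⁻¹ * (((Fintype.card D.K : ℕ) : ℂ)⁻¹ *
      ∑ n' ∈ Finset.range p, ∑ y : D.K, ps (a * ((n : ZMod p) - (n' : ZMod p))) * (β.1 y⁻¹ * χ (D.x ^ n' * (y : G)))) := by
    intro a
    rw [mul_assoc, mul_assoc]
    congr 2
    rw [Finset.sum_mul]
    refine Finset.sum_congr rfl fun n' _ => ?_
    rw [Finset.sum_mul]
    refine Finset.sum_congr rfl fun y _ => ?_
    have h2 : a * ((n : ZMod p) - (n' : ZMod p)) = -(a * (n' : ZMod p)) + a * (n : ZMod p) := by ring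
    rw [h2, ps_add]
    ring
  simp only [h1]
  rw [← Finset.mul_sum, ← Finset.mul_sum]
  have h2 : ∑ a : ZMod p, ∑ n' ∈ Finset.range p, ∑ y : D.K,
      ps (a * ((n : ZMod p) - (n' : ZMod p))) * (β.1 y⁻¹ * χ (D.x ^ n' * (y : G))) =
      (p : ℂ) * ∑ y : D.K, (β.1 y⁻¹ * χ (D.x ^ n * (y : G))) := by
    rw [Finset.sum_comm]
    rw [Finset.sum_eq_single n]
    · simp only [sub_self, mul_zero, ps_zero, one_mul]
      rw [Finset.sum_const, Finset.card_univ, ZMod.card, nsmul_eq_mul]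
    · intro n' hn' hne
      have hn'' : (n : ZMod p) - (n' : ZMod p) ≠ 0 := by
        intro h
        have h3 : (n : ZMod p) = (n' : ZMod p) := sub_eq_zero.mp h
        have h4 := congrArg ZMod.val h3
        rw [ZMod.val_cast_of_lt hn, ZMod.val_cast_of_lt (Finset.mem_range.mp hn')] at h4
        exact hne h4.symm
      rw [Finset.sum_comm]
      apply Finset.sum_eq_zero
      intro y _
      rw [← Finset.sum_mul]
      have h5 : ∑ a : ZMod p, ps (a * ((n : ZMod p) - (n' : ZMod p))) = 0 := by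
        rw [← sum_range_zmod (fun a => ps (a * ((n : ZMod p) - (n' : ZMod p))))]
        simp only [mul_comm _ ((n : ZMod p) - (n' : ZMod p))]
        have h6 := sum_ps ((n : ZMod p) - (n' : ZMod p))
        rw [if_neg hn''] at h6
        exact h6
      rw [h5, zero_mul]
    · intro h
      exact absurd (Finset.mem_range.mpr hn) h
  rw [h2]
  field_simp

/-- The coefficient of `γ` in the function `y ↦ χ (x ^ n * y)`. -/
noncomputable def cfB (γ : IrrCharacter D.K) (χ : IrrCharacter G) (n : ℕ) : ℂ :=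
  ((Fintype.card D.K : ℕ) : ℂ)⁻¹ * ∑ y : D.K, (γ.1 y⁻¹ * χ.1 (D.x ^ n * (y : G)))

theorem cfB_ne (γ : IrrCharacter D.K) (χ : IrrCharacter G) {n : ℕ} (h0 : n ≠ 0) (hn : n < p) :
    cfB D γ χ n = -∑ u : (ZMod p)ˣ, ((cRB D γ (u : ZMod p) χ : ℤ) : ℂ) * ps ((u : ZMod p) * (n : ZMod p)) := by
  simp only [cfB]
  rw [fourierB D γ χ.1 hn, sum_zmod_split]
  simp only [zero_mul, ps_zero, mul_one]
  simp only [cRB_cast, sub_mul]
  rw [Finset.sum_sub_distrib, ← Finset.mul_sum, ps_sum_units h0 hn]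
  ring

theorem cfB_zero (γ : IrrCharacter D.K) (χ : IrrCharacter G) :
    cfB D γ χ 0 = (p : ℂ) * (mNB D γ χ 0 : ℂ) - ∑ u : (ZMod p)ˣ, ((cRB D γ (u : ZMod p) χ : ℤ) : ℂ) := by
  simp only [cfB]
  have hpp : p.Prime := Fact.out
  rw [fourierB D γ χ.1 hpp.pos, sum_zmod_split]
  simp only [Nat.cast_zero, mul_zero, ps_zero, mul_one]
  simp only [cRB_cast]
  rw [Finset.sum_sub_distrib]
  simp only [Finset.sum_const, Finset.card_univ, nsmul_eq_mul]
  have hcardU : (Fintype.card (ZMod p)ˣ : ℂ) = (p : ℂ) - 1 := by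
    have hc : Fintype.card (ZMod p)ˣ = p - 1 := by convert ZMod.card_units p
    rw [hc, Nat.cast_sub hpp.one_lt.le]
    simp
  rw [hcardU, mNB_spec]
  ring

/-- Expansion of `y ↦ χ (x ^ n * y)` in the characters of the complement. -/
theorem expandB (χ : IrrCharacter G) (n : ℕ) (y : D.K) :
    χ.1 (D.x ^ n * (y : G)) = ∑ γ : IrrCharacter D.K, cfB D γ χ n * γ.1 y := by
  classical
  have hcl : IsClassFunction D.K (fun y : D.K => χ.1 (D.x ^ n * (y : G))) := by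
    intro g k
    have h1 := D.cls_xn (isCharacter_of_irr χ.2) n k⁻¹ g
    have h2 : k⁻¹⁻¹ = k := inv_inv k
    simp only [h2] at h1
    first
      | exact h1
      | (have h3 := D.cls_xn (isCharacter_of_irr χ.2) n k g; exact h3)
  have h := congrFun (classFunction_expansion _ hcl) y
  simp only [Finset.sum_apply, Pi.smul_apply, smul_eq_mul] at h
  rw [h]
  refine Finset.sum_congr rfl fun γ _ => ?_
  congr 1
  simp only [classInner, cfB]
  rw [Nat.card_eq_fintype_card]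
  congr 1
  refine Finset.sum_congr rfl fun y _ => ?_
  rw [irr_inv', mul_comm]

/-- Conjugation by an element of the normalizer. -/
noncomputable def cjN (t : NN D) : D.K ≃* D.K := conjK (D.hKN t t.2) (D.normK t.2)

theorem cjN_coe (t : NN D) (y : D.K) : (cjN D t y : G) = (t : G) * y * (t : G)⁻¹ := rfl

section Inv

variable (θ : NN D →* (ZMod p)ˣ)
  (hθ : ∀ t : NN D, (t : G) * D.x * (t : G)⁻¹ = D.x ^ (((θ t : (ZMod p)ˣ) : ZMod p)).val)

theorem muB_zmod (γ : IrrCharacter D.K) (χ : G → ℂ) (a : ZMod p) : muB D γ χ a =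
    (p : ℂ)⁻¹ * (((Fintype.card D.K : ℕ) : ℂ)⁻¹ *
      ∑ c : ZMod p, ∑ y : D.K, ps (-(a * c)) * (γ.1 y⁻¹ * χ (D.x ^ c.val * (y : G)))) := by
  simp only [muB]
  congr 2
  rw [← sum_range_zmod (fun c : ZMod p => ∑ y : D.K, ps (-(a * c)) * (γ.1 y⁻¹ * χ (D.x ^ c.val * (y : G))))]
  refine Finset.sum_congr rfl fun n hn => ?_
  rw [ZMod.val_cast_of_lt (Finset.mem_range.mp hn)]

include hθ in
theorem muB_inv (t : NN D) (γ : IrrCharacter D.K) {χ : G → ℂ} (hχ : IsCharacter G χ) (a : ZMod p) :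
    muB D (irrMap (cjN D t) γ) χ (a * (((θ t)⁻¹ : (ZMod p)ˣ) : ZMod p)) = muB D γ χ a := by
  rw [muB_zmod, muB_zmod]
  congr 2
  symm
  let e₁ : ZMod p ≃ ZMod p := Units.mulLeft (θ t)
  refine Fintype.sum_equiv e₁ _ _ fun c => ?_
  refine Fintype.sum_equiv (cjN D t).toEquiv _ _ fun y => ?_
  simp only [MulEquiv.toEquiv_eq_coe, MulEquiv.coe_toEquiv]
  have hval : ((c.val : ℕ) : ZMod p) = c := ZMod.natCast_zmod_val c
  have h1 := conj_form D θ hθ t c.val y.2
  rw [hval] at h1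
  have h2 : e₁ c = ((θ t : (ZMod p)ˣ) : ZMod p) * c := rfl
  have h3 : χ (D.x ^ (e₁ c).val * (cjN D t y : G)) = χ (D.x ^ c.val * (y : G)) := by
    rw [h2, cjN_coe, ← h1]
    exact H22.isCharacter_conj hχ _ _
  have h4 : (irrMap (cjN D t) γ).1 (cjN D t y)⁻¹ = γ.1 y⁻¹ := by
    rw [← map_inv, irrMap_apply']
  rw [h3, h4, h2]
  congr 2
  have h5 : a * (((θ t)⁻¹ : (ZMod p)ˣ) : ZMod p) * (((θ t : (ZMod p)ˣ) : ZMod p) * c) =
      a * ((((θ t)⁻¹ : (ZMod p)ˣ) : ZMod p) * ((θ t : (ZMod p)ˣ) : ZMod p)) * c := by ring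
  rw [h5, ← Units.val_mul, inv_mul_cancel, Units.val_one, mul_one]

include hθ in
theorem mNB_inv (t : NN D) (γ : IrrCharacter D.K) (χ : IrrCharacter G) (a : ZMod p) :
    mNB D (irrMap (cjN D t) γ) χ (a * (((θ t)⁻¹ : (ZMod p)ˣ) : ZMod p)) = mNB D γ χ a := by
  have h := muB_inv D θ hθ t γ (isCharacter_of_irr χ.2) a
  rw [← mNB_spec, ← mNB_spec] at h
  exact_mod_cast h

include hθ in
theorem cRB_inv (t : NN D) (γ : IrrCharacter D.K) (χ : IrrCharacter G) (a : ZMod p) :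
    cRB D (irrMap (cjN D t) γ) (a * (((θ t)⁻¹ : (ZMod p)ˣ) : ZMod p)) χ = cRB D γ a χ := by
  simp only [cRB]
  rw [mNB_inv D θ hθ t γ χ a]
  have h := mNB_inv D θ hθ t γ χ 0
  rw [zero_mul] at h
  rw [h]

include hθ in
theorem sum_cRB_inv (t : NN D) (γ : IrrCharacter D.K) (χ : IrrCharacter G) :
    ∑ u : (ZMod p)ˣ, cRB D (irrMap (cjN D t) γ) (u : ZMod p) χ = ∑ u : (ZMod p)ˣ, cRB D γ (u : ZMod p) χ := by
  symm
  refine Fintype.sum_equiv (Equiv.mulRight (θ t)⁻¹) _ _ fun u => ?_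
  simp only [Equiv.coe_mulRight, Units.val_mul]
  rw [cRB_inv D θ hθ]

end Inv

end Cfsg.Agent.H23.DO
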