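import Cfsg.Agent.Lib.H23.DOAlg

/-!
# The main theorem on local idempotents
-/

set_option autoImplicit false
set_option linter.unusedSectionVars false
set_option linter.style.haveILetI false

namespace Cfsg.Agent.H23.DO

open Module Matrix Cfsg Cfsg.Agent.H22 Cfsg.Agent.H21
open scoped ComplexConjugate

universe u

variable {G : Type u} [Group G] [Finite G] {V : ValuationSubring ℂ}

/-- The class function attached to a set of characters and a coefficient function. -/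
noncomputable def Thet (T : Set (IrrCharacter G)) (c : G → ℂ) (g : G) : ℂ :=
  ∑ χ : IrrCharacter G, eB T χ * chv χ.1 c * χ.1 g

theorem sum_conv_block (T : Set (IrrCharacter G)) (c : G → ℂ) (g : G) :
    ∑ h, conv (blockCoeff T) c (h⁻¹ * g⁻¹ * h) = Thet T c g := by
  have hcard : (Nat.card G : ℂ) ≠ 0 := card_ne_zero_C
  have h1 : ∀ w : G, conv (blockCoeff T) c w = ∑ v, c v * blockCoeff T (w * v⁻¹) := by
    intro w
    simp only [conv]
    refine Fintype.sum_equiv ((Equiv.inv G).trans (Equiv.mulRight w)) _ _ fun u => ?_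
    simp only [Equiv.trans_apply, Equiv.inv_apply, Equiv.coe_mulRight]
    rw [mul_comm]
    congr 2
    group
  simp only [h1]
  rw [Finset.sum_comm]
  simp only [Thet, chv]
  have h2 : ∀ v : G, ∑ h, blockCoeff T (h⁻¹ * g⁻¹ * h * v⁻¹) =
      ∑ χ : IrrCharacter G, eB T χ * (χ.1 g * χ.1 v) := by
    intro v
    simp only [blockCoeff_eq_ofOm, ofOm]
    rw [← Finset.mul_sum, Finset.sum_comm]
    rw [Finset.mul_sum]
    refine Finset.sum_congr rfl fun χ _ => ?_
    have h3 : ∀ h : G, eB T χ * (χ.1 1 * conj (χ.1 (h⁻¹ * g⁻¹ * h * v⁻¹))) =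
        eB T χ * χ.1 1 * χ.1 (h⁻¹ * g * h⁻¹⁻¹ * v) := by
      intro h
      rw [← irr_inv', ← mul_assoc]
      congr 1
      have : (h⁻¹ * g⁻¹ * h * v⁻¹)⁻¹ = v * (h⁻¹ * g * h⁻¹⁻¹) := by group
      rw [this, irr_mul_comm]
    simp only [h3]
    rw [← Finset.mul_sum]
    have h4 : ∑ h : G, χ.1 (h⁻¹ * g * h⁻¹⁻¹ * v) = ∑ b : G, χ.1 (b * g * b⁻¹ * v) :=
      Fintype.sum_equiv (Equiv.inv G) _ _ fun h => rfl
    rw [h4, sum_conj_mul_char]
    have h5 := irr_one_ne_zero' χ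
    field_simp
  calc ∑ v, ∑ h, c v * blockCoeff T (h⁻¹ * g⁻¹ * h * v⁻¹)
      = ∑ v, c v * ∑ χ : IrrCharacter G, eB T χ * (χ.1 g * χ.1 v) := by
        refine Finset.sum_congr rfl fun v _ => ?_
        rw [← h2 v, Finset.mul_sum]
    _ = _ := by
        simp only [Finset.mul_sum, Finset.sum_mul]
        rw [Finset.sum_comm]
        refine Finset.sum_congr rfl fun χ _ => Finset.sum_congr rfl fun v _ => ?_
        ring

/-- The multiplicity attached to a class function. -/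
noncomputable def mTheta {p : ℕ} (D : DS G p) [Fintype D.K] (Θ : G → ℂ) (ζ : ℂ) : ℂ :=
  (p : ℂ)⁻¹ * (((Fintype.card D.K : ℕ) : ℂ)⁻¹ *
    ∑ n ∈ Finset.range p, ∑ y : D.K, (ζ ^ (p - 1)) ^ n * Θ (D.x ^ n * (y : G)))

theorem thmM {p : ℕ} [Fact p.Prime] (D : DS G p) [Fintype D.K] (hsq : ¬ p ^ 2 ∣ Nat.card G)
    (hV : (p : ℂ) ∈ V.nonunits) {ε : MonoidAlgebra V G} (hεε : ε * ε = ε)
    (hprim : ∀ d : MonoidAlgebra V G, d * d = d → ε * d = d → d * ε = d → d = 0 ∨ d = ε)
    (T : Set (IrrCharacter G)) :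
    ∃ rk : V → ℕ, (∀ ζ : V, ζ ^ p = 1 → (rk ζ : ℂ) = mTheta D (Thet T (cf ε)) (ζ : ℂ)) ∧
      (∀ ζ ζ' : V, ζ ^ p = 1 → ζ' ^ p = 1 → rk ζ ≤ rk ζ' + 1) ∧
      (∀ ζ ζ' : V, ζ ^ p = 1 → ζ' ^ p = 1 → rk ζ ≠ rk ζ' → ∀ n : ℕ, Nat.Coprime n p → ∀ y ∈ D.K,
        Thet T (cf ε) (D.x ^ n * y) =
          ((Fintype.card D.K : ℕ) : ℂ)⁻¹ * ∑ y' : D.K, Thet T (cf ε) (D.x ^ n * (y' : G))) := by
  classical
  let π : G → ℂ := blockCoeff T
  have hπc : IsClassFunction G π := blockCoeff_isClass T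
  have hππ : conv π π = π := blockCoeff_conv_self T
  let c := cf ε
  have hcc : conv c c = c := by
    simp only [c]
    rw [← cf_mul, hεε]
  let r := conv π c
  have hcr : conv c r = r := by
    simp only [r]
    rw [← conv_assoc', ← conv_class_comm hπc, conv_assoc', hcc]
  have hrr : conv r r = r := by
    conv_lhs => arg 1; simp only [r]
    rw [conv_assoc', hcr]
    simp only [r]
    rw [← conv_assoc', hππ]
  obtain ⟨n, b, R, u, vc, hli, hR, hru, hb⟩ := exists_lattice (V := V) r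
  have hloc := hloc_lattice hli hR hru hb hεε hprim hcr
  have htr : ∀ g, (cm (R g)).trace = Thet T c g := by
    intro g
    rw [trace_lattice hli hR hru hb hrr g, ← sum_conv_block]
  have hKp' : Nat.Coprime (Fintype.card D.K) p := by
    rw [← Nat.card_eq_fintype_card]
    exact D.hKp
  obtain ⟨kinv, hkinv⟩ := exists_val_inv hV hKp'
  have hkC : (kinv : ℂ) = ((Fintype.card D.K : ℕ) : ℂ)⁻¹ := by
    have h1 : (kinv : ℂ) * ((Fintype.card D.K : ℕ) : ℂ) = 1 := by
      have := congrArg (fun z : V => (z : ℂ)) hkinv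
      simpa using this
    exact eq_inv_of_mul_eq_one_left h1
  have hAp : R D.x ^ p = 1 := by rw [← map_pow, D.x_pow, map_one]
  have hcommx := D.eps_comm_N (kinv := kinv) R D.x_mem
  have hee := eps_idem D.K hkinv R
  have htre : ∀ j : ℕ, (cm (R (D.x ^ j) * eps D.K kinv R)).trace =
      ((Fintype.card D.K : ℕ) : ℂ)⁻¹ * ∑ y : D.K, Thet T c (D.x ^ j * (y : G)) := by
    intro j
    simp only [eps]
    rw [mul_smul_comm, cm_smul, Matrix.trace_smul, Finset.mul_sum, map_sum, Matrix.trace_sum, hkC,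
      smul_eq_mul]
    congr 1
    refine Finset.sum_congr rfl fun y _ => ?_
    rw [← map_mul, htr]
  refine ⟨fun ζ => (cm (Yy (R D.x) (eps D.K kinv R) ζ p)).rank, ?_, ?_, ?_⟩
  · intro ζ hζ
    have h1 := rank_Yy_eq hAp hcommx hee hζ
    have hp0 : (p : ℂ) ≠ 0 := by
      exact_mod_cast (Fact.out : p.Prime).ne_zero
    have h2 : ∀ j ∈ Finset.range p, ((ζ : ℂ) ^ (p - 1)) ^ j * (cm (R D.x ^ j * eps D.K kinv R)).trace =
        ((Fintype.card D.K : ℕ) : ℂ)⁻¹ * ∑ y : D.K, ((ζ : ℂ) ^ (p - 1)) ^ j * Thet T c (D.x ^ j * (y : G)) := by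
      intro j _
      rw [← map_pow, htre, ← Finset.mul_sum]
      ring
    rw [Finset.sum_congr rfl h2] at h1
    simp only [mTheta]
    rw [← Finset.mul_sum] at h1
    rw [← h1]
    field_simp
  · intro ζ ζ' hζ hζ'
    exact core_rank D hsq R hloc hV hkinv hζ hζ'
  · intro ζ ζ' hζ hζ' hne j hj y hy
    have h1 := core_val D hsq R hloc hV hkinv hζ hζ' hne hj hy
    rw [htr, htre] at h1
    exact h1

/-! ## Values on regular elements -/

theorem exists_decomp {p : ℕ} [Fact p.Prime] (hsq : ¬ p ^ 2 ∣ Nat.card G) {g : G} (hg : p ∣ orderOf g) :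
    ∃ x y : G, orderOf x = p ∧ x * y = y * x ∧ Nat.Coprime (orderOf y) p ∧ g = (x * y)⁻¹ := by
  have hpp : p.Prime := Fact.out
  obtain ⟨m, hm⟩ := hg
  let g' := g⁻¹
  have hord : orderOf g' = p * m := by
    simp only [g']
    rw [orderOf_inv, hm]
  have hcop : Nat.Coprime m p := by
    rw [Nat.coprime_comm, hpp.coprime_iff_not_dvd]
    rintro ⟨k, rfl⟩
    apply hsq
    have h1 : p * (p * k) ∣ Nat.card G := by
      rw [← hm]
      exact orderOf_dvd_natCard g
    exact Dvd.dvd.trans ⟨k, by ring⟩ h1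
  obtain ⟨s, _, hs⟩ := Nat.exists_mul_mod_eq_one_of_coprime hcop hpp.one_lt
  have hg'1 : g' ^ (p * m) = 1 := by rw [← hord]; exact pow_orderOf_eq_one g'
  let x := g' ^ (m * s)
  have hxp : x ^ p = 1 := by
    simp only [x]
    rw [← pow_mul, show m * s * p = p * m * s by ring, pow_mul, hg'1, one_pow]
  have hx1 : x ≠ 1 := by
    intro h
    have h1 : orderOf g' ∣ m * s := orderOf_dvd_of_pow_eq_one h
    rw [hord] at h1
    have h2 : p ∣ m * s := Dvd.dvd.trans ⟨m, rfl⟩ h1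
    have h3 : (m * s) % p = 0 := Nat.mod_eq_zero_of_dvd h2
    omega
  haveI : Fact p.Prime := ‹_›
  have hxo : orderOf x = p := orderOf_eq_prime hxp hx1
  let y := x⁻¹ * g'
  have hcomm : Commute g' x := by
    simp only [x]
    exact (Commute.refl g').pow_right _
  have hxy : x * y = g' := by
    simp only [y]
    group
  have hyx : y * x = g' := by
    simp only [y]
    rw [mul_assoc, hcomm.eq]
    group
  have hym : y ^ m = 1 := by
    have h1 : Commute x⁻¹ g' := (hcomm.symm).inv_left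
    simp only [y]
    rw [h1.mul_pow, inv_pow]
    have h2 : (g' ^ m) ^ p = 1 := by
      rw [← pow_mul, mul_comm, hg'1]
    have h3 : x ^ m = g' ^ m := by
      simp only [x]
      rw [← pow_mul, show m * s * m = m * (m * s) by ring, pow_mul]
      rw [pow_eq_pow_mod (m * s) h2, hs, pow_one]
    rw [h3]
    group
  have hyc : Nat.Coprime (orderOf y) p :=
    Nat.Coprime.coprime_dvd_left (orderOf_dvd_of_pow_eq_one hym) hcop
  refine ⟨x, y, hxo, hxy.trans hyx.symm, hyc, ?_⟩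
  rw [hxy]
  simp [g']

theorem chv_eq_of_regular {p : ℕ} [Fact p.Prime] (hsq : ¬ p ^ 2 ∣ Nat.card G)
    (hV : (p : ℂ) ∈ V.nonunits) {ε : MonoidAlgebra V G} (hεε : ε * ε = ε)
    {χ₁ χ₂ : IrrCharacter G} (h : ∀ g : G, ¬ p ∣ orderOf g → χ₁.1 g = χ₂.1 g) :
    chv χ₁.1 (cf ε) = chv χ₂.1 (cf ε) := by
  classical
  have hcl : ∀ χ : IrrCharacter G, (Fintype.card G : ℂ) * chv χ.1 (cf ε) =
      ∑ g, χ.1 g * ∑ k, cf ε (k⁻¹ * g * k) := by
    intro χ
    simp only [Finset.mul_sum]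
    rw [Finset.sum_comm]
    have h1 : ∀ k : G, ∑ g, χ.1 g * cf ε (k⁻¹ * g * k) = chv χ.1 (cf ε) := by
      intro k
      simp only [chv]
      refine Fintype.sum_equiv (MulAut.conj k⁻¹).toEquiv _ _ fun g => ?_
      simp only [MulEquiv.toEquiv_eq_coe, MulEquiv.coe_toEquiv, MulAut.conj_apply, inv_inv]
      rw [mul_comm]
      congr 1
      have := irr_conj' χ g k⁻¹
      rw [inv_inv] at this
      exact this.symm
    simp only [h1]
    simp [Finset.card_univ]
  have hcard : (Fintype.card G : ℂ) ≠ 0 := by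
    exact_mod_cast Fintype.card_ne_zero
  apply mul_left_cancel₀ hcard
  rw [hcl, hcl]
  refine Finset.sum_congr rfl fun g _ => ?_
  by_cases hg : p ∣ orderOf g
  · obtain ⟨x, y, hx, hxy, hy, rfl⟩ := exists_decomp hsq hg
    have := psi_vanish hV ε hεε hx hxy hy
    rw [this, mul_zero, mul_zero]
  · rw [h g hg]

end Cfsg.Agent.H23.DO
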