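import Cfsg.Agent.Lib.H23.BCoreC
import Cfsg.Agent.Lib.H23.DOThm

/-!
# The main theorem on local idempotents, for a general character of the complement
-/

set_option autoImplicit false
set_option linter.unusedSectionVars false
set_option linter.style.haveILetI false

namespace Cfsg.Agent.H23.DO

open Module Matrix Cfsg Cfsg.Agent.H22 Cfsg.Agent.H21
open scoped ComplexConjugate

universe u

variable {G : Type u} [Group G] [Finite G] {V : ValuationSubring ℂ}

/-- The multiplicity attached to a class function and a character of the complement. -/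
noncomputable def mThetaB {p : ℕ} (D : DS G p) [Fintype D.K] (β : IrrCharacter D.K) (Θ : G → ℂ) (ζ : ℂ) : ℂ :=
  (p : ℂ)⁻¹ * (((Fintype.card D.K : ℕ) : ℂ)⁻¹ *
    ∑ n ∈ Finset.range p, ∑ y : D.K, (ζ ^ (p - 1)) ^ n * (β.1 y⁻¹ * Θ (D.x ^ n * (y : G))))

theorem coe_trace {ι : Type*} [Fintype ι] [DecidableEq ι] (X : Matrix ι ι V) :
    ((Matrix.trace X : V) : ℂ) = Matrix.trace (cm X) := by
  simp only [Matrix.trace, Matrix.diag, map_sum]
  push_cast
  rfl

theorem thmB {p : ℕ} [Fact p.Prime] {D : DS G p} [Fintype D.K] (hsq : ¬ p ^ 2 ∣ Nat.card G)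
    (hV : (p : ℂ) ∈ V.nonunits) {ε : MonoidAlgebra V G} (hεε : ε * ε = ε)
    (hprim : ∀ d : MonoidAlgebra V G, d * d = d → ε * d = d → d * ε = d → d = 0 ∨ d = ε)
    (T : Set (IrrCharacter G)) {β : IrrCharacter D.K} {d : ℕ} (B : BD D.K V β (D.τ ^ d) D.e)
    (hd : 0 < d) (hnst : ∀ m, 0 < m → m < d → ¬ Stz D.K β (D.τ ^ m))
    (he : (D.τ ^ d) ^ D.e ∈ D.K) {s₁ : ℕ} (hs₁ : D.τ ^ d * D.x * (D.τ ^ d)⁻¹ = D.x ^ s₁)
    (hs₁p : Nat.Coprime s₁ p) :
    ∃ rk : V → ℕ, (∀ ζ : V, ζ ^ p = 1 → (rk ζ : ℂ) = mThetaB D β (Thet T (cf ε)) (ζ : ℂ)) ∧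
      (∀ ζ ζ' : V, ζ ^ p = 1 → ζ' ^ p = 1 → rk ζ ≤ rk ζ' + 1) ∧
      (∀ ζ ζ' : V, ζ ^ p = 1 → ζ' ^ p = 1 → rk ζ ≠ rk ζ' → ∀ γ : IrrCharacter D.K,
        (∀ n ∈ NNs D, ¬ ∀ y y' : D.K, (y' : G) = n * y * n⁻¹ → β.1 y' = γ.1 y) → ∀ n : ℕ, Nat.Coprime n p →
        ∑ y : D.K, γ.1 y⁻¹ * Thet T (cf ε) (D.x ^ n * (y : G)) = 0) := by
  classical
  let π : G → ℂ := blockCoeff T
  have hπc : IsClassFunction G π := blockCoeff_isClass T
  have hππ : conv π π = π := blockCoeff_conv_self T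
  let c := cf ε
  have hcc : conv c c = c := by
    simp only [c]
    rw [← cf_mul, hεε]
  let r := conv π c
  have hcr : conv c r = r := by
    simp only [r]
    rw [← conv_assoc', ← conv_class_comm hπc, conv_assoc', hcc]
  have hrr : conv r r = r := by
    conv_lhs => arg 1; simp only [r]
    rw [conv_assoc', hcr]
    simp only [r]
    rw [← conv_assoc', hππ]
  obtain ⟨n, b, R, u, vc, hli, hR, hru, hb⟩ := exists_lattice (V := V) r
  have hloc := hloc_lattice hli hR hru hb hεε hprim hcr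
  have htr : ∀ g, (cm (R g)).trace = Thet T c g := by
    intro g
    rw [trace_lattice hli hR hru hb hrr g, ← sum_conv_block]
  have hKc : ((Fintype.card D.K : ℕ) : ℂ) ≠ 0 := by exact_mod_cast Fintype.card_ne_zero
  have hAp : R D.x ^ p = 1 := by rw [← map_pow, D.x_pow, map_one]
  have hclass : ∀ j : ℕ, ∀ z y : D.K, Thet T c (D.x ^ j * ((z * y * z⁻¹ : D.K) : G)) = Thet T c (D.x ^ j * (y : G)) := by
    intro j z y
    rw [← htr, ← htr]
    have h1 : R (D.x ^ j * ((z * y * z⁻¹ : D.K) : G)) = R (z : G) * R (D.x ^ j * (y : G)) * R (z : G)⁻¹ := by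
      rw [← map_mul, ← map_mul]
      congr 1
      have hc : Commute (D.x ^ j) (z : G) := (show Commute D.x (z : G) from D.hxK z z.2).pow_left j
      simp only [Subgroup.coe_mul, Subgroup.coe_inv]
      calc D.x ^ j * ((z : G) * y * (z : G)⁻¹) = (D.x ^ j * (z : G)) * y * (z : G)⁻¹ := by group
        _ = _ := by rw [hc.eq]; group
    have h3 : cm (R (z : G)⁻¹) * cm (R (z : G)) = 1 := by rw [← map_mul, ← map_mul, inv_mul_cancel, map_one, map_one]
    rw [h1, map_mul, Matrix.trace_mul_comm, map_mul, ← mul_assoc, h3, one_mul]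
  have htre : ∀ j : ℕ, (cm (R (D.x ^ j) * eps0 R B)).trace =
      ((Fintype.card D.K : ℕ) : ℂ)⁻¹ * ∑ y : D.K, β.1 y⁻¹ * Thet T c (D.x ^ j * (y : G)) := by
    intro j
    have hPmC : Matrix.trace (cm B.Pm) = 1 := by
      rw [← coe_trace, B.hPm2]
      simp
    have h2 := avg_coeff B.hEC hPmC (fun y : D.K => Thet T c (D.x ^ j * (y : G))) (hclass j)
    simp only [MonoidHom.comp_apply, RingHom.toMonoidHom_eq_coe, MonoidHom.coe_coe] at h2
    simp only [B.htr] at h2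
    rw [← h2]
    simp only [eps0, Xi]
    rw [mul_smul_comm, cm_smul, Matrix.trace_smul, Finset.mul_sum, map_sum, Matrix.trace_sum, smul_eq_mul]
    congr 1
    refine Finset.sum_congr rfl fun y _ => ?_
    rw [mul_smul_comm, cm_smul, Matrix.trace_smul, smul_eq_mul]
    congr 1
    · rw [coe_trace, map_mul]
    · show (cm (R (D.x ^ j) * R (y : G))).trace = _
      rw [← map_mul, htr]
  have hs₁p' := hs₁p
  refine ⟨fun ζ => (cm (Yy (R D.x) (eps0 R B) ζ p)).rank, ?_, ?_, ?_⟩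
  · intro ζ hζ
    have h1 := rank_Yy_eq hAp (eps0_comm_x R B) (eps0_idem R B) hζ
    have hp0 : (p : ℂ) ≠ 0 := by
      exact_mod_cast (Fact.out : p.Prime).ne_zero
    have h2 : ∀ j ∈ Finset.range p, ((ζ : ℂ) ^ (p - 1)) ^ j * (cm (R D.x ^ j * eps0 R B)).trace =
        ((Fintype.card D.K : ℕ) : ℂ)⁻¹ * ∑ y : D.K, ((ζ : ℂ) ^ (p - 1)) ^ j * (β.1 y⁻¹ * Thet T c (D.x ^ j * (y : G))) := by
      intro j _
      rw [← map_pow, htre, ← Finset.mul_sum]
      ring
    rw [Finset.sum_congr rfl h2] at h1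
    simp only [mThetaB]
    rw [← Finset.mul_sum] at h1
    rw [← h1]
    field_simp
  · intro ζ ζ' hζ hζ'
    exact core_rankB R B hsq hV hloc hd hnst he hs₁ hs₁p hζ hζ'
  · intro ζ ζ' hζ hζ' hne γ hγ j hj
    have hτd : Commute (rb R (D.τ ^ d)) (tl (eps0 R B)) := (eps0_comm_tau R B).map tl
    have h1 := core_valB R B hsq hV hloc hd hnst hζ hζ' hne hτd γ hγ hj
    simp only [eK] at h1
    rw [Finset.mul_sum, map_sum, Matrix.trace_sum] at h1
    have h2 : ∀ y : D.K, (cm (R (D.x ^ j) * (bK (V := V) D.K γ y • R (y : G)))).trace =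
        (((Fintype.card D.K : ℕ) : ℂ)⁻¹ * γ.1 1) * (γ.1 y⁻¹ * Thet T c (D.x ^ j * (y : G))) := by
      intro y
      rw [mul_smul_comm, cm_smul, Matrix.trace_smul, smul_eq_mul, ← map_mul, htr, bK_coe hV D.hKp, blockCoeff_single,
        Nat.card_eq_fintype_card]
      ring
    simp only [h2] at h1
    rw [← Finset.mul_sum] at h1
    have h3 : ((Fintype.card D.K : ℕ) : ℂ)⁻¹ * γ.1 1 ≠ 0 :=
      mul_ne_zero (inv_ne_zero hKc) (irr_one_ne_zero' γ)
    exact (mul_eq_zero.mp h1).resolve_left h3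

end Cfsg.Agent.H23.DO
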