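import Cfsg.Agent.Lib.H23.BMainO

/-!
# Values of characters with a nonzero row
-/

set_option autoImplicit false
set_option linter.unusedSectionVars false
set_option linter.style.haveILetI false

namespace Cfsg.Agent.H23.DO

open Module Matrix Cfsg Cfsg.Agent.H22 Cfsg.Agent.H21
open scoped ComplexConjugate

universe u

variable {G : Type u} [Group G] [Finite G] {p : ℕ} [Fact p.Prime] (D : DS G p) (β : IrrCharacter D.K)

/-- The character has a nonzero row attached to `β`. -/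
def SB (χ : IrrCharacter G) : Prop := ∃ u : (ZMod p)ˣ, cRB D β (u : ZMod p) χ ≠ 0

/-- `γ` is conjugate to `β` under the normalizer. -/
def IsOrb (γ : IrrCharacter D.K) : Prop := ∃ t : NN D, γ = irrMap (cjN D t) β

open scoped Classical in
/-- The orbit of `β` under the normalizer. -/
noncomputable def Orb : Finset (IrrCharacter D.K) := Finset.univ.filter (IsOrb D β)

theorem mem_Orb (γ : IrrCharacter D.K) : γ ∈ Orb D β ↔ IsOrb D β γ := by
  classical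
  simp [Orb]

theorem not_orb_iff {γ : IrrCharacter D.K} (hγ : ¬ IsOrb D β γ) :
    ∀ n ∈ NNs D, ¬ ∀ y y' : D.K, (y' : G) = n * y * n⁻¹ → β.1 y' = γ.1 y := by
  intro n hn h
  apply hγ
  refine ⟨⟨n⁻¹, Subgroup.inv_mem _ hn⟩, ?_⟩
  apply Subtype.ext
  funext y
  exact (h y _ (by simp [cjN, conjK])).symm

variable (hsq : ¬ p ^ 2 ∣ Nat.card G)

include hsq in
theorem sum_other_zero {χ : IrrCharacter G} (hχ : SB D β χ) {γ : IrrCharacter D.K} (hγ : ¬ IsOrb D β γ)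
    {n : ℕ} (hn : Nat.Coprime n p) : ∑ y : D.K, γ.1 y⁻¹ * χ.1 (D.x ^ n * (y : G)) = 0 := by
  obtain ⟨V, hV⟩ := exists_val p Fact.out
  obtain ⟨u, hu⟩ := hχ
  exact (T1B D β hsq hV χ u).2 hu γ (not_orb_iff D β hγ) n hn

include hsq in
theorem cRB_other {χ : IrrCharacter G} (hχ : SB D β χ) {γ : IrrCharacter D.K} (hγ : ¬ IsOrb D β γ) (a : ZMod p) :
    cRB D γ a χ = 0 := by
  have h1 := cRB_form D γ a χ
  have h2 : ∑ n ∈ Finset.range p, ∑ y : D.K, (1 - ps (-(a * (n : ZMod p)))) * (γ.1 y⁻¹ * χ.1 (D.x ^ n * (y : G))) = 0 := by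
    apply Finset.sum_eq_zero
    intro n hn
    by_cases h0 : n = 0
    · subst h0
      simp [ps_zero]
    · rw [← Finset.mul_sum, sum_other_zero D β hsq hχ hγ (coprime_of_lt h0 (Finset.mem_range.mp hn)), mul_zero]
  rw [h2] at h1
  simp only [mul_zero] at h1
  exact_mod_cast h1

variable (θ : NN D →* (ZMod p)ˣ)
  (hθ : ∀ t : NN D, (t : G) * D.x * (t : G)⁻¹ = D.x ^ (((θ t : (ZMod p)ˣ) : ZMod p)).val)

include hθ in
theorem sum_orb {γ : IrrCharacter D.K} (hγ : IsOrb D β γ) (χ : IrrCharacter G) :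
    ∑ u : (ZMod p)ˣ, cRB D γ (u : ZMod p) χ = ∑ u : (ZMod p)ˣ, cRB D β (u : ZMod p) χ := by
  obtain ⟨t, rfl⟩ := hγ
  exact sum_cRB_inv D θ hθ t β χ

/-- The sum of the characters in the orbit. -/
noncomputable def Gm (y : D.K) : ℂ := ∑ γ ∈ Orb D β, γ.1 y

/-- The integer attached to `χ`. -/
noncomputable def kap (χ : IrrCharacter G) : ℤ := -∑ u : (ZMod p)ˣ, cRB D β (u : ZMod p) χ

include hsq hθ in
theorem val_K {χ : IrrCharacter G} (hχ : SB D β χ) (y : D.K) :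
    χ.1 y = (p : ℂ) * (∑ γ : IrrCharacter D.K, (mNB D γ χ 0 : ℂ) * γ.1 y) + ((kap D β χ : ℤ) : ℂ) * Gm D β y := by
  classical
  have h1 := expandB D χ 0 y
  rw [pow_zero, one_mul] at h1
  rw [h1]
  simp only [cfB_zero, sub_mul]
  rw [Finset.sum_sub_distrib, Finset.mul_sum]
  have h2 : ∑ γ : IrrCharacter D.K, (∑ u : (ZMod p)ˣ, ((cRB D γ (u : ZMod p) χ : ℤ) : ℂ)) * γ.1 y =
      (∑ u : (ZMod p)ˣ, ((cRB D β (u : ZMod p) χ : ℤ) : ℂ)) * Gm D β y := by
    simp only [Gm, Orb]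
    rw [Finset.sum_filter, Finset.mul_sum]
    refine Finset.sum_congr rfl fun γ _ => ?_
    by_cases hγ : IsOrb D β γ
    · rw [if_pos hγ]
      congr 1
      have := sum_orb D β θ hθ hγ χ
      exact_mod_cast this
    · rw [if_neg hγ]
      simp only [cRB_other D β hsq hχ hγ]
      simp
  rw [h2]
  simp only [kap]
  push_cast
  have h3 : ∑ γ : IrrCharacter D.K, (p : ℂ) * (mNB D γ χ 0 : ℂ) * γ.1 y =
      ∑ γ : IrrCharacter D.K, (p : ℂ) * ((mNB D γ χ 0 : ℂ) * γ.1 y) :=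
    Finset.sum_congr rfl fun γ _ => by ring
  rw [h3]
  ring

include hsq in
theorem val_sing {χ : IrrCharacter G} (hχ : SB D β χ) {n : ℕ} (h0 : n ≠ 0) (hn : n < p) (y : D.K) :
    χ.1 (D.x ^ n * (y : G)) = ∑ γ ∈ Orb D β, (-∑ u : (ZMod p)ˣ, ((cRB D γ (u : ZMod p) χ : ℤ) : ℂ) *
      ps ((u : ZMod p) * (n : ZMod p))) * γ.1 y := by
  classical
  rw [expandB D χ n y]
  simp only [Orb]
  rw [Finset.sum_filter]
  refine Finset.sum_congr rfl fun γ _ => ?_
  rw [cfB_ne D γ χ h0 hn]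
  by_cases hγ : IsOrb D β γ
  · rw [if_pos hγ]
  · rw [if_neg hγ]
    simp only [cRB_other D β hsq hχ hγ]
    simp

theorem Orb_deg {γ : IrrCharacter D.K} (hγ : γ ∈ Orb D β) : γ.1 1 = β.1 1 := by
  obtain ⟨t, rfl⟩ := (mem_Orb D β γ).mp hγ
  rw [irrMap_apply, map_one]

theorem Gm_one : Gm D β 1 = ((Orb D β).card : ℂ) * β.1 1 := by
  simp only [Gm]
  rw [Finset.sum_congr rfl fun γ hγ => Orb_deg D β hγ, Finset.sum_const, nsmul_eq_mul]

include hsq hθ in
theorem deg_cong {χ : IrrCharacter G} (hχ : SB D β χ) :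
    (charDegree χ.1 : ℤ) ≡ kap D β χ * (((Orb D β).card * charDegree β.1 : ℕ) : ℤ) [ZMOD p] := by
  have h1 := val_K D β hsq θ hθ hχ 1
  rw [Gm_one] at h1
  have h2 : χ.1 ((1 : D.K) : G) = (charDegree χ.1 : ℂ) := by
    rw [Subgroup.coe_one]
    exact one_eq_charDegree (isCharacter_of_irr χ.2)
  rw [h2, one_eq_charDegree (isCharacter_of_irr β.2)] at h1
  have h3 : ∑ γ : IrrCharacter D.K, (mNB D γ χ 0 : ℂ) * γ.1 1 =
      ((∑ γ : IrrCharacter D.K, mNB D γ χ 0 * charDegree γ.1 : ℕ) : ℂ) := by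
    push_cast
    refine Finset.sum_congr rfl fun γ _ => ?_
    rw [one_eq_charDegree (isCharacter_of_irr γ.2)]
  rw [h3] at h1
  have h4 : (charDegree χ.1 : ℤ) = (p : ℤ) * ((∑ γ : IrrCharacter D.K, mNB D γ χ 0 * charDegree γ.1 : ℕ) : ℤ) +
      kap D β χ * (((Orb D β).card * charDegree β.1 : ℕ) : ℤ) := by
    have : (((charDegree χ.1 : ℤ)) : ℂ) = (((p : ℤ) * ((∑ γ : IrrCharacter D.K, mNB D γ χ 0 * charDegree γ.1 : ℕ) : ℤ) +
      kap D β χ * (((Orb D β).card * charDegree β.1 : ℕ) : ℤ) : ℤ) : ℂ) := by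
      push_cast at h1 ⊢
      exact h1
    exact_mod_cast this
  rw [h4, Int.modEq_iff_dvd]
  simp

theorem not_dvd_of_all_zero {χ : IrrCharacter G} (h : ∀ γ : IrrCharacter D.K, ∀ u : (ZMod p)ˣ, cRB D γ (u : ZMod p) χ = 0) :
    p ∣ charDegree χ.1 := by
  have h1 := expandB D χ 0 (1 : D.K)
  rw [pow_zero, one_mul, Subgroup.coe_one, one_eq_charDegree (isCharacter_of_irr χ.2)] at h1
  simp only [cfB_zero, h, Int.cast_zero, Finset.sum_const_zero, sub_zero] at h1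
  have h2 : ∑ γ : IrrCharacter D.K, (p : ℂ) * (mNB D γ χ 0 : ℂ) * γ.1 1 =
      ((p * ∑ γ : IrrCharacter D.K, mNB D γ χ 0 * charDegree γ.1 : ℕ) : ℂ) := by
    push_cast
    rw [Finset.mul_sum]
    refine Finset.sum_congr rfl fun γ _ => ?_
    rw [one_eq_charDegree (isCharacter_of_irr γ.2), mul_assoc]
  rw [h2] at h1
  have h3 : charDegree χ.1 = p * ∑ γ : IrrCharacter D.K, mNB D γ χ 0 * charDegree γ.1 := by exact_mod_cast h1
  exact ⟨_, h3⟩

end Cfsg.Agent.H23.DO
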