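import Cfsg.Agent.Lib.H23.TwoDegP

/-!
# Critical actions of `p`-automorphisms on `q`-groups and character degrees
-/

set_option autoImplicit false
set_option linter.unusedSectionVars false
set_option linter.style.haveILetI false
set_option linter.unusedSimpArgs false

namespace Cfsg.Agent.H23.Crit

open Cfsg Cfsg.Agent.H21 Cfsg.Agent.H06 Cfsg.Agent.H23.TwoDeg
open scoped ComplexConjugate

universe u

variable {R : Type u} [Group R] [Fintype R]

/-- The subgroup of fixed points of an endomorphism. -/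
def Fx (φ : R →* R) : Subgroup R := φ.eqLocus (MonoidHom.id R)

theorem mem_Fx {φ : R →* R} {r : R} : r ∈ Fx φ ↔ φ r = r := Iff.rfl

section Main

variable {p q : ℕ} (hp : p.Prime) (hq : q.Prime) (hpq : p ≠ q) (hR : IsPGroup q R) (φ : R →* R)
  (k : ℕ) (hper : ∀ r, φ^[p ^ k] r = r) (hnt : ∃ r, φ r ≠ r)
  (hmin : ∀ S : Subgroup R, S ≠ ⊤ → (∀ s ∈ S, φ s ∈ S) → ∀ s ∈ S, φ s = s)

include hp hq hpq hR hper hnt hmin

theorem gen_top : Subgroup.closure (Set.range fun r : R => r⁻¹ * φ r) = ⊤ := by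
  by_contra hne
  set S := Subgroup.closure (Set.range fun r : R => r⁻¹ * φ r) with hS
  have hinv : ∀ s ∈ S, φ s ∈ S := by
    have : S ≤ S.comap φ := by
      rw [hS, Subgroup.closure_le]
      rintro _ ⟨r, rfl⟩
      change φ (r⁻¹ * φ r) ∈ S
      rw [map_mul, map_inv]
      exact Subgroup.subset_closure ⟨φ r, rfl⟩
    exact fun s hs => this hs
  have hfix := hmin S hne hinv
  obtain ⟨r, hr⟩ := hnt
  apply hr
  set d := r⁻¹ * φ r with hd
  have hdS : d ∈ S := Subgroup.subset_closure ⟨r, rfl⟩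
  have hdfix := hfix d hdS
  have hr' : φ r = r * d := by rw [hd]; group
  have hit : ∀ n : ℕ, φ^[n] r = r * d ^ n := by
    intro n
    induction n with
    | zero => simp
    | succ n ih =>
      rw [Function.iterate_succ_apply', ih, map_mul, map_pow, hdfix, hr', pow_succ']
      group
  have h1 := hit (p ^ k)
  rw [hper r] at h1
  have h2 : d ^ p ^ k = 1 := by
    have : r * d ^ p ^ k = r * 1 := by rw [← h1, mul_one]
    exact mul_left_cancel this
  obtain ⟨m, hm⟩ := hR d
  have h3 : orderOf d ∣ q ^ m := orderOf_dvd_of_pow_eq_one hm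
  have h4 : orderOf d ∣ p ^ k := orderOf_dvd_of_pow_eq_one h2
  have h5 : Nat.Coprime (q ^ m) (p ^ k) :=
    Nat.Coprime.pow _ _ ((Nat.coprime_primes hq hp).2 (Ne.symm hpq))
  have h6 : orderOf d = 1 := Nat.eq_one_of_dvd_coprimes h5 h3 h4
  have h7 : d = 1 := orderOf_eq_one_iff.1 h6
  rw [hr', h7, mul_one]

theorem comm_le : commutator R ≤ Fx φ := by
  haveI : Nontrivial R := by
    obtain ⟨r, hr⟩ := hnt
    refine ⟨⟨φ r, r, hr⟩⟩
  haveI : Fact q.Prime := ⟨hq⟩
  haveI : Group.IsNilpotent R := hR.isNilpotent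
  have hne : commutator R ≠ ⊤ := (Group.IsSolvable.commutator_lt_top_of_nontrivial R).ne
  intro s hs
  refine hmin _ hne ?_ s hs
  intro s hs
  have h1 : (commutator R).map φ ≤ commutator R := by
    rw [commutator_def, Subgroup.map_commutator]
    exact Subgroup.commutator_mono le_top le_top
  exact h1 ⟨s, hs, rfl⟩

theorem fix_central {c : R} (hc : c ∈ Fx φ) (r : R) : r * c = c * r := by
  have hcl := gen_top hp hq hpq hR φ k hper hnt hmin
  have h0 : Subgroup.closure (Set.range fun r : R => r⁻¹ * φ r) ≤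
      Subgroup.centralizer ({c} : Set R) := by
    rw [Subgroup.closure_le]
    rintro _ ⟨r, rfl⟩
    have ht : r * c * r⁻¹ * c⁻¹ ∈ Fx φ := by
      apply comm_le hp hq hpq hR φ k hper hnt hmin
      exact Subgroup.commutator_mem_commutator (Subgroup.mem_top r) (Subgroup.mem_top c)
    have h1 := mem_Fx.1 ht
    have hc' := mem_Fx.1 hc
    simp only [map_mul, map_inv, hc'] at h1
    have h2 : φ r * c * (φ r)⁻¹ = r * c * r⁻¹ := mul_right_cancel h1
    rw [SetLike.mem_coe, Subgroup.mem_centralizer_singleton_iff]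
    simp only
    have h3 : φ r * c = r * c * r⁻¹ * φ r := by rw [← h2]; group
    calc r⁻¹ * φ r * c = r⁻¹ * (φ r * c) := by group
      _ = r⁻¹ * (r * c * r⁻¹ * φ r) := by rw [h3]
      _ = c * (r⁻¹ * φ r) := by group
  have h1 : r ∈ Subgroup.centralizer ({c} : Set R) := h0 (by rw [hcl]; exact Subgroup.mem_top r)
  rwa [Subgroup.mem_centralizer_singleton_iff] at h1

theorem linear_triv {ψ : R → ℂ} (hψ : IsCharacter R ψ) (h1 : charDegree ψ = 1)
    (hinv : ∀ r, ψ (φ r) = ψ r) (r : R) : ψ r = 1 := by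
  have hcl := gen_top hp hq hpq hR φ k hper hnt hmin
  let f : R →* ℂ :=
    { toFun := ψ
      map_one' := linear_one hψ h1
      map_mul' := linear_mul hψ h1 }
  have h0 : Subgroup.closure (Set.range fun r : R => r⁻¹ * φ r) ≤ f.toHomUnits.ker := by
    rw [Subgroup.closure_le]
    rintro _ ⟨r, rfl⟩
    rw [SetLike.mem_coe, MonoidHom.mem_ker]
    apply Units.ext
    rw [MonoidHom.coe_toHomUnits]
    simp only [Units.val_one]
    have h2 : f (φ r) = f r := hinv r
    rw [map_mul, h2, ← map_mul]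
    simp
  have h2 : r ∈ f.toHomUnits.ker := h0 (by rw [hcl]; exact Subgroup.mem_top r)
  rw [MonoidHom.mem_ker] at h2
  have h3 := congrArg Units.val h2
  rw [MonoidHom.coe_toHomUnits] at h3
  simpa [f] using h3

/-- The degree formula for an invariant non-principal irreducible character. -/
theorem deg_formula (ξ : IrrCharacter R) (hinv : ∀ r, ξ.1 (φ r) = ξ.1 r) (hne : ∃ r, ξ.1 r ≠ 1) :
    charDegree ξ.1 ^ 2 * Nat.card (Fx φ) = Nat.card R ∧ charDegree ξ.1 ≠ 1 := by
  classical
  have hc := isCharacter_of_irr ξ.2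
  have hd1 : charDegree ξ.1 ≠ 1 := by
    intro h1
    obtain ⟨r, hr⟩ := hne
    exact hr (linear_triv hp hq hpq hR φ k hper hnt hmin hc h1 hinv r)
  refine ⟨?_, hd1⟩
  have hpos := irr_charDegree_pos ξ.2
  have hZinv : ∀ s ∈ ZC ξ, φ s ∈ ZC ξ := by
    intro s hs
    rw [mem_ZC] at hs ⊢
    rw [hinv, hs]
  have hZne : ZC ξ ≠ ⊤ := by
    intro h
    have h1 := deg_sq_card_le ξ
    rw [h, Subgroup.card_top] at h1
    have h2 : 0 < Nat.card R := Nat.card_pos
    have h3 : charDegree ξ.1 ^ 2 ≤ 1 := by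
      by_contra h4
      push Not at h4
      nlinarith
    have h4 : charDegree ξ.1 ≤ 1 := by nlinarith
    omega
  have hZF : ZC ξ = Fx φ := by
    apply le_antisymm
    · intro s hs
      exact hmin _ hZne hZinv s hs
    · intro s hs
      apply center_le_ZC
      rw [Subgroup.mem_center_iff]
      intro g
      exact fix_central hp hq hpq hR φ k hper hnt hmin hs g
  have hcomm : commutator R ≤ ZC ξ := by
    rw [hZF]
    exact comm_le hp hq hpq hR φ k hper hnt hmin
  have hv : ∀ g, g ∉ ZC ξ → ‖ξ.1 g‖ ^ 2 = 0 := by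
    intro g hg
    have h0 : ¬ ∀ h : R, ξ.1 (g * h * g⁻¹ * h⁻¹) = ξ.1 1 := fun h => hg (mem_ZC_of_comm h)
    push Not at h0
    obtain ⟨h, hh⟩ := h0
    set c := g * h * g⁻¹ * h⁻¹ with hc'
    have hcZ : c ∈ ZC ξ :=
      hcomm (Subgroup.commutator_mem_commutator (Subgroup.mem_top g) (Subgroup.mem_top h))
    have h1 := character_mul_of_norm_eq hc (mem_ZC.1 hcZ) (h * g * h⁻¹)
    have h2 : c * (h * g * h⁻¹) = g := by rw [hc']; group
    rw [h2] at h1
    have h3 : ξ.1 (h * g * h⁻¹) = ξ.1 g := isCharacter_conj hc g h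
    rw [h3, ← one_eq_charDegree hc] at h1
    have h4 : ξ.1 g * (ξ.1 1 - ξ.1 c) = 0 := by
      rw [mul_sub, h1, mul_comm]
      ring
    have h5 : ξ.1 g = 0 := by
      rcases mul_eq_zero.1 h4 with h5 | h5
      · exact h5
      · exact absurd (sub_eq_zero.1 h5).symm hh
    simp [h5]
  haveI : Fintype (ZC ξ) := Fintype.ofFinite _
  have h1 := sum_norm_sq ξ
  rw [sum_eq_sum_sub (ZC ξ) (fun g => ‖ξ.1 g‖ ^ 2) hv] at h1
  have h2 : ∀ z : ZC ξ, ‖ξ.1 z‖ ^ 2 = (charDegree ξ.1 : ℝ) ^ 2 := by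
    intro z
    rw [mem_ZC.1 z.2]
  simp only [h2, Finset.sum_const, Finset.card_univ, nsmul_eq_mul] at h1
  rw [← Nat.card_eq_fintype_card] at h1
  rw [← hZF]
  have h3 : ((charDegree ξ.1 ^ 2 * Nat.card (ZC ξ) : ℕ) : ℝ) = (Nat.card R : ℝ) := by
    push_cast
    rw [mul_comm]
    exact h1
  exact_mod_cast h3

/-- The fixed points are congruent to the whole group modulo `p`. -/
theorem card_mod : Nat.card R ≡ Nat.card (Fx φ) [MOD p] := by
  classical
  haveI : Fact p.Prime := ⟨hp⟩
  let f : Function.End R := fun r => φ r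
  have hf : f ^ p ^ k = 1 := funext hper
  have h := Equiv.Perm.card_fixedPoints_modEq (f := f) hf
  rw [Nat.card_eq_fintype_card]
  refine h.trans ?_
  have h2 : Fintype.card (Function.fixedPoints f) = Nat.card (Fx φ) := by
    rw [← Nat.card_eq_fintype_card]
    apply Nat.card_congr
    exact Equiv.subtypeEquivRight (fun r => by
      rw [mem_Fx]
      exact Iff.rfl)
  rw [h2]

end Main

end Cfsg.Agent.H23.Crit
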