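import Cfsg.Agent.Lib.H23.Crit2

/-!
# `p`-solvable linear groups of degree at most `p - 1`
-/

set_option autoImplicit false
set_option linter.unusedSectionVars false
set_option linter.style.haveILetI false
set_option linter.unusedSimpArgs false

namespace Cfsg.Agent.H23.Crit

open Cfsg Cfsg.Agent.H21 Cfsg.Agent.H06 Cfsg.Agent.H23.TwoDeg
open scoped ComplexConjugate

universe u

section Reduction

variable {G : Type u} [Group G] [Finite G]

/-- An abelian Sylow subgroup of a `p`-solvable group which is not normal acts nontrivially on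
the `p'`-core. -/
theorem exists_noncomm {p : ℕ} [hp : Fact p.Prime] (hs : IsPSolvable p G) (P : Sylow p G)
    (hab : ∀ a ∈ (P : Subgroup G), ∀ b ∈ (P : Subgroup G), a * b = b * a)
    (hP : ¬ (P : Subgroup G).Normal) :
    ∃ x ∈ (P : Subgroup G), ∃ y ∈ pPrimeCore p G, x * y ≠ y * x := by
  classical
  by_contra hcon
  push Not at hcon
  apply hP
  let O : Subgroup G := pPrimeCore p G
  haveI hOn : O.Normal := pPrimeCore_normal p G
  let f := QuotientGroup.mk' O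
  have hf : Function.Surjective f := QuotientGroup.mk'_surjective O
  have hQ0 : pPrimeCore p (G ⧸ O) = ⊥ := Cfsg.Agent.H08.pPrimeCore_quotient_eq_bot p
  have hS : IsPSolvable p (G ⧸ O) := Cfsg.Agent.H03.isPSolvable_of_surjective hf hs
  have hC := Cfsg.Agent.H03.centralizer_pCore_le_of_isPSolvable hS hQ0
  let S : Sylow p (G ⧸ O) := P.mapSurjective hf
  have hle : pCore p (G ⧸ O) ≤ S := Cfsg.Agent.H01.pCore_le_sylow p S
  have hin : ∀ y ∈ (P : Subgroup G), f y ∈ pCore p (G ⧸ O) := by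
    intro y hy
    apply hC
    rw [Subgroup.mem_centralizer_iff]
    intro z hz
    obtain ⟨x, hx, rfl⟩ := hle hz
    rw [← map_mul, ← map_mul, hab x hx y hy]
  have hOc : (Nat.card O).Coprime p := coprime_card_pPrimeCore p
  have hpn := Cfsg.Agent.H01.pCore_normal (G := G ⧸ O) p
  refine ⟨fun y hy g => ?_⟩
  have h1 : f (g * y * g⁻¹) ∈ pCore p (G ⧸ O) := by
    rw [map_mul, map_mul, map_inv]
    exact hpn.conj_mem _ (hin y hy) _
  obtain ⟨y', hy', hyy⟩ := hle h1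
  have hn : y'⁻¹ * (g * y * g⁻¹) ∈ O := by
    rw [← QuotientGroup.eq_one_iff]
    have h2 : QuotientGroup.mk' O (y'⁻¹ * (g * y * g⁻¹)) = 1 := by
      rw [map_mul, map_inv]
      change (f y')⁻¹ * f (g * y * g⁻¹) = 1
      rw [hyy]
      group
    exact h2
  set n := y'⁻¹ * (g * y * g⁻¹) with hndef
  have hcomm : y' * n = n * y' := hcon y' hy' n hn
  have hu : g * y * g⁻¹ = y' * n := by rw [hndef]; group
  obtain ⟨a, ha⟩ := P.2 ⟨y', hy'⟩
  obtain ⟨b, hb⟩ := P.2 ⟨y, hy⟩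
  have ha' : y' ^ p ^ a = 1 := by simpa using congrArg Subtype.val ha
  have hb' : y ^ p ^ b = 1 := by simpa using congrArg Subtype.val hb
  have huP : (g * y * g⁻¹) ^ p ^ b = 1 := by
    rw [conj_pow, hb']
    simp
  have hn1 : n ^ (p ^ a * p ^ b) = 1 := by
    have h3 : Commute y' n := hcomm
    have h4 : (y' * n) ^ (p ^ a * p ^ b) = y' ^ (p ^ a * p ^ b) * n ^ (p ^ a * p ^ b) :=
      h3.mul_pow _
    rw [← hu, pow_mul' (g * y * g⁻¹), huP, one_pow, pow_mul y', ha', one_pow, one_mul] at h4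
    exact h4.symm
  have hn2 : orderOf n ∣ p ^ a * p ^ b := orderOf_dvd_of_pow_eq_one hn1
  have hn3 : orderOf n ∣ Nat.card O := by
    have h3 := orderOf_dvd_natCard (⟨n, hn⟩ : O)
    rwa [Subgroup.orderOf_mk] at h3
  have hn4 : Nat.Coprime (Nat.card O) (p ^ a * p ^ b) :=
    Nat.Coprime.mul_right (hOc.pow_right a) (hOc.pow_right b)
  have hn5 : orderOf n = 1 := Nat.eq_one_of_dvd_coprimes hn4 hn3 hn2
  have hn6 : n = 1 := orderOf_eq_one_iff.1 hn5
  rw [hu, hn6, mul_one]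
  exact hy'

/-- Passing from an element acting nontrivially on the `p'`-core to a `q`-subgroup. -/
theorem exists_qgroup {p : ℕ} [hp : Fact p.Prime] {x : G} (hx : ∃ k, x ^ p ^ k = 1) {y : G}
    (hy : y ∈ pPrimeCore p G) (hxy : x * y ≠ y * x) :
    ∃ q : ℕ, q.Prime ∧ q ≠ p ∧ ∃ R₀ : Subgroup G, IsPGroup q R₀ ∧ (∀ s ∈ R₀, x * s * x⁻¹ ∈ R₀) ∧
      ∃ s ∈ R₀, x * s * x⁻¹ ≠ s := by
  classical
  let O : Subgroup G := pPrimeCore p G
  haveI hOn : O.Normal := pPrimeCore_normal p G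
  have hOc : (Nat.card O).Coprime p := coprime_card_pPrimeCore p
  let A : Subgroup G := Subgroup.zpowers x
  have hAO : A ≤ Subgroup.normalizer (O : Set G) := by
    rw [show Subgroup.normalizer (O : Set G) = ⊤ from Subgroup.normalizer_eq_top O]
    exact le_top
  obtain ⟨k, hk⟩ := hx
  have hAcard : ∃ j, Nat.card A = p ^ j := by
    have h1 : orderOf x ∣ p ^ k := orderOf_dvd_of_pow_eq_one hk
    obtain ⟨j, -, hj⟩ := (Nat.dvd_prime_pow hp.out).1 h1
    exact ⟨j, by rw [Nat.card_zpowers, hj]⟩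
  obtain ⟨j, hj⟩ := hAcard
  have hcop : (Nat.card A).Coprime (Nat.card O) := by
    rw [hj]
    exact (hOc.symm.pow_left j)
  have hsolv : Group.IsSolvable A ∨ Group.IsSolvable O := Or.inl inferInstance
  let C : Subgroup O := (O ⊓ Subgroup.centralizer (A : Set G)).subgroupOf O
  have hCne : C ≠ ⊤ := by
    intro hC
    have h1 : (⟨y, hy⟩ : O) ∈ C := by rw [hC]; exact Subgroup.mem_top _
    have h2 : y ∈ Subgroup.centralizer (A : Set G) := (Subgroup.mem_subgroupOf.1 h1).2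
    have h3 := Subgroup.mem_centralizer_iff.1 h2 x (Subgroup.mem_zpowers x)
    exact hxy h3
  have hidx : C.index ≠ 1 := by
    intro h
    exact hCne (Subgroup.index_eq_one.1 h)
  obtain ⟨q, hq, hqd⟩ := Nat.exists_prime_and_dvd hidx
  haveI hqf : Fact q.Prime := ⟨hq⟩
  obtain ⟨Q, hQ⟩ := Cfsg.Agent.H01.exists_invariant_sylow hAO hcop hsolv q
  have hqO : q ∣ Nat.card O := hqd.trans (Subgroup.index_dvd_card C)
  have hqp : q ≠ p := by
    rintro rfl
    have h7 := Nat.dvd_gcd hqO (dvd_refl q)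
    rw [Nat.Coprime.gcd_eq_one hOc] at h7
    exact hq.one_lt.ne' (Nat.dvd_one.1 h7)
  refine ⟨q, hq, hqp, (Q : Subgroup O).map O.subtype, Q.2.map _, ?_, ?_⟩
  · intro s hs
    have hxn : x ∈ Subgroup.normalizer (((Q : Subgroup O).map O.subtype : Subgroup G) : Set G) :=
      hQ (Subgroup.mem_zpowers x)
    exact (Subgroup.mem_normalizer_iff.1 hxn s).1 hs
  · by_contra hcon
    push Not at hcon
    have hle : (Q : Subgroup O) ≤ C := by
      intro w hw
      have hw' : (w : G) ∈ (Q : Subgroup O).map O.subtype := ⟨w, hw, rfl⟩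
      have h1 : x * w * x⁻¹ = w := hcon _ hw'
      rw [Subgroup.mem_subgroupOf]
      refine ⟨w.2, ?_⟩
      change (w : G) ∈ Subgroup.centralizer (A : Set G)
      rw [Subgroup.mem_centralizer_iff]
      intro a ha
      obtain ⟨i, rfl⟩ := Subgroup.mem_zpowers_iff.1 ha
      have h2 : Commute x (w : G) := by
        have : x * w = w * x := by
          rw [← mul_inv_eq_iff_eq_mul]
          exact h1
        exact this
      exact (h2.zpow_left i)
    have h1 : C.index ∣ (Q : Subgroup O).index := Subgroup.index_dvd_of_le hle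
    exact Q.not_dvd_index (hqd.trans h1)

end Reduction

section Main

variable {G : Type u} [Group G] [Fintype G]

/-- The minimal invariant subgroup. -/
theorem exists_crit {x : G} (R₀ : Subgroup G) (h1 : ∀ s ∈ R₀, x * s * x⁻¹ ∈ R₀)
    (h2 : ∃ s ∈ R₀, x * s * x⁻¹ ≠ s) :
    ∃ R : Subgroup G, R ≤ R₀ ∧ (∀ s ∈ R, x * s * x⁻¹ ∈ R) ∧ (∃ s ∈ R, x * s * x⁻¹ ≠ s) ∧
      ∀ S : Subgroup G, S ≤ R → (∀ s ∈ S, x * s * x⁻¹ ∈ S) → (∃ s ∈ S, x * s * x⁻¹ ≠ s) → S = R := by
  classical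
  let 𝒮 : Set (Subgroup G) := {S | S ≤ R₀ ∧ (∀ s ∈ S, x * s * x⁻¹ ∈ S) ∧ ∃ s ∈ S, x * s * x⁻¹ ≠ s}
  have hne : 𝒮.Nonempty := ⟨R₀, le_rfl, h1, h2⟩
  obtain ⟨R, hR⟩ := (Set.toFinite 𝒮).exists_minimal hne
  refine ⟨R, hR.1.1, hR.1.2.1, hR.1.2.2, ?_⟩
  intro S hSR hS1 hS2
  exact le_antisymm hSR (hR.2 ⟨hSR.trans hR.1.1, hS1, hS2⟩ hSR)

theorem main_aux (χ : G → ℂ) (hχ : IsCharacter G χ) (hfaith : ∀ g : G, χ g = χ 1 → g = 1) (n : ℕ)
    (hn : charDegree χ = n) {p : ℕ} (hp : p.Prime) (hnp : n + 1 ≤ p) {x : G} {k : ℕ}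
    (hxk : x ^ p ^ k = 1) {q : ℕ} (hq : q.Prime) (hqp : q ≠ p) (R₀ : Subgroup G)
    (hR₀ : IsPGroup q R₀) (h1 : ∀ s ∈ R₀, x * s * x⁻¹ ∈ R₀) (h2 : ∃ s ∈ R₀, x * s * x⁻¹ ≠ s) :
    n + 1 = p ∧ (∃ k : ℕ, n = 2 ^ k) ∧ IsIrrCharacter G χ := by
  classical
  obtain ⟨R, hRR₀, hinv, ⟨r₀, hr₀, hr₀x⟩, hmin⟩ := exists_crit R₀ h1 h2
  haveI : Fact q.Prime := ⟨hq⟩
  haveI : Fintype R := Fintype.ofFinite _
  have hRq : IsPGroup q R := hR₀.to_le hRR₀
  let φ : R →* R := MonoidHom.mk' (fun r => ⟨x * r * x⁻¹, hinv r r.2⟩) (by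
    intro a b
    apply Subtype.ext
    simp only [Subgroup.coe_mul]
    group)
  have hφ : ∀ r : R, ((φ r : R) : G) = x * r * x⁻¹ := fun _ => rfl
  have hit : ∀ (i : ℕ) (r : R), ((φ^[i] r : R) : G) = x ^ i * r * (x ^ i)⁻¹ := by
    intro i r
    induction i with
    | zero => simp
    | succ i ih =>
      rw [Function.iterate_succ_apply', hφ, ih, pow_succ']
      group
  have hper : ∀ r, φ^[p ^ k] r = r := by
    intro r
    apply Subtype.ext
    rw [hit, hxk]
    simp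
  have hnt : ∃ r, φ r ≠ r := by
    refine ⟨⟨r₀, hr₀⟩, fun h => hr₀x ?_⟩
    have := congrArg Subtype.val h
    exact this
  have hminφ : ∀ S : Subgroup R, S ≠ ⊤ → (∀ s ∈ S, φ s ∈ S) → ∀ s ∈ S, φ s = s := by
    intro S hS hSinv s hs
    by_contra hne
    apply hS
    have hSm := hmin (S.map R.subtype) (Subgroup.map_subtype_le S) (by
      rintro _ ⟨t, ht, rfl⟩
      exact ⟨φ t, hSinv t ht, rfl⟩) ⟨s, ⟨s, hs, rfl⟩, fun h => hne (Subtype.ext h)⟩
    rw [eq_top_iff]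
    intro t _
    have h3 : (t : G) ∈ S.map R.subtype := by rw [hSm]; exact t.2
    obtain ⟨u, hu, hut⟩ := h3
    have h4 : u = t := Subtype.ext hut
    rwa [← h4]
  -- the restriction
  have hπ : IsCharacter R (fun r : R => χ r) := isCharacter_restrict R hχ
  have hπ1 : (fun r : R => χ r) 1 = (n : ℂ) := by
    simp only [Subgroup.coe_one]
    rw [one_eq_charDegree hχ, hn]
  have hπinv : ∀ r : R, (fun r : R => χ r) (φ r) = (fun r : R => χ r) r := by
    intro r
    simp only [hφ]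
    exact isCharacter_conj hχ _ _
  have hr₀1 : (fun r : R => χ r) ⟨r₀, hr₀⟩ ≠ (fun r : R => χ r) 1 := by
    intro h
    have h3 : χ r₀ = χ 1 := h
    have h4 := hfaith r₀ h3
    apply hr₀x
    rw [h4]
    group
  obtain ⟨ξ, hξ, hξ1⟩ := exists_nontriv_con hπ hr₀1
  have hξinv := con_inv hp φ hper hπ hπinv hπ1 (by omega) ξ hξ
  have hpq : p ≠ q := Ne.symm hqp
  obtain ⟨hd, hd1⟩ := deg_formula hp hq hpq hRq φ k hper hnt hminφ ξ hξinv hξ1
  have hmod := card_mod hp hq hpq hRq φ k hper hnt hminφ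
  have hdn : charDegree ξ.1 ≤ n := deg_con_le hπ hπ1 ξ hξ
  have hdpos := irr_charDegree_pos ξ.2
  set d := charDegree ξ.1 with hddef
  set c := Nat.card (Crit.Fx φ) with hcdef
  -- the arithmetic
  obtain ⟨a, ha⟩ := IsPGroup.iff_card.1 hRq
  have hdvd : d ∣ q ^ a := by
    rw [← ha, ← hd]
    exact Dvd.dvd.mul_right (dvd_pow_self d two_ne_zero) c
  have hcdvd : c ∣ q ^ a := by
    rw [← ha, ← hd]
    exact Dvd.intro_left _ rfl
  have hccop : Nat.Coprime c p := by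
    have h3 : Nat.Coprime (q ^ a) p := Nat.Coprime.pow_left _ ((Nat.coprime_primes hq hp).2 hqp)
    exact Nat.Coprime.coprime_dvd_left hcdvd h3
  have hsq : d ^ 2 ≡ 1 [MOD p] := by
    have h3 : d ^ 2 * c ≡ 1 * c [MOD p] := by
      rw [hd, one_mul]
      exact hmod
    exact Nat.ModEq.cancel_right_of_coprime (Nat.Coprime.symm hccop) h3
  have hd2 : 2 ≤ d := by omega
  have hpd : p ∣ (d - 1) * (d + 1) := by
    have h3 : p ∣ d ^ 2 - 1 := (Nat.modEq_iff_dvd' (Nat.one_le_pow _ _ hdpos)).1 hsq.symm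
    have h4 : d ^ 2 - 1 = (d - 1) * (d + 1) := by
      obtain ⟨e, he⟩ : ∃ e, d = e + 1 := ⟨d - 1, by omega⟩
      rw [he]
      simp only [Nat.add_sub_cancel]
      have : (e + 1) ^ 2 = e * (e + 1 + 1) + 1 := by ring
      omega
    rwa [h4] at h3
  have hdeq : d + 1 = p := by
    rcases (Nat.Prime.dvd_mul hp).1 hpd with h3 | h3
    · have := Nat.le_of_dvd (by omega) h3
      omega
    · have := Nat.le_of_dvd (by omega) h3
      omega
  have hnd : n = d := by omega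
  refine ⟨by omega, ?_, ?_⟩
  · obtain ⟨m, -, hm⟩ := (Nat.dvd_prime_pow hq).1 hdvd
    have hq2 : q = 2 := by
      by_contra hq2
      have hodd : Odd q := hq.odd_of_ne_two hq2
      have hdodd : Odd d := by rw [hm]; exact hodd.pow
      have heven : Even p := by rw [← hdeq]; exact hdodd.add_one
      have hp2 : p = 2 := (Nat.Prime.even_iff hp).1 heven
      omega
    exact ⟨m, by rw [hnd, hm, hq2]⟩
  · exact irr_of_full_con R hχ ξ hξ (by rw [hn, hnd])

end Main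

section Final

variable {G : Type u} [Group G] [Finite G]

/-- Sylow subgroups of small degree linear groups are abelian. -/
theorem sylow_comm_of_small [Fintype G] (χ : G → ℂ) (hχ : IsCharacter G χ)
    (hfaith : ∀ g : G, χ g = χ 1 → g = 1) {n : ℕ} (hn : charDegree χ = n) {p : ℕ} [hp : Fact p.Prime]
    (hnp : n + 1 ≤ p) (P : Sylow p G) :
    ∀ a ∈ (P : Subgroup G), ∀ b ∈ (P : Subgroup G), a * b = b * a := by
  classical
  intro a ha b hb
  haveI : Fintype (P : Subgroup G) := Fintype.ofFinite _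
  haveI : Fintype (IrrCharacter (P : Subgroup G)) := Fintype.ofFinite _
  have hπ : IsCharacter (P : Subgroup G) (fun r : (P : Subgroup G) => χ r) :=
    isCharacter_restrict _ hχ
  have hπ1 : (fun r : (P : Subgroup G) => χ r) 1 = (n : ℂ) := by
    simp only [Subgroup.coe_one]
    rw [one_eq_charDegree hχ, hn]
  have hlin : ∀ τ : IrrCharacter (P : Subgroup G), classInner (fun r : (P : Subgroup G) => χ r) τ.1 ≠ 0 →
      charDegree τ.1 = 1 := by
    intro τ hτ
    have h1 := deg_con_le hπ hπ1 τ hτ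
    have h2 : charDegree τ.1 ∣ Nat.card (P : Subgroup G) := Cfsg.Agent.H22.charDegree_dvd_card τ
    obtain ⟨e, he⟩ := IsPGroup.iff_card.1 P.2
    rw [he] at h2
    obtain ⟨m, -, hm⟩ := (Nat.dvd_prime_pow hp.out).1 h2
    rcases Nat.eq_zero_or_pos m with rfl | hm0
    · simpa using hm
    · exfalso
      have : p ≤ p ^ m := by
        calc p = p ^ 1 := (pow_one p).symm
          _ ≤ p ^ m := Nat.pow_le_pow_right hp.out.pos hm0
      omega
  have hw : (⟨a, ha⟩ * ⟨b, hb⟩ * (⟨a, ha⟩ : (P : Subgroup G))⁻¹ * (⟨b, hb⟩ : (P : Subgroup G))⁻¹ :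
      (P : Subgroup G)) ∈ commutator (P : Subgroup G) :=
    Subgroup.commutator_mem_commutator (Subgroup.mem_top _) (Subgroup.mem_top _)
  have h3 := char_comm_eq hπ hlin hw
  have h4 : χ (a * b * a⁻¹ * b⁻¹) = χ 1 := by simpa using h3
  have h5 := hfaith _ h4
  have h6 : a * b * a⁻¹ = b := by
    rwa [mul_inv_eq_one] at h5
  rwa [mul_inv_eq_iff_eq_mul] at h6

/-- The main theorem. -/
theorem main (χ : G → ℂ) (hχ : IsCharacter G χ) (hfaith : ∀ g : G, χ g = χ 1 → g = 1) (n : ℕ)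
    (hn : charDegree χ = n) (p : ℕ) (hp : p.Prime) (hsolv : IsPSolvable p G) (hnp : n + 1 ≤ p)
    (P : Sylow p G) (hP : ¬ (P : Subgroup G).Normal) :
    n + 1 = p ∧ (∃ k : ℕ, n = 2 ^ k) ∧ IsIrrCharacter G χ := by
  classical
  haveI : Fintype G := Fintype.ofFinite _
  haveI hpf : Fact p.Prime := ⟨hp⟩
  have hab := sylow_comm_of_small χ hχ hfaith hn hnp P
  obtain ⟨x, hx, y, hy, hxy⟩ := exists_noncomm hsolv P hab hP
  have hxk : ∃ k, x ^ p ^ k = 1 := by
    obtain ⟨k, hk⟩ := P.2 ⟨x, hx⟩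
    exact ⟨k, by simpa using congrArg Subtype.val hk⟩
  obtain ⟨q, hq, hqp, R₀, hR₀, h1, h2⟩ := exists_qgroup hxk hy hxy
  obtain ⟨k, hk⟩ := hxk
  exact main_aux χ hχ hfaith n hn hp hnp hk hq hqp R₀ hR₀ h1 h2

end Final

end Cfsg.Agent.H23.Crit
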