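import Cfsg.Agent.Lib.H23.DOLat

/-!
# The group algebra over a valuation subring: local idempotents
-/

set_option autoImplicit false
set_option linter.unusedSectionVars false
set_option linter.style.haveILetI false

namespace Cfsg.Agent.H23.DO

open Module Matrix Cfsg Cfsg.Agent.H22 Cfsg.Agent.H21
open scoped ComplexConjugate

variable {G : Type*} [Group G] [Finite G] {V : ValuationSubring ℂ}

/-- The coefficient function of an element of the group algebra. -/
noncomputable def cf (a : MonoidAlgebra V G) : G → ℂ := fun g => ((a.coeff g : V) : ℂ)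

theorem coeff_mul_eq (a b : MonoidAlgebra V G) (m : G) :
    (a * b).coeff m = ∑ g, a.coeff g * b.coeff (g⁻¹ * m) := by
  classical
  rw [MonoidAlgebra.coeff_mul, Finsupp.sum_fintype _ _ (by simp)]
  refine Finset.sum_congr rfl fun g _ => ?_
  rw [Finsupp.sum_fintype _ _ (by simp)]
  rw [Finset.sum_eq_single (g⁻¹ * m)]
  · simp
  · intro h _ hne
    rw [if_neg]
    intro h1
    apply hne
    rw [← h1]
    group
  · simp

theorem cf_mul (a b : MonoidAlgebra V G) : cf (a * b) = conv (cf a) (cf b) := by
  funext m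
  simp only [cf, conv, coeff_mul_eq]
  push_cast
  rfl

theorem cf_add (a b : MonoidAlgebra V G) : cf (a + b) = cf a + cf b := by
  funext m
  simp [cf]

theorem cf_sub (a b : MonoidAlgebra V G) : cf (a - b) = cf a - cf b := by
  have h := cf_add (a - b) b
  rw [sub_add_cancel] at h
  rw [h]
  simp

theorem cf_injective {a b : MonoidAlgebra V G} (h : cf a = cf b) : a = b := by
  apply MonoidAlgebra.ext
  ext g
  exact congrFun h g

theorem cf_one [DecidableEq G] (g : G) : cf (1 : MonoidAlgebra V G) g = if g = 1 then 1 else 0 := by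
  by_cases h : g = 1
  · subst h
    simp [cf]
  · rw [if_neg h]
    simp only [cf]
    rw [MonoidAlgebra.one_def, MonoidAlgebra.coeff_single_apply, if_neg (Ne.symm h)]
    rfl

/-- The element with given coefficients. -/
noncomputable def ofFn (f : G → V) : MonoidAlgebra V G :=
  MonoidAlgebra.ofCoeff (Finsupp.equivFunOnFinite.symm f)

theorem coeff_ofFn (f : G → V) (g : G) : (ofFn f).coeff g = f g := rfl

section Loc

variable {n : ℕ} {b : Fin n → (G → ℂ)} {R : G →* Matrix (Fin n) (Fin n) V} {u : Fin n → V}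
  {vc : Fin n → G → V} {r : G → ℂ}

/-- The reduction of the group algebra. -/
noncomputable abbrev phi : MonoidAlgebra V G →+* MonoidAlgebra (IsLocalRing.ResidueField V) G :=
  MonoidAlgebra.mapRingHom G (res V)

theorem coeff_phi (a : MonoidAlgebra V G) (g : G) : (phi a).coeff g = res V (a.coeff g) := rfl

/-- The action on the reduction. -/
noncomputable abbrev psi (R : G →* Matrix (Fin n) (Fin n) V) :
    MonoidAlgebra (IsLocalRing.ResidueField V) G →ₐ[IsLocalRing.ResidueField V]
      Module.End (IsLocalRing.ResidueField V) (Fin n → IsLocalRing.ResidueField V) :=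
  MonoidAlgebra.lift _ _ G (rb R)

theorem psi_phi (R : G →* Matrix (Fin n) (Fin n) V) (a : MonoidAlgebra V G) :
    psi R (phi a) = ∑ g, res V (a.coeff g) • rb R g := by
  rw [MonoidAlgebra.lift_apply, Finsupp.sum_fintype _ _ (by simp)]
  exact Finset.sum_congr rfl fun g _ => rfl

theorem phi_surjective : Function.Surjective (phi (V := V) (G := G)) := by
  intro c
  have h : ∀ g, ∃ v : V, res V v = c.coeff g := fun g => IsLocalRing.residue_surjective _
  choose f hf using h
  refine ⟨ofFn f, ?_⟩
  apply MonoidAlgebra.ext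
  ext g
  rw [coeff_phi, coeff_ofFn, hf]

theorem rb_mulVec_res (R : G →* Matrix (Fin n) (Fin n) V) (g : G) (u : Fin n → V) (c : Fin n) :
    (rb R g (fun a => res V (u a))) c = res V ((R g *ᵥ u) c) := by
  rw [rb_apply, RingHom.map_mulVec]
  rfl

theorem hloc_lattice (hli : LinearIndependent ℂ b)
    (hR : ∀ g a, Lt g (b a) = ∑ c, (((R g c a : V) : ℂ)) • b c)
    (hru : r = ∑ a, ((u a : V) : ℂ) • b a) (hb : ∀ a, b a = ∑ g, ((vc a g : V) : ℂ) • Lt g r)
    {ε : MonoidAlgebra V G} (hεε : ε * ε = ε)
    (hprim : ∀ d : MonoidAlgebra V G, d * d = d → ε * d = d → d * ε = d → d = 0 ∨ d = ε)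
    (hεr : conv (cf ε) r = r) :
    ∀ S T : Module.End (IsLocalRing.ResidueField V) (Fin n → IsLocalRing.ResidueField V),
      (∀ g, Commute (rb R g) S) → (∀ g, Commute (rb R g) T) →
        ∀ c : IsLocalRing.ResidueField V, c ≠ 0 → S + T = c • 1 → IsUnit S ∨ IsUnit T := by
  classical
  intro S T hS hT c hc hST
  have hLr : ∀ g, Lt g r = ∑ c, (((R g *ᵥ u) c : V) : ℂ) • b c := by
    intro g
    conv_lhs => rw [hru]
    rw [map_sum]
    simp only [map_smul, hR, Finset.smul_sum, smul_smul]
    rw [Finset.sum_comm]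
    refine Finset.sum_congr rfl fun c _ => ?_
    rw [← Finset.sum_smul]
    congr 1
    simp only [Matrix.mulVec, dotProduct]
    push_cast
    exact Finset.sum_congr rfl fun a _ => mul_comm _ _
  have key1 : ∀ a c, (if c = a then (1 : V) else 0) = ∑ g, vc a g * (R g *ᵥ u) c := by
    intro a c
    have h1 : ∑ i, (if i = a then (1 : ℂ) else 0) • b i =
        ∑ i, (∑ g, ((vc a g : V) : ℂ) * (((R g *ᵥ u) i : V) : ℂ)) • b i := by
      have h2 : ∑ i, (if i = a then (1 : ℂ) else 0) • b i = b a := by simp
      rw [h2]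
      conv_lhs => rw [hb a]
      simp only [hLr, Finset.smul_sum, Finset.sum_smul, smul_smul]
      rw [Finset.sum_comm]
    have h2 := congrFun (li_ext hli h1) c
    apply Subtype.ext
    rw [AddSubmonoidClass.coe_finset_sum]
    simp only [MulMemClass.coe_mul]
    rw [← h2]
    split_ifs <;> rfl
  have key2 : ∀ c, u c = ∑ g, ε.coeff g * (R g *ᵥ u) c := by
    intro c
    have h1 : ∑ i, ((u i : V) : ℂ) • b i =
        ∑ i, (∑ g, ((ε.coeff g : V) : ℂ) * (((R g *ᵥ u) i : V) : ℂ)) • b i := by
      rw [← hru]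
      conv_lhs => rw [← hεr, conv_eq_sum]
      simp only [hLr, Finset.smul_sum, Finset.sum_smul, smul_smul]
      rw [Finset.sum_comm]
      rfl
    have h2 := congrFun (li_ext hli h1) c
    apply Subtype.ext
    rw [AddSubmonoidClass.coe_finset_sum]
    simp only [MulMemClass.coe_mul]
    exact h2
  let ub : Fin n → IsLocalRing.ResidueField V := fun a => res V (u a)
  have hφ : ∀ c, phi (algebraMap V (MonoidAlgebra V G) c) =
      algebraMap (IsLocalRing.ResidueField V) (MonoidAlgebra (IsLocalRing.ResidueField V) G) (res V c) := by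
    intro c
    have := congrArg (fun f => f c) (MonoidAlgebra.mapRingHom_comp_algebraMap (M := G) (res V))
    exact this
  have hLocal := local_of_primitive phi hφ phi_surjective hεε hprim
  have hε' : (phi ε : MonoidAlgebra (IsLocalRing.ResidueField V) G) * phi ε = phi ε := by
    rw [← map_mul, hεε]
  have hu : psi R (phi ε) ub = ub := by
    funext c
    rw [psi_phi, LinearMap.sum_apply, Finset.sum_apply]
    simp only [LinearMap.smul_apply, Pi.smul_apply, smul_eq_mul]
    simp only [ub, rb_mulVec_res]
    simp only [← map_mul]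
    rw [← map_sum, ← key2 c]
  have hgen : ∀ w : Fin n → IsLocalRing.ResidueField V, ∃ c, w = psi R c ub := by
    intro w
    have h : ∀ a, ∃ v : V, res V v = w a := fun a => IsLocalRing.residue_surjective _
    choose wt hwt using h
    refine ⟨phi (ofFn fun g => ∑ a, wt a * vc a g), ?_⟩
    funext i
    rw [psi_phi, LinearMap.sum_apply, Finset.sum_apply]
    simp only [LinearMap.smul_apply, Pi.smul_apply, smul_eq_mul, coeff_ofFn]
    simp only [ub, rb_mulVec_res]
    simp only [← map_mul]
    rw [← map_sum]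
    have h2 : ∑ g, (∑ a, wt a * vc a g) * (R g *ᵥ u) i = wt i := by
      simp only [Finset.sum_mul]
      rw [Finset.sum_comm]
      simp only [mul_assoc]
      simp only [← Finset.mul_sum]
      simp only [← key1]
      simp
    rw [h2, hwt]
  have hcomm : ∀ {A : Module.End (IsLocalRing.ResidueField V) (Fin n → IsLocalRing.ResidueField V)},
      (∀ g, Commute (rb R g) A) → ∀ c, Commute (psi R c) A := by
    intro A hA c
    obtain ⟨a, rfl⟩ := phi_surjective c
    rw [psi_phi]
    exact Commute.sum_left _ _ _ fun g _ => (hA g).smul_left _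
  exact loc_of_local (psi R) hε' hLocal hu hgen (hcomm hS) (hcomm hT) hc hST

end Loc

/-! ## The functional attached to a class function and the existence of local idempotents -/

/-- The value of a function on an element of the group algebra. -/
noncomputable def chv (χ : G → ℂ) (c : G → ℂ) : ℂ := ∑ g, c g * χ g

/-- The matrix of right multiplication. -/
noncomputable def Dm (a : G → ℂ) : Matrix G G ℂ := Matrix.of fun k h => a (h⁻¹ * k)

section Dm

variable [DecidableEq G]

theorem Dm_mul (a b : G → ℂ) : Dm a * Dm b = Dm (conv b a) := by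
  ext k h
  simp only [Dm, Matrix.mul_apply, Matrix.of_apply, conv]
  refine Fintype.sum_equiv (Equiv.mulLeft h⁻¹) _ _ fun l => ?_
  simp only [Equiv.coe_mulLeft]
  rw [mul_comm]
  congr 2
  group

theorem Dm_trace (a : G → ℂ) : (Dm a).trace = (Fintype.card G : ℂ) * a 1 := by
  simp [Dm, Matrix.trace, Matrix.diag]

theorem Dm_rank (a : G → ℂ) (h : conv a a = a) : ((Dm a).rank : ℂ) = (Fintype.card G : ℂ) * a 1 := by
  rw [rank_eq_trace_of_idem _ (by rw [Dm_mul, h]), Dm_trace]

theorem eq_zero_of_Dm_rank {a : G → ℂ} (h : (Dm a).rank = 0) : a = 0 := by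
  have h1 : Dm a = 0 := by
    have h2 : (Dm a).mulVecLin = 0 := LinearMap.range_eq_bot.mp (Submodule.finrank_eq_zero.mp h)
    ext i j
    have := congrFun (congrArg (fun f => f (Pi.single j 1)) h2) i
    simpa using this
  funext g
  have := congrFun (congrFun h1 g) 1
  simpa [Dm] using this

end Dm

theorem exists_primitive (χ : G → ℂ) (hχ : χ 1 ≠ 0) :
    ∃ ε : MonoidAlgebra V G, ε * ε = ε ∧ chv χ (cf ε) ≠ 0 ∧
      ∀ d : MonoidAlgebra V G, d * d = d → ε * d = d → d * ε = d → d = 0 ∨ d = ε := by
  classical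
  let P : ℕ → Prop := fun n => ∃ a : MonoidAlgebra V G, a * a = a ∧ chv χ (cf a) ≠ 0 ∧ (Dm (cf a)).rank = n
  have hex : ∃ n, P n := by
    refine ⟨_, 1, one_mul 1, ?_, rfl⟩
    simp only [chv, cf_one]
    rw [Finset.sum_eq_single 1]
    · simpa using hχ
    · intro g _ hg
      simp [hg]
    · simp
  obtain ⟨ε, hεε, hχε, hr⟩ := Nat.find_spec hex
  refine ⟨ε, hεε, hχε, ?_⟩
  intro d hdd hεd hdε
  let d' := ε - d
  have hd'd' : d' * d' = d' := by
    simp only [d']
    rw [mul_sub, sub_mul, sub_mul, hεε, hεd, hdε, hdd, sub_self, sub_zero]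
  have hadd : ε = d + d' := by simp [d']
  have hcard : (Fintype.card G : ℂ) ≠ 0 := by
    exact_mod_cast Fintype.card_ne_zero
  have hrank : (Dm (cf ε)).rank = (Dm (cf d)).rank + (Dm (cf d')).rank := by
    have h1 := Dm_rank (cf ε) (by rw [← cf_mul, hεε])
    have h2 := Dm_rank (cf d) (by rw [← cf_mul, hdd])
    have h3 := Dm_rank (cf d') (by rw [← cf_mul, hd'd'])
    have h4 : cf ε 1 = cf d 1 + cf d' 1 := by
      conv_lhs => rw [hadd, cf_add]
      rfl
    have h5 : (((Dm (cf ε)).rank : ℕ) : ℂ) = (((Dm (cf d)).rank + (Dm (cf d')).rank : ℕ) : ℂ) := by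
      push_cast
      rw [h1, h2, h3, h4, mul_add]
    exact_mod_cast h5
  have hchv : chv χ (cf ε) = chv χ (cf d) + chv χ (cf d') := by
    conv_lhs => rw [hadd, cf_add]
    simp only [chv, Pi.add_apply, add_mul, Finset.sum_add_distrib]
  have hmin : ∀ a : MonoidAlgebra V G, a * a = a → chv χ (cf a) ≠ 0 →
      Nat.find hex ≤ (Dm (cf a)).rank := by
    intro a h1 h2
    exact Nat.find_min' hex ⟨a, h1, h2, rfl⟩
  by_cases hd0 : chv χ (cf d) = 0
  · left
    rw [hd0, zero_add] at hchv
    have h1 := hmin d' hd'd' (by rw [← hchv]; exact hχε)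
    have h2 : (Dm (cf d)).rank = 0 := by omega
    have h3 := eq_zero_of_Dm_rank h2
    apply cf_injective
    rw [h3]
    funext g
    simp [cf]
  · right
    have h1 := hmin d hdd hd0
    have h2 : (Dm (cf d')).rank = 0 := by omega
    have h3 := eq_zero_of_Dm_rank h2
    have h4 : d' = 0 := by
      apply cf_injective
      rw [h3]
      funext g
      simp [cf]
    exact (sub_eq_zero.mp h4).symm

/-- A trace of an idempotent operator is a natural number. -/
theorem trace_idem_nat {n : ℕ} (P : Module.End ℂ (Fin n → ℂ)) (hP : P * P = P) :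
    ∃ m : ℕ, LinearMap.trace ℂ _ P = m := by
  have h1 := rank_eq_trace_of_idem (LinearMap.toMatrix' P) (by
    rw [← LinearMap.toMatrix'_comp]
    exact congrArg _ hP)
  refine ⟨(LinearMap.toMatrix' P).rank, ?_⟩
  rw [LinearMap.trace_eq_matrix_trace ℂ (Pi.basisFun ℂ (Fin n)), LinearMap.toMatrix_eq_toMatrix', ← h1]

theorem chv_nat {χ : G → ℂ} (hχ : IsCharacter G χ) {c : G → ℂ} (hc : conv c c = c) :
    ∃ m : ℕ, chv χ c = m := by
  obtain ⟨n, ρ, rfl⟩ := hχ
  let P : Module.End ℂ (Fin n → ℂ) := ∑ g, c g • ρ g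
  have hP : P * P = P := by
    simp only [P]
    rw [Finset.sum_mul_sum]
    simp only [smul_mul_smul_comm, ← map_mul]
    have h1 : ∀ g, ∑ h, (c g * c h) • ρ (g * h) = ∑ h, (c g * c (g⁻¹ * h)) • ρ h := by
      intro g
      refine Fintype.sum_equiv (Equiv.mulLeft g) _ _ fun h => ?_
      simp
    simp only [h1]
    rw [Finset.sum_comm]
    refine Finset.sum_congr rfl fun h _ => ?_
    rw [← Finset.sum_smul]
    congr 1
    exact congrFun hc h
  obtain ⟨m, hm⟩ := trace_idem_nat P hP
  refine ⟨m, ?_⟩
  rw [← hm]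
  simp only [P, map_sum, map_smul, chv, smul_eq_mul]
  rfl

section Vanish

variable [DecidableEq G]

/-- The left regular representation over `V`. -/
noncomputable def Rr : G →* Matrix G G V where
  toFun g := Matrix.of fun k h => if k = g * h then 1 else 0
  map_one' := by
    ext k h
    simp [Matrix.one_apply]
  map_mul' a b := by
    ext k h
    simp only [Matrix.mul_apply, Matrix.of_apply]
    rw [Finset.sum_eq_single (b * h)]
    · simp [mul_assoc]
    · intro l _ hl
      simp [hl]
    · simp

/-- Right multiplication by `ε`. -/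
noncomputable def Em (ε : MonoidAlgebra V G) : Matrix G G V := Matrix.of fun k h => ε.coeff (h⁻¹ * k)

theorem Rr_mul_Em (ε : MonoidAlgebra V G) (g : G) : Rr g * Em ε = Em ε * Rr g := by
  apply Matrix.ext
  intro k h
  simp only [Rr, Em, MonoidHom.mk'_apply, Matrix.mul_apply, Matrix.of_apply]
  simp only [MonoidHom.coe_mk, OneHom.coe_mk, Matrix.of_apply]
  rw [Finset.sum_eq_single (g⁻¹ * k), Finset.sum_eq_single (g * h)]
  · simp [mul_assoc]
  · intro l _ hl
    simp [hl]
  · simp
  · intro l _ hl
    rw [if_neg, zero_mul]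
    intro h1
    apply hl
    rw [h1]
    group
  · simp

theorem Em_mul (ε : MonoidAlgebra V G) (hε : ε * ε = ε) : Em ε * Em ε = Em ε := by
  apply Matrix.ext
  intro k h
  simp only [Em, Matrix.mul_apply, Matrix.of_apply]
  conv_rhs => rw [← hε, coeff_mul_eq]
  refine Fintype.sum_equiv (Equiv.mulLeft h⁻¹) _ _ fun l => ?_
  simp only [Equiv.coe_mulLeft]
  rw [mul_comm]
  congr 2
  group

theorem psi_vanish {p : ℕ} [Fact p.Prime] (hV : (p : ℂ) ∈ V.nonunits) (ε : MonoidAlgebra V G)
    (hε : ε * ε = ε) {x y : G} (hx : orderOf x = p) (hxy : x * y = y * x) (hy : Nat.Coprime (orderOf y) p) :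
    ∑ h, cf ε (h⁻¹ * (x * y)⁻¹ * h) = 0 := by
  classical
  haveI : CharP (IsLocalRing.ResidueField V) p := charP_res Fact.out hV
  have hpp : p.Prime := Fact.out
  obtain ⟨dinv, hdinv⟩ := exists_val_inv hV hy
  obtain ⟨ξ, hξ⟩ := exists_primitive_val (V := V) (orderOf y) (orderOf_pos y)
  obtain ⟨ω, hω⟩ := exists_primitive_val (V := V) p hpp.pos
  have hxp : x ^ p = 1 := by rw [← hx]; exact pow_orderOf_eq_one x
  have hAp : (Rr x : Matrix G G V) ^ p = 1 := by rw [← map_pow, hxp, map_one]
  have hYd : (Rr y : Matrix G G V) ^ orderOf y = 1 := by rw [← map_pow, pow_orderOf_eq_one, map_one]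
  have hAY : Commute (Rr x : Matrix G G V) (Rr y) := by
    simp only [Commute, SemiconjBy]
    rw [← map_mul, ← map_mul, hxy]
  have hAe : Commute (Rr x : Matrix G G V) (Em ε) := Rr_mul_Em ε x
  have hYe : Commute (Rr y : Matrix G G V) (Em ε) := Rr_mul_Em ε y
  have hee := Em_mul ε hε
  have h0 := van hV hAp hYd (orderOf_pos y) hdinv hξ hω hAY hAe hYe hee ?_
  · rw [← map_mul] at h0
    have h1 : (cm (Rr (x * y) * Em ε)).trace = ∑ h, cf ε (h⁻¹ * (x * y)⁻¹ * h) := by
      simp only [Matrix.trace, Matrix.diag]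
      refine Finset.sum_congr rfl fun k _ => ?_
      simp only [cm, RingHom.mapMatrix_apply, Matrix.map_apply, Matrix.mul_apply]
      simp only [Rr, Em, MonoidHom.coe_mk, OneHom.coe_mk, Matrix.of_apply]
      rw [map_sum, Finset.sum_eq_single ((x * y)⁻¹ * k)]
      · simp [cf, mul_assoc]
      · intro l _ hl
        rw [if_neg, zero_mul, map_zero]
        intro h2
        apply hl
        rw [h2]
        group
      · simp
    rw [← h1]
    exact h0
  · intro w h1 h2
    -- the action of `x` on delta functions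
    let T : Module.End (IsLocalRing.ResidueField V) (G → IsLocalRing.ResidueField V) :=
      Matrix.toLinAlgEquiv' (rm (Rr x : Matrix G G V))
    have hT : ∀ v, T v = rm (Rr x : Matrix G G V) *ᵥ v := fun v => by
      simp only [T]
      rw [Matrix.toLinAlgEquiv'_apply]
    have hTv : ∀ (v : G → IsLocalRing.ResidueField V) (k : G), T v k = v (x⁻¹ * k) := by
      intro v k
      rw [hT]
      simp only [Matrix.mulVec, dotProduct, RingHom.mapMatrix_apply, Matrix.map_apply]
      simp only [Rr, MonoidHom.coe_mk, OneHom.coe_mk, Matrix.of_apply]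
      rw [Finset.sum_eq_single (x⁻¹ * k)]
      · simp
      · intro l _ hl
        rw [if_neg]
        · simp
        · intro h3
          apply hl
          rw [h3]
          group
      · simp
    have hwx : ∀ k, w (x * k) = w k := by
      intro k
      have h3 := congrFun h1 (x * k)
      rw [← hT, hTv] at h3
      simpa using h3.symm
    let f : G → (G → IsLocalRing.ResidueField V) := fun h => w h • (fun k => if k = h then 1 else 0)
    have hf : ∀ a, f (x * a) = T (f a) := by
      intro a
      funext k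
      rw [hTv]
      simp only [f, Pi.smul_apply, smul_eq_mul, hwx]
      congr 1
      by_cases hk : k = x * a
      · subst hk
        simp
      · rw [if_neg hk, if_neg]
        intro h3
        apply hk
        rw [← h3]
        group
    have hsum : ∑ a, f a = w := by
      funext k
      simp [f, Finset.sum_apply]
    have hx1 : x ≠ 1 := by
      intro h3
      rw [h3, orderOf_one] at hx
      exact hpp.one_lt.ne hx
    have hr := sum_free_mem_range hpp (fun a : G => x * a)
      (fun a => by
        have h3 : ∀ j : ℕ, (fun a : G => x * a)^[j] a = x ^ j * a := by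
          intro j
          induction j with
          | zero => simp
          | succ j ih =>
            rw [Function.iterate_succ_apply', ih, pow_succ', mul_assoc]
        rw [h3, hxp, one_mul])
      T f hf Finset.univ (fun _ _ => Finset.mem_univ _)
      (fun a _ h3 => hx1 (by simpa using h3))
    rw [hsum] at hr
    obtain ⟨u₀, hu₀⟩ := hr
    refine ⟨u₀, ?_⟩
    have h4 : ∀ v, (∑ i ∈ Finset.range p, T ^ i) v = nrmM (rm (Rr x : Matrix G G V)) p *ᵥ v := by
      intro v
      simp only [nrmM, T]
      rw [LinearMap.sum_apply, Matrix.sum_mulVec]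
      refine Finset.sum_congr rfl fun i _ => ?_
      rw [← map_pow, Matrix.toLinAlgEquiv'_apply]
    rw [h4] at hu₀
    have h5 : Commute (rm (Em ε)) (nrmM (rm (Rr x : Matrix G G V)) p) := by
      have : Commute (rm (Em ε)) (rm (Rr x : Matrix G G V)) := (hAe.symm).map rm
      exact Commute.sum_right _ _ _ fun i _ => this.pow_right i
    calc w = rm (Em ε) *ᵥ w := h2.symm
      _ = rm (Em ε) *ᵥ (nrmM (rm (Rr x : Matrix G G V)) p *ᵥ u₀) := by rw [hu₀]
      _ = _ := by rw [Matrix.mulVec_mulVec, h5.eq]

end Vanish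

end Cfsg.Agent.H23.DO
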