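import Cfsg.Agent.Lib.H23.DORow3
import Cfsg.Agent.Lib.H22.DefectZero
import Cfsg.Agent.Lib.H21.RealBlock
import Cfsg.Agent.Lib.H21.Second5
import Cfsg.Agent.Lib.H22.PiKer

/-!
# Membership in the principal block
-/

set_option autoImplicit false
set_option linter.unusedSectionVars false
set_option linter.style.haveILetI false

namespace Cfsg.Agent.H23.DO

open Module Matrix Cfsg Cfsg.Agent.H22 Cfsg.Agent.H21
open scoped ComplexConjugate

universe u

variable {G : Type u} [Group G] [Finite G] {p : ℕ} [Fact p.Prime] (D : DS G p) {M : Ideal AlgInt}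

theorem not_dvd_index_of_comm (hsq : ¬ p ^ 2 ∣ Nat.card G) {y : G} (hxy : D.x * y = y * D.x) :
    ¬ p ∣ (Subgroup.centralizer ({y} : Set G)).index := by
  intro h
  apply hsq
  have h1 : D.x ∈ Subgroup.centralizer ({y} : Set G) := by
    rw [Subgroup.mem_centralizer_iff]
    intro w hw
    have hw' : w = y := hw
    rw [hw']
    exact hxy.symm
  have h2 : p ∣ Nat.card (Subgroup.centralizer ({y} : Set G)) := by
    have := Subgroup.orderOf_dvd_natCard _ h1
    rwa [D.hx] at this
  rw [← Subgroup.card_mul_index (Subgroup.centralizer ({y} : Set G)), pow_two]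
  exact mul_dvd_mul h2 h

theorem centralChar_one (g : G) :
    centralChar (fun _ : G => (1 : ℂ)) g = ((Subgroup.centralizer ({g} : Set G)).index : ℂ) := by
  simp [centralChar]

include D in
theorem block_of_values (hM : IsPModular p M) (hsq : ¬ p ^ 2 ∣ Nat.card G) (χ : IrrCharacter G)
    (hCdec : ∀ z : G, z * D.x = D.x * z → ∃ (n : ℕ) (y : G), y ∈ D.K ∧ z = D.x ^ n * y)
    (hconj : ∀ w : G, orderOf w = p → ∃ (b : G) (n : ℕ), b * w * b⁻¹ = D.x ^ n)
    (hC : ∀ n : ℕ, Nat.Coprime n p → ∀ y ∈ D.K, χ.1 (D.x ^ n * y) = χ.1 (D.x ^ n))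
    (hdeg : ¬ p ∣ charDegree χ.1) : χ ∈ principalBlock M G := by
  classical
  haveI hMp : M.IsPrime := hM.2.1.isPrime
  have hpp : p.Prime := Fact.out
  have hχ : IsCharacter G χ.1 := isCharacter_of_irr χ.2
  have h1eq : χ.1 1 = (charDegree χ.1 : ℂ) := one_eq_charDegree hχ
  have hinv : MemLocalRing M (χ.1 1)⁻¹ := by
    rw [h1eq]
    exact mlr_inv_natCast hM hdeg
  have hne := irr_one_ne_zero' χ
  intro g
  rw [centralChar_one]
  simp only [centralChar]
  have hrw : ((Subgroup.centralizer ({g} : Set G)).index : ℂ) -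
      ((Subgroup.centralizer ({g} : Set G)).index : ℂ) * χ.1 g / χ.1 1 =
      ((Subgroup.centralizer ({g} : Set G)).index : ℂ) * (χ.1 1 - χ.1 g) * (χ.1 1)⁻¹ := by
    field_simp
  rw [hrw]
  by_cases hg : p ∣ (Subgroup.centralizer ({g} : Set G)).index
  · refine mli_mul_right (mli_mul_right (mli_natCast_of_dvd hM hg) ?_) hinv
    exact mlr_sub (mlr_of_isIntegral (irr_isIntegral' χ _)) (mlr_of_isIntegral (irr_isIntegral' χ _))
  · -- `g` is conjugate into the centralizer of `x`
    have hpC : p ∣ Nat.card (Subgroup.centralizer ({g} : Set G)) := by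
      have h1 : p ∣ Nat.card G := by
        have := orderOf_dvd_natCard D.x
        rwa [D.hx] at this
      rw [← Subgroup.card_mul_index (Subgroup.centralizer ({g} : Set G))] at h1
      exact (hpp.dvd_mul.mp h1).resolve_right hg
    haveI : Fact p.Prime := ⟨hpp⟩
    obtain ⟨w, hw⟩ := exists_prime_orderOf_dvd_card' p hpC
    have hw' : orderOf (w : G) = p := by
      rw [Subgroup.orderOf_coe]
      exact hw
    obtain ⟨b, n, hb⟩ := hconj _ hw'
    have hcomm : (w : G) * g = g * (w : G) := by
      have := Subgroup.mem_centralizer_iff.mp w.2 g rfl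
      exact this.symm
    have hn : Nat.Coprime n p := by
      rw [Nat.coprime_comm, hpp.coprime_iff_not_dvd]
      rintro ⟨k, rfl⟩
      have h2 : D.x ^ (p * k) = 1 := by rw [pow_mul, D.x_pow, one_pow]
      rw [h2] at hb
      have h3 : (w : G) = 1 := by
        have h4 : b * (w : G) = b := mul_inv_eq_one.mp hb
        exact mul_left_cancel (h4.trans (mul_one b).symm)
      rw [h3, orderOf_one] at hw'
      exact hpp.one_lt.ne hw'
    obtain ⟨r, _, hr⟩ := Nat.exists_mul_mod_eq_one_of_coprime hn hpp.one_lt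
    have hxr : (D.x ^ n) ^ r = D.x := by
      rw [← pow_mul]
      have := pow_mod_orderOf D.x (n * r)
      rw [D.hx, hr, pow_one] at this
      exact this.symm
    let g' := b * g * b⁻¹
    have hg'n : g' * D.x ^ n = D.x ^ n * g' := by
      simp only [g']
      rw [← hb]
      calc b * g * b⁻¹ * (b * (w : G) * b⁻¹) = b * (g * (w : G)) * b⁻¹ := by group
        _ = b * ((w : G) * g) * b⁻¹ := by rw [hcomm]
        _ = _ := by group
    have hg'x : g' * D.x = D.x * g' := by
      have h5 : Commute g' (D.x ^ n) := hg'n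
      have h6 := h5.pow_right r
      rw [hxr] at h6
      exact h6
    obtain ⟨m, y, hy, hz⟩ := hCdec g' hg'x
    have hgval : χ.1 g = χ.1 (D.x ^ m * y) := by
      rw [← hz]
      exact (H22.isCharacter_conj hχ g b).symm
    -- congruences
    have hpow : ∀ {m' : ℕ} {y' : G}, y' ∈ D.K → MemLocalIdeal M (χ.1 (D.x ^ m' * y') - χ.1 y') := by
      intro m' y' hy'
      by_cases hm : p ∣ m'
      · obtain ⟨k, rfl⟩ := hm
        rw [pow_mul, D.x_pow, one_pow, one_mul, sub_self]
        exact mli_zero
      · have hcop : Nat.Coprime m' p := by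
          rw [Nat.coprime_comm, hpp.coprime_iff_not_dvd]
          exact hm
        have hord : orderOf (D.x ^ m') = p ^ 1 := by
          rw [pow_one, Nat.Coprime.orderOf_pow (by rw [D.hx]; exact hcop.symm), D.hx]
        have hc : Commute (D.x ^ m') y' := (show Commute D.x y' from D.hxK y' hy').pow_left m'
        exact char_mul_pElement_congr hM hχ hc hord
    have hy1 : MemLocalIdeal M (χ.1 y - χ.1 1) := by
      have h7 : MemLocalIdeal M (χ.1 (D.x ^ 1 * y) - χ.1 y) := hpow hy
      have h8 : MemLocalIdeal M (χ.1 (D.x ^ 1 * 1) - χ.1 1) := hpow D.K.one_mem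
      have h9 := hC 1 (Nat.coprime_one_left p) y hy
      have h10 : χ.1 (D.x ^ 1 * 1) = χ.1 (D.x ^ 1) := by rw [mul_one]
      rw [h9] at h7
      rw [h10] at h8
      have h11 := mli_sub h8 h7
      have h12 : χ.1 (D.x ^ 1) - χ.1 1 - (χ.1 (D.x ^ 1) - χ.1 y) = χ.1 y - χ.1 1 := by ring
      rwa [h12] at h11
    have hfin : MemLocalIdeal M (χ.1 1 - χ.1 g) := by
      rw [hgval]
      have h13 := mli_add (hpow (m' := m) hy) hy1
      have h14 : χ.1 (D.x ^ m * y) - χ.1 y + (χ.1 y - χ.1 1) = -(χ.1 1 - χ.1 (D.x ^ m * y)) := by ring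
      rw [h14] at h13
      have h15 := mli_neg h13
      rwa [neg_neg] at h15
    have h16 := mli_mul_left hfin (mlr_natCast (M := M) (Subgroup.centralizer ({g} : Set G)).index)
    exact mli_mul_right h16 hinv

theorem row_of_block (hM : IsPModular p M) (hsq : ¬ p ^ 2 ∣ Nat.card G) (χ : IrrCharacter G)
    (hB : χ ∈ principalBlock M G) : ∃ u : (ZMod p)ˣ, cR D (u : ZMod p) χ ≠ 0 := by
  classical
  by_contra hall
  push Not at hall
  haveI hMp : M.IsPrime := hM.2.1.isPrime
  have hpp : p.Prime := Fact.out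
  have hχ : IsCharacter G χ.1 := isCharacter_of_irr χ.2
  have hB' : ∀ g, MemLocalIdeal M (centralChar (fun _ : G => (1 : ℂ)) g - centralChar χ.1 g) := hB
  have hne := irr_one_ne_zero' χ
  have h1eq : χ.1 1 = (charDegree χ.1 : ℂ) := one_eq_charDegree hχ
  by_cases hdeg : p ∣ charDegree χ.1
  · -- defect zero
    have hd : ¬ p ∣ Nat.card G / charDegree χ.1 := by
      intro h
      apply hsq
      have h2 : charDegree χ.1 ∣ Nat.card G := charDegree_dvd_card χ
      rw [← Nat.mul_div_cancel' h2, pow_two]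
      exact mul_dvd_mul hdeg h
    have h0 := irr_eq_zero_of_defect_zero hM χ hd (y := D.x) (by rw [D.hx])
    have h2 := hB' D.x
    rw [centralChar_one] at h2
    simp only [centralChar, h0, mul_zero, zero_div, sub_zero] at h2
    have h3 := (mli_natCast_iff hM _).mp h2
    exact not_dvd_index_of_comm D hsq rfl h3
  · have hy : ∀ y ∈ D.K, MemLocalIdeal M (χ.1 1 - χ.1 y) := by
      intro y hy
      have h2 := hB' y
      rw [centralChar_one] at h2
      simp only [centralChar] at h2
      have hidx : ¬ p ∣ (Subgroup.centralizer ({y} : Set G)).index :=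
        not_dvd_index_of_comm D hsq (D.hxK y hy)
      have hu := mlr_inv_natCast (M := M) hM hidx
      have hidx0 : ((Subgroup.centralizer ({y} : Set G)).index : ℂ) ≠ 0 := by
        exact_mod_cast (Subgroup.index_ne_zero_of_finite)
      have h3 := mli_mul_right h2 hu
      have h4 := mli_mul_right h3 (mlr_of_isIntegral (irr_isIntegral' χ 1))
      have h5 : (((Subgroup.centralizer ({y} : Set G)).index : ℂ) -
          ((Subgroup.centralizer ({y} : Set G)).index : ℂ) * χ.1 y / χ.1 1) *
          ((Subgroup.centralizer ({y} : Set G)).index : ℂ)⁻¹ * χ.1 1 = χ.1 1 - χ.1 y := by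
        field_simp
      rwa [h5] at h4
    -- the sum over `K`
    have hK0 : ((Fintype.card D.K : ℕ) : ℂ) ≠ 0 := by exact_mod_cast Fintype.card_ne_zero
    have hfou := fourier D χ.1 (n := 0) hpp.pos
    rw [sum_zmod_split] at hfou
    simp only [pow_zero, one_mul, Nat.cast_zero, mul_zero, ps_zero, mul_one] at hfou
    have hmu : ∀ u : (ZMod p)ˣ, mu D χ.1 (u : ZMod p) = mu D χ.1 0 := by
      intro u
      have h2 := cR_cast D (u : ZMod p) χ
      rw [hall u] at h2
      simp only [Int.cast_zero] at h2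
      exact (sub_eq_zero.mp h2.symm).symm
    simp only [hmu, Finset.sum_const, Finset.card_univ, nsmul_eq_mul] at hfou
    have hcardU : (Fintype.card (ZMod p)ˣ : ℂ) = (p : ℂ) - 1 := by
      have hc : Fintype.card (ZMod p)ˣ = p - 1 := by convert ZMod.card_units p
      rw [hc, Nat.cast_sub hpp.one_lt.le]
      simp
    rw [hcardU, ← mN_spec] at hfou
    have hsum : ∑ y : D.K, χ.1 (y : G) = ((Fintype.card D.K : ℕ) : ℂ) * ((p : ℂ) * mN D χ 0) := by
      field_simp at hfou
      rw [hfou]
      ring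
    have h6 : MemLocalIdeal M (∑ y : D.K, (χ.1 1 - χ.1 (y : G))) :=
      mli_sum _ _ fun y _ => hy y y.2
    rw [Finset.sum_sub_distrib, hsum] at h6
    simp only [Finset.sum_const, Finset.card_univ, nsmul_eq_mul] at h6
    have hpI : MemLocalIdeal M ((p : ℂ)) := mli_natCast_of_dvd hM (dvd_refl p)
    have h7 : MemLocalIdeal M (((Fintype.card D.K : ℕ) : ℂ) * ((p : ℂ) * mN D χ 0)) := by
      exact mli_mul_left (mli_mul_right hpI (mlr_natCast (M := M) (mN D χ 0))) (mlr_natCast (M := M) (Fintype.card D.K))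
    have h9 := mli_add h6 h7
    rw [sub_add_cancel, h1eq] at h9
    have h10 : ((Fintype.card D.K : ℕ) : ℂ) * (charDegree χ.1 : ℂ) = ((Fintype.card D.K * charDegree χ.1 : ℕ) : ℂ) := by
      push_cast
      ring
    rw [h10, mli_natCast_iff hM] at h9
    rcases hpp.dvd_mul.mp h9 with h11 | h11
    · rw [← Nat.card_eq_fintype_card] at h11
      have := Nat.Coprime.eq_one_of_dvd D.hKp.symm h11
      exact hpp.one_lt.ne this.symm
    · exact hdeg h11

end Cfsg.Agent.H23.DO
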