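import Cfsg.Agent.Lib.H23.DORank
import Cfsg.Agent.Lib.H23.DOGreen

/-!
# Vanishing of traces, and the reduction of a local representation
-/

set_option autoImplicit false
set_option linter.unusedSectionVars false
set_option linter.style.haveILetI false

namespace Cfsg.Agent.H23.DO

open Module Matrix

section Van

variable {V : ValuationSubring ℂ} {ι : Type*} [Fintype ι] [DecidableEq ι]

theorem finrank_span_zero_aux {k U : Type*} [Field k] [AddCommGroup U] [Module k U] :
    finrank k (Submodule.span k ({0} : Set U)) = 0 := by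
  rw [Submodule.span_singleton_eq_bot.mpr rfl]
  exact finrank_bot _ _

theorem trace_zero_of_HT {p : ℕ} [Fact p.Prime] (hV : (p : ℂ) ∈ V.nonunits) {A e : Matrix ι ι V}
    (hAp : A ^ p = 1) (hAe : Commute A e) (hee : e * e = e) {ω : V} (hω : IsPrimitiveRoot (ω : ℂ) p)
    (HT : ∀ w, rm A *ᵥ w = w → rm e *ᵥ w = w → ∃ u, w = (nrmM (rm A) p * rm e) *ᵥ u) :
    (cm (A * e)).trace = 0 := by
  have hωp : ω ^ p = 1 := by
    apply Subtype.ext
    have := hω.pow_eq_one
    simpa using this
  have hpow : ∀ l : ℕ, (ω ^ l) ^ p = 1 := fun l => by rw [← pow_mul, mul_comm, pow_mul, hωp, one_pow]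
  have hz : ∀ w, rm A *ᵥ w = w → rm e *ᵥ w = w →
      ∃ (c : IsLocalRing.ResidueField V) (u : ι → IsLocalRing.ResidueField V),
        w = c • (0 : ι → IsLocalRing.ResidueField V) + (nrmM (rm A) p * rm e) *ᵥ u := by
    intro w h1 h2
    obtain ⟨u, hu⟩ := HT w h1 h2
    exact ⟨0, u, by simpa using hu⟩
  have h : ∀ l, (cm (Yy A e (ω ^ l) p)).rank = (cm (Yy A e (ω ^ 0) p)).rank := by
    intro l
    apply le_antisymm
    · have := ri_bound hV hAp hAe hee (hpow l) (hpow 0) 0 hz
      rwa [finrank_span_zero_aux, add_zero] at this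
    · have := ri_bound hV hAp hAe hee (hpow 0) (hpow l) 0 hz
      rwa [finrank_span_zero_aux, add_zero] at this
  exact trace_zero_of_equal_ranks hAp hAe hee hω _ h

theorem van {p d : ℕ} [Fact p.Prime] (hV : (p : ℂ) ∈ V.nonunits) {A Y e : Matrix ι ι V}
    (hAp : A ^ p = 1) (hYd : Y ^ d = 1) (hd : 0 < d) {dinv : V} (hdinv : dinv * (d : V) = 1)
    {ξ ω : V} (hξ : IsPrimitiveRoot (ξ : ℂ) d) (hω : IsPrimitiveRoot (ω : ℂ) p)
    (hAY : Commute A Y) (hAe : Commute A e) (hYe : Commute Y e) (hee : e * e = e)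
    (HT : ∀ w, rm A *ᵥ w = w → rm e *ᵥ w = w → ∃ u, w = (nrmM (rm A) p * rm e) *ᵥ u) :
    (cm (A * Y * e)).trace = 0 := by
  have hξd : ξ ^ d = 1 := by
    apply Subtype.ext
    have := hξ.pow_eq_one
    simpa using this
  -- the inverse root
  let ξ' : V := ξ ^ (d - 1)
  have hξξ' : ξ * ξ' = 1 := by
    simp only [ξ']
    rw [← pow_succ', Nat.sub_add_cancel hd, hξd]
  have hξ'd : ξ' ^ d = 1 := by
    simp only [ξ']
    rw [← pow_mul, mul_comm, pow_mul, hξd, one_pow]
  have hξ'p : IsPrimitiveRoot ((ξ' : V) : ℂ) d := by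
    have h1 : ((ξ' : V) : ℂ) = (ξ : ℂ) ^ (d - 1) := by
      simp only [ξ']
      push_cast
      rfl
    rw [h1]
    apply hξ.pow_of_coprime
    have : Nat.Coprime d (d - 1) := by
      have h2 : Nat.Coprime (d - 1 + 1) (d - 1) := by simp
      rwa [Nat.sub_add_cancel hd] at h2
    exact this.symm
  let T : ℕ → Matrix ι ι V := fun j => (ξ' ^ j) • Y
  have hTd : ∀ j, T j ^ d = 1 := by
    intro j
    simp only [T]
    rw [_root_.smul_pow, hYd, ← pow_mul, mul_comm, pow_mul, hξ'd, one_pow, one_smul]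
  let S : ℕ → Matrix ι ι V := fun j => ∑ i ∈ Finset.range d, T j ^ i
  let E : ℕ → Matrix ι ι V := fun j => dinv • S j
  have hEE : ∀ j, E j * E j = E j := by
    intro j
    simp only [E]
    rw [smul_mul_smul_comm, geom_sq (hTd j)]
    rw [← Nat.cast_smul_eq_nsmul V d, smul_smul]
    congr 1
    rw [mul_assoc, hdinv, mul_one]
  have hYS : ∀ j, Y * S j = (ξ ^ j) • S j := by
    intro j
    have h1 : T j * S j = S j := geom_mul_self (hTd j)
    have h2 : Y = (ξ ^ j) • T j := by
      simp only [T]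
      rw [smul_smul, ← mul_pow, hξξ', one_pow, one_smul]
    conv_lhs => rw [h2]
    rw [smul_mul_assoc, h1]
  have hYE : ∀ j, Y * E j = (ξ ^ j) • E j := by
    intro j
    simp only [E]
    rw [mul_smul_comm, hYS, smul_comm]
  have hS1 : ∑ j ∈ Finset.range d, E j = 1 := by
    simp only [E, S, T, _root_.smul_pow]
    rw [← Finset.smul_sum, Finset.sum_comm]
    have h1 : ∀ i ∈ Finset.range d, ∑ j ∈ Finset.range d, ((ξ' ^ j) ^ i) • Y ^ i =
        if i = 0 then (d : V) • (1 : Matrix ι ι V) else 0 := by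
      intro i hi
      rw [← Finset.sum_smul]
      split_ifs with h0
      · subst h0
        simp
      · have h2 : ∑ j ∈ Finset.range d, (ξ' ^ j) ^ i = 0 := by
          have h3 : ∀ j, (ξ' ^ j) ^ i = (ξ' ^ i) ^ j := fun j => pow_right_comm _ _ _
          simp only [h3]
          have h4 : (ξ' ^ i - 1) * ∑ j ∈ Finset.range d, (ξ' ^ i) ^ j = 0 := by
            rw [mul_comm, geom_sum_mul, ← pow_mul, mul_comm, pow_mul, hξ'd, one_pow, sub_self]
          have h5 : ξ' ^ i - 1 ≠ 0 := by
            intro h6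
            have h7 : ξ' ^ i = 1 := sub_eq_zero.mp h6
            have h8 : ((ξ' : V) : ℂ) ^ i = 1 := by
              have := congrArg (fun z : V => (z : ℂ)) h7
              simpa using this
            exact hξ'p.pow_ne_one_of_pos_of_lt h0 (Finset.mem_range.mp hi) h8
          exact (mul_eq_zero.mp h4).resolve_left h5
        rw [h2, zero_smul]
    rw [Finset.sum_congr rfl h1, Finset.sum_ite_eq' (Finset.range d) 0, if_pos (Finset.mem_range.mpr hd),
      smul_smul, hdinv, one_smul]
  have hAE : ∀ j, Commute A (E j) := by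
    intro j
    simp only [E, S, T]
    apply Commute.smul_right
    apply Commute.sum_right
    intro i _
    apply Commute.pow_right
    exact hAY.smul_right _
  have heE : ∀ j, Commute e (E j) := by
    intro j
    simp only [E, S, T]
    apply Commute.smul_right
    apply Commute.sum_right
    intro i _
    apply Commute.pow_right
    exact hYe.symm.smul_right _
  let f : ℕ → Matrix ι ι V := fun j => E j * e
  have hff : ∀ j, f j * f j = f j := by
    intro j
    simp only [f]
    calc E j * e * (E j * e) = E j * E j * (e * e) := by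
          rw [mul_assoc, ← mul_assoc e, (heE j).eq, mul_assoc, ← mul_assoc]
      _ = E j * e := by rw [hEE, hee]
  have hAf : ∀ j, Commute A (f j) := fun j => (hAE j).mul_right hAe
  have hzero : ∀ j, (cm (A * f j)).trace = 0 := by
    intro j
    refine trace_zero_of_HT hV hAp (hAf j) (hff j) hω ?_
    intro w h1 h2
    have hef : e * f j = f j := by
      simp only [f]
      rw [← mul_assoc, (heE j).eq, mul_assoc, hee]
    have h3 : rm e *ᵥ w = w := by
      rw [← h2, Matrix.mulVec_mulVec, ← map_mul, hef]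
    obtain ⟨u, hu⟩ := HT w h1 h3
    refine ⟨u, ?_⟩
    have hcomm : Commute (rm (f j)) (nrmM (rm A) p) := by
      have : Commute (rm (f j)) (rm A) := ((hAf j).symm).map rm
      exact Commute.sum_right _ _ _ fun i _ => this.pow_right i
    calc w = rm (f j) *ᵥ w := h2.symm
      _ = rm (f j) *ᵥ ((nrmM (rm A) p * rm e) *ᵥ u) := by rw [← hu]
      _ = (nrmM (rm A) p * (rm (f j) * rm e)) *ᵥ u := by
          rw [Matrix.mulVec_mulVec, ← mul_assoc, hcomm.eq, mul_assoc]
      _ = (nrmM (rm A) p * rm (f j)) *ᵥ u := by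
          congr 2
          rw [← map_mul]
          simp only [f]
          rw [mul_assoc, hee]
  have hY : Y = ∑ j ∈ Finset.range d, (ξ ^ j) • E j := by
    calc Y = Y * ∑ j ∈ Finset.range d, E j := by rw [hS1, mul_one]
      _ = ∑ j ∈ Finset.range d, (ξ ^ j) • E j := by
          rw [Finset.mul_sum]
          exact Finset.sum_congr rfl fun j _ => hYE j
  have h2 : A * Y * e = ∑ j ∈ Finset.range d, (ξ ^ j) • (A * f j) := by
    conv_lhs => rw [hY]
    rw [Finset.mul_sum, Finset.sum_mul]
    refine Finset.sum_congr rfl fun j _ => ?_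
    simp only [f]
    rw [mul_smul_comm, smul_mul_assoc, mul_assoc]
  rw [h2, map_sum, Matrix.trace_sum]
  refine Finset.sum_eq_zero fun j _ => ?_
  rw [cm_smul, Matrix.trace_smul, hzero, smul_zero]

end Van

/-! ## The data attached to a Sylow subgroup of prime order -/

/-- The data: `x` of order `p`, the normal `p`-complement `K` of `C(x)`, and `τ`. -/
structure DS (G : Type*) [Group G] (p : ℕ) where
  x : G
  K : Subgroup G
  τ : G
  s : ℕ
  e : ℕ
  hx : orderOf x = p
  hxK : ∀ y ∈ K, x * y = y * x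
  hKN : ∀ n ∈ Subgroup.normalizer ((Subgroup.zpowers x : Subgroup G) : Set G), ∀ y ∈ K, n * y * n⁻¹ ∈ K
  hNdec : ∀ n ∈ Subgroup.normalizer ((Subgroup.zpowers x : Subgroup G) : Set G),
    ∃ (i j : ℕ) (y : G), y ∈ K ∧ n = τ ^ i * x ^ j * y
  hτ : τ * x * τ⁻¹ = x ^ s
  hs : Nat.Coprime s p
  he : 0 < e
  hep : Nat.Coprime e p
  hτe : τ ^ e ∈ K
  hKp : Nat.Coprime (Nat.card K) p

section Core

variable {V : ValuationSubring ℂ} {ι : Type*} [Fintype ι] [DecidableEq ι]

theorem exists_val_inv {p n : ℕ} [Fact p.Prime] (hV : (p : ℂ) ∈ V.nonunits) (hn : Nat.Coprime n p) :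
    ∃ c : V, c * (n : V) = 1 := by
  have hu : IsUnit ((n : V)) := by
    by_contra h
    have h1 : (n : V) ∈ IsLocalRing.maximalIdeal V := by
      rw [IsLocalRing.mem_maximalIdeal]; exact h
    have h2 : res V (n : V) = 0 := (IsLocalRing.residue_eq_zero_iff _).mpr h1
    haveI : CharP (IsLocalRing.ResidueField V) p := charP_res Fact.out hV
    rw [map_natCast] at h2
    have h3 : p ∣ n := (CharP.cast_eq_zero_iff (IsLocalRing.ResidueField V) p n).mp h2
    have h4 : p ∣ 1 := by
      have := Nat.dvd_gcd h3 (dvd_refl p)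
      rw [hn] at this
      exact this
    exact (Fact.out : p.Prime).one_lt.ne' (Nat.dvd_one.mp h4)
  obtain ⟨u, hu⟩ := hu
  exact ⟨(u⁻¹ : Vˣ), by rw [← hu]; simp⟩

theorem exists_primitive_val (d : ℕ) (hd : 0 < d) : ∃ ξ : V, IsPrimitiveRoot (ξ : ℂ) d := by
  have h1 := Complex.isPrimitiveRoot_exp d hd.ne'
  refine ⟨⟨_, root_mem_val hd.ne' h1.pow_eq_one⟩, h1⟩

theorem res_primitive {p d : ℕ} [Fact p.Prime] (hV : (p : ℂ) ∈ V.nonunits) (hd : 0 < d)
    (hdp : Nat.Coprime d p) {ξ : V} (hξ : IsPrimitiveRoot (ξ : ℂ) d) :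
    IsPrimitiveRoot (res V ξ) d := by
  haveI : CharP (IsLocalRing.ResidueField V) p := charP_res Fact.out hV
  have hξd : ξ ^ d = 1 := by
    apply Subtype.ext
    have := hξ.pow_eq_one
    simpa using this
  refine IsPrimitiveRoot.mk_of_lt _ hd (by rw [← map_pow, hξd, map_one]) ?_
  intro l hl hld h
  have h1 : ∑ j ∈ Finset.range d, (ξ ^ l) ^ j = 0 := by
    have h4 : (ξ ^ l - 1) * ∑ j ∈ Finset.range d, (ξ ^ l) ^ j = 0 := by
      rw [mul_comm, geom_sum_mul, ← pow_mul, mul_comm, pow_mul, hξd, one_pow, sub_self]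
    have h5 : ξ ^ l - 1 ≠ 0 := by
      intro h6
      have h7 : ξ ^ l = 1 := sub_eq_zero.mp h6
      have h8 : ((ξ : V) : ℂ) ^ l = 1 := by
        have := congrArg (fun z : V => (z : ℂ)) h7
        simpa using this
      exact hξ.pow_ne_one_of_pos_of_lt hl.ne' hld h8
    exact (mul_eq_zero.mp h4).resolve_left h5
  have h2 := congrArg (res V) h1
  rw [map_sum, map_zero] at h2
  simp only [map_pow] at h2
  simp only [h, one_pow, Finset.sum_const, Finset.card_range, nsmul_eq_mul, mul_one] at h2
  have h3 : p ∣ d := (CharP.cast_eq_zero_iff (IsLocalRing.ResidueField V) p d).mp h2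
  have h4 : p ∣ 1 := by
    have := Nat.dvd_gcd h3 (dvd_refl p)
    rw [hdp] at this
    exact this
  exact (Fact.out : p.Prime).one_lt.ne' (Nat.dvd_one.mp h4)

variable {G : Type*} [Group G] [Finite G] {p : ℕ} [Fact p.Prime]

/-- The reduction of a matrix representation. -/
noncomputable def rb (R : G →* Matrix ι ι V) : G →* Module.End (IsLocalRing.ResidueField V) (ι → IsLocalRing.ResidueField V) where
  toFun g := Matrix.toLinAlgEquiv' (rm (R g))
  map_one' := by simp
  map_mul' a b := by simp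

theorem rb_apply (R : G →* Matrix ι ι V) (g : G) (w : ι → IsLocalRing.ResidueField V) :
    rb R g w = rm (R g) *ᵥ w := by
  simp [rb, Matrix.toLinAlgEquiv'_apply]

/-- The `K`-average. -/
noncomputable def eps (K : Subgroup G) [Fintype K] (kinv : V) (R : G →* Matrix ι ι V) : Matrix ι ι V :=
  kinv • ∑ y : K, R (y : G)

section Eps

variable (K : Subgroup G) [Fintype K] {kinv : V} (hkinv : kinv * ((Fintype.card K : ℕ) : V) = 1)
  (R : G →* Matrix ι ι V)

theorem eps_left {y : G} (hy : y ∈ K) : R y * eps K kinv R = eps K kinv R := by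
  simp only [eps]
  rw [mul_smul_comm, Finset.mul_sum]
  congr 1
  refine Fintype.sum_equiv (Equiv.mulLeft (⟨y, hy⟩ : K)) _ _ fun z => ?_
  simp [map_mul]

theorem eps_right {y : G} (hy : y ∈ K) : eps K kinv R * R y = eps K kinv R := by
  simp only [eps]
  rw [smul_mul_assoc, Finset.sum_mul]
  congr 1
  refine Fintype.sum_equiv (Equiv.mulRight (⟨y, hy⟩ : K)) _ _ fun z => ?_
  simp [map_mul]

include hkinv in
theorem eps_idem : eps K kinv R * eps K kinv R = eps K kinv R := by
  conv_lhs => arg 1; rw [eps]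
  rw [smul_mul_assoc, Finset.sum_mul]
  have h : ∀ y : K, R (y : G) * eps K kinv R = eps K kinv R := fun y => eps_left K R y.2
  simp only [h, Finset.sum_const, Finset.card_univ]
  rw [← Nat.cast_smul_eq_nsmul V, smul_smul, hkinv, one_smul]

theorem eps_comm {n : G} (h1 : ∀ y ∈ K, n * y * n⁻¹ ∈ K) (h2 : ∀ y ∈ K, n⁻¹ * y * n ∈ K) :
    Commute (R n) (eps K kinv R) := by
  simp only [Commute, SemiconjBy, eps]
  rw [mul_smul_comm, smul_mul_assoc, Finset.mul_sum, Finset.sum_mul]
  congr 1
  let f : K ≃ K :=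
    { toFun := fun y => ⟨n * y * n⁻¹, h1 y y.2⟩
      invFun := fun y => ⟨n⁻¹ * y * n, h2 y y.2⟩
      left_inv := fun y => by ext; simp [mul_assoc]
      right_inv := fun y => by ext; simp [mul_assoc] }
  refine Fintype.sum_equiv f _ _ fun z => ?_
  simp only [f, Equiv.coe_fn_mk]
  rw [← map_mul, ← map_mul]
  congr 1
  group

end Eps

variable (D : DS G p) [Fintype D.K] {kinv : V} (hkinv : kinv * ((Fintype.card D.K : ℕ) : V) = 1)
  (hsq : ¬ p ^ 2 ∣ Nat.card G) (hV : (p : ℂ) ∈ V.nonunits)
  (R : G →* Matrix ι ι V)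
  (hloc : ∀ S T : Module.End (IsLocalRing.ResidueField V) (ι → IsLocalRing.ResidueField V),
    (∀ g, Commute (rb R g) S) → (∀ g, Commute (rb R g) T) →
      ∀ c : IsLocalRing.ResidueField V, c ≠ 0 → S + T = c • 1 → IsUnit S ∨ IsUnit T)

theorem DS.x_pow : D.x ^ p = 1 := by
  have := pow_orderOf_eq_one D.x
  rwa [D.hx] at this

theorem DS.x_mem : D.x ∈ Subgroup.normalizer ((Subgroup.zpowers D.x : Subgroup G) : Set G) :=
  Subgroup.le_normalizer (Subgroup.mem_zpowers D.x)

theorem DS.τ_mem : D.τ ∈ Subgroup.normalizer ((Subgroup.zpowers D.x : Subgroup G) : Set G) := by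
  have h1 : D.τ⁻¹⁻¹ ∈ Subgroup.normalizer ((Subgroup.zpowers D.x : Subgroup G) : Set G) := by
    apply Subgroup.inv_mem
    apply mem_normalizer_of_conj_mem D.hx
    rw [inv_inv, D.hτ]
    exact Subgroup.pow_mem _ (Subgroup.mem_zpowers _) _
  simpa using h1

theorem DS.eps_comm_N {n : G} (hn : n ∈ Subgroup.normalizer ((Subgroup.zpowers D.x : Subgroup G) : Set G)) :
    Commute (R n) (eps D.K kinv R) := by
  refine eps_comm D.K R (D.hKN n hn) ?_
  intro y hy
  have := D.hKN n⁻¹ (Subgroup.inv_mem _ hn) y hy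
  simpa using this

/-- The reduction of `eps`. -/
noncomputable def E0 : Module.End (IsLocalRing.ResidueField V) (ι → IsLocalRing.ResidueField V) :=
  Matrix.toLinAlgEquiv' (rm (eps D.K kinv R))

include hkinv in
theorem E0_idem : E0 (kinv := kinv) D R * E0 (kinv := kinv) D R = E0 (kinv := kinv) D R := by
  simp only [E0]
  rw [← map_mul, ← map_mul, eps_idem D.K hkinv R]

theorem rb_eq (g : G) : rb R g = Matrix.toLinAlgEquiv' (rm (R g)) := rfl

theorem E0_comm {n : G} (hn : n ∈ Subgroup.normalizer ((Subgroup.zpowers D.x : Subgroup G) : Set G)) :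
    Commute (rb R n) (E0 (kinv := kinv) D R) := by
  simp only [E0, rb_eq]
  exact ((D.eps_comm_N R hn).map rm).map Matrix.toLinAlgEquiv'

theorem rb_E0_left {y : G} (hy : y ∈ D.K) : rb R y * E0 (kinv := kinv) D R = E0 (kinv := kinv) D R := by
  simp only [E0, rb_eq]
  rw [← map_mul, ← map_mul, eps_left D.K R hy]

theorem rb_E0_right {y : G} (hy : y ∈ D.K) : E0 (kinv := kinv) D R * rb R y = E0 (kinv := kinv) D R := by
  simp only [E0, rb_eq]
  rw [← map_mul, ← map_mul, eps_right D.K R hy]

include hsq hloc in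
theorem exists_z_core (hV : (p : ℂ) ∈ V.nonunits) (hkinv : kinv * ((Fintype.card D.K : ℕ) : V) = 1) :
    ∃ z : ι → IsLocalRing.ResidueField V, ∀ w, rb R D.x w = w → E0 (kinv := kinv) D R w = w →
      ∃ (c : IsLocalRing.ResidueField V) (u : ι → IsLocalRing.ResidueField V),
        w = c • z + nrmE (rb R D.x) p (E0 (kinv := kinv) D R u) := by
  haveI : CharP (IsLocalRing.ResidueField V) p := charP_res Fact.out hV
  obtain ⟨ξ, hξ⟩ := exists_primitive_val (V := V) D.e D.he
  have hek : ((D.e : ℕ) : IsLocalRing.ResidueField V) ≠ 0 := by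
    intro h
    have h3 : p ∣ D.e := (CharP.cast_eq_zero_iff (IsLocalRing.ResidueField V) p D.e).mp h
    have h4 : p ∣ 1 := by
      have := Nat.dvd_gcd h3 (dvd_refl p)
      rw [D.hep] at this
      exact this
    exact (Fact.out : p.Prime).one_lt.ne' (Nat.dvd_one.mp h4)
  refine struct_main (rb R D.x) (rb R D.τ) (rb R D.τ⁻¹) (E0 (kinv := kinv) D R) D.s D.e (res V ξ)
    (rho_mul_inv _ _) (rho_inv_mul _ _) ?_ ?_ D.hs D.he hek (res_primitive hV D.he D.hep hξ)
    (E0_idem D hkinv R) (E0_comm D R D.x_mem).symm (E0_comm D R D.τ_mem).symm ?_ ?_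
  · rw [← map_pow, D.x_pow, map_one]
  · rw [← map_mul, ← map_mul, D.hτ, map_pow]
  · rw [← map_pow, rb_E0_left D R D.hτe]
  · intro A hAA hEA hAE hAa hAt
    have hcomm : ∀ n ∈ Subgroup.normalizer ((Subgroup.zpowers D.x : Subgroup G) : Set G),
        Commute (rb R n) A := by
      intro n hn
      obtain ⟨i, j, y, hy, rfl⟩ := D.hNdec n hn
      rw [map_mul, map_mul, map_pow, map_pow]
      refine Commute.mul_left (Commute.mul_left (hAt.symm.pow_left i) (hAa.symm.pow_left j)) ?_
      simp only [Commute, SemiconjBy]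
      calc rb R y * A = rb R y * (E0 (kinv := kinv) D R * A) := by rw [hEA]
        _ = A := by rw [← mul_assoc, rb_E0_left D R hy, hEA]
        _ = A * E0 (kinv := kinv) D R * rb R y := by rw [mul_assoc, rb_E0_right D R hy, hAE]
        _ = A * rb R y := by rw [hAE]
    exact dichotomy (rb R) D.hx hsq hloc A hAA hcomm

theorem nrmE_E0_eq (u : ι → IsLocalRing.ResidueField V) :
    nrmE (rb R D.x) p (E0 (kinv := kinv) D R u) =
      (nrmM (rm (R D.x)) p * rm (eps D.K kinv R)) *ᵥ u := by
  simp only [nrmE, nrmM, E0, rb_eq]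
  rw [← Matrix.mulVec_mulVec, ← Matrix.toLinAlgEquiv'_apply (rm (eps D.K kinv R)) u]
  rw [LinearMap.sum_apply]
  rw [Matrix.sum_mulVec]
  refine Finset.sum_congr rfl fun i _ => ?_
  rw [← map_pow, Matrix.toLinAlgEquiv'_apply]

include hsq hloc in
theorem core_rank (hV : (p : ℂ) ∈ V.nonunits) (hkinv : kinv * ((Fintype.card D.K : ℕ) : V) = 1)
    {ζ ζ' : V} (hζ : ζ ^ p = 1) (hζ' : ζ' ^ p = 1) :
    (cm (Yy (R D.x) (eps D.K kinv R) ζ p)).rank ≤ (cm (Yy (R D.x) (eps D.K kinv R) ζ' p)).rank + 1 := by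
  obtain ⟨z, hz⟩ := exists_z_core D hsq R hloc hV hkinv
  have hAp : R D.x ^ p = 1 := by rw [← map_pow, D.x_pow, map_one]
  have h1 := ri_bound hV hAp (D.eps_comm_N (kinv := kinv) R D.x_mem) (eps_idem D.K hkinv R) hζ hζ' z ?_
  · refine h1.trans (Nat.add_le_add_left ?_ _)
    have := finrank_span_le_card (R := IsLocalRing.ResidueField V) ({z} : Set (ι → IsLocalRing.ResidueField V))
    simpa using this
  · intro w h2 h3
    obtain ⟨c, u, hu⟩ := hz w (by rw [rb_apply]; exact h2)
      (by simp only [E0]; rw [Matrix.toLinAlgEquiv'_apply]; exact h3)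
    exact ⟨c, u, by rw [hu, nrmE_E0_eq]⟩

include hsq hloc in
theorem core_val (hV : (p : ℂ) ∈ V.nonunits) (hkinv : kinv * ((Fintype.card D.K : ℕ) : V) = 1)
    {ζ ζ' : V} (hζ : ζ ^ p = 1) (hζ' : ζ' ^ p = 1)
    (hne : (cm (Yy (R D.x) (eps D.K kinv R) ζ p)).rank ≠ (cm (Yy (R D.x) (eps D.K kinv R) ζ' p)).rank)
    {n : ℕ} (hn : Nat.Coprime n p) {y : G} (hy : y ∈ D.K) :
    (cm (R (D.x ^ n * y))).trace = (cm (R (D.x ^ n) * eps D.K kinv R)).trace := by
  haveI : CharP (IsLocalRing.ResidueField V) p := charP_res Fact.out hV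
  have hpp : p.Prime := Fact.out
  have hAp : R D.x ^ p = 1 := by rw [← map_pow, D.x_pow, map_one]
  have hee := eps_idem D.K hkinv R
  have hcommx := D.eps_comm_N (kinv := kinv) R D.x_mem
  -- the dichotomy for E0
  have hdich := dichotomy (rb R) D.hx hsq hloc (E0 (kinv := kinv) D R) (E0_idem D hkinv R)
    (fun n hn => E0_comm D R hn)
  have hcase : ∀ w, rb R D.x w = w → w - E0 (kinv := kinv) D R w ∈ LinearMap.range (nrm (rb R) D.x p) := by
    rcases hdich with h | h
    · exfalso
      have hz : ∀ w, rm (R D.x) *ᵥ w = w → rm (eps D.K kinv R) *ᵥ w = w →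
          ∃ (c : IsLocalRing.ResidueField V) (u : ι → IsLocalRing.ResidueField V),
            w = c • (0 : ι → IsLocalRing.ResidueField V) + (nrmM (rm (R D.x)) p * rm (eps D.K kinv R)) *ᵥ u := by
        intro w h2 h3
        have h4 : E0 (kinv := kinv) D R w = w := by
          simp only [E0]; rw [Matrix.toLinAlgEquiv'_apply]; exact h3
        obtain ⟨u, hu⟩ := h w (by rw [rb_apply]; exact h2)
        rw [h4] at hu
        refine ⟨0, u, ?_⟩
        rw [zero_smul, zero_add, ← nrmE_E0_eq (kinv := kinv) D R]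
        have h5 : (E0 (kinv := kinv) D R) (nrm (rb R) D.x p u) = nrm (rb R) D.x p (E0 (kinv := kinv) D R u) := by
          have : Commute (E0 (kinv := kinv) D R) (nrm (rb R) D.x p) :=
            (commute_nrm (rb R) D.x p (E0_comm D R D.x_mem)).symm
          exact congrFun (congrArg DFunLike.coe this.eq) u
        calc w = E0 (kinv := kinv) D R w := h4.symm
          _ = nrm (rb R) D.x p (E0 (kinv := kinv) D R u) := by rw [← hu, h5]
          _ = _ := rfl
      apply hne
      apply le_antisymm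
      · have := ri_bound hV hAp hcommx hee hζ hζ' 0 hz
        rwa [finrank_span_zero_aux, add_zero] at this
      · have := ri_bound hV hAp hcommx hee hζ' hζ 0 hz
        rwa [finrank_span_zero_aux, add_zero] at this
    · exact h
  -- the complementary idempotent
  let e' : Matrix ι ι V := 1 - eps D.K kinv R
  have he'e' : e' * e' = e' := by
    simp only [e']
    rw [mul_sub, sub_mul, sub_mul, one_mul, mul_one, one_mul, hee, sub_self, sub_zero]
  -- the powers of `x`
  obtain ⟨m, _, hm⟩ := Nat.exists_mul_mod_eq_one_of_coprime hn hpp.one_lt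
  have hxn : (D.x ^ n) ^ p = 1 := by rw [← pow_mul, mul_comm, pow_mul, D.x_pow, one_pow]
  have hxm : (D.x ^ n) ^ m = D.x := by
    rw [← pow_mul]
    have h1 : D.x ^ (n * m) = D.x ^ ((n * m) % p) := by
      have := pow_mod_orderOf D.x (n * m)
      rw [D.hx] at this
      exact this.symm
    rw [h1, hm, pow_one]
  let A := R (D.x ^ n)
  have hAp' : A ^ p = 1 := by
    simp only [A]
    rw [← map_pow, hxn, map_one]
  have hAe' : Commute A e' := by
    simp only [A, e']
    have : Commute (R (D.x ^ n)) (eps D.K kinv R) := by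
      rw [map_pow]; exact hcommx.pow_left n
    exact (Commute.one_right _).sub_right this
  -- y as a matrix
  have hKinv := exists_val_inv (V := V) hV (p := p) (n := orderOf y) ?_
  · obtain ⟨dinv, hdinv⟩ := hKinv
    obtain ⟨ξ, hξ⟩ := exists_primitive_val (V := V) (orderOf y) (orderOf_pos y)
    obtain ⟨ω, hω⟩ := exists_primitive_val (V := V) p hpp.pos
    have hYd : R y ^ orderOf y = 1 := by rw [← map_pow, pow_orderOf_eq_one, map_one]
    have hAY : Commute A (R y) := by
      simp only [A]
      rw [map_pow]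
      apply Commute.pow_left
      simp only [Commute, SemiconjBy]
      rw [← map_mul, ← map_mul, D.hxK y hy]
    have hYe' : Commute (R y) e' := by
      simp only [e']
      refine (Commute.one_right _).sub_right ?_
      simp only [Commute, SemiconjBy]
      rw [eps_left D.K R hy, eps_right D.K R hy]
    have h0 := van hV hAp' hYd (orderOf_pos y) hdinv hξ hω hAY hAe' hYe' he'e' ?_
    · have h1 : R (D.x ^ n * y) = R (D.x ^ n) * R y * e' + R (D.x ^ n) * eps D.K kinv R := by
        simp only [e']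
        rw [map_mul, mul_sub, mul_one, mul_assoc (R (D.x ^ n)) (R y), eps_left D.K R hy]
        abel
      rw [h1, map_add, Matrix.trace_add]
      have h2 : (cm (R (D.x ^ n) * R y * e')).trace = 0 := h0
      rw [h2, zero_add]
    · intro w h2 h3
      -- `w` is fixed by `x`
      have h4 : rb R D.x w = w := by
        have h5 : rb R (D.x ^ n) w = w := by rw [rb_apply]; exact h2
        have h6 : ∀ j : ℕ, rb R ((D.x ^ n) ^ j) w = w := by
          intro j
          induction j with
          | zero => simp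
          | succ j ih =>
            rw [pow_succ, map_mul, Module.End.mul_apply, h5, ih]
        have := h6 m
        rwa [hxm] at this
      have h7 : E0 (kinv := kinv) D R w = 0 := by
        simp only [E0]
        rw [Matrix.toLinAlgEquiv'_apply]
        have h8 : rm e' *ᵥ w = w := h3
        calc rm (eps D.K kinv R) *ᵥ w = rm (eps D.K kinv R) *ᵥ (rm e' *ᵥ w) := by rw [h8]
          _ = rm (eps D.K kinv R * e') *ᵥ w := by rw [Matrix.mulVec_mulVec, map_mul]
          _ = 0 := by
            have : eps D.K kinv R * e' = 0 := by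
              simp only [e']
              rw [mul_sub, mul_one, hee, sub_self]
            rw [this, map_zero, Matrix.zero_mulVec]
      obtain ⟨u, hu⟩ := hcase w h4
      rw [h7, sub_zero] at hu
      refine ⟨u, ?_⟩
      have h9 : nrmM (rm A) p = nrmM (rm (R D.x)) p := by
        simp only [nrmM, A]
        rw [map_pow, map_pow]
        exact nrm_pow_eq hpp.pos (by rw [← map_pow, ← map_pow, D.x_pow, map_one, map_one]) hn
      rw [h9]
      have h10 : ∀ v, nrm (rb R) D.x p v = nrmM (rm (R D.x)) p *ᵥ v := by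
        intro v
        simp only [nrm, nrmM, rb_eq]
        rw [LinearMap.sum_apply, Matrix.sum_mulVec]
        refine Finset.sum_congr rfl fun i _ => ?_
        rw [← map_pow, Matrix.toLinAlgEquiv'_apply]
      have h11 : Commute (rm e') (nrmM (rm (R D.x)) p) := by
        have h12 : Commute (rm e') (rm (R D.x)) := by
          have : Commute (R D.x) e' := (Commute.one_right _).sub_right hcommx
          exact (this.symm).map rm
        exact Commute.sum_right _ _ _ fun i _ => h12.pow_right i
      calc w = rm e' *ᵥ w := h3.symm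
        _ = rm e' *ᵥ (nrmM (rm (R D.x)) p *ᵥ u) := by
            conv_lhs => rw [← hu, h10]
        _ = (nrmM (rm (R D.x)) p * rm e') *ᵥ u := by
            rw [Matrix.mulVec_mulVec, h11.eq]
  · -- `y` has order coprime to `p`
    have h1 : orderOf y ∣ Nat.card D.K := by
      have := Subgroup.orderOf_dvd_natCard D.K hy
      exact this
    exact Nat.Coprime.coprime_dvd_left h1 D.hKp

end Core

end Cfsg.Agent.H23.DO
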