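import Cfsg.Agent.Lib.H23.DOVal

/-!
# Primitive idempotents over a valuation subring of `ℂ` and local corner rings
-/

set_option autoImplicit false
set_option linter.unusedSectionVars false
set_option linter.style.haveILetI false

namespace Cfsg.Agent.H23.DO

open Module Polynomial

/-- In the corner ring at `ε`, every element is nilpotent or invertible. -/
def IsLocalIdem {B : Type*} [Ring B] (ε : B) : Prop :=
  ∀ a : B, ε * a = a → a * ε = a → (∃ N : ℕ, a ^ N = 0) ∨ ∃ b, ε * b = b ∧ b * ε = b ∧ a * b = ε ∧ b * a = ε

section Local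

variable {k B U : Type*} [Field k] [Ring B] [Algebra k B] [AddCommGroup U] [Module k U]
  [FiniteDimensional k U]

theorem isUnit_of_corner_unit (ψ : B →ₐ[k] Module.End k U) {ε : B} {u : U} (hu : ψ ε u = u)
    (hgen : ∀ w : U, ∃ c : B, w = ψ c u) {S : Module.End k U} (hS : ∀ c : B, Commute (ψ c) S)
    {a b : B} (hSa : S u = ψ a u) (hba : b * a = ε) : IsUnit S := by
  have h1 : S (ψ b u) = u := by
    have h2 : S (ψ b u) = ψ b (S u) := by
      have := (hS b).eq
      exact (congrFun (congrArg DFunLike.coe this) u).symm
    rw [h2, hSa]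
    have h3 : ψ b (ψ a u) = ψ (b * a) u := by rw [map_mul]; rfl
    rw [h3, hba, hu]
  have hsurj : Function.Surjective S := by
    intro w
    obtain ⟨c, rfl⟩ := hgen w
    refine ⟨ψ c (ψ b u), ?_⟩
    have h2 : S (ψ c (ψ b u)) = ψ c (S (ψ b u)) := by
      have := (hS c).eq
      exact (congrFun (congrArg DFunLike.coe this) _).symm
    rw [h2, h1]
  rw [Module.End.isUnit_iff]
  exact ⟨LinearMap.injective_iff_surjective.mpr hsurj, hsurj⟩

theorem exists_corner_coeff (ψ : B →ₐ[k] Module.End k U) {ε : B} (hε : ε * ε = ε) {u : U}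
    (hu : ψ ε u = u) (hgen : ∀ w : U, ∃ c : B, w = ψ c u) {S : Module.End k U}
    (hS : ∀ c : B, Commute (ψ c) S) : ∃ a : B, ε * a = a ∧ a * ε = a ∧ S u = ψ a u := by
  obtain ⟨b, hb⟩ := hgen (S u)
  refine ⟨ε * b * ε, ?_, ?_, ?_⟩
  · rw [← mul_assoc, ← mul_assoc, hε]
  · rw [mul_assoc, hε]
  · have h1 : S u = ψ ε (S u) := by
      have h2 : S (ψ ε u) = ψ ε (S u) := by
        have := (hS ε).eq
        exact (congrFun (congrArg DFunLike.coe this) u).symm
      rw [← h2, hu]
    rw [h1, hb, map_mul, map_mul]
    show ψ ε (ψ b u) = ψ ε (ψ b (ψ ε u))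
    rw [hu]

theorem loc_of_local (ψ : B →ₐ[k] Module.End k U) {ε : B} (hε : ε * ε = ε) (hloc : IsLocalIdem ε)
    {u : U} (hu : ψ ε u = u) (hgen : ∀ w : U, ∃ c : B, w = ψ c u) {S T : Module.End k U}
    (hS : ∀ c : B, Commute (ψ c) S) (hT : ∀ c : B, Commute (ψ c) T) {c : k} (hc : c ≠ 0)
    (hST : S + T = c • 1) : IsUnit S ∨ IsUnit T := by
  obtain ⟨a₁, h1l, h1r, h1⟩ := exists_corner_coeff ψ hε hu hgen hS
  obtain ⟨a₂, h2l, h2r, h2⟩ := exists_corner_coeff ψ hε hu hgen hT
  rcases hloc a₁ h1l h1r with ⟨N, hN⟩ | ⟨b, -, -, -, hb⟩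
  · right
    -- `f = c ε - a₁` is invertible in the corner
    let a : B := c⁻¹ • a₁
    have haε : a * ε = a := by simp only [a, smul_mul_assoc, h1r]
    have hεa : ε * a = a := by simp only [a, mul_smul_comm, h1l]
    have hcomm : Commute ε a := by rw [Commute, SemiconjBy, hεa, haε]
    have haN : a ^ N = 0 := by
      simp only [a, _root_.smul_pow, hN, smul_zero]
    let g₀ : B := ∑ i ∈ Finset.range N, a ^ i
    have hg₀ : g₀ * (1 - a) = 1 := by
      have := geom_sum_mul_neg a N
      rw [haN, sub_zero] at this
      exact this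
    have hg₀' : (1 - a) * g₀ = 1 := by
      have := mul_neg_geom_sum a N
      rw [haN, sub_zero] at this
      exact this
    have hcg : Commute ε g₀ := Commute.sum_right _ _ _ fun i _ => hcomm.pow_right i
    let g : B := c⁻¹ • (g₀ * ε)
    let f : B := c • (ε - a)
    have hgf : g * f = ε := by
      simp only [g, f, smul_mul_smul_comm, inv_mul_cancel₀ hc, one_smul]
      rw [mul_assoc, mul_sub, hε, hεa]
      have h3 : ε - a = (1 - a) * ε := by rw [sub_mul, one_mul, haε]
      rw [h3, ← mul_assoc, hg₀, one_mul]
    have hfu : ψ f u = ψ a₂ u := by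
      have h3 : ψ f u = c • u - S u := by
        have h4 : f = c • ε - a₁ := by
          simp only [f, a, smul_sub, smul_smul, mul_inv_cancel₀ hc, one_smul]
        rw [h4, map_sub, map_smul]
        show c • ψ ε u - ψ a₁ u = _
        rw [hu, h1]
      rw [h3, ← h2]
      have h4 := congrFun (congrArg DFunLike.coe hST) u
      simp only [LinearMap.add_apply, LinearMap.smul_apply, Module.End.one_apply] at h4
      rw [← h4]
      abel
    have hu2 : u = ψ (g * a₂) u := by
      have h3 : ψ g (ψ f u) = u := by
        have : ψ g (ψ f u) = ψ (g * f) u := by rw [map_mul]; rfl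
        rw [this, hgf, hu]
      rw [hfu] at h3
      rw [map_mul]
      exact h3.symm
    have hgε : g * ε = g := by
      simp only [g, smul_mul_assoc, mul_assoc, hε]
    have hεg : ε * g = g := by
      simp only [g, mul_smul_comm, ← mul_assoc, hcg.eq]
      rw [mul_assoc, hε]
    rcases hloc (g * a₂) (by rw [← mul_assoc, hεg]) (by rw [mul_assoc, h2r]) with ⟨n, hn⟩ | ⟨d, -, hdε, hd1, hd2⟩
    · have hu3 : ∀ m : ℕ, u = ψ ((g * a₂) ^ m) u := by
        intro m
        induction m with
        | zero => simp
        | succ m ih =>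
          rw [pow_succ, map_mul]
          show u = ψ ((g * a₂) ^ m) (ψ (g * a₂) u)
          rw [← hu2]
          exact ih
      have hu0 : u = 0 := by
        have := hu3 n
        rw [hn, map_zero] at this
        simpa using this
      have hsub : Subsingleton U := by
        refine ⟨fun w w' => ?_⟩
        obtain ⟨c₁, rfl⟩ := hgen w
        obtain ⟨c₂, rfl⟩ := hgen w'
        rw [hu0, map_zero, map_zero]
      have hT0 : T = 1 := by
        ext w
        exact Subsingleton.elim _ _
      rw [hT0]
      exact isUnit_one
    · have h5 : (d * g) * a₂ = ε := by rw [mul_assoc, hd2]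
      exact isUnit_of_corner_unit ψ hu hgen hT h2 h5
  · left
    exact isUnit_of_corner_unit ψ hu hgen hS h1 hb

end Local

section Primitive

variable {V : ValuationSubring ℂ}

theorem mem_of_root {h : V[X]} (hm : h.Monic) {z : ℂ} (hz : (h.map V.subtype).IsRoot z) : z ∈ V := by
  by_contra hne
  have hv : 1 < V.valuation z := by
    by_contra hcon
    exact hne ((ValuationSubring.valuation_le_one_iff V z).mp (not_lt.mp hcon))
  have hz0 : z ≠ 0 := by
    rintro rfl
    simp at hne
  -- the leading term dominates
  have h1 : (h.map V.subtype).eval z = 0 := hz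
  rw [Polynomial.eval_map, Polynomial.eval₂_eq_sum_range] at h1
  have hd : 0 < h.natDegree := by
    by_contra h0
    have h2 : h.natDegree = 0 := by omega
    have h3 := Polynomial.eq_one_of_monic_natDegree_zero hm h2
    rw [h3] at h1
    simp at h1
  rw [Finset.sum_range_succ, hm.coeff_natDegree, map_one, one_mul] at h1
  have h2 : z ^ h.natDegree = - ∑ i ∈ Finset.range h.natDegree, V.subtype (h.coeff i) * z ^ i :=
    eq_neg_of_add_eq_zero_right h1
  have h3 : V.valuation (z ^ h.natDegree) ≤ V.valuation (z ^ (h.natDegree - 1)) := by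
    rw [h2, Valuation.map_neg]
    apply Valuation.map_sum_le
    intro i hi
    rw [map_mul, map_pow, map_pow]
    have h4 : V.valuation (V.subtype (h.coeff i)) ≤ 1 := V.valuation_le_one _
    have h5 : V.valuation z ^ i ≤ V.valuation z ^ (h.natDegree - 1) :=
      pow_le_pow_right₀ hv.le (by have := Finset.mem_range.mp hi; omega)
    calc _ ≤ 1 * V.valuation z ^ i := mul_le_mul' h4 le_rfl
      _ ≤ _ := by rw [one_mul]; exact h5
  rw [map_pow, map_pow] at h3
  have h6 : h.natDegree = h.natDegree - 1 + 1 := by omega
  rw [h6, Nat.add_sub_cancel, pow_succ] at h3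
  have h7 : (0 : ValuationSubring.ValueGroup V) < V.valuation z ^ (h.natDegree - 1) := by
    apply pow_pos
    exact zero_lt_iff.mpr ((_root_.map_ne_zero _).mpr hz0)
  have h8 : V.valuation z ≤ 1 := by
    by_contra hcon
    push Not at hcon
    have : V.valuation z ^ (h.natDegree - 1) < V.valuation z ^ (h.natDegree - 1) * V.valuation z := by
      nth_rewrite 1 [← mul_one (V.valuation z ^ (h.natDegree - 1))]
      exact mul_lt_mul_of_pos_left hcon h7
    exact absurd h3 (not_le.mpr this)
  exact absurd hv (not_lt.mpr h8)

theorem monic_split (h : V[X]) (hm : h.Monic) :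
    ∃ s : Multiset V, h = (s.map fun a => (X - C a)).prod := by
  induction' hd : h.natDegree using Nat.strong_induction_on with d ih generalizing h
  by_cases h0 : h.natDegree = 0
  · refine ⟨0, ?_⟩
    simpa using Polynomial.eq_one_of_monic_natDegree_zero hm h0
  · have hdeg : (h.map V.subtype).degree ≠ 0 := by
      rw [Polynomial.degree_map_eq_of_injective (Subtype.val_injective)]
      intro h1
      exact h0 (Polynomial.natDegree_eq_of_degree_eq_some h1)
    obtain ⟨z, hz⟩ := IsAlgClosed.exists_root (h.map V.subtype) hdeg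
    have hzV := mem_of_root hm hz
    let a : V := ⟨z, hzV⟩
    have hroot : h.IsRoot a := by
      have h1 : V.subtype (h.eval a) = 0 := by
        rw [← Polynomial.eval_map_apply]
        exact hz
      exact Subtype.ext h1
    obtain ⟨q, hq⟩ := Polynomial.dvd_iff_isRoot.mpr hroot
    have hqm : q.Monic := by
      rw [hq] at hm
      exact (Polynomial.monic_X_sub_C a).of_mul_monic_left hm
    have hqd : q.natDegree < d := by
      have : h.natDegree = q.natDegree + 1 := by
        rw [hq, (Polynomial.monic_X_sub_C a).natDegree_mul hqm, Polynomial.natDegree_X_sub_C]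
        ring
      omega
    obtain ⟨s, hs⟩ := ih _ hqd q hqm rfl
    refine ⟨a ::ₘ s, ?_⟩
    rw [Multiset.map_cons, Multiset.prod_cons, ← hs, hq]

variable {𝔸 B : Type*} [Ring 𝔸] [Algebra V 𝔸] [Module.Finite V 𝔸] [Ring B]
  [Algebra (IsLocalRing.ResidueField V) B]

theorem map_aeval_res (φ : 𝔸 →+* B)
    (hφ : ∀ c, φ (algebraMap V 𝔸 c) = algebraMap (IsLocalRing.ResidueField V) B (res V c))
    (a : 𝔸) (f : V[X]) : φ (aeval a f) = aeval (φ a) (f.map (res V)) := by
  induction f using Polynomial.induction_on' with
  | add p q hp hq => simp only [map_add, Polynomial.map_add, hp, hq]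
  | monomial n c =>
    simp only [aeval_monomial, map_mul, map_pow, Polynomial.map_monomial, hφ]

theorem local_of_primitive (φ : 𝔸 →+* B)
    (hφ : ∀ c, φ (algebraMap V 𝔸 c) = algebraMap (IsLocalRing.ResidueField V) B (res V c))
    (hs : Function.Surjective φ) {ε : 𝔸} (hε : ε * ε = ε)
    (hprim : ∀ d : 𝔸, d * d = d → ε * d = d → d * ε = d → d = 0 ∨ d = ε) : IsLocalIdem (φ ε) := by
  classical
  intro a h1 h2
  obtain ⟨a₀, rfl⟩ := hs a
  let a' : 𝔸 := ε * a₀ * ε
  have hφa' : φ a' = φ a₀ := by
    simp only [a', map_mul]
    rw [h1, h2]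
  have hla : ε * a' = a' := by simp only [a', ← mul_assoc, hε]
  have hra : a' * ε = a' := by simp only [a', mul_assoc, hε]
  have hcε : Commute ε a' := by rw [Commute, SemiconjBy, hla, hra]
  obtain ⟨h, hm, hh⟩ := IsIntegral.of_finite V a'
  have hh' : aeval a' h = 0 := hh
  obtain ⟨s, hs'⟩ := monic_split h hm
  let s₀ := s.filter fun c => c ∈ IsLocalRing.maximalIdeal V
  let s₁ := s.filter fun c => c ∉ IsLocalRing.maximalIdeal V
  let p₀ : V[X] := X * (s₀.map fun c => (X - C c)).prod
  let p₁ : V[X] := (s₁.map fun c => (X - C c)).prod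
  have hprod : p₀ * p₁ = X * h := by
    have hs2 : s = s₀ + s₁ := (Multiset.filter_add_not _ s).symm
    rw [hs', hs2, Multiset.map_add, Multiset.prod_add]
    simp only [p₀, p₁, mul_assoc]
  have hcop1 : ∀ c ∈ s₀, IsCoprime (X - C c : V[X]) p₁ := by
    intro c hc
    have hcm : c ∈ IsLocalRing.maximalIdeal V := (Multiset.mem_filter.mp hc).2
    simp only [p₁]
    have : ∀ t : Multiset V, (∀ d ∈ t, d ∉ IsLocalRing.maximalIdeal V) →
        IsCoprime (X - C c : V[X]) (t.map fun c => (X - C c)).prod := by
      intro t
      induction t using Multiset.induction_on with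
      | empty => intro _; simpa using isCoprime_one_right
      | cons d t ih =>
        intro ht
        rw [Multiset.map_cons, Multiset.prod_cons]
        apply IsCoprime.mul_right
        · apply Polynomial.isCoprime_X_sub_C_of_isUnit_sub
          by_contra hnu
          have h3 : c - d ∈ IsLocalRing.maximalIdeal V := (IsLocalRing.mem_maximalIdeal _).mpr hnu
          have h4 : d ∈ IsLocalRing.maximalIdeal V := by
            have := Ideal.sub_mem _ hcm h3
            simpa using this
          exact ht d (Multiset.mem_cons_self _ _) h4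
        · exact ih fun e he => ht e (Multiset.mem_cons_of_mem he)
    exact this s₁ fun d hd => (Multiset.mem_filter.mp hd).2
  have hcop0 : IsCoprime (X : V[X]) p₁ := by
    have h0 : (0 : V) ∈ IsLocalRing.maximalIdeal V := zero_mem _
    have : ∀ t : Multiset V, (∀ d ∈ t, d ∉ IsLocalRing.maximalIdeal V) →
        IsCoprime (X : V[X]) (t.map fun c => (X - C c)).prod := by
      intro t
      induction t using Multiset.induction_on with
      | empty => intro _; simpa using isCoprime_one_right
      | cons d t ih =>
        intro ht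
        rw [Multiset.map_cons, Multiset.prod_cons]
        apply IsCoprime.mul_right
        · have h5 : IsCoprime (X - C (0 : V) : V[X]) (X - C d) := by
            apply Polynomial.isCoprime_X_sub_C_of_isUnit_sub
            by_contra hnu
            have h3 : (0 : V) - d ∈ IsLocalRing.maximalIdeal V := (IsLocalRing.mem_maximalIdeal _).mpr hnu
            have h4 : d ∈ IsLocalRing.maximalIdeal V := by
              have := Ideal.sub_mem _ h0 h3
              simpa using this
            exact ht d (Multiset.mem_cons_self _ _) h4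
          simpa using h5
        · exact ih fun e he => ht e (Multiset.mem_cons_of_mem he)
    exact this s₁ fun d hd => (Multiset.mem_filter.mp hd).2
  have hcop : IsCoprime p₀ p₁ := by
    apply IsCoprime.mul_left hcop0
    have : ∀ t : Multiset V, (∀ d ∈ t, d ∈ s₀) → IsCoprime (t.map fun c => (X - C c)).prod p₁ := by
      intro t
      induction t using Multiset.induction_on with
      | empty => intro _; simpa using isCoprime_one_left
      | cons d t ih =>
        intro ht
        rw [Multiset.map_cons, Multiset.prod_cons]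
        apply IsCoprime.mul_left
        · exact hcop1 d (ht d (Multiset.mem_cons_self _ _))
        · exact ih fun e he => ht e (Multiset.mem_cons_of_mem he)
    exact this s₀ fun d hd => hd
  obtain ⟨u, v, huv⟩ := hcop
  let d : 𝔸 := aeval a' (u * p₀)
  have hone : d + aeval a' (v * p₁) = 1 := by
    simp only [d]
    rw [← map_add, huv, map_one]
  have hzero : aeval a' (p₀ * p₁) = 0 := by
    rw [hprod, map_mul, hh', mul_zero]
  have hdd : d * d = d := by
    have h3 : d * aeval a' (v * p₁) = 0 := by
      simp only [d]
      rw [← map_mul]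
      have : u * p₀ * (v * p₁) = (u * v) * (p₀ * p₁) := by ring
      rw [this, map_mul, hzero, mul_zero]
    have h4 : aeval a' (v * p₁) = 1 - d := eq_sub_of_add_eq' hone
    rw [h4, mul_sub, mul_one, sub_eq_zero] at h3
    exact h3.symm
  have hdform : d = a' * aeval a' (u * (s₀.map fun c => (X - C c)).prod) := by
    simp only [d, p₀]
    have : u * (X * (s₀.map fun c => (X - C c)).prod) = X * (u * (s₀.map fun c => (X - C c)).prod) := by ring
    rw [this, map_mul, aeval_X]
  have hcd : ∀ f : V[X], Commute ε (aeval a' f) := by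
    intro f
    induction f using Polynomial.induction_on' with
    | add p q hp hq => rw [map_add]; exact hp.add_right hq
    | monomial n c =>
      rw [aeval_monomial]
      exact (show Commute ε (algebraMap V 𝔸 c) from (Algebra.commutes c ε).symm).mul_right (hcε.pow_right n)
  have hεd : ε * d = d := by
    rw [hdform, ← mul_assoc, hla]
  have hdε : d * ε = d := by
    have : Commute ε d := hcd _
    rw [← this.eq, hεd]
  -- the reduction of `p₀`
  have hp0 : p₀.map (res V) = X ^ (s₀.card + 1) := by
    simp only [p₀, Polynomial.map_mul, Polynomial.map_X]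
    have : ∀ t : Multiset V, (∀ c ∈ t, c ∈ IsLocalRing.maximalIdeal V) →
        ((t.map fun c => (X - C c)).prod).map (res V) = X ^ t.card := by
      intro t
      induction t using Multiset.induction_on with
      | empty => intro _; simp
      | cons c t ih =>
        intro ht
        rw [Multiset.map_cons, Multiset.prod_cons, Polynomial.map_mul, ih fun e he => ht e (Multiset.mem_cons_of_mem he)]
        have hc0 : res V c = 0 := (IsLocalRing.residue_eq_zero_iff _).mpr (ht c (Multiset.mem_cons_self _ _))
        simp only [Polynomial.map_sub, Polynomial.map_X, Polynomial.map_C, hc0, map_zero, sub_zero,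
          Multiset.card_cons]
        ring
    rw [this s₀ fun c hc => (Multiset.mem_filter.mp hc).2]
    ring
  rcases hprim d hdd hεd hdε with h3 | h3
  · -- nilpotent case
    left
    refine ⟨s₀.card + 1, ?_⟩
    have h4 : aeval a' (v * p₁) = 1 := by
      rw [h3, zero_add] at hone
      exact hone
    have h5 : aeval a' p₀ = 0 := by
      have h6 : aeval a' p₀ = aeval a' p₀ * aeval a' (v * p₁) := by rw [h4, mul_one]
      rw [h6, ← map_mul]
      have : p₀ * (v * p₁) = v * (p₀ * p₁) := by ring
      rw [this, map_mul, hzero, mul_zero]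
    have h6 := map_aeval_res φ hφ a' p₀
    rw [h5, map_zero, hp0, hφa', aeval_X_pow] at h6
    exact h6.symm
  · -- invertible case
    right
    have h4 : aeval (φ a') ((u.map (res V)) * X ^ (s₀.card + 1)) = φ ε := by
      rw [← hp0, ← Polynomial.map_mul, ← map_aeval_res φ hφ]
      exact congrArg φ h3
    rw [hφa'] at h4
    have hcb : ∀ f : (IsLocalRing.ResidueField V)[X], Commute (φ ε) (aeval (φ a₀) f) := by
      intro f
      have hc : Commute (φ ε) (φ a₀) := by rw [Commute, SemiconjBy, h1, h2]
      induction f using Polynomial.induction_on' with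
      | add p q hp hq => rw [map_add]; exact hp.add_right hq
      | monomial n c =>
        rw [aeval_monomial]
        exact (show Commute (φ ε) (algebraMap (IsLocalRing.ResidueField V) B c) from (Algebra.commutes c (φ ε)).symm).mul_right (hc.pow_right n)
    let g : (IsLocalRing.ResidueField V)[X] := (u.map (res V)) * X ^ s₀.card
    refine ⟨aeval (φ a₀) g * φ ε, ?_, ?_, ?_, ?_⟩
    · rw [← mul_assoc, (hcb g).eq, mul_assoc, ← map_mul, hε]
    · rw [mul_assoc, ← map_mul, hε]
    · have h5 : φ a₀ * aeval (φ a₀) g = φ ε := by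
        rw [← h4]
        have : (u.map (res V)) * X ^ (s₀.card + 1) = X * g := by
          simp only [g]; ring
        have e : aeval (φ a₀) (X * g) = φ a₀ * aeval (φ a₀) g := by
          rw [map_mul, aeval_X]
        rw [this, e]
      rw [← mul_assoc, h5, ← map_mul, hε]
    · have h5 : aeval (φ a₀) g * φ a₀ = φ ε := by
        rw [← h4]
        have : (u.map (res V)) * X ^ (s₀.card + 1) = g * X := by
          simp only [g]; ring
        have e : aeval (φ a₀) (g * X) = aeval (φ a₀) g * φ a₀ := by
          rw [map_mul, aeval_X]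
        rw [this, e]
      rw [mul_assoc, h1, h5]

end Primitive

end Cfsg.Agent.H23.DO
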