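import Cfsg.Agent.Lib.H23.DOThm

/-!
# The rows: multiplicities on the centralizer
-/

set_option autoImplicit false
set_option linter.unusedSectionVars false
set_option linter.style.haveILetI false

namespace Cfsg.Agent.H23.DO

open Module Matrix Cfsg Cfsg.Agent.H22 Cfsg.Agent.H21
open scoped ComplexConjugate

universe u

section Psi

variable {p : ℕ} [Fact p.Prime]

/-- The standard additive character. -/
noncomputable abbrev ps : AddChar (ZMod p) ℂ := ZMod.stdAddChar

theorem ps_zero : ps (0 : ZMod p) = 1 := AddChar.map_zero_eq_one _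

theorem ps_add (a b : ZMod p) : ps (a + b) = ps a * ps b := AddChar.map_add_eq_mul _ _ _

theorem ps_pow (a : ZMod p) : (ps a) ^ p = 1 := by
  rw [← AddChar.map_nsmul_eq_pow]
  simp [ps_zero]

theorem ps_conj (a : ZMod p) : conj (ps a) = ps (-a) := by
  rw [AddChar.map_neg_eq_inv]
  simp only [ps, ZMod.stdAddChar_apply]
  rw [← Circle.coe_inv, Circle.coe_inv_eq_conj]

theorem sum_range_zmod (f : ZMod p → ℂ) : ∑ n ∈ Finset.range p, f (n : ZMod p) = ∑ a : ZMod p, f a := by
  refine Finset.sum_nbij' (fun n => (n : ZMod p)) ZMod.val ?_ ?_ ?_ ?_ ?_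
  · intro _ _; exact Finset.mem_univ _
  · intro a _
    exact Finset.mem_range.mpr (ZMod.val_lt a)
  · intro n hn
    exact ZMod.val_cast_of_lt (Finset.mem_range.mp hn)
  · intro a _
    exact ZMod.natCast_zmod_val a
  · intro _ _; rfl

theorem sum_ps (b : ZMod p) : ∑ n ∈ Finset.range p, ps (b * (n : ZMod p)) = if b = 0 then (p : ℂ) else 0 := by
  classical
  rw [sum_range_zmod (fun a => ps (b * a))]
  have h := AddChar.sum_mulShift (R := ZMod p) (R' := ℂ) b (ZMod.isPrimitive_stdAddChar p)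
  simp only [ZMod.card] at h
  convert h using 2
  · rw [mul_comm]
  · simp

theorem cast_pred : ((p - 1 : ℕ) : ZMod p) = -1 := by
  have h1 : ((p - 1 + 1 : ℕ) : ZMod p) = 0 := by
    rw [Nat.sub_add_cancel (Fact.out : p.Prime).one_lt.le]
    simp
  push_cast at h1
  exact eq_neg_of_add_eq_zero_left h1

theorem ps_pow_eq (a : ZMod p) (n : ℕ) : ((ps a) ^ (p - 1)) ^ n = ps (-(a * (n : ZMod p))) := by
  rw [← AddChar.map_nsmul_eq_pow, ← AddChar.map_nsmul_eq_pow]
  congr 1
  simp only [nsmul_eq_mul, cast_pred]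
  ring

end Psi

variable {G : Type u} [Group G] [Finite G] {p : ℕ} [Fact p.Prime] (D : DS G p)

/-- The multiplicity of the character `a` on `C`. -/
noncomputable def mu (χ : G → ℂ) (a : ZMod p) : ℂ :=
  (p : ℂ)⁻¹ * (((Fintype.card D.K : ℕ) : ℂ)⁻¹ *
    ∑ n ∈ Finset.range p, ∑ y : D.K, ps (-(a * (n : ZMod p))) * χ (D.x ^ n * (y : G)))

theorem mTheta_eq (Θ : G → ℂ) (a : ZMod p) : mTheta D Θ (ps a) = mu D Θ a := by
  simp only [mTheta, mu, ps_pow_eq]

theorem mu_Thet (T : Set (IrrCharacter G)) (c : G → ℂ) (a : ZMod p) :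
    mu D (Thet T c) a = ∑ χ : IrrCharacter G, eB T χ * chv χ.1 c * mu D χ.1 a := by
  simp only [mu, Thet, Finset.mul_sum]
  symm
  rw [Finset.sum_comm]
  refine Finset.sum_congr rfl fun n _ => ?_
  rw [Finset.sum_comm]
  refine Finset.sum_congr rfl fun y _ => ?_
  refine Finset.sum_congr rfl fun χ _ => ?_
  ring

theorem mu_nat {χ : G → ℂ} (hχ : IsCharacter G χ) (a : ZMod p) : ∃ m : ℕ, mu D χ a = m := by
  classical
  obtain ⟨d, ρ, rfl⟩ := hχ
  have hpp : p.Prime := Fact.out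
  have hp0 : (p : ℂ) ≠ 0 := by exact_mod_cast hpp.ne_zero
  have hK0 : ((Fintype.card D.K : ℕ) : ℂ) ≠ 0 := by exact_mod_cast Fintype.card_ne_zero
  let T : Module.End ℂ (Fin d → ℂ) := ps (-a) • ρ D.x
  have hTp : T ^ p = 1 := by
    simp only [T]
    rw [_root_.smul_pow, ps_pow, one_smul, ← map_pow, D.x_pow, map_one]
  let S : Module.End ℂ (Fin d → ℂ) := ∑ i ∈ Finset.range p, T ^ i
  have hSS : S * S = p • S := geom_sq hTp
  let E : Module.End ℂ (Fin d → ℂ) := ((Fintype.card D.K : ℕ) : ℂ)⁻¹ • ∑ y : D.K, ρ (y : G)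
  have hyE : ∀ y : D.K, ρ (y : G) * E = E := by
    intro y
    simp only [E]
    rw [mul_smul_comm, Finset.mul_sum]
    congr 1
    refine Fintype.sum_equiv (Equiv.mulLeft y) _ _ fun z => ?_
    simp [map_mul]
  have hEE : E * E = E := by
    conv_lhs => arg 1; simp only [E]
    rw [smul_mul_assoc, Finset.sum_mul]
    simp only [hyE, Finset.sum_const, Finset.card_univ]
    rw [← Nat.cast_smul_eq_nsmul ℂ, smul_smul, inv_mul_cancel₀ hK0, one_smul]
  have hTE : Commute T E := by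
    simp only [T, E]
    apply Commute.smul_left
    apply Commute.smul_right
    apply Commute.sum_right
    intro y _
    simp only [Commute, SemiconjBy]
    rw [← map_mul, ← map_mul, D.hxK y y.2]
  have hSE : Commute S E := Commute.sum_left _ _ _ fun i _ => hTE.pow_left i
  let P : Module.End ℂ (Fin d → ℂ) := ((p : ℂ)⁻¹ • S) * E
  have hPP : P * P = P := by
    simp only [P]
    calc (p : ℂ)⁻¹ • S * E * ((p : ℂ)⁻¹ • S * E) = ((p : ℂ)⁻¹ • S * ((p : ℂ)⁻¹ • S)) * (E * E) := by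
          have h1 : Commute ((p : ℂ)⁻¹ • S) E := hSE.smul_left _
          rw [mul_assoc, ← mul_assoc E, ← h1.eq, mul_assoc, mul_assoc]
      _ = _ := by
          rw [hEE, smul_mul_smul_comm, hSS]
          congr 1
          rw [← Nat.cast_smul_eq_nsmul ℂ, smul_smul]
          have : (p : ℂ)⁻¹ * (p : ℂ)⁻¹ * (p : ℂ) = (p : ℂ)⁻¹ := by field_simp
          rw [this]
  obtain ⟨m, hm⟩ := trace_idem_nat P hPP
  refine ⟨m, ?_⟩
  rw [← hm]
  simp only [P, S, E, mu]
  rw [smul_mul_assoc, map_smul, smul_eq_mul]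
  congr 1
  rw [mul_smul_comm, map_smul, smul_eq_mul]
  congr 1
  rw [Finset.sum_mul, map_sum]
  refine Finset.sum_congr rfl fun n _ => ?_
  rw [Finset.mul_sum, map_sum]
  refine Finset.sum_congr rfl fun y _ => ?_
  simp only [T]
  rw [_root_.smul_pow, smul_mul_assoc, map_smul, smul_eq_mul, ← AddChar.map_nsmul_eq_pow]
  have h2 : (ρ D.x) ^ n * ρ (y : G) = ρ (D.x ^ n * y) := by rw [map_mul, map_pow]
  rw [h2]
  have h3 : n • (-a) = -(a * (n : ZMod p)) := by
    simp only [nsmul_eq_mul]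
    ring
  rw [h3]
  rfl

/-- The multiplicities as natural numbers. -/
noncomputable def mN (χ : IrrCharacter G) (a : ZMod p) : ℕ :=
  Classical.choose (mu_nat D (isCharacter_of_irr χ.2) a)

theorem mN_spec (χ : IrrCharacter G) (a : ZMod p) : (mN D χ a : ℂ) = mu D χ.1 a :=
  (Classical.choose_spec (mu_nat D (isCharacter_of_irr χ.2) a)).symm

/-- The integer rows. -/
noncomputable def cR (a : ZMod p) (χ : IrrCharacter G) : ℤ := (mN D χ 0 : ℤ) - (mN D χ a : ℤ)

theorem cR_cast (a : ZMod p) (χ : IrrCharacter G) : ((cR D a χ : ℤ) : ℂ) = mu D χ.1 0 - mu D χ.1 a := by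
  simp only [cR]
  push_cast
  rw [mN_spec, mN_spec]

theorem dbl_sub {α β : Type*} [Fintype β] (s : Finset α) (c d : ℂ) (f g : α → β → ℂ) :
    c * (d * ∑ n ∈ s, ∑ y, f n y) - c * (d * ∑ n ∈ s, ∑ y, g n y) =
      c * (d * ∑ n ∈ s, ∑ y, (f n y - g n y)) := by
  simp only [Finset.sum_sub_distrib, mul_sub]

theorem cR_form (a : ZMod p) (χ : IrrCharacter G) : ((cR D a χ : ℤ) : ℂ) =
    (p : ℂ)⁻¹ * (((Fintype.card D.K : ℕ) : ℂ)⁻¹ *
      ∑ n ∈ Finset.range p, ∑ y : D.K, (1 - ps (-(a * (n : ZMod p)))) * χ.1 (D.x ^ n * (y : G))) := by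
  rw [cR_cast]
  simp only [mu]
  rw [dbl_sub]
  congr 2
  refine Finset.sum_congr rfl fun n _ => Finset.sum_congr rfl fun y _ => ?_
  simp [ps_zero, sub_mul]

theorem mu_conj_form (χ : IrrCharacter G) (a : ZMod p) : mu D χ.1 a =
    (p : ℂ)⁻¹ * (((Fintype.card D.K : ℕ) : ℂ)⁻¹ *
      ∑ n ∈ Finset.range p, ∑ y : D.K, ps (a * (n : ZMod p)) * conj (χ.1 (D.x ^ n * (y : G)))) := by
  have h1 : conj (mu D χ.1 a) = mu D χ.1 a := by
    rw [← mN_spec]
    simp
  rw [← h1]
  simp only [mu]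
  simp only [map_mul, map_inv₀, map_sum, Complex.conj_natCast, ps_conj, neg_neg]

theorem cR_conj_form (a : ZMod p) (χ : IrrCharacter G) : ((cR D a χ : ℤ) : ℂ) =
    (p : ℂ)⁻¹ * (((Fintype.card D.K : ℕ) : ℂ)⁻¹ *
      ∑ n ∈ Finset.range p, ∑ y : D.K, (1 - ps (a * (n : ZMod p))) * conj (χ.1 (D.x ^ n * (y : G)))) := by
  rw [cR_cast, mu_conj_form, mu_conj_form]
  rw [dbl_sub]
  congr 2
  refine Finset.sum_congr rfl fun n _ => Finset.sum_congr rfl fun y _ => ?_
  simp [ps_zero, sub_mul]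

open scoped Classical in
/-- Column orthogonality as a count. -/
theorem col_eq_count (g h : G) : ∑ χ : IrrCharacter G, χ.1 g * conj (χ.1 h) =
    ∑ t : G, if t * g * t⁻¹ = h then (1 : ℂ) else 0 := by
  classical
  by_cases hc : IsConj g h
  · rw [column_orthogonality_of_isConj hc]
    obtain ⟨t₀, ht₀⟩ := isConj_iff.mp hc
    rw [Finset.sum_boole]
    congr 1
    rw [← Fintype.card_subtype, ← Nat.card_eq_fintype_card]
    refine Nat.card_congr ⟨fun z => ⟨(z : G) * t₀, ?_⟩, fun t => ⟨(t : G) * t₀⁻¹, ?_⟩, ?_, ?_⟩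
    · have hz : (z : G) * h = h * (z : G) := by
        have := Subgroup.mem_centralizer_iff.mp z.2 h rfl
        exact this.symm
      have : (z : G) * t₀ * g * ((z : G) * t₀)⁻¹ = (z : G) * (t₀ * g * t₀⁻¹) * (z : G)⁻¹ := by group
      rw [this, ht₀, hz]
      group
    · rw [Subgroup.mem_centralizer_iff]
      intro w hw
      have hw' : w = h := hw
      rw [hw']
      have ht := t.2
      have h1 : t₀ * g * t₀⁻¹ = (t : G) * g * (t : G)⁻¹ := ht₀.trans ht.symm
      have h2 : g = t₀⁻¹ * h * t₀ := by rw [← ht₀]; group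
      have h3 : (t : G) * (t₀⁻¹ * h * t₀) * (t : G)⁻¹ = h := by rw [← h2]; exact ht
      calc h * ((t : G) * t₀⁻¹) = ((t : G) * (t₀⁻¹ * h * t₀) * (t : G)⁻¹) * ((t : G) * t₀⁻¹) := by rw [h3]
        _ = (t : G) * t₀⁻¹ * h := by group
    · intro z
      ext
      simp
    · intro t
      ext
      simp
  · rw [column_orthogonality_of_not_isConj hc]
    symm
    apply Finset.sum_eq_zero
    intro t _
    rw [if_neg]
    intro h1
    apply hc
    exact isConj_iff.mpr ⟨t, h1⟩

/-- The sum of characters weighted by a row. -/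
noncomputable def Ff (b : ZMod p) (g : G) : ℂ := ∑ χ : IrrCharacter G, ((cR D b χ : ℤ) : ℂ) * χ.1 g

open scoped Classical in
theorem Ff_eq (b : ZMod p) (g : G) : Ff D b g =
    (p : ℂ)⁻¹ * (((Fintype.card D.K : ℕ) : ℂ)⁻¹ *
      ∑ n ∈ Finset.range p, ∑ y : D.K, (1 - ps (b * (n : ZMod p))) *
        ∑ t : G, if t * g * t⁻¹ = D.x ^ n * (y : G) then (1 : ℂ) else 0) := by
  simp only [← col_eq_count]
  simp only [Ff, cR_conj_form]
  simp only [Finset.sum_mul, Finset.mul_sum]
  rw [Finset.sum_comm]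
  refine Finset.sum_congr rfl fun n _ => ?_
  rw [Finset.sum_comm]
  refine Finset.sum_congr rfl fun y _ => ?_
  refine Finset.sum_congr rfl fun χ _ => ?_
  ring

theorem DS.orderOf_mul (n : ℕ) (hn : Nat.Coprime n p) {y : G} (hy : y ∈ D.K) :
    p ∣ orderOf (D.x ^ n * y) := by
  have h1 : orderOf (D.x ^ n) = p := by
    rw [Nat.Coprime.orderOf_pow (by rw [D.hx]; exact hn.symm), D.hx]
  have hcop : Nat.Coprime (orderOf (D.x ^ n)) (orderOf y) := by
    rw [h1]
    exact (Nat.Coprime.coprime_dvd_left (Subgroup.orderOf_dvd_natCard D.K hy) D.hKp).symm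
  have hc : Commute (D.x ^ n) y := by
    apply Commute.pow_left
    exact D.hxK y hy
  rw [hc.orderOf_mul_eq_mul_orderOf_of_coprime hcop, h1]
  exact dvd_mul_right _ _

theorem coprime_of_lt {n : ℕ} (h0 : n ≠ 0) (h1 : n < p) : Nat.Coprime n p := by
  rw [Nat.coprime_comm, (Fact.out : p.Prime).coprime_iff_not_dvd]
  intro h
  have := Nat.le_of_dvd (Nat.pos_of_ne_zero h0) h
  omega

theorem Ff_regular (b : ZMod p) {g : G} (hg : ¬ p ∣ orderOf g) : Ff D b g = 0 := by
  classical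
  rw [Ff_eq]
  have h : ∀ n ∈ Finset.range p, ∀ y : D.K, (1 - ps (b * (n : ZMod p))) *
        (∑ t : G, if t * g * t⁻¹ = D.x ^ n * (y : G) then (1 : ℂ) else 0) = 0 := by
    intro n hn y
    by_cases h0 : n = 0
    · subst h0
      simp [ps_zero]
    · have h1 : ∑ t : G, (if t * g * t⁻¹ = D.x ^ n * (y : G) then (1 : ℂ) else 0) = 0 := by
        apply Finset.sum_eq_zero
        intro t _
        rw [if_neg]
        intro h2
        apply hg
        have h3 := D.orderOf_mul n (coprime_of_lt h0 (Finset.mem_range.mp hn)) y.2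
        rw [← h2] at h3
        have h4 : orderOf (t * g * t⁻¹) = orderOf g := by
          have := MulEquiv.orderOf_eq (MulAut.conj t) g
          simpa [MulAut.conj_apply] using this
        rwa [h4] at h3
      rw [h1, mul_zero]
  rw [Finset.sum_eq_zero fun n hn => Finset.sum_eq_zero fun y _ => h n hn y]
  simp

end Cfsg.Agent.H23.DO
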