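import Cfsg.Agent.Lib.H23.DORow

/-!
# The rows: inner products, and bounds from the main theorem
-/

set_option autoImplicit false
set_option linter.unusedSectionVars false
set_option linter.style.haveILetI false

namespace Cfsg.Agent.H23.DO

open Module Matrix Cfsg Cfsg.Agent.H22 Cfsg.Agent.H21
open scoped ComplexConjugate

universe u

variable {G : Type u} [Group G] [Finite G] {p : ℕ} [Fact p.Prime] (D : DS G p)

theorem DS.dec_unique {n n' : ℕ} (hn : n < p) (hn' : n' < p) {y y' : G} (hy : y ∈ D.K) (hy' : y' ∈ D.K)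
    (h : D.x ^ n * y = D.x ^ n' * y') : n = n' ∧ y = y' := by
  have h1 : (D.x ^ n') ⁻¹ * D.x ^ n = y' * y⁻¹ := by
    calc (D.x ^ n') ⁻¹ * D.x ^ n = (D.x ^ n') ⁻¹ * (D.x ^ n * y) * y⁻¹ := by group
      _ = y' * y⁻¹ := by rw [h]; group
  have h2 : y' * y⁻¹ ∈ D.K := D.K.mul_mem hy' (D.K.inv_mem hy)
  have h3 : (y' * y⁻¹) ^ p = 1 := by
    rw [← h1]
    have hc : Commute (D.x ^ n')⁻¹ (D.x ^ n) := ((Commute.refl D.x).pow_pow n' n).inv_left
    rw [hc.mul_pow, inv_pow, ← pow_mul, ← pow_mul, mul_comm n', mul_comm n, pow_mul, pow_mul, D.x_pow]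
    simp
  have h4 : y' * y⁻¹ = 1 := by
    have h5 : orderOf (y' * y⁻¹) ∣ p := orderOf_dvd_of_pow_eq_one h3
    have h6 : orderOf (y' * y⁻¹) ∣ Nat.card D.K := Subgroup.orderOf_dvd_natCard D.K h2
    have h7 : orderOf (y' * y⁻¹) ∣ 1 := by
      have := Nat.dvd_gcd h6 h5
      rwa [D.hKp] at this
    exact orderOf_eq_one_iff.mp (Nat.dvd_one.mp h7)
  have hyy : y' = y := by
    have := mul_inv_eq_one.mp h4
    exact this
  rw [hyy] at h
  have h8 : D.x ^ n = D.x ^ n' := mul_right_cancel h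
  refine ⟨?_, hyy.symm⟩
  have h9 := pow_injOn_Iio_orderOf (x := D.x)
  rw [D.hx] at h9
  exact h9 (Set.mem_Iio.mpr hn) (Set.mem_Iio.mpr hn') h8

/-- The action on `⟨x⟩`. -/
abbrev NN (D : DS G p) : Subgroup G := Subgroup.normalizer ((Subgroup.zpowers D.x : Subgroup G) : Set G)

section Theta

variable (θ : NN D →* (ZMod p)ˣ)
  (hθ : ∀ t : NN D, (t : G) * D.x * (t : G)⁻¹ = D.x ^ (((θ t : (ZMod p)ˣ) : ZMod p)).val)
  (hker : Nat.card θ.ker = p * Nat.card D.K)

include hθ in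
theorem conj_form (t : NN D) (k : ℕ) {z : G} (hz : z ∈ D.K) :
    (t : G) * (D.x ^ k * z) * (t : G)⁻¹ =
      D.x ^ ((((θ t : (ZMod p)ˣ) : ZMod p) * (k : ZMod p)).val) * ((t : G) * z * (t : G)⁻¹) := by
  have h1 : (t : G) * (D.x ^ k * z) * (t : G)⁻¹ = ((t : G) * D.x * (t : G)⁻¹) ^ k * ((t : G) * z * (t : G)⁻¹) := by
    rw [conj_pow]
    group
  rw [h1, hθ, ← pow_mul]
  congr 1
  have h2 := pow_mod_orderOf D.x (((θ t : (ZMod p)ˣ) : ZMod p).val * k)
  rw [D.hx] at h2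
  rw [← h2]
  congr 1
  rw [ZMod.val_mul, ZMod.val_natCast]
  simp [Nat.mul_mod]

open scoped Classical in
/-- The inner count. -/
noncomputable def inner (b : ZMod p) (g t : G) : ℂ :=
  ∑ n ∈ Finset.range p, ∑ y : D.K, (1 - ps (b * (n : ZMod p))) *
    if t * g * t⁻¹ = D.x ^ n * (y : G) then (1 : ℂ) else 0

include hθ in
theorem inner_N (b : ZMod p) (t : NN D) {k : ℕ} {z : G} (hz : z ∈ D.K) :
    inner D b (D.x ^ k * z) (t : G) = 1 - ps (b * (((θ t : (ZMod p)ˣ) : ZMod p) * (k : ZMod p))) := by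
  classical
  simp only [inner]
  let s : ZMod p := ((θ t : (ZMod p)ˣ) : ZMod p) * (k : ZMod p)
  have hform := conj_form D θ hθ t k hz
  have hz' : (t : G) * z * (t : G)⁻¹ ∈ D.K := D.hKN t t.2 z hz
  have hlt : s.val < p := ZMod.val_lt s
  rw [Finset.sum_eq_single s.val]
  · rw [Finset.sum_eq_single (⟨_, hz'⟩ : D.K)]
    · rw [if_pos hform]
      simp [s, ZMod.natCast_zmod_val]
    · intro y _ hy
      rw [if_neg, mul_zero]
      intro h
      rw [hform] at h
      exact hy (Subtype.ext (D.dec_unique hlt hlt hz' y.2 h).2.symm)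
    · simp
  · intro n hn hne
    apply Finset.sum_eq_zero
    intro y _
    rw [if_neg, mul_zero]
    intro h
    rw [hform] at h
    exact hne (D.dec_unique hlt (Finset.mem_range.mp hn) hz' y.2 h).1.symm
  · intro h
    exact absurd (Finset.mem_range.mpr hlt) h

theorem inner_notN (b : ZMod p) {t : G} (ht : t ∉ NN D) {k : ℕ} (hk : Nat.Coprime k p) {z : G} (hz : z ∈ D.K) :
    inner D b (D.x ^ k * z) t = 0 := by
  classical
  simp only [inner]
  apply Finset.sum_eq_zero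
  intro n _
  apply Finset.sum_eq_zero
  intro y _
  rw [if_neg, mul_zero]
  intro h
  apply ht
  -- raise to the power `|K|`
  let m := Nat.card D.K
  have hy1 : (y : G) ^ m = 1 := orderOf_dvd_iff_pow_eq_one.mp (Subgroup.orderOf_dvd_natCard D.K y.2)
  have hz1 : z ^ m = 1 := orderOf_dvd_iff_pow_eq_one.mp (Subgroup.orderOf_dvd_natCard D.K hz)
  have hc1 : Commute (D.x ^ k) z := (show Commute D.x z from D.hxK z hz).pow_left k
  have hc2 : Commute (D.x ^ n) (y : G) := (show Commute D.x (y : G) from D.hxK y y.2).pow_left n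
  have h2 : t * D.x ^ (k * m) * t⁻¹ = D.x ^ (n * m) := by
    have h3 : (t * (D.x ^ k * z) * t⁻¹) ^ m = (D.x ^ n * (y : G)) ^ m := by rw [h]
    rw [conj_pow, hc1.mul_pow, hc2.mul_pow, hz1, hy1, mul_one, mul_one, ← pow_mul, ← pow_mul] at h3
    exact h3
  have hcop : Nat.Coprime (k * m) p := Nat.Coprime.mul_left hk D.hKp
  obtain ⟨r, _, hr⟩ := Nat.exists_mul_mod_eq_one_of_coprime hcop (Fact.out : p.Prime).one_lt
  have h3 : D.x ^ (k * m * r) = D.x := by
    have := pow_mod_orderOf D.x (k * m * r)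
    rw [D.hx, hr, pow_one] at this
    exact this.symm
  have h4 : t * D.x * t⁻¹ ∈ Subgroup.zpowers D.x := by
    have h5 : t * D.x * t⁻¹ = (t * D.x ^ (k * m) * t⁻¹) ^ r := by
      rw [conj_pow, ← pow_mul, h3]
    rw [h5, h2]
    exact Subgroup.pow_mem _ (Subgroup.pow_mem _ (Subgroup.mem_zpowers _) _) _
  have h6 : t⁻¹ ∈ NN D := by
    apply mem_normalizer_of_conj_mem D.hx
    rw [inv_inv]
    exact h4
  have := Subgroup.inv_mem _ h6
  simpa using this

/-- The image of `θ`, as a finite set. -/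
noncomputable def AA : Finset (ZMod p)ˣ := by
  classical exact Finset.univ.filter (fun s => s ∈ θ.range)

theorem mem_AA (s : (ZMod p)ˣ) : s ∈ AA D θ ↔ s ∈ θ.range := by
  classical
  simp [AA]

theorem sum_fiber (H : (ZMod p)ˣ → ℂ) :
    ∑ t : NN D, H (θ t) = (Nat.card θ.ker : ℂ) * ∑ s ∈ AA D θ, H s := by
  classical
  have h1 := Finset.sum_fiberwise_of_maps_to (s := (Finset.univ : Finset (NN D))) (t := AA D θ) (g := fun t => θ t)
    (fun t _ => by rw [mem_AA]; exact ⟨t, rfl⟩) (fun t => H (θ t))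
  rw [← h1, Finset.mul_sum]
  refine Finset.sum_congr rfl fun s hs => ?_
  have h2 : ∀ t ∈ Finset.univ.filter (fun t : NN D => θ t = s), H (θ t) = H s := by
    intro t ht
    rw [(Finset.mem_filter.mp ht).2]
  rw [Finset.sum_congr rfl h2, Finset.sum_const, nsmul_eq_mul]
  congr 2
  have h3 : s ∈ Set.range θ := by
    have := (mem_AA D θ s).mp hs
    exact this
  have h4 := MonoidHom.card_fiber_eq_of_mem_range θ h3 (⟨1, map_one θ⟩ : (1 : (ZMod p)ˣ) ∈ Set.range θ)
  rw [h4, ← Fintype.card_subtype, ← Nat.card_eq_fintype_card]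
  exact Nat.card_congr (Equiv.subtypeEquivRight fun g => (MonoidHom.mem_ker).symm)

theorem sum_subgroup_of_zero {H : Subgroup G} (F : G → ℂ) (h : ∀ t, t ∉ H → F t = 0) :
    ∑ t : G, F t = ∑ t : H, F (t : G) := by
  classical
  rw [← Finset.sum_filter_of_ne (p := (· ∈ H)) (fun t _ hne => by_contra fun ht => hne (h t ht))]
  exact Finset.sum_subtype _ (by simp) F

include hθ hker in
theorem Ff_sing (b : ZMod p) {k : ℕ} (hk : Nat.Coprime k p) {z : G} (hz : z ∈ D.K) :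
    Ff D b (D.x ^ k * z) = ∑ s ∈ AA D θ, (1 - ps (b * ((s : ZMod p) * (k : ZMod p)))) := by
  classical
  have hpp : p.Prime := Fact.out
  have hp0 : (p : ℂ) ≠ 0 := by exact_mod_cast hpp.ne_zero
  have hK0 : ((Fintype.card D.K : ℕ) : ℂ) ≠ 0 := by exact_mod_cast Fintype.card_ne_zero
  rw [Ff_eq]
  have h1 : ∑ n ∈ Finset.range p, ∑ y : D.K, (1 - ps (b * (n : ZMod p))) *
        ∑ t : G, (if t * (D.x ^ k * z) * t⁻¹ = D.x ^ n * (y : G) then (1 : ℂ) else 0) =
      ∑ t : G, inner D b (D.x ^ k * z) t := by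
    simp only [inner, Finset.mul_sum]
    symm
    rw [Finset.sum_comm]
    refine Finset.sum_congr rfl fun n _ => ?_
    rw [Finset.sum_comm]
  rw [h1, sum_subgroup_of_zero (H := NN D) _ (fun t ht => inner_notN D b ht hk hz)]
  have h2 : ∀ t : NN D, inner D b (D.x ^ k * z) (t : G) =
      (fun s : (ZMod p)ˣ => 1 - ps (b * ((s : ZMod p) * (k : ZMod p)))) (θ t) :=
    fun t => inner_N D θ hθ b t hz
  rw [Finset.sum_congr rfl fun t _ => h2 t, sum_fiber D θ (fun s : (ZMod p)ˣ => 1 - ps (b * ((s : ZMod p) * (k : ZMod p)))),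
    hker, Nat.card_eq_fintype_card (α := D.K)]
  push_cast
  generalize (∑ s ∈ AA D θ, (1 - ps (b * ((s : ZMod p) * (k : ZMod p))))) = S
  field_simp

theorem sum_two (u v : ZMod p) (hu : u ≠ 0) (hv : v ≠ 0) :
    ∑ n ∈ Finset.range p, (1 - ps (u * (n : ZMod p))) * (1 - ps (v * (n : ZMod p))) =
      (p : ℂ) + if u + v = 0 then (p : ℂ) else 0 := by
  have h1 : ∀ n : ℕ, (1 - ps (u * (n : ZMod p))) * (1 - ps (v * (n : ZMod p))) =
      1 - ps (u * (n : ZMod p)) - ps (v * (n : ZMod p)) + ps ((u + v) * (n : ZMod p)) := by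
    intro n
    rw [add_mul, ps_add]
    ring
  simp only [h1]
  rw [Finset.sum_add_distrib, Finset.sum_sub_distrib, Finset.sum_sub_distrib, sum_ps, sum_ps, sum_ps,
    if_neg hu, if_neg hv]
  simp

include hθ hker in
theorem gram_form (a b : (ZMod p)ˣ) : ∑ χ : IrrCharacter G, ((cR D a χ : ℤ) : ℂ) * ((cR D b χ : ℤ) : ℂ) =
    ∑ s ∈ AA D θ, (1 + if (b : ZMod p) * (s : ZMod p) = (a : ZMod p) then (1 : ℂ) else 0) := by
  classical
  have hpp : p.Prime := Fact.out
  have hp0 : (p : ℂ) ≠ 0 := by exact_mod_cast hpp.ne_zero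
  have hK0 : ((Fintype.card D.K : ℕ) : ℂ) ≠ 0 := by exact_mod_cast Fintype.card_ne_zero
  have h1 : ∑ χ : IrrCharacter G, ((cR D a χ : ℤ) : ℂ) * ((cR D b χ : ℤ) : ℂ) =
      (p : ℂ)⁻¹ * (((Fintype.card D.K : ℕ) : ℂ)⁻¹ *
        ∑ n ∈ Finset.range p, ∑ y : D.K, (1 - ps (-((a : ZMod p) * (n : ZMod p)))) * Ff D b (D.x ^ n * (y : G))) := by
    simp only [cR_form D (a : ZMod p), Ff]
    simp only [Finset.sum_mul, Finset.mul_sum]
    rw [Finset.sum_comm]
    refine Finset.sum_congr rfl fun n _ => ?_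
    rw [Finset.sum_comm]
    refine Finset.sum_congr rfl fun y _ => Finset.sum_congr rfl fun χ _ => ?_
    ring
  rw [h1]
  have h2 : ∀ n ∈ Finset.range p, ∀ y : D.K, (1 - ps (-((a : ZMod p) * (n : ZMod p)))) * Ff D b (D.x ^ n * (y : G)) =
      (1 - ps (-((a : ZMod p) * (n : ZMod p)))) *
        ∑ s ∈ AA D θ, (1 - ps ((b : ZMod p) * ((s : ZMod p) * (n : ZMod p)))) := by
    intro n hn y
    by_cases h0 : n = 0
    · subst h0
      simp [ps_zero]
    · rw [Ff_sing D θ hθ hker _ (coprime_of_lt h0 (Finset.mem_range.mp hn)) y.2]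
  rw [Finset.sum_congr rfl fun n hn => Finset.sum_congr rfl fun y _ => h2 n hn y]
  simp only [Finset.sum_const, Finset.card_univ, nsmul_eq_mul]
  have h3 : (p : ℂ)⁻¹ * (((Fintype.card D.K : ℕ) : ℂ)⁻¹ *
      ∑ n ∈ Finset.range p, ((Fintype.card D.K : ℕ) : ℂ) * ((1 - ps (-((a : ZMod p) * (n : ZMod p)))) *
        ∑ s ∈ AA D θ, (1 - ps ((b : ZMod p) * ((s : ZMod p) * (n : ZMod p)))))) =
      ∑ s ∈ AA D θ, (p : ℂ)⁻¹ * ∑ n ∈ Finset.range p, (1 - ps ((-(a : ZMod p)) * (n : ZMod p))) *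
        (1 - ps (((b : ZMod p) * (s : ZMod p)) * (n : ZMod p))) := by
    rw [← Finset.mul_sum (Finset.range p), ← mul_assoc (((Fintype.card D.K : ℕ) : ℂ)⁻¹), inv_mul_cancel₀ hK0, one_mul]
    rw [← Finset.mul_sum (AA D θ)]
    congr 1
    simp only [Finset.mul_sum]
    rw [Finset.sum_comm]
    refine Finset.sum_congr rfl fun s _ => Finset.sum_congr rfl fun n _ => ?_
    rw [neg_mul, mul_assoc]
  rw [h3]
  refine Finset.sum_congr rfl fun s _ => ?_
  rw [sum_two _ _ (neg_ne_zero.mpr a.ne_zero) (mul_ne_zero b.ne_zero s.ne_zero)]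
  have h4 : (-(a : ZMod p) + (b : ZMod p) * (s : ZMod p) = 0) ↔ (b : ZMod p) * (s : ZMod p) = (a : ZMod p) := by
    constructor
    · intro h
      linear_combination h
    · intro h
      rw [h]
      ring
  simp only [h4]
  split_ifs <;> field_simp <;> ring

end Theta

end Cfsg.Agent.H23.DO
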