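import Mathlib

/-!
# A combinatorial lemma: integer rows with prescribed inner products
-/

set_option autoImplicit false
set_option linter.unusedSectionVars false
set_option linter.style.haveILetI false

namespace Cfsg.Agent.H23.DO

section Sun

variable {Ω Q Γ : Type*} [Fintype Ω] [DecidableEq Ω] [Fintype Q] [DecidableEq Q]
  (c : Q → Ω → ℤ) (val : Ω → Γ → ℂ)

/-- Two rows differ in exactly two places. -/
def Tup (q q' : Q) (a b : Ω) : Prop :=
  c q a ≠ 0 ∧ c q' a = 0 ∧ c q' b ≠ 0 ∧ c q b = 0 ∧ (∀ χ, χ ≠ a → χ ≠ b → c q χ = c q' χ) ∧ c q a = c q' b ∧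
    ∀ g, val a g = val b g

variable {c val}

theorem Tup.symm {q q' : Q} {a b : Ω} (h : Tup c val q q' a b) : Tup c val q' q b a := by
  obtain ⟨h1, h2, h3, h4, h5, h6, h7⟩ := h
  exact ⟨h3, h4, h1, h2, fun χ hb ha => (h5 χ ha hb).symm, h6.symm, fun g => (h7 g).symm⟩

theorem Tup.uniq {q q' : Q} {a b χ : Ω} (h : Tup c val q q' a b) (h1 : c q χ ≠ 0) (h2 : c q' χ = 0) : χ = a := by
  obtain ⟨_, _, h3, h4, h5, _, _⟩ := h
  by_contra ha
  have hb : χ ≠ b := by
    rintro rfl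
    exact h1 h4
  rw [h5 χ ha hb] at h1
  exact h1 h2

theorem card_support (f : Ω → ℤ) (h : ∀ χ, f χ = 0 ∨ f χ = 1 ∨ f χ = -1) :
    ∑ χ, f χ * f χ = ((Finset.univ.filter (fun χ => f χ ≠ 0)).card : ℤ) := by
  rw [Finset.card_filter]
  push_cast
  refine Finset.sum_congr rfl fun χ _ => ?_
  rcases h χ with h1 | h1 | h1 <;> simp [h1]

variable (hT1 : ∀ q χ, c q χ = 0 ∨ c q χ = 1 ∨ c q χ = -1) (e : ℕ)
  (hG1 : ∀ q, ∑ χ, c q χ * c q χ = (e : ℤ) + 1)
  (hG2 : ∀ q q', q ≠ q' → ∑ χ, c q χ * c q' χ = (e : ℤ))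
  (g₀ : Γ) (r₀ : Ω → ℝ) (hpos : ∀ χ, 0 < r₀ χ) (hr₀ : ∀ χ, val χ g₀ = (r₀ χ : ℂ))
  (hV : ∀ q g, ∑ χ, (c q χ : ℂ) * val χ g = 0)
  (hT2 : ∀ q χ₁ χ₂, χ₁ ≠ χ₂ → c q χ₁ = c q χ₂ → c q χ₁ ≠ 0 → (∀ g, val χ₁ g = val χ₂ g) → False)

include hT1 hG1 hG2 hpos hr₀ hV in
theorem two_rows {q q' : Q} (hne : q ≠ q') : ∃ a b, Tup c val q q' a b := by
  have hsq : ∑ χ, (c q χ - c q' χ) * (c q χ - c q' χ) = 2 := by
    have h1 : ∀ χ, (c q χ - c q' χ) * (c q χ - c q' χ) = c q χ * c q χ + c q' χ * c q' χ - 2 * (c q χ * c q' χ) := by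
      intro χ
      ring
    simp only [h1]
    rw [Finset.sum_sub_distrib, Finset.sum_add_distrib, ← Finset.mul_sum, hG1, hG1, hG2 q q' hne]
    ring
  have hno : ∀ χ, c q χ * c q' χ ≠ -1 := by
    intro χ h
    have h1 := Finset.single_le_sum (f := fun χ => (c q χ - c q' χ) * (c q χ - c q' χ))
      (s := Finset.univ) (fun χ _ => mul_self_nonneg _) (Finset.mem_univ χ)
    rw [hsq] at h1
    rcases hT1 q χ with h2 | h2 | h2 <;> rcases hT1 q' χ with h3 | h3 | h3 <;> simp [h2, h3] at h h1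
  -- the two index sets
  let P := Finset.univ.filter (fun χ => c q χ ≠ 0 ∧ c q' χ = 0)
  let P' := Finset.univ.filter (fun χ => c q' χ ≠ 0 ∧ c q χ = 0)
  have hsum : (P.card : ℤ) + P'.card = 2 := by
    rw [← hsq]
    simp only [P, P', Finset.card_filter]
    push_cast
    rw [← Finset.sum_add_distrib]
    refine Finset.sum_congr rfl fun χ _ => ?_
    have := hno χ
    rcases hT1 q χ with h2 | h2 | h2 <;> rcases hT1 q' χ with h3 | h3 | h3 <;> simp [h2, h3] at this ⊢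
  have hdiff : (P.card : ℤ) - P'.card = 0 := by
    have h0 : ∑ χ, (c q χ * c q χ - c q' χ * c q' χ) = 0 := by
      rw [Finset.sum_sub_distrib, hG1, hG1, sub_self]
    rw [← h0]
    simp only [P, P', Finset.card_filter]
    push_cast
    rw [← Finset.sum_sub_distrib]
    refine Finset.sum_congr rfl fun χ _ => ?_
    rcases hT1 q χ with h2 | h2 | h2 <;> rcases hT1 q' χ with h3 | h3 | h3 <;> simp [h2, h3]
  have hP : P.card = 1 := by omega
  have hP' : P'.card = 1 := by omega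
  obtain ⟨a, ha⟩ := Finset.card_eq_one.mp hP
  obtain ⟨b, hb⟩ := Finset.card_eq_one.mp hP'
  have ha1 : c q a ≠ 0 ∧ c q' a = 0 := by
    have : a ∈ P := by rw [ha]; exact Finset.mem_singleton_self a
    exact (Finset.mem_filter.mp this).2
  have hb1 : c q' b ≠ 0 ∧ c q b = 0 := by
    have : b ∈ P' := by rw [hb]; exact Finset.mem_singleton_self b
    exact (Finset.mem_filter.mp this).2
  have hab : a ≠ b := by
    rintro rfl
    exact ha1.1 hb1.2
  have hrest : ∀ χ, χ ≠ a → χ ≠ b → c q χ = c q' χ := by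
    intro χ h1 h2
    have h3 : χ ∉ P := by
      rw [ha]
      simpa using h1
    have h4 : χ ∉ P' := by
      rw [hb]
      simpa using h2
    simp only [P, P', Finset.mem_filter, Finset.mem_univ, true_and, not_and, not_not] at h3 h4
    have := hno χ
    rcases hT1 q χ with h5 | h5 | h5 <;> rcases hT1 q' χ with h6 | h6 | h6 <;> simp [h5, h6] at this h3 h4 ⊢
  have hval : ∀ g, (c q a : ℂ) * val a g = (c q' b : ℂ) * val b g := by
    intro g
    have h1 : ∑ χ, ((c q χ : ℂ) - (c q' χ : ℂ)) * val χ g = 0 := by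
      simp only [sub_mul]
      rw [Finset.sum_sub_distrib, hV, hV, sub_self]
    rw [Finset.sum_eq_add a b hab] at h1
    · rw [ha1.2, hb1.2] at h1
      simp only [Int.cast_zero, sub_zero, zero_sub, neg_mul] at h1
      linear_combination h1
    · intro χ _ h2
      rw [hrest χ h2.1 h2.2, sub_self, zero_mul]
    · simp
    · simp
  have hsign : c q a = c q' b := by
    have h1 := hval g₀
    rw [hr₀, hr₀] at h1
    have h2 : ((c q a : ℝ)) * r₀ a = (c q' b : ℝ) * r₀ b := by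
      have : (((c q a : ℝ) * r₀ a : ℝ) : ℂ) = (((c q' b : ℝ) * r₀ b : ℝ) : ℂ) := by
        push_cast
        exact h1
      exact_mod_cast this
    have hra := hpos a
    have hrb := hpos b
    have hq1 := ha1.1
    have hq2 := hb1.1
    rcases hT1 q a with h3 | h3 | h3
    · exact absurd h3 hq1
    · rcases hT1 q' b with h4 | h4 | h4
      · exact absurd h4 hq2
      · rw [h3, h4]
      · rw [h3, h4] at h2
        norm_num at h2
        linarith
    · rcases hT1 q' b with h4 | h4 | h4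
      · exact absurd h4 hq2
      · rw [h3, h4] at h2
        norm_num at h2
        linarith
      · rw [h3, h4]
  refine ⟨a, b, ha1.1, ha1.2, hb1.1, hb1.2, hrest, hsign, ?_⟩
  intro g
  have h1 := hval g
  rw [← hsign] at h1
  have h2 : (c q a : ℂ) ≠ 0 := by exact_mod_cast ha1.1
  exact mul_left_cancel₀ h2 h1

include hT1 hG1 hG2 hpos hr₀ hV hT2 in
theorem tup_unique {q q' q'' : Q} (h1 : q ≠ q') (h2 : q ≠ q'') {a b a₂ b₂ : Ω} (T : Tup c val q q' a b)
    (T₂ : Tup c val q q'' a₂ b₂) : a = a₂ := by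
  by_cases h3 : q' = q''
  · subst h3
    exact (T.uniq T₂.1 T₂.2.1).symm
  by_contra hne
  obtain ⟨u, v, U⟩ := two_rows hT1 e hG1 hG2 g₀ r₀ hpos hr₀ hV h3
  obtain ⟨t1, t2, t3, t4, t5, t6, t7⟩ := T
  obtain ⟨s1, s2, s3, s4, s5, s6, s7⟩ := T₂
  have T' : Tup c val q q' a b := ⟨t1, t2, t3, t4, t5, t6, t7⟩
  have hab₂ : a₂ ≠ b := by
    rintro rfl
    exact s1 t4
  have h4 : c q a₂ = c q' a₂ := t5 a₂ (Ne.symm hne) hab₂
  have h5 : a₂ = u := U.uniq (by rw [← h4]; exact s1) s2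
  have hbb : b = b₂ := by
    by_contra hbb
    have hba₂ : b ≠ a₂ := Ne.symm hab₂
    have h6 : c q b = c q'' b := s5 b hba₂ hbb
    rw [t4] at h6
    have h7 : b = u := U.uniq t3 h6.symm
    exact hab₂ (h5.trans h7.symm)
  subst hbb
  have hbu : b ≠ u := by
    rintro rfl
    exact s3 U.2.1
  have hbv : b ≠ v := by
    rintro rfl
    exact t3 U.2.2.2.1
  have h8 : c q' b = c q'' b := U.2.2.2.2.1 b hbu hbv
  refine hT2 q a a₂ hne ?_ t1 ?_
  · rw [t6, s6, h8]
  · intro g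
    rw [t7, s7]

include hT1 hG1 hG2 hpos hr₀ hV hT2 in
theorem sunflower [Nonempty Q] :
    ∃ (θ : Q → Ω) (X : Finset Ω) (s : Ω → ℤ) (σ : ℤ), Function.Injective θ ∧ (∀ q, θ q ∉ X) ∧ X.card = e ∧
      (σ = 1 ∨ σ = -1) ∧ (∀ χ ∈ X, (s χ = 1 ∨ s χ = -1) ∧ ∀ q, c q χ = s χ) ∧
      (∀ q q', c q (θ q') = if q' = q then σ else 0) ∧
      (∀ χ, χ ∉ X → χ ∉ Set.range θ → ∀ q, c q χ = 0) := by
  have hcard : ∀ q, ((Finset.univ.filter (fun χ => c q χ ≠ 0)).card : ℤ) = (e : ℤ) + 1 := by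
    intro q
    rw [← card_support (c q) (hT1 q), hG1]
  -- the function `θ`
  have hθ : ∃ θ : Q → Ω, (∀ q, c q (θ q) ≠ 0) ∧ ∀ q q', q ≠ q' → Tup c val q q' (θ q) (θ q') := by
    by_cases hQ : ∃ q q' : Q, q ≠ q'
    · have hp : ∀ q : Q, ∃ q', q ≠ q' := by
        intro q
        obtain ⟨q₁, q₂, h⟩ := hQ
        by_cases h1 : q = q₁
        · exact ⟨q₂, by rwa [h1]⟩
        · exact ⟨q₁, h1⟩
      choose par hpar using hp
      have hex := fun q => two_rows hT1 e hG1 hG2 g₀ r₀ hpos hr₀ hV (hpar q)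
      choose θ θ' hT using hex
      refine ⟨θ, fun q => (hT q).1, ?_⟩
      intro q q' hne
      obtain ⟨a, b, T⟩ := two_rows hT1 e hG1 hG2 g₀ r₀ hpos hr₀ hV hne
      have h1 : a = θ q := tup_unique hT1 e hG1 hG2 g₀ r₀ hpos hr₀ hV hT2 hne (hpar q) T (hT q)
      have h2 : b = θ q' := tup_unique hT1 e hG1 hG2 g₀ r₀ hpos hr₀ hV hT2 hne.symm (hpar q') T.symm (hT q')
      rw [← h1, ← h2]
      exact T
    · push Not at hQ
      obtain ⟨q₀⟩ := ‹Nonempty Q›
      have h1 := hcard q₀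
      have h2 : (Finset.univ.filter (fun χ => c q₀ χ ≠ 0)).Nonempty := by
        rw [← Finset.card_pos]
        omega
      obtain ⟨χ₀, hχ₀⟩ := h2
      refine ⟨fun _ => χ₀, ?_, ?_⟩
      · intro q
        rw [hQ q q₀]
        exact (Finset.mem_filter.mp hχ₀).2
      · intro q q' hne
        exact absurd (hQ q q') hne
  obtain ⟨θ, hθ1, hθ2⟩ := hθ
  obtain ⟨q₀⟩ := ‹Nonempty Q›
  have hσ : ∀ q, c q (θ q) = c q₀ (θ q₀) := by
    intro q
    by_cases h : q = q₀
    · rw [h]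
    · exact (hθ2 q q₀ h).2.2.2.2.2.1
  let X := Finset.univ.filter (fun χ => c q₀ χ ≠ 0 ∧ χ ∉ Set.range θ)
  classical
  refine ⟨θ, X, c q₀, c q₀ (θ q₀), ?_, ?_, ?_, ?_, ?_, ?_, ?_⟩
  · intro q q' h
    by_contra hne
    have := (hθ2 q q' hne)
    exact this.2.2.1 (by rw [← h]; exact this.2.1)
  · intro q h
    exact (Finset.mem_filter.mp h).2.2 ⟨q, rfl⟩
  · have h1 : Finset.univ.filter (fun χ => c q₀ χ ≠ 0) = insert (θ q₀) X := by
      ext χ
      simp only [Finset.mem_filter, Finset.mem_univ, true_and, Finset.mem_insert, X]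
      constructor
      · intro h
        by_cases h2 : χ ∈ Set.range θ
        · obtain ⟨q, rfl⟩ := h2
          by_cases h3 : q = q₀
          · left
            rw [h3]
          · exact absurd (hθ2 q q₀ h3).2.1 h
        · exact Or.inr ⟨h, h2⟩
      · rintro (rfl | h)
        · exact hθ1 q₀
        · exact h.1
    have h2 : θ q₀ ∉ X := fun h => (Finset.mem_filter.mp h).2.2 ⟨q₀, rfl⟩
    have h3 := hcard q₀
    rw [h1, Finset.card_insert_of_notMem h2] at h3
    push_cast at h3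
    omega
  · rcases hT1 q₀ (θ q₀) with h | h | h
    · exact absurd h (hθ1 q₀)
    · exact Or.inl h
    · exact Or.inr h
  · intro χ hχ
    have h1 := (Finset.mem_filter.mp hχ).2
    refine ⟨?_, ?_⟩
    · rcases hT1 q₀ χ with h | h | h
      · exact absurd h h1.1
      · exact Or.inl h
      · exact Or.inr h
    · intro q
      by_cases h : q = q₀
      · rw [h]
      · exact (hθ2 q q₀ h).2.2.2.2.1 χ (fun h2 => h1.2 ⟨q, h2.symm⟩) (fun h2 => h1.2 ⟨q₀, h2.symm⟩)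
  · intro q q'
    split_ifs with h
    · rw [h, hσ]
    · exact (hθ2 q' q h).2.1
  · intro χ hX hr q
    have h1 : c q₀ χ = 0 := by
      by_contra h
      exact hX (Finset.mem_filter.mpr ⟨Finset.mem_univ _, h, hr⟩)
    by_cases h : q = q₀
    · rw [h, h1]
    · rw [(hθ2 q q₀ h).2.2.2.2.1 χ (fun h2 => hr ⟨q, h2.symm⟩) (fun h2 => hr ⟨q₀, h2.symm⟩), h1]

end Sun

end Cfsg.Agent.H23.DO
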