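import Cfsg.Agent.Lib.H23.DORow2
import Cfsg.Agent.Lib.H23.DOSun

/-!
# Consequences of the main theorem for the rows
-/

set_option autoImplicit false
set_option linter.unusedSectionVars false
set_option linter.style.haveILetI false

namespace Cfsg.Agent.H23.DO

open Module Matrix Cfsg Cfsg.Agent.H22 Cfsg.Agent.H21
open scoped ComplexConjugate

universe u

variable {G : Type u} [Group G] [Finite G] {p : ℕ} [Fact p.Prime] (D : DS G p)

/-- A `p`-th root of unity in the valuation ring. -/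
noncomputable def zt (V : ValuationSubring ℂ) (a : ZMod p) : V :=
  ⟨ps a, root_mem_val (Fact.out : p.Prime).ne_zero (ps_pow a)⟩

theorem zt_pow (V : ValuationSubring ℂ) (a : ZMod p) : (zt V a) ^ p = 1 := by
  apply Subtype.ext
  exact ps_pow a

theorem sum_eB_single (χ : IrrCharacter G) (f : IrrCharacter G → ℂ) :
    ∑ χ' : IrrCharacter G, eB {χ} χ' * f χ' = f χ := by
  rw [Finset.sum_eq_single χ]
  · rw [eB_apply_mem (Set.mem_singleton χ), one_mul]
  · intro b _ hb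
    rw [eB_apply_not_mem (by simpa using hb), zero_mul]
  · simp

theorem sum_eB_pair {χ₁ χ₂ : IrrCharacter G} (hne : χ₁ ≠ χ₂) (f : IrrCharacter G → ℂ) :
    ∑ χ' : IrrCharacter G, eB {χ₁, χ₂} χ' * f χ' = f χ₁ + f χ₂ := by
  rw [Finset.sum_eq_add χ₁ χ₂ hne]
  · rw [eB_apply_mem (by simp), eB_apply_mem (by simp), one_mul, one_mul]
  · intro b _ hb
    rw [eB_apply_not_mem (by simpa using hb), zero_mul]
  · simp
  · simp

variable (hsq : ¬ p ^ 2 ∣ Nat.card G) {V : ValuationSubring ℂ} (hV : (p : ℂ) ∈ V.nonunits)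

include hsq hV in
theorem T1 (χ : IrrCharacter G) (a : ZMod p) :
    (cR D a χ = 0 ∨ cR D a χ = 1 ∨ cR D a χ = -1) ∧
      (cR D a χ ≠ 0 → ∀ n : ℕ, Nat.Coprime n p → ∀ y ∈ D.K,
        χ.1 (D.x ^ n * y) = ((Fintype.card D.K : ℕ) : ℂ)⁻¹ * ∑ y' : D.K, χ.1 (D.x ^ n * (y' : G))) := by
  classical
  obtain ⟨ε, hεε, hne, hprim⟩ := exists_primitive (V := V) χ.1 (irr_one_ne_zero' χ)
  obtain ⟨N, hN⟩ := chv_nat (isCharacter_of_irr χ.2) (c := cf ε) (by rw [← cf_mul, hεε])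
  have hN0 : N ≠ 0 := by
    rintro rfl
    apply hne
    rw [hN]
    simp
  obtain ⟨rk, h1, h2, h3⟩ := thmM (V := V) D hsq hV hεε hprim {χ}
  have hThet : ∀ g, Thet {χ} (cf ε) g = (N : ℂ) * χ.1 g := by
    intro g
    simp only [Thet, mul_assoc]
    rw [sum_eB_single χ (fun χ' => chv χ'.1 (cf ε) * χ'.1 g), hN]
  have hrk : ∀ b : ZMod p, rk (zt V b) = N * mN D χ b := by
    intro b
    have h4 := h1 (zt V b) (zt_pow V b)
    have h5 : (((zt V b : V)) : ℂ) = ps b := rfl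
    rw [h5, mTheta_eq, mu_Thet] at h4
    simp only [mul_assoc] at h4
    rw [sum_eB_single χ (fun χ' => chv χ'.1 (cf ε) * mu D χ'.1 b), hN, ← mN_spec] at h4
    exact_mod_cast h4
  have hb1 := h2 (zt V 0) (zt V a) (zt_pow V 0) (zt_pow V a)
  have hb2 := h2 (zt V a) (zt V 0) (zt_pow V a) (zt_pow V 0)
  rw [hrk, hrk] at hb1 hb2
  have hNpos : 1 ≤ N := Nat.one_le_iff_ne_zero.mpr hN0
  simp only [cR]
  refine ⟨?_, ?_⟩
  · have h4 : mN D χ 0 ≤ mN D χ a + 1 := by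
      by_contra h
      have h5 : mN D χ a + 2 ≤ mN D χ 0 := by omega
      have h6 : N * (mN D χ a + 2) ≤ N * mN D χ 0 := Nat.mul_le_mul_left N h5
      nlinarith
    have h7 : mN D χ a ≤ mN D χ 0 + 1 := by
      by_contra h
      have h5 : mN D χ 0 + 2 ≤ mN D χ a := by omega
      have h6 : N * (mN D χ 0 + 2) ≤ N * mN D χ a := Nat.mul_le_mul_left N h5
      nlinarith
    omega
  · intro hc n hn y hy
    have hne' : rk (zt V (0 : ZMod p)) ≠ rk (zt V a) := by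
      rw [hrk, hrk]
      intro h
      have h8 := Nat.eq_of_mul_eq_mul_left (Nat.pos_of_ne_zero hN0) h
      apply hc
      rw [h8]
      simp
    have h9 := h3 (zt V 0) (zt V a) (zt_pow V 0) (zt_pow V a) hne' n hn y hy
    simp only [hThet] at h9
    rw [← Finset.mul_sum, mul_left_comm] at h9
    have hNC : (N : ℂ) ≠ 0 := by exact_mod_cast hN0
    exact mul_left_cancel₀ hNC h9

include hsq hV in
theorem T2 {χ₁ χ₂ : IrrCharacter G} (hne : χ₁ ≠ χ₂) (a : ZMod p) (h1 : cR D a χ₁ = cR D a χ₂) (h2 : cR D a χ₁ ≠ 0)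
    (hreg : ∀ g : G, ¬ p ∣ orderOf g → χ₁.1 g = χ₂.1 g) : False := by
  classical
  obtain ⟨ε, hεε, hne1, hprim⟩ := exists_primitive (V := V) χ₁.1 (irr_one_ne_zero' χ₁)
  have hcc : conv (cf ε) (cf ε) = cf ε := by rw [← cf_mul, hεε]
  obtain ⟨N₁, hN₁⟩ := chv_nat (isCharacter_of_irr χ₁.2) hcc
  obtain ⟨N₂, hN₂⟩ := chv_nat (isCharacter_of_irr χ₂.2) hcc
  have heq := chv_eq_of_regular hsq hV hεε hreg
  have hN10 : N₁ ≠ 0 := by
    rintro rfl
    apply hne1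
    rw [hN₁]
    simp
  have hN20 : N₂ ≠ 0 := by
    rintro rfl
    apply hne1
    rw [heq, hN₂]
    simp
  obtain ⟨rk, h3, h4, _⟩ := thmM (V := V) D hsq hV hεε hprim {χ₁, χ₂}
  have hrk : ∀ b : ZMod p, rk (zt V b) = N₁ * mN D χ₁ b + N₂ * mN D χ₂ b := by
    intro b
    have h5 := h3 (zt V b) (zt_pow V b)
    have h6 : (((zt V b : V)) : ℂ) = ps b := rfl
    rw [h6, mTheta_eq, mu_Thet] at h5
    simp only [mul_assoc] at h5
    rw [sum_eB_pair hne (fun χ' => chv χ'.1 (cf ε) * mu D χ'.1 b), hN₁, hN₂, ← mN_spec, ← mN_spec] at h5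
    exact_mod_cast h5
  have hb1 := h4 (zt V 0) (zt V a) (zt_pow V 0) (zt_pow V a)
  have hb2 := h4 (zt V a) (zt V 0) (zt_pow V a) (zt_pow V 0)
  rw [hrk, hrk] at hb1 hb2
  simp only [cR] at h1 h2
  have hN1' : (1 : ℤ) ≤ N₁ := by exact_mod_cast Nat.one_le_iff_ne_zero.mpr hN10
  have hN2' : (1 : ℤ) ≤ N₂ := by exact_mod_cast Nat.one_le_iff_ne_zero.mpr hN20
  have hb1' : (N₁ : ℤ) * mN D χ₁ 0 + N₂ * mN D χ₂ 0 ≤ N₁ * mN D χ₁ a + N₂ * mN D χ₂ a + 1 := by exact_mod_cast hb1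
  have hb2' : (N₁ : ℤ) * mN D χ₁ a + N₂ * mN D χ₂ a ≤ N₁ * mN D χ₁ 0 + N₂ * mN D χ₂ 0 + 1 := by exact_mod_cast hb2
  set v : ℤ := (mN D χ₁ 0 : ℤ) - mN D χ₁ a with hv
  have hv2 : (mN D χ₂ 0 : ℤ) - mN D χ₂ a = v := h1.symm
  have h7 : (N₁ : ℤ) * mN D χ₁ 0 + N₂ * mN D χ₂ 0 - (N₁ * mN D χ₁ a + N₂ * mN D χ₂ a) = (N₁ + N₂) * v := by
    have e1 : (mN D χ₂ 0 : ℤ) = v + mN D χ₂ a := by linarith
    have e2 : (mN D χ₁ 0 : ℤ) = v + mN D χ₁ a := by rw [hv]; ring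
    rw [e1, e2]
    ring
  have h8 : (N₁ + N₂ : ℤ) * v ≤ 1 := by linarith
  have h9 : -1 ≤ (N₁ + N₂ : ℤ) * v := by linarith
  have h10 : v ≠ 0 := h2
  rcases lt_or_gt_of_ne h10 with h11 | h11
  · have h12 : v ≤ -1 := by omega
    nlinarith
  · have h12 : 1 ≤ v := by omega
    nlinarith

/-! ## Fourier inversion on `⟨x⟩` -/

theorem sum_zmod_split (f : ZMod p → ℂ) : ∑ a : ZMod p, f a = f 0 + ∑ u : (ZMod p)ˣ, f (u : ZMod p) := by
  classical
  rw [← Finset.add_sum_erase _ f (Finset.mem_univ (0 : ZMod p))]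
  congr 1
  symm
  refine Finset.sum_bij (fun u _ => (u : ZMod p)) ?_ ?_ ?_ ?_
  · intro u _
    simp [u.ne_zero]
  · intro u _ v _ h
    exact Units.ext h
  · intro a ha
    have h0 : a ≠ 0 := by simpa using ha
    exact ⟨Units.mk0 a h0, Finset.mem_univ _, rfl⟩
  · intro _ _; rfl

theorem ps_sum_units {n : ℕ} (h0 : n ≠ 0) (h1 : n < p) :
    ∑ u : (ZMod p)ˣ, ps ((u : ZMod p) * (n : ZMod p)) = -1 := by
  have hn : (n : ZMod p) ≠ 0 := by
    intro h
    have := (ZMod.natCast_eq_zero_iff n p).mp h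
    have h2 := Nat.le_of_dvd (Nat.pos_of_ne_zero h0) this
    omega
  have h2 := sum_zmod_split (fun a : ZMod p => ps (a * (n : ZMod p)))
  simp only [zero_mul, ps_zero] at h2
  have h3 : ∑ a : ZMod p, ps (a * (n : ZMod p)) = 0 := by
    rw [← sum_range_zmod (fun a => ps (a * (n : ZMod p)))]
    simp only [mul_comm _ (n : ZMod p)]
    have h4 := sum_ps (n : ZMod p)
    rw [if_neg hn] at h4
    exact h4
  rw [h3] at h2
  linear_combination -h2

theorem fourier (χ : G → ℂ) {n : ℕ} (hn : n < p) :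
    ((Fintype.card D.K : ℕ) : ℂ)⁻¹ * ∑ y : D.K, χ (D.x ^ n * (y : G)) =
      ∑ a : ZMod p, mu D χ a * ps (a * (n : ZMod p)) := by
  classical
  have hpp : p.Prime := Fact.out
  have hp0 : (p : ℂ) ≠ 0 := by exact_mod_cast hpp.ne_zero
  simp only [mu]
  have h1 : ∀ a : ZMod p, (p : ℂ)⁻¹ * (((Fintype.card D.K : ℕ) : ℂ)⁻¹ *
      ∑ n' ∈ Finset.range p, ∑ y : D.K, ps (-(a * (n' : ZMod p))) * χ (D.x ^ n' * (y : G))) * ps (a * (n : ZMod p)) =
      (p : ℂ)⁻¹ * (((Fintype.card D.K : ℕ) : ℂ)⁻¹ *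
      ∑ n' ∈ Finset.range p, ∑ y : D.K, ps (a * ((n : ZMod p) - (n' : ZMod p))) * χ (D.x ^ n' * (y : G))) := by
    intro a
    rw [mul_assoc, mul_assoc]
    congr 2
    rw [Finset.sum_mul]
    refine Finset.sum_congr rfl fun n' _ => ?_
    rw [Finset.sum_mul]
    refine Finset.sum_congr rfl fun y _ => ?_
    have h2 : a * ((n : ZMod p) - (n' : ZMod p)) = -(a * (n' : ZMod p)) + a * (n : ZMod p) := by ring
    rw [h2, ps_add]
    ring
  simp only [h1]
  rw [← Finset.mul_sum, ← Finset.mul_sum]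
  have h2 : ∑ a : ZMod p, ∑ n' ∈ Finset.range p, ∑ y : D.K,
      ps (a * ((n : ZMod p) - (n' : ZMod p))) * χ (D.x ^ n' * (y : G)) =
      (p : ℂ) * ∑ y : D.K, χ (D.x ^ n * (y : G)) := by
    rw [Finset.sum_comm]
    rw [Finset.sum_eq_single n]
    · simp only [sub_self, mul_zero, ps_zero, one_mul]
      rw [Finset.sum_const, Finset.card_univ, ZMod.card, nsmul_eq_mul]
    · intro n' hn' hne
      have hn'' : (n : ZMod p) - (n' : ZMod p) ≠ 0 := by
        intro h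
        have h3 : (n : ZMod p) = (n' : ZMod p) := sub_eq_zero.mp h
        have h4 := congrArg ZMod.val h3
        rw [ZMod.val_cast_of_lt hn, ZMod.val_cast_of_lt (Finset.mem_range.mp hn')] at h4
        exact hne h4.symm
      rw [Finset.sum_comm]
      apply Finset.sum_eq_zero
      intro y _
      rw [← Finset.sum_mul]
      have h5 : ∑ a : ZMod p, ps (a * ((n : ZMod p) - (n' : ZMod p))) = 0 := by
        rw [← sum_range_zmod (fun a => ps (a * ((n : ZMod p) - (n' : ZMod p))))]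
        simp only [mul_comm _ ((n : ZMod p) - (n' : ZMod p))]
        have h6 := sum_ps ((n : ZMod p) - (n' : ZMod p))
        rw [if_neg hn''] at h6
        exact h6
      rw [h5, zero_mul]
    · intro h
      exact absurd (Finset.mem_range.mpr hn) h
  rw [h2]
  field_simp

/-- The value at `x ^ n` of the `K`-average, for `n ≠ 0`, from the rows. -/
theorem avg_eq_rows (χ : IrrCharacter G) {n : ℕ} (h0 : n ≠ 0) (hn : n < p) :
    ((Fintype.card D.K : ℕ) : ℂ)⁻¹ * ∑ y : D.K, χ.1 (D.x ^ n * (y : G)) =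
      -∑ u : (ZMod p)ˣ, ((cR D (u : ZMod p) χ : ℤ) : ℂ) * ps ((u : ZMod p) * (n : ZMod p)) := by
  rw [fourier D χ.1 hn, sum_zmod_split]
  simp only [zero_mul, ps_zero, mul_one]
  simp only [cR_cast, sub_mul]
  rw [Finset.sum_sub_distrib, ← Finset.mul_sum, ps_sum_units h0 hn]
  ring

/-- The trivial multiplicity on `⟨x⟩` is a natural number. -/
theorem r0_nat {χ : G → ℂ} (hχ : IsCharacter G χ) :
    ∃ m : ℕ, ∑ n ∈ Finset.range p, χ (D.x ^ n) = (p : ℂ) * m := by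
  classical
  obtain ⟨d, ρ, rfl⟩ := hχ
  have hpp : p.Prime := Fact.out
  have hp0 : (p : ℂ) ≠ 0 := by exact_mod_cast hpp.ne_zero
  let T : Module.End ℂ (Fin d → ℂ) := ρ D.x
  have hTp : T ^ p = 1 := by
    simp only [T]
    rw [← map_pow, D.x_pow, map_one]
  let S : Module.End ℂ (Fin d → ℂ) := ∑ i ∈ Finset.range p, T ^ i
  have hSS : S * S = p • S := geom_sq hTp
  let P : Module.End ℂ (Fin d → ℂ) := (p : ℂ)⁻¹ • S
  have hPP : P * P = P := by
    simp only [P]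
    rw [smul_mul_smul_comm, hSS, ← Nat.cast_smul_eq_nsmul ℂ, smul_smul]
    have : (p : ℂ)⁻¹ * (p : ℂ)⁻¹ * (p : ℂ) = (p : ℂ)⁻¹ := by field_simp
    rw [this]
  obtain ⟨m, hm⟩ := trace_idem_nat P hPP
  refine ⟨m, ?_⟩
  rw [← hm]
  simp only [P, S, T]
  rw [map_smul, smul_eq_mul, ← mul_assoc, mul_inv_cancel₀ hp0, one_mul, map_sum]
  refine Finset.sum_congr rfl fun n _ => ?_
  rw [← map_pow]
  rfl

/-- The degree congruence. -/
theorem deg_rows (χ : IrrCharacter G)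
    (hval : ∀ n : ℕ, n ≠ 0 → n < p → χ.1 (D.x ^ n) =
      -∑ u : (ZMod p)ˣ, ((cR D (u : ZMod p) χ : ℤ) : ℂ) * ps ((u : ZMod p) * (n : ZMod p))) :
    ((charDegree χ.1 : ℤ) + ∑ u : (ZMod p)ˣ, cR D (u : ZMod p) χ) % p = 0 := by
  classical
  have hpp : p.Prime := Fact.out
  obtain ⟨m, hm⟩ := r0_nat D (isCharacter_of_irr χ.2)
  have h1 : ∑ n ∈ Finset.range p, χ.1 (D.x ^ n) =
      χ.1 1 + ∑ n ∈ (Finset.range p).erase 0, χ.1 (D.x ^ n) := by
    rw [← Finset.add_sum_erase _ _ (Finset.mem_range.mpr hpp.pos)]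
    simp
  have h2 : ∑ n ∈ (Finset.range p).erase 0, χ.1 (D.x ^ n) = ∑ u : (ZMod p)ˣ, ((cR D (u : ZMod p) χ : ℤ) : ℂ) := by
    have h3 : ∀ n ∈ (Finset.range p).erase 0, χ.1 (D.x ^ n) =
      -∑ u : (ZMod p)ˣ, ((cR D (u : ZMod p) χ : ℤ) : ℂ) * ps ((u : ZMod p) * (n : ZMod p)) := by
      intro n hn
      have h4 := Finset.mem_erase.mp hn
      exact hval n h4.1 (Finset.mem_range.mp h4.2)
    rw [Finset.sum_congr rfl h3]
    simp only [Finset.sum_neg_distrib]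
    rw [Finset.sum_comm, ← Finset.sum_neg_distrib]
    refine Finset.sum_congr rfl fun u _ => ?_
    rw [← Finset.mul_sum]
    have h5 : ∑ n ∈ (Finset.range p).erase 0, ps ((u : ZMod p) * (n : ZMod p)) = -1 := by
      have h6 := sum_ps (u : ZMod p)
      rw [if_neg u.ne_zero, ← Finset.add_sum_erase _ _ (Finset.mem_range.mpr hpp.pos)] at h6
      simp only [Nat.cast_zero, mul_zero, ps_zero] at h6
      linear_combination h6
    rw [h5]
    ring
  rw [h1, h2, one_eq_charDegree (isCharacter_of_irr χ.2)] at hm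
  have h7 : (charDegree χ.1 : ℤ) + ∑ u : (ZMod p)ˣ, cR D (u : ZMod p) χ = (p : ℤ) * m := by
    have : (((charDegree χ.1 : ℤ) + ∑ u : (ZMod p)ˣ, cR D (u : ZMod p) χ : ℤ) : ℂ) = (((p : ℤ) * m : ℤ) : ℂ) := by
      push_cast
      exact hm
    exact_mod_cast this
  rw [h7]
  simp

end Cfsg.Agent.H23.DO
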