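import Cfsg.Agent.Lib.H23.DOGreen

/-!
# Structure of modules over `P ⋊ ⟨t⟩`: the non-free part of a local module is a single Jordan block
-/

set_option autoImplicit false
set_option linter.unusedSectionVars false
set_option linter.style.haveILetI false

namespace Cfsg.Agent.H23.DO

open Module

section Chain

variable {k U : Type*} [Field k] [AddCommGroup U] [Module k U]

theorem pow_apply_zero_of_le (X : Module.End k U) (v : U) {m e : ℕ} (h0 : (X ^ m) v = 0) (he : m ≤ e) :
    (X ^ e) v = 0 := by
  obtain ⟨d, rfl⟩ := Nat.exists_eq_add_of_le he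
  rw [add_comm, pow_add, Module.End.mul_apply, h0, map_zero]

theorem li_chain (X : Module.End k U) (v : U) (m : ℕ) (h0 : (X ^ (m + 1)) v = 0) (h1 : (X ^ m) v ≠ 0) :
    LinearIndependent k (fun i : Fin (m + 1) => (X ^ (i : ℕ)) v) := by
  rw [Fintype.linearIndependent_iff]
  intro g hg
  have key : ∀ n : ℕ, ∀ i : Fin (m + 1), (i : ℕ) = n → g i = 0 := by
    intro n
    induction n using Nat.strong_induction_on with
    | _ n ih =>
      intro i hi
      have h2 := congrArg (X ^ (m - n)) hg
      rw [map_sum, map_zero, Finset.sum_eq_single i] at h2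
      · rw [map_smul, ← Module.End.mul_apply, ← pow_add] at h2
        have h3 : m - n + (i : ℕ) = m := by
          have := i.2
          omega
        rw [h3] at h2
        exact (smul_eq_zero.mp h2).resolve_right h1
      · intro j _ hj
        rw [map_smul, ← Module.End.mul_apply, ← pow_add]
        rcases lt_or_gt_of_ne (show (j : ℕ) ≠ n by
          intro h
          exact hj (Fin.ext (h.trans hi.symm))) with hlt | hgt
        · rw [ih _ hlt j rfl, zero_smul]
        · have := i.2
          have h4 : (X ^ (m - n + (j : ℕ))) v = 0 :=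
            pow_apply_zero_of_le X v h0 (by omega)
          rw [h4, smul_zero]
      · intro h
        exact absurd (Finset.mem_univ i) h
  intro i
  exact key i i rfl

theorem exists_eigen_outside {t : Module.End k U} {e : ℕ} (he : 0 < e) {ω : k} (hω : IsPrimitiveRoot ω e)
    (hek : (e : k) ≠ 0) (V₀ : Submodule k U) (hV : ∀ y ∈ V₀, t y ∈ V₀) (ht : ∀ y ∈ V₀, (t ^ e) y = y)
    (Zs : Submodule k U) {v₀ : U} (hv₀ : v₀ ∈ V₀) (hv₀Z : v₀ ∉ Zs) :
    ∃ v ∈ V₀, v ∉ Zs ∧ ∃ l : k, l ≠ 0 ∧ t v = l • v := by
  let c : ℕ → ℕ → k := fun i j => (ω ^ (e - i)) ^ j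
  let Pj : ℕ → U := fun j => ∑ i ∈ Finset.range e, c i j • (t ^ i) v₀
  have hVi : ∀ i, (t ^ i) v₀ ∈ V₀ := by
    intro i
    induction i with
    | zero => simpa using hv₀
    | succ i ih =>
      rw [pow_succ', Module.End.mul_apply]
      exact hV _ ih
  have hPV : ∀ j, Pj j ∈ V₀ := fun j => Submodule.sum_mem _ fun i _ => Submodule.smul_mem _ _ (hVi i)
  have hsum : ∑ j ∈ Finset.range e, Pj j = (e : k) • v₀ := by
    simp only [Pj]
    rw [Finset.sum_comm]
    simp only [← Finset.sum_smul]
    rw [Finset.sum_eq_single 0]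
    · have h1 : ∀ j, c 0 j = 1 := by
        intro j
        simp [c, hω.pow_eq_one]
      simp [h1]
    · intro i hi hi0
      have hi' := Finset.mem_range.mp hi
      let ζ := ω ^ (e - i)
      have hζ1 : ζ ≠ 1 := hω.pow_ne_one_of_pos_of_lt (by omega) (by omega)
      have hζe : ζ ^ e = 1 := by
        simp only [ζ]
        rw [← pow_mul, mul_comm, pow_mul, hω.pow_eq_one, one_pow]
      have h2 : ∑ j ∈ Finset.range e, c i j = 0 := by
        have h3 := geom_sum_mul ζ e
        rw [hζe, sub_self] at h3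
        exact (mul_eq_zero.mp h3).resolve_right (sub_ne_zero.mpr hζ1)
      rw [h2, zero_smul]
    · intro h
      exact absurd (Finset.mem_range.mpr he) h
  have hex : ∃ j, Pj j ∉ Zs := by
    by_contra hcon
    push Not at hcon
    have h1 : (e : k) • v₀ ∈ Zs := by
      rw [← hsum]
      exact Submodule.sum_mem _ fun j _ => hcon j
    exact hv₀Z ((Submodule.smul_mem_iff _ hek).mp h1)
  obtain ⟨j, hj⟩ := hex
  refine ⟨Pj j, hPV j, hj, ω ^ j, pow_ne_zero _ (hω.ne_zero he.ne'), ?_⟩
  let F : ℕ → U := fun i => c i j • (t ^ i) v₀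
  have hF : Pj j = ∑ i ∈ Finset.range e, F i := rfl
  have h1 : t (Pj j) = ∑ i ∈ Finset.range e, (ω ^ j) • F (i + 1) := by
    rw [hF, map_sum]
    refine Finset.sum_congr rfl fun i hi => ?_
    have hi' := Finset.mem_range.mp hi
    simp only [F, map_smul, smul_smul]
    have h2 : c i j = ω ^ j * c (i + 1) j := by
      simp only [c]
      rw [← mul_pow]
      congr 1
      have h3 : e - i = e - (i + 1) + 1 := by omega
      rw [h3, pow_succ']
    rw [h2, pow_succ', Module.End.mul_apply]
  have h3 : ∑ i ∈ Finset.range e, F (i + 1) = ∑ i ∈ Finset.range e, F i := by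
    have h4 := Finset.sum_range_succ' F e
    have h5 := Finset.sum_range_succ F e
    have h6 : F e = F 0 := by
      simp only [F, c]
      rw [ht _ hv₀]
      simp [hω.pow_eq_one]
    rw [h5, h6] at h4
    exact (add_right_cancel h4).symm
  rw [h1, ← Finset.smul_sum, h3, hF]

end Chain

section Main

variable {k U : Type*} [Field k] [AddCommGroup U] [Module k U] [FiniteDimensional k U]
  {p : ℕ} [hp : Fact p.Prime] [CharP k p]

/-- Norm of an operator. -/
noncomputable def nrmE (a : Module.End k U) (p : ℕ) : Module.End k U :=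
  ∑ i ∈ Finset.range p, a ^ i

theorem sub_one_pow_char {a : Module.End k U} (hap : a ^ p = 1) : (a - 1) ^ p = 0 := by
  have h : ((Polynomial.X - 1 : Polynomial k)) ^ p = Polynomial.X ^ p - 1 := by
    rw [sub_pow_char, one_pow]
  have h2 := congrArg (Polynomial.aeval a) h
  simp only [map_pow, map_sub, Polynomial.aeval_X, map_one] at h2
  rw [h2, hap, sub_self]

theorem comm_of_inv {A t t' : Module.End k U} (htt' : t * t' = 1) (ht't : t' * t = 1) (h : Commute A t) :
    Commute A t' := by
  show A * t' = t' * A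
  calc A * t' = (t' * t) * A * t' := by rw [ht't, one_mul]
    _ = t' * (t * A) * t' := by simp only [mul_assoc]
    _ = t' * (A * t) * t' := by rw [h.eq]
    _ = t' * A * (t * t') := by simp only [mul_assoc]
    _ = t' * A := by rw [htt', mul_one]

theorem pow_inv_pow {t t' : Module.End k U} (htt' : t * t' = 1) (i : ℕ) : t ^ i * t' ^ i = 1 := by
  induction i with
  | zero => simp
  | succ i ih =>
    rw [pow_succ, pow_succ']
    calc t ^ i * t * (t' * t' ^ i) = t ^ i * (t * t') * t' ^ i := by simp only [mul_assoc]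
      _ = 1 := by rw [htt', mul_one, ih]

theorem conj_pow_op {t t' a : Module.End k U} (ht't : t' * t = 1) (htt' : t * t' = 1) (u : ℕ) :
    t * a ^ u * t' = (t * a * t') ^ u := by
  induction u with
  | zero => simp [htt']
  | succ u ih =>
    rw [pow_succ, pow_succ, ← ih]
    calc t * (a ^ u * a) * t' = t * a ^ u * 1 * a * t' := by simp only [mul_one, mul_assoc]
      _ = t * a ^ u * (t' * t) * a * t' := by rw [ht't]
      _ = _ := by simp only [mul_assoc]

/-- **Structure theorem.** Assume every idempotent in the commutant of `a, t` below `E₀` acts as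
`0` or `1` on `ker (a - 1) / im (norm a)`. Then this quotient (below `E₀`) has dimension at most one. -/
theorem struct_main (a t t' E₀ : Module.End k U) (s e : ℕ) (ω : k)
    (htt' : t * t' = 1) (ht't : t' * t = 1) (hap : a ^ p = 1) (hconj : t * a * t' = a ^ s)
    (hs : Nat.Coprime s p) (he : 0 < e) (hek : (e : k) ≠ 0) (hω : IsPrimitiveRoot ω e)
    (hEE : E₀ * E₀ = E₀) (hEa : Commute E₀ a) (hEt : Commute E₀ t) (hte : t ^ e * E₀ = E₀)
    (H : ∀ A : Module.End k U, A * A = A → E₀ * A = A → A * E₀ = A → Commute A a → Commute A t →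
      (∀ w, a w = w → A w ∈ LinearMap.range (nrmE a p)) ∨
        (∀ w, a w = w → w - A w ∈ LinearMap.range (nrmE a p))) :
    ∃ z : U, ∀ w, a w = w → E₀ w = w → ∃ (c : k) (u : U), w = c • z + nrmE a p (E₀ u) := by
  classical
  let R := LinearMap.range (nrmE a p)
  have hENm : Commute E₀ (nrmE a p) := Commute.sum_right _ _ _ fun i _ => hEa.pow_right i
  have hENma : ∀ u, E₀ (nrmE a p u) = nrmE a p (E₀ u) := fun u =>
    congrFun (congrArg DFunLike.coe hENm.eq) u
  let InA : Module.End k U → Prop := fun A =>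
    A * A = A ∧ E₀ * A = A ∧ A * E₀ = A ∧ Commute A a ∧ Commute A t
  let Good : Module.End k U → Prop := fun A => ∃ w, a w = w ∧ A w ∉ R
  by_cases hG : Good E₀
  swap
  · refine ⟨0, fun w hw hEw => ?_⟩
    have h1 : E₀ w ∈ R := by
      by_contra hcon
      exact hG ⟨w, hw, hcon⟩
    rw [hEw] at h1
    obtain ⟨u, hu⟩ := h1
    refine ⟨0, u, ?_⟩
    rw [zero_smul, zero_add, ← hENma, hu, hEw]
  have hex : ∃ n, ∃ A, InA A ∧ Good A ∧ finrank k (LinearMap.range A) = n :=
    ⟨_, E₀, ⟨hEE, hEE, hEE, hEa, hEt⟩, hG, rfl⟩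
  obtain ⟨A, hAin, hAg, hAn⟩ := Nat.find_spec hex
  have hmin : ∀ B, InA B → Good B → Nat.find hex ≤ finrank k (LinearMap.range B) :=
    fun B hB hg => Nat.find_min' hex ⟨B, hB, hg, rfl⟩
  obtain ⟨hAA, hEA, hAE, hAa, hAt⟩ := hAin
  have hA0 : A ≠ 0 := by
    rintro rfl
    obtain ⟨w, _, hw⟩ := hAg
    exact hw (by simpa using Submodule.zero_mem R)
  let X : Module.End k U := a - 1
  have hXp : X ^ p = 0 := sub_one_pow_char hap
  have hAX : Commute A X := hAa.sub_right (Commute.one_right _)
  have hEX : Commute E₀ X := hEa.sub_right (Commute.one_right _)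
  have hexl : ∃ l, X ^ l * A = 0 := ⟨p, by rw [hXp, zero_mul]⟩
  have hl0 : Nat.find hexl ≠ 0 := by
    intro h0
    have h1 := Nat.find_spec hexl
    rw [h0, pow_zero, one_mul] at h1
    exact hA0 h1
  obtain ⟨m, hm⟩ := Nat.exists_eq_succ_of_ne_zero hl0
  have hm1 : X ^ (m + 1) * A = 0 := by
    have h1 := Nat.find_spec hexl
    rw [hm] at h1
    exact h1
  have hm0 : X ^ m * A ≠ 0 := Nat.find_min hexl (by omega)
  have hu₀ : ∃ u₀, (X ^ m) (A u₀) ≠ 0 := by
    by_contra hcon
    push Not at hcon
    exact hm0 (LinearMap.ext fun u => hcon u)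
  obtain ⟨u₀, hu₀⟩ := hu₀
  have hAapply : ∀ u, A (A u) = A u := fun u => congrFun (congrArg DFunLike.coe hAA) u
  have hEAapply : ∀ u, E₀ (A u) = A u := fun u => congrFun (congrArg DFunLike.coe hEA) u
  obtain ⟨v, hvV, hvZ, l, hl, htv⟩ := exists_eigen_outside (t := t) he hω hek (LinearMap.range A)
    (by
      rintro _ ⟨u, rfl⟩
      exact ⟨t u, (congrFun (congrArg DFunLike.coe hAt.eq) u)⟩)
    (by
      rintro _ ⟨u, rfl⟩
      rw [← hEAapply u]
      have : (t ^ e) (E₀ (A u)) = (t ^ e * E₀) (A u) := rfl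
      rw [this, hte])
    (LinearMap.ker (X ^ m)) (v₀ := A u₀) ⟨u₀, rfl⟩ (by
      rw [LinearMap.mem_ker]
      exact hu₀)
  obtain ⟨uv, huv⟩ := hvV
  have hAv : A v = v := by rw [← huv, hAapply]
  have hEv : E₀ v = v := by rw [← huv, hEAapply]
  have hXm1v : (X ^ (m + 1)) v = 0 := by
    have h1 := congrFun (congrArg DFunLike.coe hm1) v
    simp only [Module.End.mul_apply, hAv] at h1
    exact h1
  have hXmv : (X ^ m) v ≠ 0 := by
    intro h
    exact hvZ (LinearMap.mem_ker.mpr h)
  have hv0 : v ≠ 0 := by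
    rintro rfl
    simp at hXmv
  have hli := li_chain X v m hXm1v hXmv
  let f : Fin (m + 1) → U := fun i => (X ^ (i : ℕ)) v
  -- the functional
  have hκ : ∃ κ : Module.Dual k U, ∀ j, j ≤ m → κ ((X ^ j) v) = if j = m then 1 else 0 := by
    let S := Submodule.span k (f '' {i | i ≠ Fin.last m})
    have hnot : f (Fin.last m) ∉ S := hli.notMem_span_image (by simp)
    obtain ⟨κ₀, h1, h2⟩ := Submodule.exists_dual_map_eq_bot_of_notMem hnot inferInstance
    refine ⟨(κ₀ (f (Fin.last m)))⁻¹ • κ₀, fun j hj => ?_⟩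
    split_ifs with hjm
    · subst hjm
      simp only [LinearMap.smul_apply, smul_eq_mul]
      exact inv_mul_cancel₀ h1
    · have h3 : (X ^ j) v ∈ S := Submodule.subset_span
        ⟨⟨j, by omega⟩, by
          simp only [Set.mem_ofPred_eq, ne_eq, Fin.ext_iff, Fin.val_last]
          exact hjm, rfl⟩
      have h4 : κ₀ ((X ^ j) v) ∈ S.map κ₀ := ⟨_, h3, rfl⟩
      rw [h2, Submodule.mem_bot] at h4
      simp [h4]
  obtain ⟨κ, hκ⟩ := hκ
  let ρ₀ : Module.End k U := ∑ i ∈ Finset.range (m + 1), (κ ∘ₗ (X ^ (m - i))).smulRight ((X ^ i) v)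
  have hρ₀ : ∀ w, ρ₀ w = ∑ i ∈ Finset.range (m + 1), κ ((X ^ (m - i)) w) • (X ^ i) v := by
    intro w
    simp only [ρ₀, LinearMap.sum_apply, LinearMap.smulRight_apply, LinearMap.comp_apply]
  let B : Module.End k U := ρ₀ * A
  have hρX : ∀ y, (X ^ (m + 1)) y = 0 → ρ₀ (X y) = X (ρ₀ y) := by
    intro y hy
    rw [hρ₀, hρ₀, map_sum, Finset.sum_range_succ', Finset.sum_range_succ]
    have h1 : κ ((X ^ (m - 0)) (X y)) • (X ^ 0) v = 0 := by
      have : (X ^ (m - 0)) (X y) = (X ^ (m + 1)) y := by
        rw [Nat.sub_zero, pow_succ, Module.End.mul_apply]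
      rw [this, hy, map_zero, zero_smul]
    have h2 : X (κ ((X ^ (m - m)) y) • (X ^ m) v) = 0 := by
      have : X ((X ^ m) v) = (X ^ (m + 1)) v := by
        rw [pow_succ', Module.End.mul_apply]
      rw [map_smul, this, hXm1v, smul_zero]
    rw [h1, h2, add_zero, add_zero]
    refine Finset.sum_congr rfl fun i hi => ?_
    have hi' := Finset.mem_range.mp hi
    have h3 : (X ^ (m - (i + 1))) (X y) = (X ^ (m - i)) y := by
      rw [← Module.End.mul_apply, ← pow_succ]
      congr 2
      omega
    rw [h3, map_smul, ← Module.End.mul_apply X, ← pow_succ']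
  have hBX : Commute B X := by
    show ρ₀ * A * X = X * (ρ₀ * A)
    ext w
    simp only [Module.End.mul_apply]
    have h1 : A (X w) = X (A w) := congrFun (congrArg DFunLike.coe hAX.eq) w
    rw [h1]
    apply hρX
    have h2 := congrFun (congrArg DFunLike.coe hm1) w
    simpa using h2
  have hBv : B v = v := by
    show ρ₀ (A v) = v
    rw [hAv, hρ₀, Finset.sum_eq_single 0]
    · simp [hκ m le_rfl]
    · intro i hi hi0
      have hi' := Finset.mem_range.mp hi
      rw [hκ (m - i) (by omega), if_neg (by omega), zero_smul]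
    · intro h
      exact absurd (Finset.mem_range.mpr (by omega)) h
  let Vc : Submodule k U := Submodule.span k (Set.range f)
  have hfmem : ∀ i, i ≤ m → (X ^ i) v ∈ Vc := fun i hi =>
    Submodule.subset_span ⟨⟨i, by omega⟩, rfl⟩
  have hVcX : ∀ y ∈ Vc, X y ∈ Vc := by
    intro y hy
    induction hy using Submodule.span_induction with
    | mem x hx =>
      obtain ⟨i, rfl⟩ := hx
      show X ((X ^ (i : ℕ)) v) ∈ Vc
      rw [← Module.End.mul_apply, ← pow_succ']
      by_cases hi : (i : ℕ) + 1 ≤ m
      · exact hfmem _ hi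
      · have h1 : (i : ℕ) + 1 = m + 1 := by
          have := i.2
          omega
        rw [h1, hXm1v]
        exact Submodule.zero_mem _
    | zero => simp
    | add x y _ _ hx hy => rw [map_add]; exact Submodule.add_mem _ hx hy
    | smul c x _ hx => rw [map_smul]; exact Submodule.smul_mem _ _ hx
  have hVca : ∀ y ∈ Vc, a y ∈ Vc := by
    intro y hy
    have h1 : a y = X y + y := by
      simp [X]
    rw [h1]
    exact Submodule.add_mem _ (hVcX y hy) hy
  have hVcan : ∀ n : ℕ, ∀ y ∈ Vc, (a ^ n) y ∈ Vc := by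
    intro n
    induction n with
    | zero => intro y hy; simpa using hy
    | succ n ih =>
      intro y hy
      rw [pow_succ', Module.End.mul_apply]
      exact hVca _ (ih y hy)
  let Y : Module.End k U := a ^ s - 1
  have hVcY : ∀ y ∈ Vc, Y y ∈ Vc := by
    intro y hy
    have h1 : Y y = (a ^ s) y - y := by simp [Y]
    rw [h1]
    exact Submodule.sub_mem _ (hVcan s y hy) hy
  have hVcYn : ∀ n : ℕ, ∀ y ∈ Vc, (Y ^ n) y ∈ Vc := by
    intro n
    induction n with
    | zero => intro y hy; simpa using hy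
    | succ n ih =>
      intro y hy
      rw [pow_succ', Module.End.mul_apply]
      exact hVcY _ (ih y hy)
  have hvVc : v ∈ Vc := by
    have := hfmem 0 (Nat.zero_le m)
    simpa using this
  have hta : t * a = a ^ s * t := by
    rw [← hconj]
    calc t * a = t * a * (t' * t) := by rw [ht't, mul_one]
      _ = _ := by simp only [mul_assoc]
  have htX : t * X = Y * t := by
    simp only [X, Y, mul_sub, sub_mul, mul_one, one_mul, hta]
  have htXn : ∀ n : ℕ, t * X ^ n = Y ^ n * t := by
    intro n
    induction n with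
    | zero => simp
    | succ n ih =>
      rw [pow_succ, pow_succ, ← mul_assoc, ih, mul_assoc, htX, mul_assoc]
  have hVct : ∀ y ∈ Vc, t y ∈ Vc := by
    intro y hy
    induction hy using Submodule.span_induction with
    | mem x hx =>
      obtain ⟨i, rfl⟩ := hx
      show t ((X ^ (i : ℕ)) v) ∈ Vc
      rw [← Module.End.mul_apply, htXn, Module.End.mul_apply, htv, map_smul]
      exact Submodule.smul_mem _ _ (hVcYn _ _ hvVc)
    | zero => simp
    | add x y _ _ hx hy => rw [map_add]; exact Submodule.add_mem _ hx hy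
    | smul c x _ hx => rw [map_smul]; exact Submodule.smul_mem _ _ hx
  have hVcti : ∀ n : ℕ, ∀ y ∈ Vc, (t ^ n) y ∈ Vc := by
    intro n
    induction n with
    | zero => intro y hy; simpa using hy
    | succ n ih =>
      intro y hy
      rw [pow_succ', Module.End.mul_apply]
      exact hVct _ (ih y hy)
  have hBrange : ∀ w, B w ∈ Vc := by
    intro w
    show ρ₀ (A w) ∈ Vc
    rw [hρ₀]
    exact Submodule.sum_mem _ fun i hi =>
      Submodule.smul_mem _ _ (hfmem i (by have := Finset.mem_range.mp hi; omega))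
  -- generic fact: maps commuting with `X` and fixing `v` fix `Vc`
  have hfixVc : ∀ C : Module.End k U, Commute C X → C v = v → ∀ y ∈ Vc, C y = y := by
    intro C hC hCv y hy
    induction hy using Submodule.span_induction with
    | mem x hx =>
      obtain ⟨i, rfl⟩ := hx
      show C ((X ^ (i : ℕ)) v) = (X ^ (i : ℕ)) v
      have h1 := congrFun (congrArg DFunLike.coe (hC.pow_right (i : ℕ)).eq) v
      simp only [Module.End.mul_apply, hCv] at h1
      exact h1
    | zero => simp
    | add x y _ _ hx hy => rw [map_add, hx, hy]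
    | smul c x _ hx => rw [map_smul, hx]
  have hBVc : ∀ y ∈ Vc, B y = y := hfixVc B hBX hBv
  have hAVc : ∀ y ∈ Vc, A y = y := hfixVc A hAX hAv
  have hEVc : ∀ y ∈ Vc, E₀ y = y := hfixVc E₀ hEX hEv
  have hBA : B * A = B := by
    show ρ₀ * A * A = ρ₀ * A
    rw [mul_assoc, hAA]
  have hBE : B * E₀ = B := by
    show ρ₀ * A * E₀ = ρ₀ * A
    rw [mul_assoc, hAE]
  have hEB : E₀ * B = B := by
    ext w
    exact hEVc _ (hBrange w)
  have hAt' : Commute A t' := comm_of_inv htt' ht't hAt
  have hEt' : Commute E₀ t' := comm_of_inv htt' ht't hEt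
  have ht'v : t' v = l⁻¹ • v := by
    have h1 : t' (t v) = v := congrFun (congrArg DFunLike.coe ht't) v
    rw [htv, map_smul] at h1
    have h2 : l⁻¹ • (l • t' v) = l⁻¹ • v := by rw [h1]
    rwa [smul_smul, inv_mul_cancel₀ hl, one_smul] at h2
  have htin : ∀ n : ℕ, (t ^ n) v = (l ^ n) • v := by
    intro n
    induction n with
    | zero => simp
    | succ n ih => rw [pow_succ', Module.End.mul_apply, ih, map_smul, htv, smul_smul, pow_succ]
  have ht'in : ∀ n : ℕ, (t' ^ n) v = (l⁻¹ ^ n) • v := by
    intro n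
    induction n with
    | zero => simp
    | succ n ih => rw [pow_succ', Module.End.mul_apply, ih, map_smul, ht'v, smul_smul, pow_succ]
  let Bi : ℕ → Module.End k U := fun i => t ^ i * B * t' ^ i
  have hBa : Commute B a := by
    have h1 : a = X + 1 := by simp [X]
    rw [h1]
    exact hBX.add_right (Commute.one_right _)
  have hconjpow : ∀ i : ℕ, ∃ u : ℕ, Nat.Coprime u p ∧ t ^ i * a * t' ^ i = a ^ u := by
    intro i
    induction i with
    | zero => exact ⟨1, Nat.coprime_one_left p, by simp⟩
    | succ i ih =>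
      obtain ⟨u, hu, h1⟩ := ih
      refine ⟨s * u, hs.mul_left hu, ?_⟩
      rw [pow_mul, ← hconj, ← conj_pow_op ht't htt', ← h1, pow_succ', pow_succ]
      simp only [mul_assoc]
  have hBiA : ∀ i, Commute (Bi i) a := by
    intro i
    obtain ⟨u, hu, h1⟩ := hconjpow i
    obtain ⟨w, -, hw⟩ := Nat.exists_mul_mod_eq_one_of_coprime hu hp.out.one_lt
    have ha1 : a ^ (u * w) = a := by
      rw [← Nat.div_add_mod (u * w) p, hw, pow_add, pow_mul, hap, one_pow, one_mul, pow_one]
    have hcu : t ^ i * t' ^ i = 1 := pow_inv_pow htt' i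
    have hcu' : t' ^ i * t ^ i = 1 := pow_inv_pow ht't i
    have h2 : a = t ^ i * a ^ w * t' ^ i := by
      have h3 : t ^ i * a ^ w * t' ^ i = (t ^ i * a * t' ^ i) ^ w := conj_pow_op hcu' hcu w
      rw [h3, h1, ← pow_mul, ha1]
    have hBw : Commute B (a ^ w) := hBa.pow_right w
    show Bi i * a = a * Bi i
    simp only [Bi]
    nth_rewrite 1 [h2]
    nth_rewrite 2 [h2]
    calc t ^ i * B * t' ^ i * (t ^ i * a ^ w * t' ^ i)
        = t ^ i * B * (t' ^ i * t ^ i) * a ^ w * t' ^ i := by simp only [mul_assoc]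
      _ = t ^ i * (B * a ^ w) * t' ^ i := by rw [hcu', mul_one]; simp only [mul_assoc]
      _ = t ^ i * (a ^ w * B) * t' ^ i := by rw [hBw.eq]
      _ = t ^ i * a ^ w * (t' ^ i * t ^ i) * B * t' ^ i := by rw [hcu', mul_one]; simp only [mul_assoc]
      _ = _ := by simp only [mul_assoc]
  have hBiX : ∀ i, Commute (Bi i) X := fun i => (hBiA i).sub_right (Commute.one_right _)
  have hBiv : ∀ i, Bi i v = v := by
    intro i
    show (t ^ i) (B ((t' ^ i) v)) = v
    rw [ht'in, map_smul, hBv, map_smul, htin, smul_smul, ← mul_pow, inv_mul_cancel₀ hl, one_pow, one_smul]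
  have hBiVc : ∀ i, ∀ y ∈ Vc, Bi i y = y := fun i => hfixVc _ (hBiX i) (hBiv i)
  have hBirange : ∀ i w, Bi i w ∈ Vc := fun i w => hVcti i _ (hBrange _)
  let D : Module.End k U := (e : k)⁻¹ • ∑ i ∈ Finset.range e, Bi i
  have hDapply : ∀ w, D w = (e : k)⁻¹ • ∑ i ∈ Finset.range e, Bi i w := by
    intro w
    simp only [D, LinearMap.smul_apply, LinearMap.sum_apply]
  have hDrange : ∀ w, D w ∈ Vc := by
    intro w
    rw [hDapply]
    exact Submodule.smul_mem _ _ (Submodule.sum_mem _ fun i _ => hBirange i w)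
  have hDVc : ∀ y ∈ Vc, D y = y := by
    intro y hy
    rw [hDapply, Finset.sum_congr rfl fun i _ => hBiVc i y hy, Finset.sum_const, Finset.card_range,
      ← Nat.cast_smul_eq_nsmul k, smul_smul, inv_mul_cancel₀ hek, one_smul]
  have hDD : D * D = D := by
    ext w
    exact hDVc _ (hDrange w)
  have hDv : D v = v := hDVc v hvVc
  have hDa : Commute D a :=
    (Commute.sum_left _ _ _ fun i _ => hBiA i).smul_left _
  have hBiS : ∀ i, t * Bi i * t' = Bi (i + 1) := by
    intro i
    simp only [Bi]
    rw [pow_succ' t, pow_succ t']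
    simp only [mul_assoc]
  have hEt'e : E₀ * t' ^ e = E₀ := by
    have h1 : t' ^ e * E₀ = E₀ := by
      calc t' ^ e * E₀ = t' ^ e * (t ^ e * E₀) := by rw [hte]
        _ = (t' ^ e * t ^ e) * E₀ := by rw [mul_assoc]
        _ = E₀ := by rw [pow_inv_pow ht't, one_mul]
    rw [(hEt'.pow_right e).eq, h1]
  have hBie : Bi e = Bi 0 := by
    simp only [Bi, pow_zero, one_mul, mul_one]
    calc t ^ e * B * t' ^ e = t ^ e * (E₀ * B) * (t' ^ e) := by rw [hEB]
      _ = (t ^ e * E₀) * (B * E₀) * (t' ^ e) := by rw [hBE]; simp only [mul_assoc]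
      _ = E₀ * B * (E₀ * t' ^ e) := by rw [hte]; simp only [mul_assoc]
      _ = E₀ * B * E₀ := by rw [hEt'e]
      _ = B := by rw [hEB, hBE]
  have hDt : Commute D t := by
    have h1 : t * D * t' = D := by
      simp only [D, mul_smul_comm, smul_mul_assoc, Finset.mul_sum, Finset.sum_mul]
      rw [Finset.sum_congr rfl fun i _ => hBiS i]
      congr 1
      have h4 := Finset.sum_range_succ' Bi e
      have h5 := Finset.sum_range_succ Bi e
      rw [h5, hBie] at h4
      exact (add_right_cancel h4).symm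
    show D * t = t * D
    calc D * t = t * D * t' * t := by rw [h1]
      _ = t * D * (t' * t) := by rw [mul_assoc]
      _ = t * D := by rw [ht't, mul_one]
  have hED : E₀ * D = D := by
    ext w
    exact hEVc _ (hDrange w)
  have hAD : A * D = D := by
    ext w
    exact hAVc _ (hDrange w)
  have hBiR : ∀ C : Module.End k U, Commute C t' → B * C = B → ∀ i, Bi i * C = Bi i := by
    intro C hC hBC i
    simp only [Bi]
    rw [mul_assoc, ((hC.pow_right i).eq).symm, ← mul_assoc, mul_assoc (t ^ i), hBC]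
  have hDE : D * E₀ = D := by
    simp only [D, smul_mul_assoc, Finset.sum_mul]
    rw [Finset.sum_congr rfl fun i _ => hBiR E₀ hEt' hBE i]
  have hDA : D * A = D := by
    simp only [D, smul_mul_assoc, Finset.sum_mul]
    rw [Finset.sum_congr rfl fun i _ => hBiR A hAt' hBA i]
  have hDin : InA D := ⟨hDD, hED, hDE, hDa, hDt⟩
  have hrA : LinearMap.range A ≤ Vc := by
    by_cases hGD : Good D
    · have h1 : LinearMap.range D ≤ LinearMap.range A := by
        rintro _ ⟨w, rfl⟩
        exact ⟨D w, congrFun (congrArg DFunLike.coe hAD) w⟩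
      have h2 := hmin D hDin hGD
      have h3 : LinearMap.range D = LinearMap.range A :=
        Submodule.eq_of_le_of_finrank_le h1 (by rw [hAn]; exact h2)
      rw [← h3]
      rintro _ ⟨w, rfl⟩
      exact hDrange w
    · exfalso
      let A' := A - D
      have hA'in : InA A' := by
        refine ⟨?_, ?_, ?_, hAa.sub_left hDa, hAt.sub_left hDt⟩
        · simp only [A', mul_sub, sub_mul, hAA, hAD, hDA, hDD]
          abel
        · simp only [A', mul_sub, hEA, hED]
        · simp only [A', sub_mul, hAE, hDE]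
      have hA'g : Good A' := by
        obtain ⟨w, hw, hw2⟩ := hAg
        refine ⟨w, hw, fun h => hw2 ?_⟩
        have h1 : D w ∈ R := by
          by_contra hcon
          exact hGD ⟨w, hw, hcon⟩
        have h2 : A w = A' w + D w := by simp [A']
        rw [h2]
        exact Submodule.add_mem _ h h1
      have h1 := hmin A' hA'in hA'g
      have hlt : LinearMap.range A' < LinearMap.range A := by
        refine lt_of_le_of_ne ?_ ?_
        · rintro _ ⟨w, rfl⟩
          refine ⟨A' w, ?_⟩
          have h2 : A * A' = A' := by simp only [A', mul_sub, hAA, hAD]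
          exact congrFun (congrArg DFunLike.coe h2) w
        · intro h2
          have h3 : v ∈ LinearMap.range A' := by
            rw [h2]
            exact ⟨v, hAv⟩
          obtain ⟨w, hw⟩ := h3
          have h4 : D * A' = 0 := by simp only [A', mul_sub, hDA, hDD, sub_self]
          have h5 : D (A' w) = 0 := by
            have := congrFun (congrArg DFunLike.coe h4) w
            simpa using this
          rw [hw, hDv] at h5
          exact hv0 h5
      have h2 := Submodule.finrank_lt_finrank_of_lt hlt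
      rw [hAn] at h2
      omega
  have hH2 : ∀ w, a w = w → w - A w ∈ R := by
    rcases H A hAA hEA hAE hAa hAt with h | h
    · exfalso
      obtain ⟨w, hw, hw2⟩ := hAg
      exact hw2 (h w hw)
    · exact h
  refine ⟨(X ^ m) v, fun w hw hEw => ?_⟩
  have hy : A w ∈ Vc := hrA ⟨w, rfl⟩
  have hay : a (A w) = A w := by
    have h1 : A (a w) = a (A w) := congrFun (congrArg DFunLike.coe hAa.eq) w
    rw [← h1, hw]
  have hXy : X (A w) = 0 := by
    simp [X, hay]
  obtain ⟨c, hc⟩ := (Submodule.mem_span_range_iff_exists_fun k).mp hy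
  have h1 : ∑ i : Fin m, c (Fin.castSucc i) • f (Fin.succ i) = 0 := by
    have h2 : X (∑ i, c i • f i) = 0 := by rw [hc, hXy]
    rw [map_sum, Fin.sum_univ_castSucc] at h2
    have h3 : X (c (Fin.last m) • f (Fin.last m)) = 0 := by
      have : X (f (Fin.last m)) = (X ^ (m + 1)) v := by
        simp only [f, Fin.val_last]
        rw [pow_succ', Module.End.mul_apply]
      rw [map_smul, this, hXm1v, smul_zero]
    rw [h3, add_zero] at h2
    rw [← h2]
    refine Finset.sum_congr rfl fun i _ => ?_
    rw [map_smul]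
    congr 1
    simp only [f, Fin.val_succ, Fin.val_castSucc]
    rw [pow_succ', Module.End.mul_apply]
  have h2 : ∀ i : Fin m, c (Fin.castSucc i) = 0 := by
    intro i
    rw [Fintype.linearIndependent_iff] at hli
    have h3 := hli (Fin.cons 0 fun i => c (Fin.castSucc i)) (by
      rw [Fin.sum_univ_succ]
      simp only [Fin.cons_zero, zero_smul, zero_add, Fin.cons_succ]
      exact h1) (Fin.succ i)
    simpa using h3
  have h3 : A w = c (Fin.last m) • (X ^ m) v := by
    rw [← hc, Fin.sum_univ_castSucc]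
    simp only [h2, zero_smul, Finset.sum_const_zero, zero_add]
    rfl
  obtain ⟨u, hu⟩ := hH2 w hw
  refine ⟨c (Fin.last m), u, ?_⟩
  have h4 : w = A w + nrmE a p u := by
    rw [hu]
    abel
  have h5 : E₀ ((X ^ m) v) = (X ^ m) v := hEVc _ (hfmem m le_rfl)
  calc w = E₀ w := hEw.symm
    _ = E₀ (A w + nrmE a p u) := by rw [← h4]
    _ = _ := by rw [map_add, hENma, h3, map_smul, h5]

end Main

end Cfsg.Agent.H23.DO
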