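import Mathlib

/-!
# Valuation subrings of the complex numbers, and reduction of matrices
-/

set_option autoImplicit false
set_option linter.unusedSectionVars false
set_option linter.style.haveILetI false

namespace Cfsg.Agent.H23.DO

open Module

variable (V : ValuationSubring ℂ)

/-- The residue map. -/
noncomputable abbrev res : V →+* IsLocalRing.ResidueField V := IsLocalRing.residue V

theorem exists_val (p : ℕ) (hp : p.Prime) : ∃ V : ValuationSubring ℂ, (p : ℂ) ∈ V.nonunits := by
  let A : Subring ℂ := (Int.castRingHom ℂ).range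
  have hpA : (p : ℂ) ∈ A := ⟨(p : ℤ), by simp⟩
  let I : Ideal A := Ideal.span {⟨(p : ℂ), hpA⟩}
  have hI : I ≠ ⊤ := by
    intro h
    have h1 : (1 : A) ∈ I := by rw [h]; trivial
    obtain ⟨a, ha⟩ := Ideal.mem_span_singleton'.mp h1
    obtain ⟨n, hn⟩ := a.2
    have h2 : ((a : A) : ℂ) * (p : ℂ) = 1 := by
      have := congrArg (Subtype.val) ha
      simpa using this
    rw [← hn] at h2
    have h3 : n * (p : ℤ) = 1 := by
      have : ((n * (p : ℤ) : ℤ) : ℂ) = ((1 : ℤ) : ℂ) := by
        push_cast
        simpa using h2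
      exact_mod_cast this
    have h4 : (p : ℤ) ∣ 1 := ⟨n, by rw [mul_comm]; exact h3.symm⟩
    have h5 := Int.natCast_dvd_natCast.mp (by simpa using h4 : (p : ℤ) ∣ ((1 : ℕ) : ℤ))
    exact hp.one_lt.ne' (Nat.dvd_one.mp h5)
  obtain ⟨W, _, hW⟩ := Ideal.image_subset_nonunits_valuationSubring I hI
  refine ⟨W, hW ⟨⟨(p : ℂ), hpA⟩, Ideal.subset_span rfl, rfl⟩⟩

variable {V}

theorem res_natCast_eq_zero {p : ℕ} (hV : (p : ℂ) ∈ V.nonunits) :
    ((p : ℕ) : IsLocalRing.ResidueField V) = 0 := by
  have h1 : (p : ℂ) ∈ V := by
    exact natCast_mem V p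
  have h2 : ((⟨(p : ℂ), h1⟩ : V)) ∈ IsLocalRing.maximalIdeal V := by
    rw [ValuationSubring.valuation_lt_one_iff]
    exact hV
  have h3 : res V ⟨(p : ℂ), h1⟩ = 0 := (IsLocalRing.residue_eq_zero_iff _).mpr h2
  have h4 : (⟨(p : ℂ), h1⟩ : V) = ((p : ℕ) : V) := by
    apply Subtype.ext
    simp
  rw [h4, map_natCast] at h3
  exact h3

theorem charP_res {p : ℕ} (hp : p.Prime) (hV : (p : ℂ) ∈ V.nonunits) :
    CharP (IsLocalRing.ResidueField V) p := by
  have h := res_natCast_eq_zero hV
  have h1 : ringChar (IsLocalRing.ResidueField V) ∣ p := (CharP.cast_eq_zero_iff _ _ p).mp h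
  have h2 : ringChar (IsLocalRing.ResidueField V) ≠ 1 := by
    intro h3
    have := CharP.ringChar_ne_one (R := IsLocalRing.ResidueField V)
    exact this h3
  have h3 := (Nat.dvd_prime hp).mp h1
  rcases h3 with h3 | h3
  · exact absurd h3 h2
  · exact ringChar.of_eq h3

/-- A family of vectors over `V` independent modulo the maximal ideal is independent over `ℂ`. -/
theorem li_of_li_res {α ι : Type*} [Fintype α] (v : α → ι → V)
    (h : LinearIndependent (IsLocalRing.ResidueField V) (fun a i => res V (v a i))) :
    LinearIndependent ℂ (fun a i => ((v a i : V) : ℂ)) := by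
  classical
  rw [Fintype.linearIndependent_iff]
  intro c hc a₀
  by_contra hne
  obtain ⟨a₁, -, hmax⟩ := Finset.exists_max_image Finset.univ (fun a => V.valuation (c a)) ⟨a₀, Finset.mem_univ _⟩
  have hne1 : c a₁ ≠ 0 := by
    intro h0
    have h1 := hmax a₀ (Finset.mem_univ _)
    rw [h0, map_zero] at h1
    have h2 : V.valuation (c a₀) = 0 := le_antisymm h1 zero_le
    exact hne ((map_eq_zero _).mp h2)
  have hd : ∀ a, c a / c a₁ ∈ V := by
    intro a
    rw [← ValuationSubring.valuation_le_one_iff, map_div₀]
    have h1 : V.valuation (c a₁) ≠ 0 := (map_ne_zero _).mpr hne1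
    exact (div_le_one₀ (zero_lt_iff.mpr h1)).mpr (hmax a (Finset.mem_univ _))
  let d : α → V := fun a => ⟨c a / c a₁, hd a⟩
  have hrel : ∀ i, ∑ a, d a * v a i = 0 := by
    intro i
    apply Subtype.ext
    have h1 := congrFun hc i
    simp only [Finset.sum_apply, Pi.smul_apply, smul_eq_mul, Pi.zero_apply] at h1
    have h2 : ((∑ a, d a * v a i : V) : ℂ) = ∑ a, (c a / c a₁) * ((v a i : V) : ℂ) := by
      simp [d]
    rw [h2]
    have h3 : ∑ a, (c a / c a₁) * ((v a i : V) : ℂ) = (c a₁)⁻¹ * ∑ a, c a * ((v a i : V) : ℂ) := by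
      rw [Finset.mul_sum]
      exact Finset.sum_congr rfl fun a _ => by ring
    rw [h3, h1, mul_zero]
    rfl
  rw [Fintype.linearIndependent_iff] at h
  have h4 := h (fun a => res V (d a)) (by
    funext i
    simp only [Finset.sum_apply, Pi.smul_apply, smul_eq_mul, Pi.zero_apply]
    have := congrArg (res V) (hrel i)
    rw [map_sum, map_zero] at this
    simpa using this) a₁
  have h5 : d a₁ = 1 := by
    apply Subtype.ext
    simp [d, hne1]
  rw [h5, map_one] at h4
  exact one_ne_zero h4

/-- Reduction does not raise the rank. -/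
theorem rank_res_le {m n : Type*} [Fintype m] [Fintype n] (B : Matrix m n V) :
    (B.map (res V)).rank ≤ (B.map (fun a : V => (a : ℂ))).rank := by
  classical
  rw [Matrix.rank_eq_finrank_span_cols, Matrix.rank_eq_finrank_span_cols]
  obtain ⟨f, hf, -, hli⟩ := Submodule.exists_fun_fin_finrank_span_eq (IsLocalRing.ResidueField V)
    (Set.range (B.map (res V)).col)
  have hj : ∀ i, ∃ j, (B.map (res V)).col j = f i := fun i => hf i
  choose j hj using hj
  have h1 : LinearIndependent (IsLocalRing.ResidueField V)
      (fun (a : Fin _) (i : m) => res V (B i (j a))) := by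
    have h0 : (fun (a : Fin _) (i : m) => res V (B i (j a))) = f := by
      funext a i
      rw [← hj a]
      rfl
    rw [h0]
    exact hli
  have h2 := li_of_li_res (fun (a : Fin _) (i : m) => B i (j a)) h1
  have h3 := finrank_span_eq_card h2
  rw [Fintype.card_fin] at h3
  rw [← h3]
  apply Submodule.finrank_mono
  apply Submodule.span_mono
  rintro _ ⟨a, rfl⟩
  exact ⟨j a, rfl⟩

/-- The `V`-module structure on a complex vector space. -/
noncomputable instance (priority := low) vMod (E : Type*) [AddCommGroup E] [Module ℂ E] : Module V E :=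
  Module.compHom E V.subtype

theorem v_smul_def {E : Type*} [AddCommGroup E] [Module ℂ E] (c : V) (w : E) :
    c • w = (c : ℂ) • w := rfl

/-- Every finitely generated `V`-submodule of a complex vector space has a `V`-basis which is
linearly independent over `ℂ`. -/
theorem exists_vbasis {E : Type*} [AddCommGroup E] [Module ℂ E] (l : List E) :
    ∃ (n : ℕ) (b : Fin n → E), LinearIndependent ℂ b ∧
      Submodule.span V (Set.range b) = Submodule.span V {u | u ∈ l} := by
  classical
  induction' h : l.length using Nat.strong_induction_on with m ih generalizing l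
  by_cases h0 : ∀ u ∈ l, u = 0
  · refine ⟨0, Fin.elim0, linearIndependent_empty_type, ?_⟩
    have h1 : Set.range (Fin.elim0 : Fin 0 → E) = ∅ := Set.range_eq_empty _
    rw [h1, Submodule.span_empty]
    symm
    rw [Submodule.span_eq_bot]
    intro u hu
    exact h0 u hu
  · push Not at h0
    obtain ⟨u₁, hu₁, hne⟩ := h0
    have hφ : ∃ φ : Module.Dual ℂ E, φ u₁ ≠ 0 := by
      by_contra hcon
      push Not at hcon
      exact hne ((Module.forall_dual_apply_eq_zero_iff ℂ u₁).mp hcon)
    obtain ⟨φ, hφ⟩ := hφ
    obtain ⟨v₀, hv₀, hmax⟩ := Finset.exists_max_image l.toFinset (fun u => V.valuation (φ u))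
      ⟨u₁, List.mem_toFinset.mpr hu₁⟩
    have hv₀l : v₀ ∈ l := List.mem_toFinset.mp hv₀
    have hne0 : φ v₀ ≠ 0 := by
      intro h0
      have h1 := hmax u₁ (List.mem_toFinset.mpr hu₁)
      rw [h0, map_zero] at h1
      have h2 : V.valuation (φ u₁) = 0 := le_antisymm h1 zero_le
      exact hφ ((map_eq_zero _).mp h2)
    have hc : ∀ u ∈ l, φ u / φ v₀ ∈ V := by
      intro u hu
      rw [← ValuationSubring.valuation_le_one_iff, map_div₀]
      have h1 : V.valuation (φ v₀) ≠ 0 := (map_ne_zero _).mpr hne0
      exact (div_le_one₀ (zero_lt_iff.mpr h1)).mpr (hmax u (List.mem_toFinset.mpr hu))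
    let l' := (l.erase v₀).map (fun u => u - (φ u / φ v₀) • v₀)
    have hlen : l'.length < m := by
      simp only [l', List.length_map, List.length_erase_of_mem hv₀l]
      have : 0 < l.length := List.length_pos_of_mem hv₀l
      omega
    obtain ⟨n', b', hb', hspan'⟩ := ih _ hlen l' rfl
    have hker : ∀ w ∈ Submodule.span V {u | u ∈ l'}, φ w = 0 := by
      intro w hw
      induction hw using Submodule.span_induction with
      | mem x hx =>
        obtain ⟨u, _, rfl⟩ := List.mem_map.mp hx
        simp only [map_sub, map_smul, smul_eq_mul]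
        field_simp
        ring
      | zero => simp
      | add x y _ _ hx hy => simp [hx, hy]
      | smul a x _ hx =>
        rw [v_smul_def, map_smul, hx, smul_zero]
    have hb'ker : ∀ a, φ (b' a) = 0 := by
      intro a
      apply hker
      rw [← hspan']
      exact Submodule.subset_span ⟨a, rfl⟩
    refine ⟨n' + 1, Fin.cons v₀ b', ?_, ?_⟩
    · rw [linearIndependent_finCons]
      refine ⟨hb', ?_⟩
      intro hmem
      have h2 : Submodule.span ℂ (Set.range b') ≤ LinearMap.ker φ := by
        rw [Submodule.span_le]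
        rintro _ ⟨a, rfl⟩
        exact hb'ker a
      exact hne0 (h2 hmem)
    · have hrange : Set.range (Fin.cons v₀ b' : Fin (n' + 1) → E) = insert v₀ (Set.range b') := by
        rw [Fin.range_cons]
      rw [hrange]
      apply le_antisymm
      · rw [Submodule.span_le]
        rintro w (rfl | ⟨a, rfl⟩)
        · exact Submodule.subset_span hv₀l
        · have h3 : b' a ∈ Submodule.span V {u | u ∈ l'} := by
            rw [← hspan']
            exact Submodule.subset_span ⟨a, rfl⟩
          refine (?_ : Submodule.span V {u | u ∈ l'} ≤ _) h3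
          rw [Submodule.span_le]
          intro x hx
          obtain ⟨u, hu, rfl⟩ := List.mem_map.mp hx
          have hul : u ∈ l := List.mem_of_mem_erase hu
          have h4 : (φ u / φ v₀) • v₀ = (⟨φ u / φ v₀, hc u hul⟩ : V) • v₀ := rfl
          simp only [SetLike.mem_coe]
          rw [h4]
          exact Submodule.sub_mem _ (Submodule.subset_span hul)
            (Submodule.smul_mem _ _ (Submodule.subset_span hv₀l))
      · rw [Submodule.span_le]
        intro u hu
        have hul : u ∈ l := hu
        have hv : v₀ ∈ Submodule.span V (insert v₀ (Set.range b')) :=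
          Submodule.subset_span (Set.mem_insert _ _)
        by_cases huv : u = v₀
        · rw [huv]; exact hv
        · have hu' : u ∈ l.erase v₀ := (List.mem_erase_of_ne huv).mpr hul
          have h5 : u - (φ u / φ v₀) • v₀ ∈ Submodule.span V (Set.range b') := by
            rw [hspan']
            exact Submodule.subset_span (List.mem_map.mpr ⟨u, hu', rfl⟩)
          have h6 : u - (φ u / φ v₀) • v₀ ∈ Submodule.span V (insert v₀ (Set.range b')) :=
            Submodule.span_mono (Set.subset_insert _ _) h5
          have h7 : (φ u / φ v₀) • v₀ = (⟨φ u / φ v₀, hc u hul⟩ : V) • v₀ := rfl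
          have h8 : u = (u - (φ u / φ v₀) • v₀) + (⟨φ u / φ v₀, hc u hul⟩ : V) • v₀ := by
            rw [← h7]; abel
          rw [h8]
          exact Submodule.add_mem _ h6 (Submodule.smul_mem _ _ hv)

end Cfsg.Agent.H23.DO
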