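import Cfsg.Agent.Lib.H23.SylAct1

/-!
# Determinants of multiples of regular characters of cyclic 2-groups.
-/

set_option autoImplicit false
set_option linter.unusedSectionVars false
set_option linter.style.haveILetI false
set_option linter.unusedSimpArgs false

namespace Cfsg.Agent.H23

open scoped ComplexConjugate
open Cfsg Cfsg.Agent.H21 Module

universe u

section PermRep

variable {I : Type*} [Fintype I] [DecidableEq I]

theorem toMatrix_funLeft_perm (π : Equiv.Perm I) :
    LinearMap.toMatrix' (LinearMap.funLeft ℂ ℂ (π : I → I)) = π.permMatrix ℂ := by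
  ext i j
  simp [LinearMap.toMatrix'_apply, LinearMap.funLeft_apply, Pi.single_apply, Equiv.Perm.permMatrix,
    PEquiv.toMatrix_apply, Equiv.toPEquiv_apply, eq_comm]

theorem det_funLeft_perm (π : Equiv.Perm I) :
    LinearMap.det (LinearMap.funLeft ℂ ℂ (π : I → I)) = ((Equiv.Perm.sign π : ℤ) : ℂ) := by
  rw [← LinearMap.det_toMatrix', toMatrix_funLeft_perm, Matrix.det_permutation]

theorem trace_funLeft_perm (π : Equiv.Perm I) :
    LinearMap.trace ℂ (I → ℂ) (LinearMap.funLeft ℂ ℂ (π : I → I)) =
      ((Finset.univ.filter fun i => π i = i).card : ℂ) := by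
  rw [LinearMap.trace_eq_matrix_trace ℂ (Pi.basisFun ℂ I), LinearMap.toMatrix_eq_toMatrix',
    toMatrix_funLeft_perm, Matrix.trace]
  rw [Finset.card_filter]
  push_cast
  refine Finset.sum_congr rfl fun i _ => ?_
  simp [Equiv.Perm.permMatrix, PEquiv.toMatrix_apply, Equiv.toPEquiv_apply, eq_comm]

end PermRep

theorem sign_mulLeft_gen {T : Type*} [Group T] [Fintype T] [DecidableEq T] (g : T)
    (hg : ∀ y : T, y ∈ Subgroup.zpowers g) (hg1 : g ≠ 1) (hev : Even (Fintype.card T)) :
    Equiv.Perm.sign (Equiv.mulLeft g) = -1 := by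
  have hne : ∀ y, Equiv.mulLeft g y ≠ y := by
    intro y h
    apply hg1
    simpa using h
  have hc : (Equiv.mulLeft g).IsCycle := by
    refine ⟨1, hne 1, fun y _ => ?_⟩
    obtain ⟨i, hi⟩ := hg y
    refine ⟨i, ?_⟩
    rw [Equiv.zpow_mulLeft]
    simpa using hi
  rw [hc.sign]
  have hs : (Equiv.mulLeft g).support = Finset.univ := by
    ext y
    simp only [Equiv.Perm.mem_support, Finset.mem_univ, iff_true]
    exact hne y
  rw [hs, Finset.card_univ, hev.neg_one_pow]

/-- A character of `G` which vanishes on the nontrivial powers of an element `τ` of order `2 ^ k`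
(`k ≥ 1`) and has degree an odd multiple of `2 ^ k` forces the commutator subgroup to have even
index. -/
theorem even_index_of_regular {G : Type u} [Group G] [Finite G] {φ : G → ℂ} (hφ : IsCharacter G φ)
    (τ : G) (k m : ℕ) (hk : 1 ≤ k) (ho : orderOf τ = 2 ^ k) (hm : Odd m)
    (h1 : φ 1 = (m : ℂ) * 2 ^ k) (hv : ∀ i : ℕ, 0 < i → i < 2 ^ k → φ (τ ^ i) = 0) :
    Even (commutator G).index := by
  classical
  obtain ⟨n, ρ, rfl⟩ := hφ
  let T : Subgroup G := Subgroup.zpowers τ
  haveI : Fintype T := Fintype.ofFinite _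
  have hcardT : Fintype.card T = 2 ^ k := by
    rw [← Nat.card_eq_fintype_card, Nat.card_zpowers, ho]
  let τ' : T := ⟨τ, Subgroup.mem_zpowers τ⟩
  have hτ' : ∀ y : T, y ∈ Subgroup.zpowers τ' := by
    rintro ⟨y, i, rfl⟩
    refine ⟨i, Subtype.ext ?_⟩
    simp [τ']
  let act : T → Equiv.Perm (Fin m × T) := fun z => Equiv.prodCongr (Equiv.refl _) (Equiv.mulLeft z⁻¹)
  let σ : Representation ℂ T (Fin m × T → ℂ) :=
    { toFun := fun z => LinearMap.funLeft ℂ ℂ (act z)
      map_one' := by
        ext f ⟨i, u⟩
        simp [act, LinearMap.funLeft_apply]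
      map_mul' := by
        intro z w
        ext f ⟨i, u⟩
        simp [act, LinearMap.funLeft_apply, mul_assoc] }
  have hσ : ∀ z, σ z = LinearMap.funLeft ℂ ℂ (act z) := fun _ => rfl
  let ρT : Representation ℂ T (Fin n → ℂ) := ρ.comp T.subtype
  have hρT : ∀ z : T, ρT z = ρ z := fun _ => rfl
  have hch : ρT.character = σ.character := by
    funext z
    change LinearMap.trace ℂ _ (ρ z) = LinearMap.trace ℂ _ (σ z)
    rw [hσ, trace_funLeft_perm]
    by_cases hz : z = 1
    · subst hz
      have hf : (Finset.univ.filter fun i : Fin m × T => act 1 i = i) = Finset.univ := by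
        ext ⟨i, u⟩
        simp [act]
      rw [hf, Finset.card_univ, Fintype.card_prod, Fintype.card_fin, hcardT]
      have := h1
      simp only [Representation.character] at this
      simp only [OneMemClass.coe_one]
      rw [this]
      push_cast
      ring
    · have hf : (Finset.univ.filter fun i : Fin m × T => act z i = i) = ∅ := by
        ext ⟨i, u⟩
        simp [act]
        exact hz
      rw [hf, Finset.card_empty, Nat.cast_zero]
      obtain ⟨y, hy⟩ := z
      obtain ⟨i, rfl⟩ := (Subgroup.mem_zpowers_iff).1 hy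
      have hi : τ ^ i = τ ^ (i % (2 ^ k : ℕ) : ℤ).toNat := by
        have h2 : (0 : ℤ) < (2 ^ k : ℕ) := by positivity
        have h3 : (0 : ℤ) ≤ i % (2 ^ k : ℕ) := Int.emod_nonneg _ h2.ne'
        rw [← zpow_natCast, Int.toNat_of_nonneg h3, ← ho, zpow_mod_orderOf]
      have hlt : (i % (2 ^ k : ℕ) : ℤ).toNat < 2 ^ k := by
        have h2 : (0 : ℤ) < (2 ^ k : ℕ) := by positivity
        have h3 := Int.emod_lt_of_pos i h2
        have h4 := Int.emod_nonneg i h2.ne'
        omega
      have hpos : 0 < (i % (2 ^ k : ℕ) : ℤ).toNat := by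
        rcases Nat.eq_zero_or_pos (i % (2 ^ k : ℕ) : ℤ).toNat with h0 | h0
        · exfalso
          apply hz
          apply Subtype.ext
          change τ ^ i = 1
          rw [hi, h0, pow_zero]
        · exact h0
      have := hv _ hpos hlt
      simp only [Representation.character] at this
      rw [← hi] at this
      exact this
  obtain ⟨E⟩ := H01.equiv_of_character_eq ρT σ hch
  have hdet : LinearMap.det (ρ τ) = -1 := by
    have h2 : LinearMap.det (ρT τ') = LinearMap.det (σ τ') := by
      have h3 : σ τ' = E.toLinearEquiv.toLinearMap ∘ₗ ρT τ' ∘ₗ E.toLinearEquiv.symm.toLinearMap := by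
        have h5 := Representation.IntertwiningMap.isIntertwining _ _ E.toIntertwiningMap τ'
        refine LinearMap.ext fun f => ?_
        have h6 := h5 (E.toLinearEquiv.symm f)
        have h7 : E.toIntertwiningMap (E.toLinearEquiv.symm f) = f := E.toLinearEquiv.apply_symm_apply f
        rw [h7] at h6
        exact h6.symm
      rw [h3]
      exact (LinearMap.det_conj (ρT τ') E.toLinearEquiv).symm
    have h3 : LinearMap.det (σ τ') = -1 := by
      rw [hσ, det_funLeft_perm]
      have h4 : act τ' = Equiv.prodCongrRight (fun _ : Fin m => Equiv.mulLeft τ'⁻¹) := by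
        ext ⟨i, u⟩ <;> simp [act]
      rw [h4, Equiv.Perm.sign_prodCongrRight]
      have h5 : Equiv.Perm.sign (Equiv.mulLeft τ'⁻¹) = -1 := by
        apply sign_mulLeft_gen
        · intro y
          have := hτ' y⁻¹
          rw [Subgroup.mem_zpowers_iff] at this ⊢
          obtain ⟨i, hi⟩ := this
          exact ⟨i, by rw [inv_zpow, hi, inv_inv]⟩
        · intro h
          have : τ' = 1 := by simpa using h
          have h6 : τ = 1 := congrArg Subtype.val this
          have h7 : orderOf τ = 1 := by rw [h6]; exact orderOf_one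
          rw [ho] at h7
          have : 2 ^ 1 ≤ 2 ^ k := Nat.pow_le_pow_right (by norm_num) hk
          omega
        · rw [hcardT]
          exact (Nat.even_pow' (by omega)).2 (by norm_num)
      simp only [h5, Finset.prod_const, Finset.card_univ, Fintype.card_fin, hm.neg_one_pow]
      simp
    rw [← h3, ← h2]
    rfl
  -- the linear character
  let δ : G →* ℂˣ := MonoidHom.toHomUnits ((LinearMap.det : End ℂ (Fin n → ℂ) →* ℂ).comp ρ)
  have hδ : ((δ τ : ℂˣ) : ℂ) = -1 := by
    simp only [δ, MonoidHom.coe_toHomUnits, MonoidHom.comp_apply]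
    exact hdet
  have hle : commutator G ≤ δ.ker := Abelianization.commutator_subset_ker δ
  have hd : δ.ker.index ∣ (commutator G).index := Subgroup.index_dvd_of_le hle
  refine (even_iff_two_dvd.2 (dvd_trans ?_ hd))
  rw [Subgroup.index_ker]
  have hmem : δ τ ∈ δ.range := ⟨τ, rfl⟩
  have hord : orderOf (⟨δ τ, hmem⟩ : δ.range) = 2 := by
    have hne : (⟨δ τ, hmem⟩ : δ.range) ≠ 1 := by
      intro h
      have h2 : δ τ = 1 := congrArg Subtype.val h
      rw [h2] at hδ
      have : (1 : ℂ) = -1 := hδ
      norm_num at this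
    have hsq : (⟨δ τ, hmem⟩ : δ.range) ^ 2 = 1 := by
      apply Subtype.ext
      apply Units.ext
      change ((δ τ : ℂˣ) : ℂ) ^ 2 = 1
      rw [hδ]
      norm_num
    exact orderOf_eq_prime hsq hne
  rw [← hord]
  exact orderOf_dvd_natCard _

end Cfsg.Agent.H23
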