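import Cfsg.Agent.Lib.H23.CovRat
import Cfsg.Agent.Lib.H23.TwoMax

/-!
# The field of values of a character and Galois orbits
-/

set_option autoImplicit false
set_option linter.unusedSectionVars false
set_option linter.style.haveILetI false
set_option linter.unusedSimpArgs false

namespace Cfsg.Agent.H23.FO

open Cfsg Cfsg.Agent Cfsg.Agent.H21 Cfsg.Agent.H06 Module

universe u

variable {X : Type u} [Group X] [Fintype X] {n : ℕ} [NeZero n]

/-- The Galois twist. -/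
def tw (n : ℕ) (u : (ZMod n)ˣ) (φ : X → ℂ) : X → ℂ := fun g => φ (g ^ ((u : ZMod n).val))

theorem tw_apply (u : (ZMod n)ˣ) (φ : X → ℂ) (g : X) : tw n u φ g = φ (g ^ ((u : ZMod n).val)) := rfl

theorem pow_val_mul (hn : ∀ g : X, g ^ n = 1) (u v : (ZMod n)ˣ) (g : X) :
    g ^ (((u * v : (ZMod n)ˣ) : ZMod n).val) = (g ^ ((v : ZMod n).val)) ^ ((u : ZMod n).val) := by
  rw [Units.val_mul, ZMod.val_mul, ← pow_eq_pow_mod _ (hn g), ← pow_mul, mul_comm]

theorem pow_val_one (hn : ∀ g : X, g ^ n = 1) (g : X) : g ^ (((1 : (ZMod n)ˣ) : ZMod n).val) = g := by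
  rw [Units.val_one, ZMod.val_one_eq_one_mod, ← pow_eq_pow_mod _ (hn g), pow_one]

/-- The action on functions. -/
def act (hn : ∀ g : X, g ^ n = 1) : MulAction (ZMod n)ˣ (X → ℂ) where
  smul u φ := tw n u φ
  one_smul φ := by
    funext g
    change φ (g ^ _) = φ g
    rw [pow_val_one hn]
  mul_smul u v φ := by
    funext g
    change φ (g ^ _) = φ ((g ^ _) ^ _)
    rw [pow_val_mul hn, ← pow_mul, ← pow_mul, mul_comm]

/-- The stabilizer. -/
def Sb (hn : ∀ g : X, g ^ n = 1) (φ : X → ℂ) : Subgroup (ZMod n)ˣ :=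
  @MulAction.stabilizer (ZMod n)ˣ (X → ℂ) _ (act hn) φ

theorem mem_Sb (hn : ∀ g : X, g ^ n = 1) {φ : X → ℂ} {u : (ZMod n)ˣ} :
    u ∈ Sb hn φ ↔ tw n u φ = φ := Iff.rfl

theorem index_Sb (hn : ∀ g : X, g ^ n = 1) (φ : X → ℂ) :
    (Sb hn φ).index = (Set.range fun u : (ZMod n)ˣ => tw n u φ).ncard := by
  letI := act hn
  exact MulAction.index_stabilizer (ZMod n)ˣ φ

theorem tw_unit (hn : ∀ g : X, g ^ n = 1) {k : ℕ} (hk : k.Coprime n) (φ : X → ℂ) (g : X) :
    tw n (ZMod.unitOfCoprime k hk) φ g = φ (g ^ k) := by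
  rw [tw_apply, ZMod.coe_unitOfCoprime, ZMod.val_natCast, ← pow_eq_pow_mod _ (hn g)]

theorem val_coprime (u : (ZMod n)ˣ) : ((u : ZMod n).val).Coprime n := ZMod.val_coe_unit_coprime u

/-- The values of a character lie in the cyclotomic field. -/
theorem mem_adjoin_of_dvd {φ : X → ℂ} (hφ : IsCharacter X φ) (hn : ∀ g : X, g ^ n = 1) (g : X) {ζ : ℂ}
    (hζ : IsPrimitiveRoot ζ n) : φ g ∈ IntermediateField.adjoin ℚ ({ζ} : Set ℂ) := by
  obtain ⟨d, ρ, rfl⟩ := hφ
  have hpos : 0 < n := Nat.pos_of_ne_zero (NeZero.ne n)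
  obtain ⟨ι, _, b, μ, h, hμ⟩ := Cfsg.Agent.H22.exists_eigenbasis ρ g hpos (hn g)
  have h1 := Cfsg.Agent.H22.character_eq_sum_pow ρ b μ g h 1
  rw [pow_one] at h1
  rw [h1]
  refine sum_mem fun i _ => ?_
  rw [pow_one]
  obtain ⟨j, -, hj⟩ := hζ.eq_pow_of_pow_eq_one (hμ i)
  rw [← hj]
  exact pow_mem (IntermediateField.mem_adjoin_simple_self ℚ ζ) _

/-- **The degree of the field of values is the length of the Galois orbit.** -/
theorem finrank_eq_index {φ : X → ℂ} (hφ : IsCharacter X φ) (hd : Nat.card X ∣ n)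
    (hn : ∀ g : X, g ^ n = 1) :
    finrank ℚ (IntermediateField.adjoin ℚ (Set.range φ)) = (Sb hn φ).index := by
  classical
  have hn0 : n ≠ 0 := NeZero.ne n
  set K := IntermediateField.adjoin ℚ (Set.range φ) with hK
  have hint : ∀ g, IsIntegral ℚ (φ g) := fun g =>
    (Cfsg.Agent.H22.isCharacter_isIntegral hφ g).tower_top
  haveI : FiniteDimensional ℚ K := IntermediateField.finiteDimensional_adjoin (by
    rintro _ ⟨g, rfl⟩
    exact hint g)
  have hcard := AlgHom.card ℚ K ℂ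
  have hmem : ∀ g, φ g ∈ K := fun g => IntermediateField.subset_adjoin _ _ ⟨g, rfl⟩
  let Ψ : (K →ₐ[ℚ] ℂ) → (X → ℂ) := fun e g => e ⟨φ g, hmem g⟩
  have hΨinj : Function.Injective Ψ := by
    intro e₁ e₂ h
    refine IntermediateField.algHom_ext_of_eq_adjoin ℚ hK ?_
    rintro x ⟨g, rfl⟩
    exact congrFun h g
  set ζ := Complex.exp (2 * Real.pi * Complex.I / n) with hζd
  have hζ : IsPrimitiveRoot ζ n := Complex.isPrimitiveRoot_exp n hn0
  have hτ : ∀ u : (ZMod n)ˣ, ∃ τ : ℂ →+* ℂ, (∀ μ : ℂ, μ ^ n = 1 → τ μ = μ ^ ((u : ZMod n).val)) ∧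
      ∀ g, τ (φ g) = tw n u φ g := by
    intro u
    obtain ⟨τ, hτ⟩ := exists_galois_ringHom hn0 (val_coprime u)
    refine ⟨τ, hτ, fun g => ?_⟩
    have h1 : ∀ μ : ℂ, μ ^ Nat.card X = 1 → τ μ = μ ^ ((u : ZMod n).val) := by
      intro μ hμ
      obtain ⟨c, hc⟩ := hd
      exact hτ μ (by rw [hc, pow_mul, hμ, one_pow])
    exact twoMax_tau_char h1 hφ g
  have hrange : Set.range Ψ = Set.range fun u : (ZMod n)ˣ => tw n u φ := by
    ext ψ
    constructor
    · rintro ⟨e, rfl⟩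
      -- extend to the cyclotomic field
      have hle : K ≤ IntermediateField.adjoin ℚ ({ζ} : Set ℂ) := by
        rw [hK, IntermediateField.adjoin_le_iff]
        rintro _ ⟨g, rfl⟩
        exact mem_adjoin_of_dvd hφ hn g hζ
      have hsp : ∀ s ∈ ({ζ} : Set ℂ), IsIntegral ℚ s ∧
          ((minpoly ℚ s).map (algebraMap ℚ ℂ)).Splits := by
        intro s hs
        rw [Set.mem_singleton_iff.1 hs]
        have h1 : IsIntegral ℚ ζ := (hζ.isIntegral (Nat.pos_of_ne_zero hn0)).tower_top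
        exact ⟨h1, IsAlgClosed.splits _⟩
      obtain ⟨φ₁, hφ₁⟩ := IntermediateField.exists_algHom_adjoin_of_splits hsp e hle
      have hζmem : ζ ∈ IntermediateField.adjoin ℚ ({ζ} : Set ℂ) :=
        IntermediateField.mem_adjoin_simple_self ℚ ζ
      have hw : (φ₁ ⟨ζ, hζmem⟩) ^ n = 1 := by
        rw [← map_pow]
        have : (⟨ζ, hζmem⟩ : IntermediateField.adjoin ℚ ({ζ} : Set ℂ)) ^ n = 1 :=
          Subtype.ext (by simpa using hζ.pow_eq_one)
        rw [this, map_one]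
      obtain ⟨k, -, hk⟩ := hζ.eq_pow_of_pow_eq_one hw
      have hprim : IsPrimitiveRoot (φ₁ ⟨ζ, hζmem⟩) n := by
        have h0 : IsPrimitiveRoot (⟨ζ, hζmem⟩ : IntermediateField.adjoin ℚ ({ζ} : Set ℂ)) n :=
          IsPrimitiveRoot.of_map_of_injective (f := (IntermediateField.adjoin ℚ ({ζ} : Set ℂ)).val)
            hζ Subtype.val_injective
        exact h0.map_of_injective φ₁.injective
      rw [← hk] at hprim
      have hcop : k.Coprime n := (hζ.pow_iff_coprime (Nat.pos_of_ne_zero hn0) k).mp hprim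
      refine ⟨ZMod.unitOfCoprime k hcop, ?_⟩
      obtain ⟨τ, hτ1, hτ2⟩ := hτ (ZMod.unitOfCoprime k hcop)
      have hτζ : τ ζ = ζ ^ k := by
        rw [hτ1 ζ hζ.pow_eq_one, ZMod.coe_unitOfCoprime, ZMod.val_natCast,
          ← pow_eq_pow_mod _ hζ.pow_eq_one]
      have heq : φ₁ = τ.toRatAlgHom.comp (IntermediateField.adjoin ℚ ({ζ} : Set ℂ)).val := by
        refine IntermediateField.algHom_ext_of_eq_adjoin ℚ rfl ?_
        intro x hx
        obtain rfl := Set.mem_singleton_iff.1 hx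
        change φ₁ ⟨ζ, hζmem⟩ = τ ζ
        rw [hτζ, hk]
      funext g
      have h3 : e ⟨φ g, hmem g⟩ = φ₁ ⟨φ g, hle (hmem g)⟩ := by
        rw [← hφ₁]
        rfl
      change tw n _ φ g = e ⟨φ g, hmem g⟩
      rw [h3, heq, ← hτ2 g]
      rfl
    · rintro ⟨u, rfl⟩
      obtain ⟨τ, -, hτ'⟩ := hτ u
      refine ⟨τ.toRatAlgHom.comp K.val, ?_⟩
      funext g
      exact hτ' g
  rw [index_Sb hn, ← hrange, ← hcard, ← Set.image_univ, Set.ncard_image_of_injective _ hΨinj,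
    Set.ncard_univ, Nat.card_eq_fintype_card]

end Cfsg.Agent.H23.FO
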