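import Cfsg.Agent.Lib.H21.MinMax
import Cfsg.Agent.Lib.H22.NormalP
import Cfsg.Agent.Lib.H23.RealDeg4
import Cfsg.Agent.Lib.H01.Coprime4
import Cfsg.Agent.Lib.H01.Basic

/-!
# Blocks of `G / D'` and of `G` for a normal `p`-subgroup `D`
-/

set_option autoImplicit false
set_option linter.unusedSectionVars false
set_option linter.style.haveILetI false
set_option linter.unusedSimpArgs false

namespace Cfsg.Agent.H23

open scoped ComplexConjugate
open Cfsg Cfsg.Agent.H21 Cfsg.Agent.H22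

universe u

variable {G : Type u} [Group G] [Finite G] {M : Ideal AlgInt} [M.IsPrime]

/-- To compare blocks it suffices to look at `p`-regular elements centralizing a normal
`p`-subgroup. -/
theorem sameBlock_of_regular_central {p : ℕ} [hp : Fact p.Prime] (hM : IsPModular p M)
    (P : Subgroup G) [hPn : P.Normal] (hP : IsPGroup p P) (χ ψ : IrrCharacter G)
    (h : ∀ x : G, ¬ p ∣ orderOf x → x ∈ Subgroup.centralizer (P : Set G) →
      MemLocalIdeal M (H22.cc x χ - H22.cc x ψ)) :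
    SameBlock M χ.1 ψ.1 := by
  classical
  haveI := Fintype.ofFinite G
  haveI : Fintype (IrrCharacter G) := Fintype.ofFinite _
  haveI : Fintype (ConjClasses G) := Fintype.ofFinite _
  set B := blockOf M χ.1 with hBdef
  have hB : IsPBlock M B := H22.isBlock_blockOf χ
  by_contra hne
  have hψ : ψ ∉ B := hne
  have h1 := H22.om_ofOm (H22.eB B) χ
  have h2 := H22.om_ofOm (H22.eB B) ψ
  rw [H22.eB_apply_mem (H22.self_mem_blockOf χ)] at h1
  rw [H22.eB_apply_not_mem hψ] at h2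
  rw [H22.om_eq_sum_classes _ (H22.ofOm_isClass _)] at h1 h2
  have h3 : MemLocalIdeal M (1 - 0 : ℂ) := by
    rw [← h1, ← h2, ← Finset.sum_sub_distrib]
    refine H22.mli_sum _ _ fun C _ => ?_
    rw [← mul_sub]
    by_cases hC : p ∣ orderOf C.out
    · have : H22.ofOm (H22.eB B) C.out = 0 := by
        rw [← H22.blockCoeff_eq_ofOm]
        exact H22.blockCoeff_eq_zero_of_singular hM hB hC
      rw [this, zero_mul]
      exact H22.mli_zero
    · by_cases hC2 : C.out ∈ Subgroup.centralizer (P : Set G)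
      · refine H22.mli_mul_left (h _ hC hC2) ?_
        exact H22.eB_mem_ZR hB _
      · have : H22.ofOm (H22.eB B) C.out = 0 := by
          rw [← H22.blockCoeff_eq_ofOm]
          exact H22.blockCoeff_eq_zero_of_not_centralizer hM P hP (H22.blockSat_of_isBlock hB) hC2
        rw [this, zero_mul]
        exact H22.mli_zero
  rw [sub_zero] at h3
  exact H22.not_mli_one h3

/-- A `p`-regular element acting trivially on `D / D'` centralizes `D`. -/
theorem centralizes_of_comm_commutator {p : ℕ} [hp : Fact p.Prime] (D : Subgroup G) [D.Normal]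
    (hD : IsPGroup p D) {x : G} (hx : ¬ p ∣ orderOf x)
    (hc : ∀ k ∈ D, x * k * x⁻¹ * k⁻¹ ∈ ⁅D, D⁆) : x ∈ Subgroup.centralizer (D : Set G) := by
  classical
  have hpd : (Nat.card (Subgroup.zpowers x)).Coprime (Nat.card (frattini D)) := by
    rw [Nat.card_zpowers]
    have hf : IsPGroup p (frattini D) := IsPGroup.to_subgroup hD _
    obtain ⟨m, hm⟩ := IsPGroup.iff_card.1 hf
    rw [hm]
    exact Nat.Coprime.pow_right _ ((Nat.coprime_comm.1 ((Nat.Prime.coprime_iff_not_dvd hp.out).2 hx)))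
  have hnorm : Subgroup.zpowers x ≤ Subgroup.normalizer (D : Set G) := by
    intro a _
    rw [Subgroup.mem_normalizer_iff]
    intro k
    constructor
    · intro hk
      exact Subgroup.Normal.conj_mem inferInstance k hk a
    · intro hk
      have := Subgroup.Normal.conj_mem (inferInstance : D.Normal) _ hk a⁻¹
      simpa [mul_assoc] using this
  have hle : ⁅D, D⁆ ≤ (frattini D).map D.subtype := by
    rw [← Subgroup.map_subtype_commutator]
    exact Subgroup.map_mono (H01.commutator_le_frattini_of_isPGroup hD)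
  have htriv : ∀ a ∈ Subgroup.zpowers x, ∀ k ∈ D,
      a * k * a⁻¹ * k⁻¹ ∈ (frattini D).map D.subtype := by
    rintro a ha k hk
    refine hle ?_
    obtain ⟨n, rfl⟩ := Subgroup.mem_zpowers_iff.1 ha
    rw [← QuotientGroup.eq_one_iff (N := ⁅D, D⁆)]
    have h1 : ((x * k * x⁻¹ * k⁻¹ : G) : G ⧸ ⁅D, D⁆) = 1 := (QuotientGroup.eq_one_iff _).2 (hc k hk)
    have h2 : Commute ((x : G) : G ⧸ ⁅D, D⁆) ((k : G) : G ⧸ ⁅D, D⁆) := by
      have h3 : (((x : G) : G ⧸ ⁅D, D⁆) * ((k : G) : G ⧸ ⁅D, D⁆) * ((x : G) : G ⧸ ⁅D, D⁆)⁻¹ *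
          ((k : G) : G ⧸ ⁅D, D⁆)⁻¹) = 1 := h1
      show ((x : G) : G ⧸ ⁅D, D⁆) * ((k : G) : G ⧸ ⁅D, D⁆) =
        ((k : G) : G ⧸ ⁅D, D⁆) * ((x : G) : G ⧸ ⁅D, D⁆)
      have h4 := mul_inv_eq_one.1 h3
      exact mul_inv_eq_iff_eq_mul.1 h4
    have h5 : Commute (((x ^ n : G)) : G ⧸ ⁅D, D⁆) ((k : G) : G ⧸ ⁅D, D⁆) := by
      have := h2.zpow_left n
      simpa using this
    show (((x ^ n : G) : G ⧸ ⁅D, D⁆) * ((k : G) : G ⧸ ⁅D, D⁆) * ((x ^ n : G) : G ⧸ ⁅D, D⁆)⁻¹ *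
        ((k : G) : G ⧸ ⁅D, D⁆)⁻¹) = 1
    rw [h5.eq]
    group
  have := H01.centralizes_of_trivial_on_frattini_quotient (Subgroup.zpowers x) D hnorm hpd htriv
  exact this (Subgroup.mem_zpowers x)

/-- Lifting a `p`-regular element of `C_{G/D'}(D/D')` to a `p`-regular element of `C_G(D)`. -/
theorem exists_lift_regular {p : ℕ} [hp : Fact p.Prime] (D : Subgroup G) [D.Normal]
    (hD : IsPGroup p D) (y : G ⧸ ⁅D, D⁆) (hy : ¬ p ∣ orderOf y)
    (hc : y ∈ Subgroup.centralizer ((D.map (QuotientGroup.mk' ⁅D, D⁆) : Subgroup (G ⧸ ⁅D, D⁆)) :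
      Set (G ⧸ ⁅D, D⁆))) :
    ∃ x : G, (x : G ⧸ ⁅D, D⁆) = y ∧ ¬ p ∣ orderOf x ∧ x ∈ Subgroup.centralizer (D : Set G) := by
  classical
  obtain ⟨g, rfl⟩ := QuotientGroup.mk_surjective y
  obtain ⟨a, b, hab, hcomm, ⟨k, hk⟩, hb⟩ := exists_pPart_decomp p g
  have hb' : ¬ p ∣ orderOf b := (Nat.Prime.coprime_iff_not_dvd hp.out).1 hb.symm
  have hbar : ((b : G) : G ⧸ ⁅D, D⁆) = ((g : G) : G ⧸ ⁅D, D⁆) := by
    have h1 : ((g : G) : G ⧸ ⁅D, D⁆) = ((a : G) : G ⧸ ⁅D, D⁆) * ((b : G) : G ⧸ ⁅D, D⁆) := by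
      rw [hab]; rfl
    have h2 : ((a : G) : G ⧸ ⁅D, D⁆) = 1 := by
      -- `ā` has `p`-power order and `ā = ḡ b̄⁻¹` has `p'`-order
      have h3 : Commute ((g : G) : G ⧸ ⁅D, D⁆) ((b : G) : G ⧸ ⁅D, D⁆) := by
        rw [h1]
        exact (hcomm.map (QuotientGroup.mk' ⁅D, D⁆)).mul_left (Commute.refl _)
      have h4 : ((a : G) : G ⧸ ⁅D, D⁆) = ((g : G) : G ⧸ ⁅D, D⁆) * ((b : G) : G ⧸ ⁅D, D⁆)⁻¹ := by
        rw [h1]; group
      set n := orderOf ((g : G) : G ⧸ ⁅D, D⁆) * orderOf ((b : G) : G ⧸ ⁅D, D⁆) with hn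
      have h5 : ((a : G) : G ⧸ ⁅D, D⁆) ^ n = 1 := by
        rw [h4, (h3.inv_right).mul_pow, hn, pow_mul, pow_orderOf_eq_one, one_pow, inv_pow,
          mul_comm, pow_mul, pow_orderOf_eq_one, one_pow, inv_one, mul_one]
      have h6 : ((a : G) : G ⧸ ⁅D, D⁆) ^ (p ^ k) = 1 := by
        rw [← hk]
        have : ((a : G) : G ⧸ ⁅D, D⁆) ^ orderOf a = ((a ^ orderOf a : G) : G ⧸ ⁅D, D⁆) := rfl
        rw [this, pow_orderOf_eq_one]
        rfl
      have hb2 : ¬ p ∣ orderOf ((b : G) : G ⧸ ⁅D, D⁆) := fun h =>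
        hb' (h.trans (orderOf_map_dvd (QuotientGroup.mk' ⁅D, D⁆) b))
      have hcop : Nat.Coprime (p ^ k) n := by
        apply Nat.Coprime.pow_left
        rw [Nat.Prime.coprime_iff_not_dvd hp.out, hn, hp.out.dvd_mul]
        push Not
        exact ⟨hy, hb2⟩
      have h7 := pow_gcd_eq_one.2 ⟨h6, h5⟩
      rwa [hcop, pow_one] at h7
    rw [h1, h2, one_mul]
  refine ⟨b, hbar, hb', ?_⟩
  apply centralizes_of_comm_commutator D hD hb'
  intro u hu
  rw [← QuotientGroup.eq_one_iff (N := ⁅D, D⁆)]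
  have hu' : ((u : G) : G ⧸ ⁅D, D⁆) ∈ D.map (QuotientGroup.mk' ⁅D, D⁆) := ⟨u, hu, rfl⟩
  have h8 := (Subgroup.mem_centralizer_iff.1 hc) _ hu'
  rw [← hbar] at h8
  show ((b : G) : G ⧸ ⁅D, D⁆) * ((u : G) : G ⧸ ⁅D, D⁆) * ((b : G) : G ⧸ ⁅D, D⁆)⁻¹ *
    ((u : G) : G ⧸ ⁅D, D⁆)⁻¹ = 1
  rw [← h8]
  group

/-- For a `p`-regular `x ∈ C_G(D)` the class of `x` maps injectively modulo `D'`. -/
theorem fibCount_eq_one_comm {p : ℕ} [hp : Fact p.Prime] (D : Subgroup G) [D.Normal]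
    (hD : IsPGroup p D) {x : G} (hx : ¬ p ∣ orderOf x)
    (hc : x ∈ Subgroup.centralizer (D : Set G)) : fibCount ⁅D, D⁆ x = 1 := by
  classical
  unfold fibCount
  have huniq : ∀ y : G, IsConj y x → (y : G ⧸ ⁅D, D⁆) = (x : G ⧸ ⁅D, D⁆) → y = x := by
    intro y hy hq
    have hd : x⁻¹ * y ∈ ⁅D, D⁆ := QuotientGroup.eq.1 hq.symm
    have hdD : x⁻¹ * y ∈ D := (Subgroup.commutator_le_left D D) hd
    set d := x⁻¹ * y with hd'
    have hyd : y = x * d := by rw [hd']; group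
    have hcomm : Commute x d := (Subgroup.mem_centralizer_iff.1 hc d hdD).symm
    have hord : orderOf y = orderOf x := by
      obtain ⟨c, hc'⟩ := isConj_iff.1 hy
      rw [← hc']
      have hh := MulEquiv.orderOf_eq (MulAut.conj c) y
      rw [MulAut.conj_apply] at hh
      exact hh.symm
    have h1 : d ^ orderOf x = 1 := by
      have h2 : y ^ orderOf x = 1 := by
        rw [← hord]
        exact pow_orderOf_eq_one y
      rw [hyd, hcomm.mul_pow, pow_orderOf_eq_one, one_mul] at h2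
      exact h2
    obtain ⟨k, hk⟩ := (IsPGroup.iff_orderOf.1 hD) ⟨d, hdD⟩
    have hk' : orderOf d = p ^ k := by
      rw [← hk]
      simp [Subgroup.orderOf_mk]
    have hdvd : orderOf d ∣ orderOf x := orderOf_dvd_of_pow_eq_one h1
    have hd1 : d = 1 := by
      rcases k.eq_zero_or_pos with rfl | hkp
      · rw [pow_zero] at hk'
        exact orderOf_eq_one_iff.1 hk'
      · exfalso
        apply hx
        rw [hk'] at hdvd
        exact (dvd_pow_self p hkp.ne').trans hdvd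
    rw [hyd, hd1, mul_one]
  haveI : Subsingleton {y : G // IsConj y x ∧ (y : G ⧸ ⁅D, D⁆) = (x : G ⧸ ⁅D, D⁆)} :=
    ⟨fun a b => Subtype.ext ((huniq a.1 a.2.1 a.2.2).trans (huniq b.1 b.2.1 b.2.2).symm)⟩
  exact Nat.card_of_subsingleton ⟨x, IsConj.refl x, rfl⟩

/-- Every block of `G` contains a character with the normal `p`-subgroup `N` in its kernel. -/
theorem exists_block_ker {p : ℕ} [hp : Fact p.Prime] (hM : IsPModular p M) (N : Subgroup G)
    [N.Normal] (hN : IsPGroup p N) (B : Set (IrrCharacter G)) (hB : IsPBlock M B) :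
    ∃ θ ∈ B, ∀ n ∈ N, θ.1 n = θ.1 1 := by
  classical
  haveI := Fintype.ofFinite G
  haveI := Fintype.ofFinite N
  haveI : Fintype (IrrCharacter G) := Fintype.ofFinite _
  haveI : Fintype (IrrCharacter N) := Fintype.ofFinite _
  obtain ⟨χ₀, rfl⟩ := hB
  have hB' : IsPBlock M (blockOf M χ₀.1) := ⟨χ₀, rfl⟩
  have horth : ∀ n : N, n ≠ 1 → ∑ θ : IrrCharacter G,
      H22.eB (blockOf M χ₀.1) θ * (θ.1 1 * conj (θ.1 n)) = 0 := by
    intro n hn
    refine H22.block_orth_regular_singular hM hB' (by simpa using hp.out.one_lt.ne') ?_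
    obtain ⟨k, hk⟩ := (IsPGroup.iff_orderOf.1 hN) n
    have hk' : orderOf (n : G) = p ^ k := by
      rw [← hk]
      exact (Subgroup.orderOf_coe n)
    rcases k.eq_zero_or_pos with rfl | hkp
    · exfalso
      rw [pow_zero] at hk
      exact hn (orderOf_eq_one_iff.1 hk)
    · rw [hk']
      exact dvd_pow_self p hkp.ne'
  have hsum : ∑ n : N, ∑ θ : IrrCharacter G,
      H22.eB (blockOf M χ₀.1) θ * (θ.1 1 * conj (θ.1 n)) =
      ∑ θ : IrrCharacter G, H22.eB (blockOf M χ₀.1) θ * (θ.1 1 * conj (θ.1 1)) := by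
    rw [Finset.sum_eq_single (1 : N)]
    · simp
    · intro n _ hn
      exact horth n hn
    · simp
  have hpos : ∑ θ : IrrCharacter G, H22.eB (blockOf M χ₀.1) θ * (θ.1 1 * conj (θ.1 1)) ≠ 0 := by
    have h1 : ∀ θ : IrrCharacter G, H22.eB (blockOf M χ₀.1) θ * (θ.1 1 * conj (θ.1 1)) =
        (((H22.eB (blockOf M χ₀.1) θ).re * ‖θ.1 1‖ ^ 2 : ℝ) : ℂ) := by
      intro θ
      rw [Complex.mul_conj, Complex.normSq_eq_norm_sq]
      by_cases h : θ ∈ blockOf M χ₀.1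
      · rw [H22.eB_apply_mem h]; simp
      · rw [H22.eB_apply_not_mem h]; simp
    simp only [h1]
    rw [← Complex.ofReal_sum]
    have h2 : 0 < ∑ θ : IrrCharacter G, (H22.eB (blockOf M χ₀.1) θ).re * ‖θ.1 1‖ ^ 2 := by
      apply Finset.sum_pos'
      · intro θ _
        by_cases h : θ ∈ blockOf M χ₀.1
        · rw [H22.eB_apply_mem h]; simp
        · rw [H22.eB_apply_not_mem h]; simp
      · refine ⟨χ₀, Finset.mem_univ _, ?_⟩
        rw [H22.eB_apply_mem (H22.self_mem_blockOf χ₀)]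
        have := H22.irr_one_ne_zero' χ₀
        simp only [Complex.one_re, one_mul]
        positivity
    exact_mod_cast h2.ne'
  rw [← hsum, Finset.sum_comm] at hpos
  obtain ⟨θ, _, hθ⟩ := Finset.exists_ne_zero_of_sum_ne_zero hpos
  have hθB : θ ∈ blockOf M χ₀.1 := by
    by_contra h
    apply hθ
    simp [H22.eB_apply_not_mem h]
  refine ⟨θ, hθB, fun n hn => ?_⟩
  apply ker_of_inner_one_ne N θ _ n hn
  intro h0
  apply hθ
  have h1 : (Nat.card N : ℂ)⁻¹ * ∑ n : N, θ.1 n = 0 := by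
    have h2 := h0
    unfold classInner at h2
    simpa using h2
  have hc : (Nat.card N : ℂ) ≠ 0 := by exact_mod_cast Nat.card_pos.ne'
  have h3 : ∑ n : N, θ.1 n = 0 := (mul_eq_zero.1 h1).resolve_left (inv_ne_zero hc)
  rw [← Finset.mul_sum, ← Finset.mul_sum, ← map_sum, h3]
  simp

end Cfsg.Agent.H23
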