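import Cfsg.Agent.Lib.H23.FS

set_option autoImplicit false

namespace Cfsg.Agent.H23

open Cfsg Cfsg.Agent Cfsg.Agent.H21
open scoped ComplexConjugate

section
variable {G : Type*} [Group G] [Fintype G]

/-- square roots of one, counted. -/
theorem ic_card_sq_one (t : ℕ) (ht : Nat.card {x : G // orderOf x = 2} = t) :
    Nat.card {x : G // x * x = 1} = t + 1 := by
  classical
  have e : {x : G // x * x = 1} ≃ Option {x : G // orderOf x = 2} := by
    refine
      { toFun := fun x => if h : x.1 = 1 then none else some ⟨x.1, ?_⟩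
        invFun := fun o => match o with
          | none => ⟨1, by simp⟩
          | some y => ⟨y.1, ?_⟩
        left_inv := ?_
        right_inv := ?_ }
    · have h2 : x.1 ^ 2 = 1 := by rw [sq]; exact x.2
      exact orderOf_eq_prime h2 h
    · have := pow_orderOf_eq_one y.1
      rw [y.2, sq] at this
      exact this
    · intro x
      by_cases h : x.1 = 1
      · simp only [h, dif_pos]
        exact Subtype.ext h.symm
      · simp only [h, dif_neg, not_false_eq_true]
    · intro o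
      rcases o with _ | y
      · simp
      · have hy : y.1 ≠ 1 := by
          intro h
          have := y.2
          rw [h, orderOf_one] at this
          omega
        simp [hy]
  rw [Nat.card_congr e, ← ht]
  simp [Nat.card_eq_fintype_card]

/-- The elementary counting bound. -/
theorem ic_sum_bound (y : G) :
    Nat.card {p : G × G // p.1 * p.1 = 1 ∧ p.2 * p.2 = 1 ∧ p.1 * p.2 = y} ≤
      Nat.card (Subgroup.centralizer ({y} : Set G)) := by
  classical
  by_cases hne : Nonempty {p : G × G // p.1 * p.1 = 1 ∧ p.2 * p.2 = 1 ∧ p.1 * p.2 = y}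
  · obtain ⟨p₀⟩ := hne
    refine Nat.card_le_card_of_injective
      (fun p => (⟨p₀.1.1⁻¹ * p.1.1, ?_⟩ : Subgroup.centralizer ({y} : Set G))) ?_
    · rw [Subgroup.mem_centralizer_singleton_iff]
      obtain ⟨⟨s, u⟩, hs, hu, hy⟩ := p
      obtain ⟨⟨s₀, u₀⟩, hs₀, hu₀, hy₀⟩ := p₀
      simp only at hs hu hy hs₀ hu₀ hy₀ ⊢
      have h1 : s * y * s⁻¹ = y⁻¹ := by
        rw [← hy, mul_inv_rev]
        have e1 : s⁻¹ = s := inv_eq_of_mul_eq_one_left hs
        have e2 : u⁻¹ = u := inv_eq_of_mul_eq_one_left hu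
        rw [e1, e2, ← mul_assoc, hs, one_mul]
      have h2 : s₀ * y * s₀⁻¹ = y⁻¹ := by
        rw [← hy₀, mul_inv_rev]
        have e1 : s₀⁻¹ = s₀ := inv_eq_of_mul_eq_one_left hs₀
        have e2 : u₀⁻¹ = u₀ := inv_eq_of_mul_eq_one_left hu₀
        rw [e1, e2, ← mul_assoc, hs₀, one_mul]
      have h3 : s₀⁻¹ * s * y * (s₀⁻¹ * s)⁻¹ = y := by
        have : s₀⁻¹ * s * y * (s₀⁻¹ * s)⁻¹ = s₀⁻¹ * (s * y * s⁻¹) * s₀ := by group
        rw [this, h1, ← h2]; group
      calc s₀⁻¹ * s * y = (s₀⁻¹ * s * y * (s₀⁻¹ * s)⁻¹) * (s₀⁻¹ * s) := by group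
        _ = y * (s₀⁻¹ * s) := by rw [h3]
    · intro p q h
      have h1 : p₀.1.1⁻¹ * p.1.1 = p₀.1.1⁻¹ * q.1.1 := congrArg Subtype.val h
      have h2 : p.1.1 = q.1.1 := mul_left_cancel h1
      apply Subtype.ext
      apply Prod.ext h2
      have h3 : p.1.1 * p.1.2 = q.1.1 * q.1.2 := by rw [p.2.2.2, q.2.2.2]
      rw [h2] at h3
      exact mul_left_cancel h3
  · rw [not_nonempty_iff] at hne
    rw [Nat.card_of_isEmpty]
    exact Nat.zero_le _

theorem ic_sum_fibers (t : ℕ) (ht : Nat.card {x : G // orderOf x = 2} = t) :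
    ∑ y : G, Nat.card {p : G × G // p.1 * p.1 = 1 ∧ p.2 * p.2 = 1 ∧ p.1 * p.2 = y} = (t + 1) ^ 2 := by
  classical
  have hI := ic_card_sq_one t ht
  have e : (Σ y : G, {p : G × G // p.1 * p.1 = 1 ∧ p.2 * p.2 = 1 ∧ p.1 * p.2 = y}) ≃
      {x : G // x * x = 1} × {x : G // x * x = 1} :=
    { toFun := fun a => (⟨a.2.1.1, a.2.2.1⟩, ⟨a.2.1.2, a.2.2.2.1⟩)
      invFun := fun b => ⟨b.1.1 * b.2.1, ⟨(b.1.1, b.2.1), b.1.2, b.2.2, rfl⟩⟩
      left_inv := by
        rintro ⟨y, ⟨⟨s, u⟩, hs, hu, rfl⟩⟩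
        rfl
      right_inv := by
        rintro ⟨⟨s, hs⟩, ⟨u, hu⟩⟩
        rfl }
  have h := Nat.card_congr e
  rw [Nat.card_prod, hI, Nat.card_sigma] at h
  rw [h, sq]

theorem ic_fiber_one (t : ℕ) (ht : Nat.card {x : G // orderOf x = 2} = t) :
    Nat.card {p : G × G // p.1 * p.1 = 1 ∧ p.2 * p.2 = 1 ∧ p.1 * p.2 = 1} = t + 1 := by
  rw [← ic_card_sq_one t ht]
  refine Nat.card_congr
    { toFun := fun a => ⟨a.1.1, a.2.1⟩
      invFun := fun b => ⟨(b.1, b.1), b.2, b.2, b.2⟩
      left_inv := ?_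
      right_inv := fun b => rfl }
  rintro ⟨⟨s, u⟩, hs, hu, h⟩
  simp only at hs hu h
  apply Subtype.ext
  simp only [Prod.mk.injEq, true_and]
  have e1 : s⁻¹ = s := inv_eq_of_mul_eq_one_left hs
  have e2 : u = s⁻¹ := eq_inv_of_mul_eq_one_right h
  rw [e2, e1]

theorem ic_small_class (heven : Even (Nat.card G)) (t : ℕ)
    (ht : Nat.card {x : G // orderOf x = 2} = t) :
    ∃ x : G, x ≠ 1 ∧ ((Subgroup.centralizer ({x} : Set G)).index : ℚ) ≤
      (((Nat.card G : ℚ) - 1) / t) ^ 2 := by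
  classical
  have hg : 2 ≤ Nat.card G := by
    obtain ⟨r, hr⟩ := heven
    have := Nat.card_pos (α := G)
    omega
  have hG2 : 2 ∣ Nat.card G := heven.two_dvd
  have ht0 : 0 < t := by
    haveI : Fact (Nat.Prime 2) := ⟨Nat.prime_two⟩
    obtain ⟨x, hx⟩ := exists_prime_orderOf_dvd_card' 2 hG2
    rw [← ht]
    haveI : Nonempty {x : G // orderOf x = 2} := ⟨⟨x, hx⟩⟩
    exact Nat.card_pos
  have htg : t + 1 ≤ Nat.card G := by
    rw [← ic_card_sq_one t ht, Nat.card_eq_fintype_card, Nat.card_eq_fintype_card]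
    exact Fintype.card_subtype_le _
  by_contra hcon
  push Not at hcon
  have hsum := ic_sum_fibers (G := G) t ht
  rw [← Finset.add_sum_erase _ _ (Finset.mem_univ (1:G)), ic_fiber_one t ht] at hsum
  set g : ℚ := (Nat.card G : ℚ) with hgdef
  have hg2 : (2:ℚ) ≤ g := by rw [hgdef]; exact_mod_cast hg
  have htq : (0:ℚ) < t := by exact_mod_cast ht0
  have htg' : (t:ℚ) + 1 ≤ g := by rw [hgdef]; exact_mod_cast htg
  -- bound each term
  have hterm : ∀ y ∈ (Finset.univ : Finset G).erase 1,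
      ((Nat.card {p : G × G // p.1 * p.1 = 1 ∧ p.2 * p.2 = 1 ∧ p.1 * p.2 = y} : ℕ) : ℚ) * (g - 1) ^ 2
        < g * t ^ 2 := by
    intro y hy
    have hy1 : y ≠ 1 := (Finset.mem_erase.mp hy).1
    have h1 := hcon y hy1
    have h2 := ic_sum_bound y
    have h3 : (Nat.card (Subgroup.centralizer ({y} : Set G)) : ℚ) *
        ((Subgroup.centralizer ({y} : Set G)).index : ℚ) = g := by
      rw [hgdef]
      exact_mod_cast Subgroup.card_mul_index _
    have hc : (0:ℚ) < (Nat.card (Subgroup.centralizer ({y} : Set G)) : ℚ) := by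
      exact_mod_cast Nat.card_pos
    have h4 : ((g - 1) / t) ^ 2 * t ^ 2 = (g - 1) ^ 2 := by
      field_simp
    have h5 : (g - 1) ^ 2 < ((Subgroup.centralizer ({y} : Set G)).index : ℚ) * t ^ 2 := by
      rw [← h4]
      exact mul_lt_mul_of_pos_right h1 (by positivity)
    have h2' : ((Nat.card {p : G × G // p.1 * p.1 = 1 ∧ p.2 * p.2 = 1 ∧ p.1 * p.2 = y} : ℕ) : ℚ) ≤
        (Nat.card (Subgroup.centralizer ({y} : Set G)) : ℚ) := by exact_mod_cast h2
    calc _ ≤ (Nat.card (Subgroup.centralizer ({y} : Set G)) : ℚ) * (g - 1) ^ 2 :=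
          mul_le_mul_of_nonneg_right h2' (by positivity)
      _ < (Nat.card (Subgroup.centralizer ({y} : Set G)) : ℚ) *
            (((Subgroup.centralizer ({y} : Set G)).index : ℚ) * t ^ 2) :=
          mul_lt_mul_of_pos_left h5 hc
      _ = g * t ^ 2 := by rw [← mul_assoc, h3]
  have hne : ((Finset.univ : Finset G).erase 1).Nonempty := by
    obtain ⟨x, hx⟩ : ∃ x : G, x ≠ 1 := by
      haveI : Nontrivial G := by
        rw [← Finite.one_lt_card_iff_nontrivial]; omega
      exact exists_ne 1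
    exact ⟨x, Finset.mem_erase.mpr ⟨hx, Finset.mem_univ _⟩⟩
  have hlt := Finset.sum_lt_sum_of_nonempty hne hterm
  rw [← Finset.sum_mul, Finset.sum_const, Finset.card_erase_of_mem (Finset.mem_univ _),
    Finset.card_univ] at hlt
  have hs : ((∑ y ∈ (Finset.univ : Finset G).erase 1,
      Nat.card {p : G × G // p.1 * p.1 = 1 ∧ p.2 * p.2 = 1 ∧ p.1 * p.2 = y} : ℕ) : ℚ) =
      (t:ℚ) * (t + 1) := by
    have : ((t + 1 + ∑ y ∈ (Finset.univ : Finset G).erase 1,
      Nat.card {p : G × G // p.1 * p.1 = 1 ∧ p.2 * p.2 = 1 ∧ p.1 * p.2 = y} : ℕ) : ℚ) =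
        (((t + 1) ^ 2 : ℕ) : ℚ) := by rw [hsum]
    push_cast at this ⊢
    linarith
  push_cast at hs
  rw [hs] at hlt
  have hcard : ((Fintype.card G - 1 : ℕ) : ℚ) = g - 1 := by
    rw [hgdef, Nat.card_eq_fintype_card, Nat.cast_sub]
    · simp
    · exact Fintype.card_pos
  rw [nsmul_eq_mul, hcard] at hlt
  have hg1 : (0:ℚ) < g - 1 := by linarith
  have key : (t:ℚ) * (t + 1) * (g - 1) ^ 2 < (g - 1) * (g * t ^ 2) := hlt
  have h6 : (g - 1) * (t * (t + 1) * (g - 1)) < (g - 1) * (g * t ^ 2) := by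
    calc _ = (t:ℚ) * (t + 1) * (g - 1) ^ 2 := by ring
      _ < _ := key
  have h7 := lt_of_mul_lt_mul_left h6 hg1.le
  have h8 : t * ((t + 1) * (g - 1)) < t * (g * t) := by
    calc _ = (t:ℚ) * (t + 1) * (g - 1) := by ring
      _ < g * t ^ 2 := h7
      _ = _ := by ring
  have h9 := lt_of_mul_lt_mul_left h8 htq.le
  nlinarith

variable [Fintype (IrrCharacter G)]

theorem ic_small_real (heven : Even (Nat.card G)) (t : ℕ)
    (ht : Nat.card {x : G // orderOf x = 2} = t) :
    ∃ χ : IrrCharacter G, (χ : G → ℂ) ≠ (fun _ => 1) ∧ (∀ g : G, ((χ : G → ℂ) g).im = 0) ∧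
      (charDegree (χ : G → ℂ) : ℚ) ≤ ((Nat.card G : ℚ) - 1) / t := by
  classical
  have hg : 2 ≤ Nat.card G := by
    obtain ⟨r, hr⟩ := heven
    have := Nat.card_pos (α := G)
    omega
  have hG2 : 2 ∣ Nat.card G := heven.two_dvd
  have ht0 : 0 < t := by
    haveI : Fact (Nat.Prime 2) := ⟨Nat.prime_two⟩
    obtain ⟨x, hx⟩ := exists_prime_orderOf_dvd_card' 2 hG2
    rw [← ht]
    haveI : Nonempty {x : G // orderOf x = 2} := ⟨⟨x, hx⟩⟩
    exact Nat.card_pos
  by_contra hcon
  push Not at hcon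
  -- S := nonprincipal real irreducibles
  let S : Finset (IrrCharacter G) := Finset.univ.filter fun χ =>
    (χ : G → ℂ) ≠ (fun _ => 1) ∧ ∀ g : G, ((χ : G → ℂ) g).im = 0
  have hS : ∀ χ ∈ S, ((Nat.card G : ℚ) - 1) / t < (charDegree (χ : G → ℂ) : ℚ) := by
    intro χ hχ
    have h := Finset.mem_filter.mp hχ
    exact hcon χ h.2.1 h.2.2
  -- the counting identity
  have h1 := sum_fsInd_mul (G := G) 1
  have hsq : sqrtCount (1 : G) = ((t + 1 : ℕ) : ℂ) := by
    unfold sqrtCount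
    rw [← ic_card_sq_one t ht, Nat.card_eq_fintype_card, Fintype.card_subtype, Finset.sum_boole]
  rw [hsq] at h1
  -- nonprincipal part
  let one : IrrCharacter G := ⟨fun _ => 1, isIrrCharacter_one⟩
  have hone : fsInd one.1 * one.1 1 = 1 := by
    have h2 : fsInd (fun _ : G => (1:ℂ)) = 1 := by
      unfold fsInd
      have hne : (Nat.card G : ℂ) ≠ 0 := by exact_mod_cast Nat.card_pos.ne'
      simp only [Finset.sum_const, Finset.card_univ, nsmul_eq_mul, mul_one]
      rw [← Nat.card_eq_fintype_card]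
      exact inv_mul_cancel₀ hne
    show fsInd (fun _ : G => (1:ℂ)) * 1 = 1
    rw [h2, one_mul]
  rw [← Finset.add_sum_erase _ _ (Finset.mem_univ one), hone] at h1
  have hdeg : ∀ χ : IrrCharacter G, χ.1 1 = (charDegree χ.1 : ℂ) := fun χ =>
    one_eq_charDegree (isCharacter_of_irr χ.2)
  have hbd : ∀ χ ∈ (Finset.univ : Finset (IrrCharacter G)).erase one,
      (fsInd χ.1 * χ.1 1).re ≤ if χ ∈ S then (charDegree χ.1 : ℝ) else 0 := by
    intro χ hχ
    have hne : χ ≠ one := (Finset.mem_erase.mp hχ).1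
    have hne' : (χ : G → ℂ) ≠ fun _ => 1 := fun h => hne (Subtype.ext h)
    by_cases hr : ∀ g, conj (χ.1 g) = χ.1 g
    · have hmem : χ ∈ S := by
        refine Finset.mem_filter.mpr ⟨Finset.mem_univ _, hne', fun g => ?_⟩
        exact Complex.conj_eq_iff_im.mp (hr g)
      rw [if_pos hmem, hdeg]
      rcases fsInd_of_real χ hr with h | h <;> rw [h] <;> simp
    · have hz := fsInd_of_not_real χ hr
      have hnm : χ ∉ S := by
        intro hm
        apply hr
        intro g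
        exact Complex.conj_eq_iff_im.mpr ((Finset.mem_filter.mp hm).2.2 g)
      rw [if_neg hnm, hz]
      simp
  have h2 : (t:ℝ) ≤ ∑ χ ∈ S, (charDegree χ.1 : ℝ) := by
    have h3 := congrArg Complex.re h1
    rw [Complex.add_re, Complex.re_sum, Complex.one_re] at h3
    have h4 : ((t + 1 : ℕ) : ℂ).re = (t:ℝ) + 1 := by
      push_cast
      simp
    rw [h4] at h3
    have h5 := Finset.sum_le_sum hbd
    have h6 : ∑ χ ∈ (Finset.univ : Finset (IrrCharacter G)).erase one,
        (if χ ∈ S then (charDegree χ.1 : ℝ) else 0) = ∑ χ ∈ S, (charDegree χ.1 : ℝ) := by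
      rw [Finset.sum_ite_mem]
      apply Finset.sum_congr _ fun _ _ => rfl
      ext χ
      simp only [Finset.mem_inter, Finset.mem_erase, Finset.mem_univ, and_true]
      constructor
      · exact fun h => h.2
      · intro h
        refine ⟨?_, h⟩
        intro he
        apply (Finset.mem_filter.mp h).2.1
        rw [he]
    rw [h6] at h5
    linarith
  have hSne : S.Nonempty := by
    by_contra hemp
    rw [Finset.not_nonempty_iff_eq_empty] at hemp
    rw [hemp, Finset.sum_empty] at h2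
    have : (0:ℝ) < t := by exact_mod_cast ht0
    linarith
  have hsq2 : ∑ χ ∈ S, ((charDegree χ.1 : ℝ)) ^ 2 ≤ (Nat.card G : ℝ) - 1 := by
    have h3 := sum_degree_sq (G := G)
    rw [← Finset.add_sum_erase _ _ (Finset.mem_univ one)] at h3
    have h4 : charDegree one.1 = 1 := by
      have := hdeg one
      have h5 : (charDegree one.1 : ℂ) = 1 := by rw [← this]
      exact_mod_cast h5
    rw [h4] at h3
    have h6 : S ⊆ (Finset.univ : Finset (IrrCharacter G)).erase one := by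
      intro χ hχ
      refine Finset.mem_erase.mpr ⟨?_, Finset.mem_univ _⟩
      intro he
      apply (Finset.mem_filter.mp hχ).2.1
      rw [he]
    have h7 : ∑ χ ∈ S, (charDegree χ.1) ^ 2 ≤
        ∑ χ ∈ (Finset.univ : Finset (IrrCharacter G)).erase one, (charDegree χ.1) ^ 2 :=
      Finset.sum_le_sum_of_subset h6
    have h8 : ((∑ χ ∈ S, (charDegree χ.1) ^ 2 : ℕ) : ℝ) + 1 ≤ (Nat.card G : ℝ) := by
      have : ∑ χ ∈ S, (charDegree χ.1) ^ 2 + 1 ≤ Nat.card G := by
        rw [← h3]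
        simp only [one_pow]
        omega
      exact_mod_cast this
    push_cast at h8
    linarith
  set α : ℝ := ((Nat.card G : ℝ) - 1) / t with hα
  have htr : (0:ℝ) < t := by exact_mod_cast ht0
  have hαt : α * t = (Nat.card G : ℝ) - 1 := by
    rw [hα]; field_simp
  have hαpos : 0 < α := by
    rw [hα]
    apply div_pos _ htr
    have : (2:ℝ) ≤ (Nat.card G : ℝ) := by exact_mod_cast hg
    linarith
  have hlt : ∀ χ ∈ S, α * (charDegree χ.1 : ℝ) < (charDegree χ.1 : ℝ) ^ 2 := by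
    intro χ hχ
    have h3 := hS χ hχ
    have h4 : α < (charDegree χ.1 : ℝ) := by
      rw [hα]
      have : ((((Nat.card G : ℚ) - 1) / t : ℚ) : ℝ) < ((charDegree χ.1 : ℚ) : ℝ) := by
        exact_mod_cast h3
      push_cast at this
      exact this
    have h5 : 0 < (charDegree χ.1 : ℝ) := lt_trans hαpos h4
    nlinarith
  have h3 := Finset.sum_lt_sum_of_nonempty hSne hlt
  rw [← Finset.mul_sum] at h3
  have h4 : α * t ≤ α * ∑ χ ∈ S, (charDegree χ.1 : ℝ) :=
    mul_le_mul_of_nonneg_left h2 hαpos.le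
  linarith

end

end Cfsg.Agent.H23
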