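import Cfsg.Agent.Lib.H23.FS
import Cfsg.Agent.Lib.H23.InvCount
import Cfsg.Agent.Lib.H22.DefectZero

set_option autoImplicit false
set_option linter.style.haveILetI false

namespace Cfsg.Agent.H23

open Cfsg Cfsg.Agent Cfsg.Agent.H21
open scoped ComplexConjugate

section
variable {G : Type*} [Group G] [Fintype G]

theorem ic_not_dvd_div {p d g : ℕ} (hp : p.Prime) (hg : g ≠ 0) (hd : p ^ g.factorization p ∣ d)
    (hdg : d ∣ g) : ¬ p ∣ g / d := by
  intro h
  obtain ⟨e, rfl⟩ := hdg
  have hd0 : d ≠ 0 := left_ne_zero_of_mul hg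
  rw [Nat.mul_div_cancel_left _ (Nat.pos_of_ne_zero hd0)] at h
  exact Nat.pow_succ_factorization_not_dvd hg hp
    (by rw [pow_succ]; exact Nat.mul_dvd_mul hd h)

/-- Square roots of odd order. -/
theorem ic_sqrt_eq {u y : G} (h : u * u = y) (hu : Odd (orderOf u)) (hy : Odd (orderOf y)) :
    u = y ^ ((orderOf y + 1) / 2) := by
  obtain ⟨a, ha⟩ := hu
  obtain ⟨b, hb⟩ := hy
  have h1 : u ^ orderOf u = 1 := pow_orderOf_eq_one u
  have hu2 : u ^ 2 = y := by rw [sq, h]
  have e1 : u = y ^ (a + 1) := by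
    rw [← hu2, ← pow_mul]
    have : 2 * (a + 1) = orderOf u + 1 := by omega
    rw [this, pow_succ, h1, one_mul]
  have h2 : u ^ orderOf y = 1 := by
    rw [e1, ← pow_mul, mul_comm, pow_mul, pow_orderOf_eq_one, one_pow]
  have e2 : (orderOf y + 1) / 2 = b + 1 := by omega
  rw [e2, ← hu2, ← pow_mul]
  have : 2 * (b + 1) = orderOf y + 1 := by omega
  rw [this, pow_succ, h2, one_mul]

/-- Uniqueness of square roots away from mixed primes. -/
theorem ic_sqrtCount_eq_one {y : G} (hy1 : y ≠ 1) (h2 : ¬ 2 ∣ orderOf y)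
    (hπ : ∀ p : ℕ, p.Prime → p ≠ 2 → (∃ g : G, orderOf g = 2 * p) → ¬ p ∣ orderOf y) :
    sqrtCount y = 1 := by
  classical
  have hyodd : Odd (orderOf y) := Nat.odd_iff.mpr (by omega)
  have hodd : ∀ u : G, u * u = y → Odd (orderOf u) := by
    intro u hu
    by_contra hne
    rw [Nat.not_odd_iff_even] at hne
    obtain ⟨k, hk⟩ := hne.two_dvd
    have hm0 : orderOf u ≠ 0 := (orderOf_pos u).ne'
    have hk0 : k ≠ 0 := by rintro rfl; omega
    have hoy : orderOf y = k := by
      rw [← hu, ← sq, orderOf_pow_of_dvd (by norm_num) hne.two_dvd, hk]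
      simp
    have hk1 : k ≠ 1 := by
      intro h1
      rw [h1] at hoy
      exact hy1 (orderOf_eq_one_iff.mp hoy)
    have hp := Nat.minFac_prime hk1
    set p := k.minFac with hpdef
    have hpk : p ∣ k := Nat.minFac_dvd k
    have hp2 : p ≠ 2 := by
      intro h
      apply h2
      rw [hoy, ← h]
      exact hpk
    apply hπ p hp hp2 _ (by rw [hoy]; exact hpk)
    refine ⟨u ^ (k / p), ?_⟩
    have hd : k / p ∣ orderOf u := by
      rw [hk]
      exact Dvd.dvd.mul_left (Nat.div_dvd_of_dvd hpk) 2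
    have h0 : k / p ≠ 0 := by
      have := Nat.div_pos (Nat.le_of_dvd (Nat.pos_of_ne_zero hk0) hpk) hp.pos
      omega
    rw [orderOf_pow_of_dvd h0 hd, hk]
    obtain ⟨c, hc⟩ := hpk
    have hc0 : c ≠ 0 := by rintro rfl; simp at hc; exact hk0 hc
    rw [hc, Nat.mul_div_cancel_left _ hp.pos]
    rw [Nat.mul_comm p c, ← Nat.mul_assoc, Nat.mul_comm 2 c, Nat.mul_assoc,
      Nat.mul_div_cancel_left _ (Nat.pos_of_ne_zero hc0)]
  have hiff : ∀ u : G, u * u = y ↔ u = y ^ ((orderOf y + 1) / 2) := by
    intro u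
    constructor
    · intro hu
      exact ic_sqrt_eq hu (hodd u hu) hyodd
    · rintro rfl
      obtain ⟨b, hb⟩ := hyodd
      have e2 : (orderOf y + 1) / 2 = b + 1 := by omega
      rw [e2, ← pow_add]
      have : b + 1 + (b + 1) = orderOf y + 1 := by omega
      rw [this, pow_succ, pow_orderOf_eq_one, one_mul]
  unfold sqrtCount
  simp only [hiff]
  simp

theorem ic_sum_sqrt (f : G → ℂ) : ∑ u : G, f (u * u) = ∑ y : G, sqrtCount y * f y := by
  classical
  simp only [sqrtCount, Finset.sum_mul]
  rw [Finset.sum_comm]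
  refine Finset.sum_congr rfl fun u _ => ?_
  simp [ite_mul]

variable [Fintype (IrrCharacter G)]

theorem ic_defect_main (heven : Even (Nat.card G)) (χ : IrrCharacter G)
    (h2 : 2 ^ (Nat.card G).factorization 2 ∣ charDegree (χ : G → ℂ))
    (hp : ∀ p : ℕ, p.Prime → p ≠ 2 → (∃ g : G, orderOf g = 2 * p) →
      p ^ (Nat.card G).factorization p ∣ charDegree (χ : G → ℂ)) :
    (∀ s t : G, orderOf s = 2 → orderOf t = 2 → IsConj s t) ∧
    (∀ s : G, orderOf s = 2 → Nat.card (Subgroup.centralizer ({s} : Set G)) = charDegree (χ : G → ℂ) ∧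
      (Nat.card (Subgroup.centralizer ({s} : Set G))).Coprime (Subgroup.centralizer ({s} : Set G)).index) ∧
    (Nat.card G : ℂ)⁻¹ * ∑ g : G, (χ : G → ℂ) (g * g) = 1 := by
  classical
  set d := charDegree (χ : G → ℂ) with hd
  have hg0 : Nat.card G ≠ 0 := Nat.card_pos.ne'
  have hd1 : (χ : G → ℂ) 1 = (d : ℂ) := one_eq_charDegree (isCharacter_of_irr χ.2)
  have hdvd : d ∣ Nat.card G := H22.charDegree_dvd_card χ
  have hd0 : d ≠ 0 := by
    intro h
    rw [h] at hdvd
    exact hg0 (Nat.eq_zero_of_zero_dvd hdvd)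
  have hG2 : 2 ∣ Nat.card G := heven.two_dvd
  -- vanishing
  have hvan : ∀ p : ℕ, p.Prime → (p = 2 ∨ ∃ g : G, orderOf g = 2 * p) → ∀ y : G, p ∣ orderOf y →
      (χ : G → ℂ) y = 0 := by
    intro p hpp hc y hy
    haveI : Fact p.Prime := ⟨hpp⟩
    obtain ⟨M, hM⟩ := exists_pModular hpp
    haveI : M.IsPrime := hM.2.1.isPrime
    refine H22.irr_eq_zero_of_defect_zero hM χ ?_ hy
    refine ic_not_dvd_div hpp hg0 ?_ hdvd
    rcases hc with rfl | hc
    · exact h2
    · by_cases hp2 : p = 2
      · subst hp2; exact h2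
      · exact hp p hpp hp2 hc
  -- involutions
  set t := Nat.card {x : G // orderOf x = 2} with ht
  have ht0 : 0 < t := by
    haveI : Fact (Nat.Prime 2) := ⟨Nat.prime_two⟩
    obtain ⟨x, hx⟩ := exists_prime_orderOf_dvd_card' 2 hG2
    haveI : Nonempty {x : G // orderOf x = 2} := ⟨⟨x, hx⟩⟩
    exact Nat.card_pos
  have hne1 : (χ : G → ℂ) ≠ fun _ => 1 := by
    intro h
    have h3 : (2:ℕ) ∣ d := by
      refine Dvd.dvd.trans ?_ h2
      apply dvd_pow_self
      have := (Nat.Prime.dvd_iff_one_le_factorization Nat.prime_two hg0).mp hG2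
      omega
    have h4 : (d : ℂ) = 1 := by rw [← hd1, h]
    have h5 : d = 1 := by exact_mod_cast h4
    omega
  -- sum over group vanishes
  have hsum0 : ∑ y : G, (χ : G → ℂ) y = 0 := by
    have h3 := classInner_irr χ (⟨fun _ => 1, isIrrCharacter_one⟩ : IrrCharacter G)
    rw [if_neg (fun h => hne1 (congrArg Subtype.val h))] at h3
    have h4 : (Nat.card G : ℂ) ≠ 0 := by exact_mod_cast hg0
    simp only [classInner, map_one, mul_one] at h3
    rcases mul_eq_zero.mp h3 with h5 | h5
    · exact absurd h5 (inv_ne_zero h4)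
    · exact h5
  -- the main count
  have hsq : sqrtCount (1 : G) = ((t + 1 : ℕ) : ℂ) := by
    unfold sqrtCount
    rw [← ic_card_sq_one t rfl, Nat.card_eq_fintype_card, Fintype.card_subtype, Finset.sum_boole]
  have hmain : ∑ u : G, (χ : G → ℂ) (u * u) = (t : ℂ) * d := by
    rw [ic_sum_sqrt, ← Finset.add_sum_erase _ _ (Finset.mem_univ (1:G)), hsq, hd1]
    have h3 : ∀ y ∈ (Finset.univ : Finset G).erase 1,
        sqrtCount y * (χ : G → ℂ) y = (χ : G → ℂ) y := by
      intro y hy
      have hy1 : y ≠ 1 := (Finset.mem_erase.mp hy).1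
      by_cases hz : (χ : G → ℂ) y = 0
      · rw [hz, mul_zero]
      · rw [ic_sqrtCount_eq_one hy1 (fun h => hz (hvan 2 Nat.prime_two (Or.inl rfl) y h))
          (fun p hpp _ hex h => hz (hvan p hpp (Or.inr hex) y h)), one_mul]
    rw [Finset.sum_congr rfl h3]
    have h4 := hsum0
    rw [← Finset.add_sum_erase _ _ (Finset.mem_univ (1:G)), hd1] at h4
    push_cast
    linear_combination h4
  have hfs : fsInd (χ : G → ℂ) = (Nat.card G : ℂ)⁻¹ * ((t : ℂ) * d) := by
    unfold fsInd
    rw [hmain]
  have hgc : (Nat.card G : ℂ) ≠ 0 := by exact_mod_cast hg0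
  have hfsne : fsInd (χ : G → ℂ) ≠ 0 := by
    rw [hfs]
    have h3 : (t : ℂ) ≠ 0 := by exact_mod_cast ht0.ne'
    have h4 : (d : ℂ) ≠ 0 := by exact_mod_cast hd0
    exact mul_ne_zero (inv_ne_zero hgc) (mul_ne_zero h3 h4)
  have hone : fsInd (χ : G → ℂ) = 1 := by
    rcases fsInd_of_real χ (real_of_fsInd_ne_zero χ hfsne) with h | h
    · exact h
    · exfalso
      rw [hfs] at h
      have h3 : (t : ℂ) * d = - (Nat.card G : ℂ) := by
        field_simp at h
        linear_combination h
      have h4 := congrArg Complex.re h3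
      simp only [Complex.mul_re, Complex.natCast_re, Complex.natCast_im, mul_zero, sub_zero,
        Complex.neg_re] at h4
      have h5 : (0:ℝ) < Nat.card G := by exact_mod_cast Nat.pos_of_ne_zero hg0
      have h6 : (0:ℝ) ≤ (t:ℝ) * d := by positivity
      linarith
  have hcard : t * d = Nat.card G := by
    rw [hfs] at hone
    have h3 : (t : ℂ) * d = (Nat.card G : ℂ) := by
      field_simp at hone
      linear_combination hone
    exact_mod_cast h3
  -- structure of the centralizer
  have hprime : ∀ s : G, orderOf s = 2 → ∀ p : ℕ, p.Prime →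
      p ∣ Nat.card (Subgroup.centralizer ({s} : Set G)) →
      p ^ (Nat.card G).factorization p ∣ d := by
    intro s hs p hpp hdv
    by_cases hp2 : p = 2
    · subst hp2; exact h2
    · apply hp p hpp hp2
      haveI : Fact p.Prime := ⟨hpp⟩
      obtain ⟨c, hc⟩ := exists_prime_orderOf_dvd_card' p hdv
      refine ⟨s * (c : G), ?_⟩
      have hcm : Commute s (c : G) := by
        have := Subgroup.mem_centralizer_singleton_iff.mp c.2
        exact this.symm
      have hcord : orderOf (c : G) = p := by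
        rw [← hc]
        exact Subgroup.orderOf_coe c
      rw [hcm.orderOf_mul_eq_mul_orderOf_of_coprime, hs, hcord]
      rw [hs, hcord]
      exact (Nat.coprime_primes Nat.prime_two hpp).mpr (Ne.symm hp2)
  have hcdvd : ∀ s : G, orderOf s = 2 → Nat.card (Subgroup.centralizer ({s} : Set G)) ∣ d := by
    intro s hs
    have hc0 : Nat.card (Subgroup.centralizer ({s} : Set G)) ≠ 0 := Nat.card_pos.ne'
    rw [← Nat.factorization_prime_le_iff_dvd hc0 hd0]
    intro p hpp
    by_cases hdv : p ∣ Nat.card (Subgroup.centralizer ({s} : Set G))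
    · have h3 := hprime s hs p hpp hdv
      have h4 := (Nat.Prime.pow_dvd_iff_le_factorization hpp hd0).mp h3
      refine le_trans ?_ h4
      exact (Nat.factorization_le_iff_dvd hc0 hg0).mpr (Subgroup.card_subgroup_dvd_card _) p
    · rw [Nat.factorization_eq_zero_of_not_dvd hdv]
      exact Nat.zero_le _
  -- cosets inject into involutions
  have hkey : ∀ s : G, orderOf s = 2 →
      Nat.card (Subgroup.centralizer ({s} : Set G)) = d ∧
      (Subgroup.centralizer ({s} : Set G)).index = t ∧
      ∀ x : G, orderOf x = 2 → IsConj s x := by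
    intro s hs
    let C := Subgroup.centralizer ({s} : Set G)
    have hord : ∀ h : G, orderOf (h * s * h⁻¹) = 2 := by
      intro h
      rw [← hs]
      have := orderOf_injective (MulAut.conj h).toMonoidHom (MulAut.conj h).injective s
      simpa using this
    let F : G ⧸ C → {x : G // orderOf x = 2} := fun q =>
      Quotient.liftOn' q (fun h => (⟨h * s * h⁻¹, hord h⟩ : {x : G // orderOf x = 2})) (by
        intro a b hab
        apply Subtype.ext
        have h3 : a⁻¹ * b ∈ C := QuotientGroup.leftRel_apply.mp hab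
        have h4 := Subgroup.mem_centralizer_singleton_iff.mp h3
        show a * s * a⁻¹ = b * s * b⁻¹
        have h5 : a⁻¹ * b * s = s * (a⁻¹ * b) := h4
        calc a * s * a⁻¹ = a * (s * (a⁻¹ * b)) * (a⁻¹ * b)⁻¹ * a⁻¹ := by group
          _ = a * (a⁻¹ * b * s) * (a⁻¹ * b)⁻¹ * a⁻¹ := by rw [h5]
          _ = b * s * b⁻¹ := by group)
    have hFinj : Function.Injective F := by
      intro q1 q2
      refine QuotientGroup.induction_on q1 fun a => ?_
      refine QuotientGroup.induction_on q2 fun b => ?_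
      intro h
      have h3 : a * s * a⁻¹ = b * s * b⁻¹ := congrArg Subtype.val h
      apply QuotientGroup.eq.mpr
      show a⁻¹ * b ∈ C
      apply Subgroup.mem_centralizer_singleton_iff.mpr
      calc a⁻¹ * b * s = a⁻¹ * (b * s * b⁻¹) * b := by group
        _ = a⁻¹ * (a * s * a⁻¹) * b := by rw [h3]
        _ = s * (a⁻¹ * b) := by group
    have hidx : C.index ≤ t := by
      have := Nat.card_le_card_of_injective F hFinj
      exact this
    have hmul : Nat.card C * C.index = t * d := by
      rw [hcard]; exact Subgroup.card_mul_index C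
    have hCd : Nat.card C ≤ d := Nat.le_of_dvd (Nat.pos_of_ne_zero hd0) (hcdvd s hs)
    have hCpos : 0 < Nat.card C := Nat.card_pos
    have hidx' : C.index = t := by
      by_contra hne
      have hlt : C.index < t := lt_of_le_of_ne hidx hne
      have h3 : Nat.card C * C.index < d * t :=
        lt_of_le_of_lt (Nat.mul_le_mul_right _ hCd) (Nat.mul_lt_mul_of_pos_left hlt (Nat.pos_of_ne_zero hd0))
      rw [hmul, mul_comm] at h3
      exact lt_irrefl _ h3
    refine ⟨?_, hidx', ?_⟩
    · rw [hidx', mul_comm] at hmul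
      exact Nat.eq_of_mul_eq_mul_left ht0 hmul
    · intro x hx
      have hsurj : Function.Surjective F := by
        have h3 : Function.Bijective F := by
          apply (Function.Injective.bijective_of_nat_card_le hFinj)
          show t ≤ Nat.card (G ⧸ C)
          rw [← hidx']; rfl
        exact h3.2
      obtain ⟨q, hq⟩ := hsurj ⟨x, hx⟩
      revert hq
      refine QuotientGroup.induction_on q fun a => ?_
      intro hq
      have h3 : a * s * a⁻¹ = x := congrArg Subtype.val hq
      exact isConj_iff.mpr ⟨a, h3⟩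
  refine ⟨fun s x hs hx => (hkey s hs).2.2 x hx, fun s hs => ⟨(hkey s hs).1, ?_⟩, hone⟩
  -- coprimality
  apply Nat.coprime_of_dvd
  intro p hpp hp1 hp2
  have h3 := hprime s hs p hpp hp1
  rw [← (hkey s hs).1] at h3
  have h4 : p ^ ((Nat.card G).factorization p + 1) ∣ Nat.card G := by
    have h5 := Nat.mul_dvd_mul h3 hp2
    rw [Subgroup.card_mul_index] at h5
    rw [pow_succ]
    exact h5
  exact Nat.pow_succ_factorization_not_dvd hg0 hpp h4

end

end Cfsg.Agent.H23
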