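import Cfsg.Agent.Lib.H23.Ito2
import Mathlib.GroupTheory.GroupAction.CardCommute

/-!
# Counting commuting pairs in `V ⋊ G`
-/

set_option autoImplicit false
set_option linter.unusedSectionVars false
set_option linter.style.haveILetI false
set_option linter.unusedSimpArgs false

namespace Cfsg.Agent.H23

open Cfsg Cfsg.Agent.H21 Module

universe u

section Count

variable {A : Type*} [CommGroup A] [Finite A]

/-- Telescoping norm for `x / a x`. -/
theorem prod_iterate_div (a : A →* A) (y : A) (m : ℕ) :
    ∏ i ∈ Finset.range m, (a^[i]) (y / a y) = y / (a^[m]) y := by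
  induction m with
  | zero => simp
  | succ n ih =>
    rw [Finset.prod_range_succ, ih]
    have h1 : (a^[n]) (y / a y) = (a^[n]) y / (a^[n]) (a y) := by
      have : ∀ k : ℕ, ∀ s t : A, (a^[k]) (s / t) = (a^[k]) s / (a^[k]) t := by
        intro k
        induction k with
        | zero => intro s t; rfl
        | succ k ih =>
          intro s t
          simp only [Function.iterate_succ, Function.comp, map_div, ih]
      exact this n _ _
    rw [h1]
    have h2 : (a^[n]) (a y) = (a^[n + 1]) y := rfl
    rw [h2]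
    simp [div_eq_mul_inv, mul_comm, mul_left_comm, mul_assoc]

/-- The number of solutions of `u * a w = w * b u`, commutative form. -/
theorem card_solutions_comm (a b : A →* A) (hab : ∀ x, a (b x) = b (a x)) (m : ℕ)
    (ham : ∀ x, (a^[m]) x = x) (hm : Nat.Coprime m (Nat.card A)) :
    Nat.card {p : A × A // p.1 * a p.2 = p.2 * b p.1} =
      Nat.card A * Nat.card {c : A // a c = c ∧ b c = c} := by
  classical
  let φ : A →* A := MonoidHom.id A / a
  let ψ : A →* A := MonoidHom.id A / b
  have hφ : ∀ x, φ x = x / a x := fun x => rfl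
  have hψ : ∀ x, ψ x = x / b x := fun x => rfl
  have hφψ : ∀ x, φ (ψ x) = ψ (φ x) := by
    intro x
    simp only [hφ, hψ, map_div, hab]
    simp [div_eq_mul_inv, mul_comm, mul_left_comm, mul_assoc]
  -- disjointness
  have hdisj : Disjoint φ.range φ.ker := by
    rw [Subgroup.disjoint_def]
    rintro x ⟨y, rfl⟩ hx
    rw [MonoidHom.mem_ker] at hx
    have hfix : a (φ y) = φ y := by
      have := hφ (φ y)
      rw [hx] at this
      have h2 : φ y / a (φ y) = 1 := this.symm
      exact (div_eq_one.mp h2).symm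
    have hiter : ∀ i : ℕ, (a^[i]) (φ y) = φ y := by
      intro i
      induction i with
      | zero => rfl
      | succ i ih =>
        rw [Function.iterate_succ_apply, hfix, ih]
    have hprod := prod_iterate_div a y m
    have h3 : ∏ i ∈ Finset.range m, (a^[i]) (y / a y) = (φ y) ^ m := by
      have : ∀ i ∈ Finset.range m, (a^[i]) (y / a y) = φ y := fun i _ => hiter i
      rw [Finset.prod_congr rfl this]
      simp
    rw [h3, ham, div_self'] at hprod
    have h4 : orderOf (φ y) ∣ m := orderOf_dvd_of_pow_eq_one hprod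
    have h5 : orderOf (φ y) ∣ Nat.card A := orderOf_dvd_natCard _
    have h6 : orderOf (φ y) = 1 := Nat.eq_one_of_dvd_coprimes hm h4 h5
    exact orderOf_eq_one_iff.mp h6
  have hcard : Nat.card φ.range * Nat.card φ.ker = Nat.card A := by
    rw [← Subgroup.index_ker φ]
    exact Subgroup.index_mul_card _
  have hcompl := Subgroup.isComplement'_of_card_mul_and_disjoint hcard hdisj
  -- the subgroup T
  let C : Subgroup A := φ.ker ⊓ ψ.ker
  have hC : Nat.card {c : A // a c = c ∧ b c = c} = Nat.card C := by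
    apply Nat.card_congr
    refine Equiv.subtypeEquivRight fun x => ?_
    show _ ↔ x ∈ φ.ker ∧ x ∈ ψ.ker
    rw [MonoidHom.mem_ker, MonoidHom.mem_ker, hφ, hψ, div_eq_one, div_eq_one, eq_comm,
      eq_comm (a := x) (b := b x)]
  let T : Subgroup A := φ.range.comap ψ
  -- T ≃ range × C
  have hT : Nat.card T = Nat.card φ.range * Nat.card C := by
    rw [← Nat.card_prod]
    symm
    apply Nat.card_congr
    refine Equiv.ofBijective (fun p : φ.range × C => (⟨(p.1 : A) * (p.2 : A), ?_⟩ : T)) ⟨?_, ?_⟩
    · show ψ ((p.1 : A) * (p.2 : A)) ∈ φ.range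
      have hc : ψ (p.2 : A) = 1 := p.2.2.2
      rw [map_mul, hc, mul_one]
      obtain ⟨y, hy⟩ := p.1.2
      exact ⟨ψ y, by rw [hφψ, hy]⟩
    · rintro ⟨r, c⟩ ⟨r', c'⟩ h
      have h1 : (r : A) * (c : A) = (r' : A) * (c' : A) := congrArg Subtype.val h
      have h2 : (r' : A)⁻¹ * (r : A) = (c' : A) * (c : A)⁻¹ := by
        have : (r : A) = (r' : A) * (c' : A) * (c : A)⁻¹ := by
          rw [← h1]; simp
        rw [this, mul_assoc, inv_mul_cancel_left]
      have h3 : (r' : A)⁻¹ * (r : A) ∈ φ.range := φ.range.mul_mem (φ.range.inv_mem r'.2) r.2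
      have h4 : (r' : A)⁻¹ * (r : A) ∈ φ.ker := by
        rw [h2]
        exact φ.ker.mul_mem c'.2.1 (φ.ker.inv_mem c.2.1)
      have h5 := Subgroup.disjoint_def.mp hdisj h3 h4
      have h6 : (r : A) = (r' : A) := by
        rw [inv_mul_eq_one] at h5
        exact h5.symm
      have h7 : (c : A) = (c' : A) := by
        rw [h6] at h1
        exact mul_left_cancel h1
      exact Prod.ext (Subtype.ext h6) (Subtype.ext h7)
    · rintro ⟨t, ht⟩
      obtain ⟨⟨r, k⟩, hrk⟩ := hcompl.2 t
      have hrk' : (r : A) * (k : A) = t := hrk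
      have hk : ψ (k : A) = 1 := by
        have h1 : ψ t ∈ φ.range := ht
        have h2 : ψ (r : A) ∈ φ.range := by
          obtain ⟨y, hy⟩ := r.2
          exact ⟨ψ y, by rw [hφψ, hy]⟩
        have h3 : ψ (k : A) ∈ φ.range := by
          have : ψ (k : A) = (ψ (r : A))⁻¹ * ψ t := by
            rw [← hrk', map_mul]; simp
          rw [this]
          exact φ.range.mul_mem (φ.range.inv_mem h2) h1
        have h4 : ψ (k : A) ∈ φ.ker := by
          rw [MonoidHom.mem_ker, hφψ]
          have : φ (k : A) = 1 := k.2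
          rw [this, map_one]
        exact Subgroup.disjoint_def.mp hdisj h3 h4
      exact ⟨(r, ⟨k, k.2, hk⟩), Subtype.ext hrk'⟩
  -- K ≃ T × ker
  have hw : ∀ t : T, ∃ w : A, φ w = ψ t := fun t => t.2
  choose w hw using hw
  have hK : Nat.card {p : A × A // p.1 * a p.2 = p.2 * b p.1} = Nat.card T * Nat.card φ.ker := by
    have hcond : ∀ u v : A, u * a v = v * b u ↔ φ v = ψ u := by
      intro u v
      rw [hφ, hψ, div_eq_div_iff_mul_eq_mul]
      exact eq_comm
    rw [← Nat.card_prod]
    apply Nat.card_congr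
    refine
      { toFun := fun p => (⟨p.1.1, ?_⟩, ⟨(w ⟨p.1.1, ?_⟩)⁻¹ * p.1.2, ?_⟩)
        invFun := fun q => ⟨((q.1 : A), w q.1 * (q.2 : A)), ?_⟩
        left_inv := ?_
        right_inv := ?_ }
    · exact ⟨p.1.2, ((hcond _ _).mp p.2)⟩
    · exact ⟨p.1.2, ((hcond _ _).mp p.2)⟩
    · rw [MonoidHom.mem_ker, map_mul, map_inv, hw]
      have h3 : φ p.1.2 = ψ p.1.1 := (hcond _ _).mp p.2
      show (ψ p.1.1)⁻¹ * φ p.1.2 = 1
      rw [h3]
      simp
    · rw [hcond, map_mul, hw]
      have : φ (q.2 : A) = 1 := q.2.2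
      rw [this, mul_one]
    · rintro ⟨⟨u, v⟩, h⟩
      apply Subtype.ext
      apply Prod.ext
      · rfl
      · show w _ * ((w _)⁻¹ * v) = v
        simp
    · rintro ⟨⟨t, ht⟩, ⟨k, hk⟩⟩
      apply Prod.ext
      · rfl
      · apply Subtype.ext
        show (w _)⁻¹ * (w _ * k) = k
        simp
  rw [hK, hT, hC, ← hcard]
  ring

end Count

section CountGroup

variable {A : Type*} [Group A] [Finite A]

/-- The number of solutions of `u * a w = w * b u`. -/
theorem card_solutions (hA : ∀ x y : A, x * y = y * x) (a b : A →* A)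
    (hab : ∀ x, a (b x) = b (a x)) (m : ℕ)
    (ham : ∀ x, (a^[m]) x = x) (hm : Nat.Coprime m (Nat.card A)) :
    Nat.card {p : A × A // p.1 * a p.2 = p.2 * b p.1} =
      Nat.card A * Nat.card {c : A // a c = c ∧ b c = c} := by
  letI : CommGroup A := { (inferInstance : Group A) with mul_comm := hA }
  exact card_solutions_comm a b hab m ham hm

end CountGroup

/-- Isomorphic groups have equally many classes. -/
theorem card_conjClasses_congr {A B : Type*} [Group A] [Group B] (e : A ≃* B) :
    Nat.card (ConjClasses A) = Nat.card (ConjClasses B) := by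
  apply Nat.card_congr
  refine ⟨ConjClasses.map e.toMonoidHom, ConjClasses.map e.symm.toMonoidHom, ?_, ?_⟩
  · intro c
    obtain ⟨a, rfl⟩ := ConjClasses.mk_surjective c
    show ConjClasses.mk (e.symm (e a)) = ConjClasses.mk a
    rw [e.symm_apply_apply]
  · intro c
    obtain ⟨a, rfl⟩ := ConjClasses.mk_surjective c
    show ConjClasses.mk (e (e.symm a)) = ConjClasses.mk a
    rw [e.apply_symm_apply]

section Semi

variable {X : Type u} [Group X] [Finite X] (V : Subgroup X) [hN : V.Normal] (G : Subgroup X)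

/-- The conjugation action on a normal subgroup. -/
noncomputable def conjHom (g : X) : V →* V := (MulAut.conjNormal (H := V) g).toMonoidHom

theorem conjHom_coe (g : X) (v : V) : ((conjHom V g v : V) : X) = g * v * g⁻¹ :=
  MulAut.conjNormal_apply g v

theorem conjHom_iterate (g : X) (k : ℕ) (v : V) : ((conjHom V g)^[k]) v = conjHom V (g ^ k) v := by
  induction k generalizing v with
  | zero =>
    apply Subtype.ext
    simp [conjHom_coe]
  | succ k ih =>
    rw [Function.iterate_succ_apply, ih]
    apply Subtype.ext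
    simp only [conjHom_coe, pow_succ]
    group

/-- Commuting elements of `V ⋊ G`, in components. -/
theorem commute_decomp (hGV : Subgroup.IsComplement' V G) (u w : V) (a b : G) :
    Commute ((u : X) * a) ((w : X) * b) ↔
      (a : X) * b = b * a ∧ u * conjHom V a w = w * conjHom V b u := by
  have h1 : ((u : X) * a) * ((w : X) * b) = ((u * conjHom V a w : V) : X) * ((a * b : G) : X) := by
    simp only [Subgroup.coe_mul, conjHom_coe]
    group
  have h2 : ((w : X) * b) * ((u : X) * a) = ((w * conjHom V b u : V) : X) * ((b * a : G) : X) := by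
    simp only [Subgroup.coe_mul, conjHom_coe]
    group
  constructor
  · intro h
    have h3 : ((u * conjHom V a w : V) : X) * ((a * b : G) : X) =
        ((w * conjHom V b u : V) : X) * ((b * a : G) : X) := by
      rw [← h1, ← h2]
      exact h
    have h4 := hGV.1 (a₁ := (u * conjHom V a w, a * b)) (a₂ := (w * conjHom V b u, b * a)) h3
    have h5 := congrArg Prod.fst h4
    have h6 := congrArg Prod.snd h4
    exact ⟨congrArg Subtype.val h6, h5⟩
  · rintro ⟨h3, h4⟩
    show ((u : X) * a) * ((w : X) * b) = ((w : X) * b) * ((u : X) * a)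
    rw [h1, h2, h4]
    congr 1

theorem natCard_subtype_eq_sum {α : Type*} [Fintype α] (P : α → Prop) [DecidablePred P] :
    Nat.card {x // P x} = ∑ x, if P x then 1 else 0 := by
  rw [Nat.card_eq_fintype_card, Fintype.card_subtype, Finset.card_filter]

/-- The count of commuting pairs in `V ⋊ G`. -/
theorem card_conjClasses_semi (hab : ∀ a ∈ V, ∀ b ∈ V, a * b = b * a)
    (hGV : Subgroup.IsComplement' V G) (hcop : (Nat.card V).Coprime (Nat.card G)) :
    Nat.card (ConjClasses X) * Nat.card G =
      ∑ᶠ v : V, Nat.card (ConjClasses ↥(G ⊓ Subgroup.centralizer ({(v : X)} : Set X))) *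
        Nat.card ↥(G ⊓ Subgroup.centralizer ({(v : X)} : Set X)) := by
  classical
  haveI : Fintype X := Fintype.ofFinite _
  haveI : Fintype V := Fintype.ofFinite _
  haveI : Fintype G := Fintype.ofFinite _
  have hVc : ∀ x y : V, x * y = y * x := fun x y => Subtype.ext (hab x x.2 y y.2)
  rw [finsum_eq_sum_of_fintype]
  let e : V × G ≃ X := Equiv.ofBijective (fun p => (p.1 : X) * p.2) hGV
  have hcard : Nat.card X = Nat.card V * Nat.card G := by
    rw [Nat.card_congr e.symm, Nat.card_prod]
  have hVpos : 0 < Nat.card V := Nat.card_pos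
  -- the total count
  have hP : Nat.card {p : X × X // Commute p.1 p.2} = Nat.card (ConjClasses X) * Nat.card X :=
    card_comm_eq_card_conjClasses_mul_card X
  have hsol : ∀ a b : G, (a : X) * b = b * a →
      Nat.card {p : V × V // p.1 * conjHom V a p.2 = p.2 * conjHom V b p.1} =
        Nat.card V * Nat.card {c : V // conjHom V a c = c ∧ conjHom V b c = c} := by
    intro a b hab'
    apply card_solutions hVc (conjHom V a) (conjHom V b) _ (Nat.card G) _ hcop.symm
    · intro x
      apply Subtype.ext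
      simp only [conjHom_coe]
      calc (a : X) * (b * x * (b : X)⁻¹) * (a : X)⁻¹
          = ((a : X) * b) * x * ((a : X) * b)⁻¹ := by group
        _ = ((b : X) * a) * x * ((b : X) * a)⁻¹ := by rw [hab']
        _ = _ := by group
    · intro x
      rw [conjHom_iterate]
      have h1 : (a : X) ^ Nat.card G = 1 := by
        have := pow_card_eq_one' (x := a)
        exact_mod_cast congrArg Subtype.val this
      apply Subtype.ext
      rw [conjHom_coe, h1]
      simp
  -- expansion
  let R := {r : G × G // (r.1 : X) * r.2 = r.2 * r.1}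
  let K : R → Type u := fun r =>
    {p : V × V // p.1 * conjHom V r.1.1 p.2 = p.2 * conjHom V r.1.2 p.1}
  have hsig : ∀ (r r' : R) (s : K r) (s' : K r'), r = r' → s.1 = s'.1 →
      (⟨r, s⟩ : Σ r, K r) = ⟨r', s'⟩ := by
    intro r r' s s' h1 h2
    subst h1
    congr
    exact Subtype.ext h2
  have hexp : Nat.card {p : X × X // Commute p.1 p.2} =
      ∑ a : G, ∑ b : G, if (a : X) * b = b * a then
        Nat.card {p : V × V // p.1 * conjHom V a p.2 = p.2 * conjHom V b p.1} else 0 := by
    have h1 : {p : X × X // Commute p.1 p.2} ≃ Σ r : R, K r :=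
      { toFun := fun p =>
          let q1 := e.symm p.1.1
          let q2 := e.symm p.1.2
          have h : Commute ((q1.1 : X) * q1.2) ((q2.1 : X) * q2.2) := by
            have e1 : (q1.1 : X) * q1.2 = p.1.1 := e.apply_symm_apply p.1.1
            have e2 : (q2.1 : X) * q2.2 = p.1.2 := e.apply_symm_apply p.1.2
            rw [e1, e2]
            exact p.2
          have h' := (commute_decomp V G hGV q1.1 q2.1 q1.2 q2.2).mp h
          ⟨⟨(q1.2, q2.2), h'.1⟩, ⟨(q1.1, q2.1), h'.2⟩⟩
        invFun := fun s =>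
          ⟨(e (s.2.1.1, s.1.1.1), e (s.2.1.2, s.1.1.2)),
            (commute_decomp V G hGV _ _ _ _).mpr ⟨s.1.2, s.2.2⟩⟩
        left_inv := by
          intro p
          apply Subtype.ext
          apply Prod.ext
          · exact e.apply_symm_apply p.1.1
          · exact e.apply_symm_apply p.1.2
        right_inv := by
          rintro ⟨⟨⟨a, b⟩, hr⟩, ⟨⟨u, w⟩, hs⟩⟩
          have e1 : e.symm (e (u, a)) = (u, a) := e.symm_apply_apply _
          have e2 : e.symm (e (w, b)) = (w, b) := e.symm_apply_apply _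
          apply hsig
          · apply Subtype.ext
            show ((e.symm (e (u, a))).2, (e.symm (e (w, b))).2) = (a, b)
            rw [e1, e2]
          · show ((e.symm (e (u, a))).1, (e.symm (e (w, b))).1) = (u, w)
            rw [e1, e2] }
    rw [Nat.card_congr h1, Nat.card_sigma]
    have h2 : ∑ x ∈ (Finset.univ : Finset G) ×ˢ (Finset.univ : Finset G),
        (if (x.1 : X) * x.2 = x.2 * x.1 then
          Nat.card {p : V × V // p.1 * conjHom V x.1 p.2 = p.2 * conjHom V x.2 p.1} else 0) =
        ∑ r : R, Nat.card (K r) := by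
      rw [Finset.univ_product_univ, ← Finset.sum_filter]
      exact Finset.sum_subtype _ (by simp [R]) _
    rw [← h2, Finset.sum_product]
  have hexp2 : ∑ a : G, ∑ b : G, (if (a : X) * b = b * a then
        Nat.card {p : V × V // p.1 * conjHom V a p.2 = p.2 * conjHom V b p.1} else 0) =
      Nat.card V * ∑ v : V, Nat.card {r : G × G // (r.1 : X) * r.2 = r.2 * r.1 ∧
        conjHom V r.1 v = v ∧ conjHom V r.2 v = v} := by
    have h1 : ∀ a b : G, (if (a : X) * b = b * a then
        Nat.card {p : V × V // p.1 * conjHom V a p.2 = p.2 * conjHom V b p.1} else 0) =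
        Nat.card V * ∑ v : V, if ((a : X) * b = b * a ∧ conjHom V a v = v ∧ conjHom V b v = v)
          then 1 else 0 := by
      intro a b
      by_cases h : (a : X) * b = b * a
      · rw [if_pos h, hsol a b h,
          natCard_subtype_eq_sum (fun c : V => conjHom V a c = c ∧ conjHom V b c = c)]
        congr 1
        refine Finset.sum_congr rfl fun v _ => ?_
        simp only [h, true_and]
      · simp [h]
    have h2 : ∀ v : V, Nat.card {r : G × G // (r.1 : X) * r.2 = r.2 * r.1 ∧
        conjHom V r.1 v = v ∧ conjHom V r.2 v = v} = ∑ a : G, ∑ b : G,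
          if ((a : X) * b = b * a ∧ conjHom V a v = v ∧ conjHom V b v = v) then 1 else 0 := by
      intro v
      rw [natCard_subtype_eq_sum (fun r : G × G => (r.1 : X) * r.2 = r.2 * r.1 ∧
        conjHom V r.1 v = v ∧ conjHom V r.2 v = v), Fintype.sum_prod_type]
    simp only [h1, h2, ← Finset.mul_sum]
    congr 1
    calc _ = ∑ a : G, ∑ v : V, ∑ b : G,
          (if ((a : X) * b = b * a ∧ conjHom V a v = v ∧ conjHom V b v = v) then 1 else 0) :=
          Finset.sum_congr rfl fun a _ => Finset.sum_comm
      _ = _ := Finset.sum_comm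
  have hC : ∀ v : V, Nat.card {r : G × G // (r.1 : X) * r.2 = r.2 * r.1 ∧
        conjHom V r.1 v = v ∧ conjHom V r.2 v = v} =
      Nat.card (ConjClasses ↥(G ⊓ Subgroup.centralizer ({(v : X)} : Set X))) *
        Nat.card ↥(G ⊓ Subgroup.centralizer ({(v : X)} : Set X)) := by
    intro v
    rw [← card_comm_eq_card_conjClasses_mul_card]
    have hmem : ∀ g : G, conjHom V g v = v ↔
        (g : X) ∈ Subgroup.centralizer ({(v : X)} : Set X) := by
      intro g
      rw [Subgroup.mem_centralizer_singleton_iff, Subtype.ext_iff, conjHom_coe, mul_inv_eq_iff_eq_mul]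
    apply Nat.card_congr
    exact
      { toFun := fun r => ⟨(⟨r.1.1, r.1.1.2, (hmem _).mp r.2.2.1⟩,
            ⟨r.1.2, r.1.2.2, (hmem _).mp r.2.2.2⟩), Subtype.ext r.2.1⟩
        invFun := fun q => ⟨(⟨q.1.1, q.1.1.2.1⟩, ⟨q.1.2, q.1.2.2.1⟩),
            congrArg Subtype.val q.2, (hmem _).mpr q.1.1.2.2, (hmem _).mpr q.1.2.2.2⟩
        left_inv := fun r => rfl
        right_inv := fun q => rfl }
  rw [hexp, hexp2, hcard] at hP
  simp only [hC] at hP
  have h3 : Nat.card V * ∑ v : V, Nat.card (ConjClasses ↥(G ⊓ Subgroup.centralizer ({(v : X)} : Set X))) *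
        Nat.card ↥(G ⊓ Subgroup.centralizer ({(v : X)} : Set X)) =
      Nat.card V * (Nat.card (ConjClasses X) * Nat.card G) := by
    rw [hP]; ring
  exact (Nat.eq_of_mul_eq_mul_left hVpos h3).symm

/-- Conjugation identifies stabilizers. -/
noncomputable def stabEquiv {g : X} (hg : g ∈ G) (v : X) :
    ↥(G ⊓ Subgroup.centralizer ({v} : Set X)) ≃*
      ↥(G ⊓ Subgroup.centralizer ({g * v * g⁻¹} : Set X)) where
  toFun c := ⟨g * c * g⁻¹, G.mul_mem (G.mul_mem hg c.2.1) (G.inv_mem hg), by
    have h1 : (c : X) * v = v * c := Subgroup.mem_centralizer_singleton_iff.mp c.2.2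
    refine Subgroup.mem_centralizer_singleton_iff.mpr ?_
    calc g * c * g⁻¹ * (g * v * g⁻¹) = g * (c * v) * g⁻¹ := by group
      _ = g * (v * c) * g⁻¹ := by rw [h1]
      _ = _ := by group⟩
  invFun c := ⟨g⁻¹ * c * g, G.mul_mem (G.mul_mem (G.inv_mem hg) c.2.1) hg, by
    have h1 : (c : X) * (g * v * g⁻¹) = (g * v * g⁻¹) * c :=
      Subgroup.mem_centralizer_singleton_iff.mp c.2.2
    refine Subgroup.mem_centralizer_singleton_iff.mpr ?_
    calc g⁻¹ * c * g * v = g⁻¹ * ((c : X) * (g * v * g⁻¹)) * g := by group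
      _ = g⁻¹ * ((g * v * g⁻¹) * c) * g := by rw [h1]
      _ = _ := by group⟩
  left_inv c := by
    apply Subtype.ext
    show g⁻¹ * (g * c * g⁻¹) * g = c
    group
  right_inv c := by
    apply Subtype.ext
    show g * (g⁻¹ * c * g) * g⁻¹ = c
    group
  map_mul' a b := by
    apply Subtype.ext
    show g * (a * b) * g⁻¹ = (g * a * g⁻¹) * (g * b * g⁻¹)
    group

/-- The number of elements of `G` carrying `v` to `g₀ v g₀⁻¹` is the order of the stabilizer. -/
theorem card_transporter {g₀ : X} (hg : g₀ ∈ G) (v : X) :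
    Nat.card {g : G // (g : X) * v * (g : X)⁻¹ = g₀ * v * g₀⁻¹} =
      Nat.card ↥(G ⊓ Subgroup.centralizer ({v} : Set X)) := by
  apply Nat.card_congr
  exact
    { toFun := fun g => ⟨g₀⁻¹ * g.1, G.mul_mem (G.inv_mem hg) g.1.2, by
        have h1 : (g.1 : X) * v * (g.1 : X)⁻¹ = g₀ * v * g₀⁻¹ := g.2
        refine Subgroup.mem_centralizer_singleton_iff.mpr ?_
        calc g₀⁻¹ * g.1 * v = g₀⁻¹ * ((g.1 : X) * v * (g.1 : X)⁻¹) * g.1 := by group
          _ = g₀⁻¹ * (g₀ * v * g₀⁻¹) * g.1 := by rw [h1]
          _ = _ := by group⟩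
      invFun := fun c => ⟨⟨g₀ * c, G.mul_mem hg c.2.1⟩, by
        have h1 : (c : X) * v = v * c := Subgroup.mem_centralizer_singleton_iff.mp c.2.2
        show (g₀ * c) * v * (g₀ * c)⁻¹ = g₀ * v * g₀⁻¹
        calc (g₀ * c) * v * (g₀ * c)⁻¹ = g₀ * ((c : X) * v) * (c : X)⁻¹ * g₀⁻¹ := by group
          _ = g₀ * (v * c) * (c : X)⁻¹ * g₀⁻¹ := by rw [h1]
          _ = _ := by group⟩
      left_inv := fun g => by
        apply Subtype.ext
        apply Subtype.ext
        show g₀ * (g₀⁻¹ * g.1) = g.1
        group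
      right_inv := fun c => by
        apply Subtype.ext
        show g₀⁻¹ * (g₀ * c) = c
        group }

end Semi

end Cfsg.Agent.H23
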