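import Cfsg.Agent.Lib.H21.GaloisProd
import Cfsg.Agent.Lib.H06.CharGalois

/-!
# Natural combinations of roots of unity: a counting lemma

If `L i` (`i ∈ I`) are nonzero natural combinations of powers of a primitive `N`-th root of unity
and `∑ ‖L i‖² = n` is a natural number then `#I ≤ n`.
-/

set_option autoImplicit false
set_option linter.unusedSectionVars false
set_option linter.style.haveILetI false
set_option linter.unusedSimpArgs false

namespace Cfsg.Agent.H23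

open scoped ComplexConjugate

/-- `x` is a natural combination of powers of `ζ`. -/
def RootSum (ζ x : ℂ) : Prop := ∃ (K : Type) (_ : Fintype K) (e : K → ℕ), x = ∑ k, ζ ^ e k

theorem RootSum.zero (ζ : ℂ) : RootSum ζ 0 :=
  ⟨Empty, inferInstance, fun x => x.elim, by simp⟩

theorem RootSum.pow (ζ : ℂ) (a : ℕ) : RootSum ζ (ζ ^ a) :=
  ⟨PUnit, inferInstance, fun _ => a, by simp⟩

theorem RootSum.one (ζ : ℂ) : RootSum ζ 1 := by
  simpa using RootSum.pow ζ 0

theorem RootSum.add {ζ x y : ℂ} (hx : RootSum ζ x) (hy : RootSum ζ y) : RootSum ζ (x + y) := by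
  obtain ⟨K, _, e, rfl⟩ := hx
  obtain ⟨K', _, e', rfl⟩ := hy
  refine ⟨K ⊕ K', inferInstance, Sum.elim e e', ?_⟩
  rw [Fintype.sum_sum_type]
  simp

theorem RootSum.mul {ζ x y : ℂ} (hx : RootSum ζ x) (hy : RootSum ζ y) : RootSum ζ (x * y) := by
  obtain ⟨K, _, e, rfl⟩ := hx
  obtain ⟨K', _, e', rfl⟩ := hy
  refine ⟨K × K', inferInstance, fun k => e k.1 + e' k.2, ?_⟩
  rw [Fintype.sum_prod_type, Finset.sum_mul_sum]
  simp [pow_add]

theorem RootSum.sum {ζ : ℂ} {ι : Type*} (s : Finset ι) (f : ι → ℂ)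
    (h : ∀ i ∈ s, RootSum ζ (f i)) : RootSum ζ (∑ i ∈ s, f i) := by
  classical
  induction s using Finset.induction_on with
  | empty => simpa using RootSum.zero ζ
  | insert a s ha ih =>
    rw [Finset.sum_insert ha]
    exact (h a (Finset.mem_insert_self _ _)).add
      (ih fun i hi => h i (Finset.mem_insert_of_mem hi))

theorem RootSum.natCast (ζ : ℂ) (n : ℕ) : RootSum ζ (n : ℂ) := by
  induction n with
  | zero => simpa using RootSum.zero ζ
  | succ n ih =>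
    push_cast
    exact ih.add (RootSum.one ζ)

theorem RootSum.of_pow_eq_one {N : ℕ} {ζ z : ℂ} (hζ : IsPrimitiveRoot ζ N) (hN : N ≠ 0)
    (hz : z ^ N = 1) : RootSum ζ z := by
  haveI : NeZero N := ⟨hN⟩
  obtain ⟨i, _, rfl⟩ := hζ.eq_pow_of_pow_eq_one hz
  exact RootSum.pow ζ i

theorem norm_of_pow_eq_one' {N : ℕ} (hN : N ≠ 0) {z : ℂ} (hz : z ^ N = 1) : ‖z‖ = 1 :=
  Complex.norm_eq_one_of_pow_eq_one hz hN

/-- If `z^N = 1` then `conj (z^a) = z^(a * (N-1))`. -/
theorem conj_pow_root {N : ℕ} (hN : N ≠ 0) {z : ℂ} (hz : z ^ N = 1) (a : ℕ) :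
    conj (z ^ a) = z ^ (a * (N - 1)) := by
  have h1 : ‖z‖ = 1 := norm_of_pow_eq_one' hN hz
  have h2 : conj z * z = 1 := by
    rw [mul_comm, Complex.mul_conj, Complex.normSq_eq_norm_sq, h1]; simp
  have h3 : conj z = z ^ (N - 1) := by
    have h4 : z ^ (N - 1) * z = 1 := by
      rw [← pow_succ, Nat.sub_add_cancel (Nat.pos_of_ne_zero hN), hz]
    have hz0 : z ≠ 0 := by
      intro h; rw [h] at h1; simp at h1
    exact mul_right_cancel₀ hz0 (h2.trans h4.symm)
  rw [map_pow, h3, ← pow_mul, mul_comm]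

/-- The norm-square of a root sum, expanded. -/
theorem normSq_rootSum {N : ℕ} (hN : N ≠ 0) {z : ℂ} (hz : z ^ N = 1) {K : Type*} [Fintype K]
    (e : K → ℕ) :
    ((‖∑ k, z ^ e k‖ ^ 2 : ℝ) : ℂ) = ∑ k, ∑ l, z ^ (e k + e l * (N - 1)) := by
  have h := Complex.mul_conj (∑ k, z ^ e k)
  rw [Complex.normSq_eq_norm_sq] at h
  rw [← h, map_sum, Finset.sum_mul_sum]
  refine Finset.sum_congr rfl fun k _ => Finset.sum_congr rfl fun l _ => ?_
  rw [conj_pow_root hN hz, pow_add]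

/-- The counting lemma. -/
theorem card_le_of_rootSums {N : ℕ} [NeZero N] {ζ : ℂ} (hζ : IsPrimitiveRoot ζ N) {I : Type*}
    [Fintype I] (L : I → ℂ) (hL : ∀ i, RootSum ζ (L i)) (hne : ∀ i, L i ≠ 0) (n : ℕ)
    (hsum : ∑ i, ‖L i‖ ^ 2 = n) : Fintype.card I ≤ n := by
  classical
  have hN : N ≠ 0 := NeZero.ne N
  choose K hK e he using hL
  have hζN : ζ ^ N = 1 := hζ.pow_eq_one
  -- the conjugates
  let L' : (ZMod N)ˣ → I → ℂ := fun u i => ∑ k, (ζ ^ (u : ZMod N).val) ^ e i k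
  have hrootu : ∀ u : (ZMod N)ˣ, (ζ ^ (u : ZMod N).val) ^ N = 1 := by
    intro u
    rw [← pow_mul, mul_comm, pow_mul, hζN, one_pow]
  -- the sum for each conjugate
  have hsumu : ∀ u : (ZMod N)ˣ, ∑ i, ‖L' u i‖ ^ 2 = n := by
    intro u
    have hcop : ((u : ZMod N).val).Coprime N := ZMod.val_coe_unit_coprime u
    obtain ⟨τ, hτ⟩ := H06.exists_galois_ringHom (n := N) hN hcop
    have h1 : ((∑ i, ‖L i‖ ^ 2 : ℝ) : ℂ) = ∑ i, ∑ k, ∑ l, ζ ^ (e i k + e i l * (N - 1)) := by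
      push_cast
      refine Finset.sum_congr rfl fun i _ => ?_
      have := normSq_rootSum hN hζN (e i)
      push_cast at this
      rw [he i, this]
    have h2 : ((∑ i, ‖L' u i‖ ^ 2 : ℝ) : ℂ) = τ (((∑ i, ‖L i‖ ^ 2 : ℝ) : ℂ)) := by
      rw [h1, map_sum]
      push_cast
      refine Finset.sum_congr rfl fun i _ => ?_
      have := normSq_rootSum hN (hrootu u) (e i)
      push_cast at this
      simp only [L']
      rw [this, map_sum]
      refine Finset.sum_congr rfl fun k _ => ?_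
      rw [map_sum]
      refine Finset.sum_congr rfl fun l _ => ?_
      rw [map_pow, hτ ζ hζN]
    rw [hsum] at h2
    have h3 : τ (((n : ℝ) : ℂ)) = (n : ℂ) := by
      push_cast
      exact map_natCast τ n
    rw [h3] at h2
    exact_mod_cast h2
  -- AM-GM for each `i`
  have hi : ∀ i, (Fintype.card (ZMod N)ˣ : ℝ) ≤ ∑ u : (ZMod N)ˣ, ‖L' u i‖ ^ 2 := by
    intro i
    have hne' : ∑ k, ζ ^ e i k ≠ 0 := by
      rw [← he i]; exact hne i
    obtain ⟨h1, h2⟩ := H21.galois_prod N ζ hζ (e i) hne'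
    have hpos : ∀ u : (ZMod N)ˣ, 0 < ‖L' u i‖ ^ 2 := by
      intro u
      have := h1 u
      positivity
    rw [norm_prod] at h2
    have h3 : 0 ≤ Real.log (∏ u : (ZMod N)ˣ, ‖L' u i‖ ^ 2) := by
      apply Real.log_nonneg
      rw [Finset.prod_pow]
      exact one_le_pow₀ h2
    rw [Real.log_prod (fun u _ => (hpos u).ne')] at h3
    have h4 : ∀ u : (ZMod N)ˣ, Real.log (‖L' u i‖ ^ 2) ≤ ‖L' u i‖ ^ 2 - 1 :=
      fun u => Real.log_le_sub_one_of_pos (hpos u)
    have h5 := h3.trans (Finset.sum_le_sum fun u _ => h4 u)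
    rw [Finset.sum_sub_distrib] at h5
    simp only [Finset.sum_const, Finset.card_univ, nsmul_eq_mul, mul_one] at h5
    linarith
  have hφ : 0 < (Fintype.card (ZMod N)ˣ : ℝ) := by
    have : 0 < Fintype.card (ZMod N)ˣ := Fintype.card_pos
    exact_mod_cast this
  have htot : (Fintype.card I : ℝ) * (Fintype.card (ZMod N)ˣ : ℝ) ≤
      (n : ℝ) * (Fintype.card (ZMod N)ˣ : ℝ) := by
    calc (Fintype.card I : ℝ) * (Fintype.card (ZMod N)ˣ : ℝ)
        = ∑ _i : I, (Fintype.card (ZMod N)ˣ : ℝ) := by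
          simp
      _ ≤ ∑ i, ∑ u : (ZMod N)ˣ, ‖L' u i‖ ^ 2 := Finset.sum_le_sum fun i _ => hi i
      _ = ∑ u : (ZMod N)ˣ, ∑ i, ‖L' u i‖ ^ 2 := Finset.sum_comm
      _ = ∑ _u : (ZMod N)ˣ, (n : ℝ) := Finset.sum_congr rfl fun u _ => hsumu u
      _ = (n : ℝ) * (Fintype.card (ZMod N)ˣ : ℝ) := by
          simp [mul_comm]
  have := le_of_mul_le_mul_right htot hφ
  exact_mod_cast this

end Cfsg.Agent.H23
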