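import Cfsg.Agent.Lib.H21.ModP
import Cfsg.Agent.Lib.H22.Local

/-!
# Gauss functions on an abelian group acting on a vector space
-/

set_option autoImplicit false
set_option linter.unusedSectionVars false
set_option linter.style.haveILetI false
set_option linter.unusedSimpArgs false

namespace Cfsg.Agent.H23

open scoped ComplexConjugate
open Cfsg Cfsg.Agent.H21 Cfsg.Agent.H22

universe u w

/-- The Gauss function attached to a representation of an abelian group. -/
structure IsGaussFn (p : ℕ) {H : Type u} {W : Type w} [CommGroup H] [AddCommGroup W]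
    [Module (ZMod p) W] (ρ : Representation (ZMod p) H W) (γ : H → ℂ) : Prop where
  expand : ∃ (J : Type u) (_ : Fintype J) (c : J → ℂ) (ω : J → (H →* ℂˣ)),
    (∀ j, c j ^ p = 1) ∧ ∀ h, γ h = ∑ j, c j * (ω j h : ℂ)
  norm : ∀ h, ‖γ h‖ ^ 2 * (Nat.card {w : W // ρ h w = w} : ℝ) = (Nat.card W : ℝ)
  one : γ 1 = 1 ∨ γ 1 = -1
  localIdeal : ∀ h, (∃ w, ρ h w ≠ w) → ∀ M : Ideal AlgInt, IsPModular p M →
    MemLocalIdeal M (γ h)

theorem unit_val_integral {H : Type u} [Group H] [Finite H] (ω : H →* ℂˣ) (h : H) :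
    IsIntegral ℤ ((ω h : ℂˣ) : ℂ) := by
  have h1 : h ^ Nat.card H = 1 := pow_card_eq_one'
  have h2 : ((ω h : ℂˣ) : ℂ) ^ Nat.card H = 1 := by
    rw [← Units.val_pow_eq_pow_val, ← map_pow, h1, map_one, Units.val_one]
  exact IsIntegral.of_pow Nat.card_pos (by rw [h2]; exact isIntegral_one)

theorem IsGaussFn.isIntegral {p : ℕ} (hp : p.Prime) {H : Type u} {W : Type w} [CommGroup H]
    [Finite H] [AddCommGroup W] [Module (ZMod p) W] {ρ : Representation (ZMod p) H W} {γ : H → ℂ}
    (hγ : IsGaussFn p ρ γ) (h : H) : IsIntegral ℤ (γ h) := by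
  obtain ⟨J, _, c, ω, hc, he⟩ := hγ.expand
  rw [he]
  refine IsIntegral.sum _ fun j _ => IsIntegral.mul ?_ (unit_val_integral _ _)
  exact IsIntegral.of_pow hp.pos (by rw [hc j]; exact isIntegral_one)

section Field

variable {R : Type u} [Field R] [Fintype R]

theorem sum_over_units [DecidableEq R] (f : R → ℂ) (h0 : f 0 = 0) : ∑ a, f a = ∑ x : Rˣ, f (x : R) := by
  classical
  symm
  apply Finset.sum_of_injOn (fun x : Rˣ => (x : R)) Units.val_injective.injOn
    (fun _ _ => Finset.mem_univ _)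
  · intro a _ ha
    by_cases h : a = 0
    · rw [h, h0]
    · exfalso
      exact ha ⟨Units.mk0 a h, by simp, rfl⟩
  · intro _ _; rfl

theorem mulChar_val_integral (χ : MulChar R ℂ) (a : R) : IsIntegral ℤ (χ a) := by
  classical
  by_cases h : a = 0
  · rw [h, MulChar.map_zero]; exact isIntegral_zero
  · have h1 : a ^ (Fintype.card R - 1) = 1 := FiniteField.pow_card_sub_one_eq_one a h
    have h2 : χ a ^ (Fintype.card R - 1) = 1 := by
      rw [← map_pow, h1, MulChar.map_one]
    have hq : 0 < Fintype.card R - 1 := by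
      have := Fintype.one_lt_card (α := R)
      omega
    exact IsIntegral.of_pow hq (by rw [h2]; exact isIntegral_one)

/-- The Gauss function of a hom `φ : H →* Rˣ` to the units of a finite field. -/
theorem exists_gauss_field {p : ℕ} [Fact p.Prime] {H : Type u} [CommGroup H] [Finite H]
    (hp : (p : R) = 0) (φ : H →* Rˣ) :
    ∃ γ : H → ℂ,
      (∃ (J : Type u) (_ : Fintype J) (c : J → ℂ) (ω : J → (H →* ℂˣ)),
        (∀ j, c j ^ p = 1) ∧ ∀ h, γ h = ∑ j, c j * (ω j h : ℂ)) ∧
      (∀ h, φ h = 1 → ‖γ h‖ ^ 2 = 1) ∧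
      (∀ h, φ h ≠ 1 → ‖γ h‖ ^ 2 = (Fintype.card R : ℝ)) ∧
      γ 1 = -1 ∧
      ∀ h, φ h ≠ 1 → ∀ M : Ideal AlgInt, IsPModular p M → MemLocalIdeal M (γ h) := by
  classical
  have hpp : p.Prime := Fact.out
  obtain ⟨e'⟩ := MulChar.mulEquiv_units R ℂ
  let e : Rˣ ≃* MulChar R ℂ := e'.symm
  -- the additive character
  obtain ⟨ψ, hψ⟩ : ∃ ψ : AddChar R ℂ, ψ 1 ≠ 1 :=
    (AddChar.exists_apply_ne_zero (α := R)).2 one_ne_zero
  have hψ1 : ψ ≠ 1 := by
    rintro rfl
    exact hψ (AddChar.one_apply _)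
  have hψprim : ψ.IsPrimitive := AddChar.IsPrimitive.of_ne_one hψ1
  have hψp : ∀ a, ψ a ^ p = 1 := by
    intro a
    rw [← AddChar.map_nsmul_eq_pow, nsmul_eq_mul, hp, zero_mul, AddChar.map_zero_eq_one]
  refine ⟨fun h => gaussSum (e (φ h)) ψ, ?_, ?_, ?_, ?_, ?_⟩
  · -- expansion
    refine ⟨Rˣ, inferInstance, fun x => ψ x, fun x =>
      { toFun := fun h => (e (φ h)).toUnitHom x
        map_one' := ?_
        map_mul' := ?_ }, fun x => hψp _, fun h => ?_⟩
    · apply Units.ext
      rw [MulChar.coe_toUnitHom, map_one, map_one, MulChar.one_apply_coe, Units.val_one]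
    · intro a b
      apply Units.ext
      rw [Units.val_mul, MulChar.coe_toUnitHom, MulChar.coe_toUnitHom, MulChar.coe_toUnitHom,
        map_mul, map_mul, MulChar.mul_apply]
    · show gaussSum (e (φ h)) ψ = _
      rw [gaussSum, sum_over_units _ (by rw [MulChar.map_zero, zero_mul])]
      refine Finset.sum_congr rfl fun x _ => ?_
      show _ = ψ x * (((e (φ h)).toUnitHom x : ℂˣ) : ℂ)
      rw [MulChar.coe_toUnitHom, mul_comm]
  · -- trivial
    intro h hh
    show ‖gaussSum (e (φ h)) ψ‖ ^ 2 = 1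
    rw [hh, map_one, gaussSum_one_left hψ1]
    simp
  · -- nontrivial
    intro h hh
    show ‖gaussSum (e (φ h)) ψ‖ ^ 2 = _
    have hne : e (φ h) ≠ 1 := by
      intro h0
      apply hh
      apply e.injective
      rw [h0, map_one]
    have h1 := gaussSum_mul_gaussSum_eq_card hne hψprim
    rw [← star_gaussSum_eq, ← starRingEnd_apply, Complex.mul_conj, Complex.normSq_eq_norm_sq] at h1
    exact_mod_cast h1
  · -- at one
    show gaussSum (e (φ 1)) ψ = -1
    rw [map_one, map_one, gaussSum_one_left hψ1]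
  · -- local
    intro h hh M hM
    haveI : M.IsPrime := hM.2.1.isPrime
    show MemLocalIdeal M (gaussSum (e (φ h)) ψ)
    have hne : e (φ h) ≠ 1 := by
      intro h0
      apply hh
      apply e.injective
      rw [h0, map_one]
    have h1 : gaussSum (e (φ h)) ψ = ∑ a, e (φ h) a * (ψ a - 1) := by
      have h2 := MulChar.sum_eq_zero_of_ne_one hne
      rw [gaussSum]
      simp only [mul_sub, mul_one, Finset.sum_sub_distrib, h2, sub_zero]
    rw [h1]
    refine mli_sum _ _ fun a _ => ?_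
    refine mli_mul_left ?_ (mlr_of_isIntegral (mulChar_val_integral _ _))
    obtain ⟨hz, hm⟩ := root_sub_one_mem hM (ψ a) 1 (by rw [pow_one]; exact hψp a)
    have := mli_of_mem (M := M) hm
    simpa using this

end Field

end Cfsg.Agent.H23
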