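import Cfsg.Agent.Lib.H23.Knorr2

/-!
# Existence of Gauss functions for coprime representations of abelian groups
-/

set_option autoImplicit false
set_option linter.unusedSectionVars false
set_option linter.style.haveILetI false
set_option linter.unusedSimpArgs false

namespace Cfsg.Agent.H23

open scoped ComplexConjugate
open Cfsg Cfsg.Agent.H21 Cfsg.Agent.H22

universe u w

variable {p : ℕ} {H : Type u} [CommGroup H]

theorem IsGaussFn.trivial {W : Type w} [AddCommGroup W] [Module (ZMod p) W] [Subsingleton W]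
    (ρ : Representation (ZMod p) H W) : IsGaussFn p ρ (fun _ => 1) where
  expand := ⟨PUnit.{u + 1}, inferInstance, fun _ => 1, fun _ => 1, fun _ => one_pow _, by simp⟩
  norm := by
    intro h
    rw [Nat.card_of_subsingleton (0 : W), Nat.card_of_subsingleton
      (⟨0, by simp⟩ : {w : W // ρ h w = w})]
    simp
  one := Or.inl rfl
  localIdeal := by
    rintro h ⟨w, hw⟩
    exact absurd (Subsingleton.elim _ _) hw

theorem IsGaussFn.of_isCompl [Fact p.Prime] [Finite H] {W : Type w} [AddCommGroup W]
    [Module (ZMod p) W] [Finite W]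
    {ρ : Representation (ZMod p) H W} {S S' : Subrepresentation ρ}
    (hc : IsCompl S.toSubmodule S'.toSubmodule) {γ₁ γ₂ : H → ℂ}
    (h1 : IsGaussFn p S.toRepresentation γ₁) (h2 : IsGaussFn p S'.toRepresentation γ₂) :
    IsGaussFn p ρ (fun h => γ₁ h * γ₂ h) := by
  classical
  have hpp : p.Prime := Fact.out
  let E := Submodule.prodEquivOfIsCompl _ _ hc
  have hE : ∀ (a : S.toSubmodule) (b : S'.toSubmodule), E (a, b) = (a : W) + (b : W) := fun _ _ => rfl
  have hρa : ∀ (h : H) (a : S.toSubmodule), ((S.toRepresentation h a : S.toSubmodule) : W) = ρ h a :=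
    fun _ _ => rfl
  have hρb : ∀ (h : H) (a : S'.toSubmodule), ((S'.toRepresentation h a : S'.toSubmodule) : W) = ρ h a :=
    fun _ _ => rfl
  have hEρ : ∀ (h : H) (a : S.toSubmodule) (b : S'.toSubmodule),
      ρ h (E (a, b)) = E (S.toRepresentation h a, S'.toRepresentation h b) := by
    intro h a b
    rw [hE, hE, map_add, hρa, hρb]
  constructor
  · obtain ⟨J, _, c, ω, hc1, he⟩ := h1.expand
    obtain ⟨J', _, c', ω', hc2, he'⟩ := h2.expand
    refine ⟨J × J', inferInstance, fun j => c j.1 * c' j.2, fun j => ω j.1 * ω' j.2, ?_, ?_⟩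
    · intro j
      rw [mul_pow, hc1, hc2, one_mul]
    · intro h
      show γ₁ h * γ₂ h = _
      rw [he, he', Finset.sum_mul_sum, Fintype.sum_prod_type]
      refine Finset.sum_congr rfl fun j _ => Finset.sum_congr rfl fun j' _ => ?_
      simp only [MonoidHom.mul_apply, Units.val_mul]
      ring
  · intro h
    have hW : Nat.card W = Nat.card S.toSubmodule * Nat.card S'.toSubmodule := by
      rw [← Nat.card_prod]
      exact (Nat.card_congr E.toEquiv).symm
    have hfix : Nat.card {w : W // ρ h w = w} =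
        Nat.card {a : S.toSubmodule // S.toRepresentation h a = a} *
          Nat.card {a : S'.toSubmodule // S'.toRepresentation h a = a} := by
      rw [← Nat.card_prod]
      symm
      refine Nat.card_congr (Equiv.ofBijective (fun x => ⟨E (x.1.1, x.2.1), ?_⟩) ⟨?_, ?_⟩)
      · rw [hEρ, x.1.2, x.2.2]
      · rintro ⟨⟨a, ha⟩, ⟨b, hb⟩⟩ ⟨⟨a', ha'⟩, ⟨b', hb'⟩⟩ hab
        have h0 : E (a, b) = E (a', b') := Subtype.mk.inj hab
        have := E.injective h0
        simp only [Prod.mk.injEq] at this
        obtain ⟨rfl, rfl⟩ := this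
        rfl
      · rintro ⟨w, hw⟩
        obtain ⟨⟨a, b⟩, rfl⟩ := E.surjective w
        rw [hEρ] at hw
        have := E.injective hw
        simp only [Prod.mk.injEq] at this
        exact ⟨⟨⟨a, this.1⟩, ⟨b, this.2⟩⟩, rfl⟩
    rw [hW, hfix, norm_mul, mul_pow]
    have e1 := h1.norm h
    have e2 := h2.norm h
    push_cast
    rw [← e1, ← e2]
    ring
  · rcases h1.one with e1 | e1 <;> rcases h2.one with e2 | e2 <;> simp [e1, e2]
  · rintro h ⟨w, hw⟩ M hM
    haveI : M.IsPrime := hM.2.1.isPrime
    by_cases ha : ∃ a, S.toRepresentation h a ≠ a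
    · exact mli_mul_right (h1.localIdeal h ha M hM) (mlr_of_isIntegral (h2.isIntegral hpp h))
    · by_cases hb : ∃ a, S'.toRepresentation h a ≠ a
      · exact mli_mul_left (h2.localIdeal h hb M hM) (mlr_of_isIntegral (h1.isIntegral hpp h))
      · exfalso
        push Not at ha hb
        apply hw
        obtain ⟨⟨a, b⟩, rfl⟩ := E.surjective w
        rw [hEρ, ha, hb]

/-- The irreducible case. -/
theorem exists_gauss_irr [Fact p.Prime] [Finite H] {W : Type w} [AddCommGroup W]
    [Module (ZMod p) W] [Finite W] [Nontrivial W] (ρ : Representation (ZMod p) H W)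
    (hirr : ∀ S : Subrepresentation ρ, S = ⊥ ∨ S = ⊤) : ∃ γ, IsGaussFn p ρ γ := by
  classical
  have hpp : p.Prime := Fact.out
  let π := ρ.asAlgebraHom
  let A := MonoidAlgebra (ZMod p) H
  have hπof : ∀ (h : H) (a : A) (w : W),
      π (MonoidAlgebra.of (ZMod p) H h * a) w = ρ h (π a w) := by
    intro h a w
    rw [map_mul]
    show (π (MonoidAlgebra.of (ZMod p) H h)) (π a w) = _
    rw [Representation.asAlgebraHom_of]
  -- cyclicity
  have hcyc : ∀ w : W, w ≠ 0 → ∀ w' : W, ∃ a : A, π a w = w' := by
    intro w hw w'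
    let S : Subrepresentation ρ :=
      { toSubmodule :=
          { carrier := {x | ∃ a : A, π a w = x}
            add_mem' := by
              rintro _ _ ⟨a, rfl⟩ ⟨b, rfl⟩
              exact ⟨a + b, by rw [map_add]; rfl⟩
            zero_mem' := ⟨0, by rw [map_zero]; rfl⟩
            smul_mem' := by
              rintro c _ ⟨a, rfl⟩
              exact ⟨c • a, by rw [map_smul]; rfl⟩ }
        apply_mem_toSubmodule := by
          rintro g _ ⟨a, rfl⟩
          exact ⟨MonoidAlgebra.of (ZMod p) H g * a, hπof g a w⟩ }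
    have hw1 : w ∈ S.toSubmodule := ⟨1, by rw [map_one]; rfl⟩
    rcases hirr S with h | h
    · exfalso
      apply hw
      rw [h] at hw1
      exact hw1
    · have : w' ∈ S.toSubmodule := by
        rw [h]
        exact Submodule.mem_top
      exact this
  obtain ⟨u₀, hu₀⟩ := exists_ne (0 : W)
  let I : Ideal A :=
    { carrier := {a | π a u₀ = 0}
      add_mem' := by
        intro a b ha hb
        show π (a + b) u₀ = 0
        rw [map_add]
        show π a u₀ + π b u₀ = 0
        rw [show π a u₀ = 0 from ha, show π b u₀ = 0 from hb, add_zero]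
      zero_mem' := by
        show π 0 u₀ = 0
        rw [map_zero]
        rfl
      smul_mem' := by
        intro c a ha
        show π (c * a) u₀ = 0
        rw [map_mul]
        show π c (π a u₀) = 0
        rw [show π a u₀ = 0 from ha, map_zero] }
  have hI : ∀ a : A, a ∈ I ↔ π a u₀ = 0 := fun _ => Iff.rfl
  have hmax : I.IsMaximal := by
    rw [Ideal.isMaximal_iff]
    refine ⟨?_, ?_⟩
    · intro h
      apply hu₀
      have := (hI 1).1 h
      rwa [map_one] at this
    · intro J x hIJ hx hxJ
      have hx' : π x u₀ ≠ 0 := fun h => hx ((hI x).2 h)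
      obtain ⟨b, hb⟩ := hcyc _ hx' u₀
      have h1 : 1 - b * x ∈ I := by
        rw [hI, map_sub, map_one, map_mul]
        show u₀ - π b (π x u₀) = 0
        rw [hb, sub_self]
      have h2 := hIJ h1
      have h3 : b * x ∈ J := J.mul_mem_left _ hxJ
      have := J.add_mem h2 h3
      rwa [sub_add_cancel] at this
  letI : Field (A ⧸ I) := Ideal.Quotient.field I
  have hmk : Function.Surjective (Ideal.Quotient.mk I) := Ideal.Quotient.mk_surjective
  let T : A ⧸ I → W := fun r => π (Function.surjInv hmk r) u₀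
  have hT : ∀ a : A, T (Ideal.Quotient.mk I a) = π a u₀ := by
    intro a
    have h1 : Ideal.Quotient.mk I (Function.surjInv hmk (Ideal.Quotient.mk I a)) =
        Ideal.Quotient.mk I a := Function.surjInv_eq hmk _
    rw [Ideal.Quotient.eq] at h1
    have h2 := (hI _).1 h1
    rw [map_sub] at h2
    exact sub_eq_zero.1 h2
  have hTinj : Function.Injective T := by
    intro r r' hr
    obtain ⟨a, rfl⟩ := hmk r
    obtain ⟨a', rfl⟩ := hmk r'
    rw [hT, hT] at hr
    rw [Ideal.Quotient.eq, hI, map_sub]
    exact sub_eq_zero.2 hr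
  have hTsurj : Function.Surjective T := by
    intro w
    obtain ⟨a, ha⟩ := hcyc u₀ hu₀ w
    exact ⟨Ideal.Quotient.mk I a, by rw [hT, ha]⟩
  haveI : Finite (A ⧸ I) := Finite.of_injective T hTinj
  letI : Fintype (A ⧸ I) := Fintype.ofFinite _
  let φ : H →* (A ⧸ I)ˣ := MonoidHom.toHomUnits
    (((Ideal.Quotient.mk I : A →+* (A ⧸ I)) : A →* (A ⧸ I)).comp
      (MonoidAlgebra.of (ZMod p) H))
  have hφ : ∀ (h : H) (a : A), ((φ h : (A ⧸ I)ˣ) : A ⧸ I) * Ideal.Quotient.mk I a =
      Ideal.Quotient.mk I (MonoidAlgebra.of (ZMod p) H h * a) := by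
    intro h a
    rw [map_mul]
    rfl
  have hact : ∀ (h : H) (r : A ⧸ I), ρ h (T r) = T (((φ h : (A ⧸ I)ˣ) : A ⧸ I) * r) := by
    intro h r
    obtain ⟨a, rfl⟩ := hmk r
    rw [hφ, hT, hT, hπof]
  have hp0 : ((p : ℕ) : A ⧸ I) = 0 := by
    have h1 : ((p : ℕ) : A) = algebraMap (ZMod p) A ((p : ℕ) : ZMod p) := by
      rw [map_natCast]
    rw [ZMod.natCast_self, map_zero] at h1
    rw [← map_natCast (Ideal.Quotient.mk I), h1, map_zero]
  obtain ⟨γ, hexp, h1, h2, h3, h4⟩ := exists_gauss_field (p := p) hp0 φ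
  have hne_of : ∀ h, (∃ w, ρ h w ≠ w) → φ h ≠ 1 := by
    rintro h ⟨w, hw⟩ h0
    apply hw
    obtain ⟨r, rfl⟩ := hTsurj w
    rw [hact, h0, Units.val_one, one_mul]
  have hcard : Nat.card W = Fintype.card (A ⧸ I) := by
    rw [← Nat.card_eq_fintype_card]
    exact (Nat.card_congr (Equiv.ofBijective T ⟨hTinj, hTsurj⟩)).symm
  have hT0 : T 0 = 0 := by
    have := hT 0
    rwa [map_zero, map_zero] at this
  refine ⟨γ, hexp, ?_, Or.inr h3, fun h hw M hM => h4 h (hne_of h hw) M hM⟩
  intro h
  by_cases hh : φ h = 1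
  · rw [h1 h hh, one_mul]
    have hall : ∀ w, ρ h w = w := by
      intro w
      obtain ⟨r, rfl⟩ := hTsurj w
      rw [hact, hh, Units.val_one, one_mul]
    have : Nat.card {w : W // ρ h w = w} = Nat.card W :=
      Nat.card_congr (Equiv.subtypeUnivEquiv hall)
    rw [this]
  · rw [h2 h hh, hcard]
    have hone : Nat.card {w : W // ρ h w = w} = 1 := by
      haveI : Subsingleton {w : W // ρ h w = w} := by
        refine ⟨?_⟩
        have hz : ∀ x : {w : W // ρ h w = w}, (x : W) = 0 := by
          rintro ⟨w, hw⟩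
          obtain ⟨r, rfl⟩ := hTsurj w
          rw [hact] at hw
          have h5 := hTinj hw
          have h6 : (((φ h : (A ⧸ I)ˣ) : A ⧸ I) - 1) * r = 0 := by
            rw [sub_mul, one_mul, h5, sub_self]
          have h7 : ((φ h : (A ⧸ I)ˣ) : A ⧸ I) - 1 ≠ 0 := by
            intro h8
            apply hh
            apply Units.ext
            rw [Units.val_one]
            exact sub_eq_zero.1 h8
          have h8 : r = 0 := (mul_eq_zero.1 h6).resolve_left h7
          simp only [h8, hT0]
        intro x y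
        exact Subtype.ext ((hz x).trans (hz y).symm)
      exact Nat.card_of_subsingleton (⟨0, by simp⟩ : {w : W // ρ h w = w})
    rw [hone]
    simp

/-- Existence of the Gauss function. -/
theorem exists_gauss [Fact p.Prime] [Finite H] (hcop : ¬ p ∣ Nat.card H) :
    ∀ (n : ℕ) (W : Type w) [AddCommGroup W] [Module (ZMod p) W] [Finite W]
      (ρ : Representation (ZMod p) H W), Nat.card W = n → ∃ γ, IsGaussFn p ρ γ := by
  classical
  have hpp : p.Prime := Fact.out
  intro n
  induction n using Nat.strong_induction_on with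
  | _ n ih =>
    intro W _ _ _ ρ hn
    by_cases hW : Subsingleton W
    · exact ⟨_, IsGaussFn.trivial ρ⟩
    rw [not_subsingleton_iff_nontrivial] at hW
    by_cases hS : ∃ S : Subrepresentation ρ, S ≠ ⊥ ∧ S ≠ ⊤
    · obtain ⟨S, hS1, hS2⟩ := hS
      haveI : NeZero (Nat.card H : ZMod p) :=
        ⟨fun h => hcop ((ZMod.natCast_eq_zero_iff _ _).1 h)⟩
      obtain ⟨S', hc⟩ := exists_isCompl S
      have hcompl : IsCompl S.toSubmodule S'.toSubmodule := by
        constructor
        · rw [disjoint_iff]
          exact congrArg Subrepresentation.toSubmodule hc.inf_eq_bot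
        · rw [codisjoint_iff]
          exact congrArg Subrepresentation.toSubmodule hc.sup_eq_top
      have hS'1 : S' ≠ ⊥ := by
        intro hh
        rw [hh] at hc
        exact hS2 (hc.codisjoint.eq_top_of_le bot_le)
      have hcardW : Nat.card W = Nat.card S.toSubmodule * Nat.card S'.toSubmodule := by
        rw [← Nat.card_prod]
        exact (Nat.card_congr (Submodule.prodEquivOfIsCompl _ _ hcompl).toEquiv).symm
      have hnontriv : ∀ T : Subrepresentation ρ, T ≠ ⊥ → 1 < Nat.card T.toSubmodule := by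
        intro T hT
        rw [Finite.one_lt_card_iff_nontrivial, Submodule.nontrivial_iff_ne_bot]
        intro h
        apply hT
        apply Subrepresentation.toSubmodule_injective
        exact h
      have h1 := hnontriv S hS1
      have h2 := hnontriv S' hS'1
      have hlt1 : Nat.card S.toSubmodule < n := by
        rw [← hn, hcardW]
        exact lt_mul_of_one_lt_right (by omega) h2
      have hlt2 : Nat.card S'.toSubmodule < n := by
        rw [← hn, hcardW]
        exact lt_mul_of_one_lt_left (by omega) h1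
      obtain ⟨γ₁, hγ₁⟩ := ih _ hlt1 S.toSubmodule S.toRepresentation rfl
      obtain ⟨γ₂, hγ₂⟩ := ih _ hlt2 S'.toSubmodule S'.toRepresentation rfl
      exact ⟨_, IsGaussFn.of_isCompl hcompl hγ₁ hγ₂⟩
    · push Not at hS
      apply exists_gauss_irr ρ
      intro S
      by_cases h : S = ⊥
      · exact Or.inl h
      · exact Or.inr (hS S h)

end Cfsg.Agent.H23
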