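import Cfsg.Agent.Lib.H23.Knorr3

/-!
# The Gauss function for the conjugation action on an elementary abelian normal subgroup
-/

set_option autoImplicit false
set_option linter.unusedSectionVars false
set_option linter.style.haveILetI false
set_option linter.unusedSimpArgs false

namespace Cfsg.Agent.H23

open scoped ComplexConjugate
open Cfsg Cfsg.Agent.H21 Cfsg.Agent.H22

universe u

/-- A representation over `ZMod p` from an action by additive maps. -/
noncomputable def autRep (p : ℕ) {H A : Type*} [Group H] [AddCommGroup A] [Module (ZMod p) A]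
    (f : H → (A →+ A)) (h1 : ∀ w, f 1 w = w) (hmul : ∀ a b w, f (a * b) w = f a (f b w)) :
    Representation (ZMod p) H A where
  toFun h := AddMonoidHom.toZModLinearMap p (f h)
  map_one' := by
    apply LinearMap.ext
    intro w
    exact h1 w
  map_mul' a b := by
    apply LinearMap.ext
    intro w
    exact hmul a b w

theorem autRep_apply (p : ℕ) {H A : Type*} [Group H] [AddCommGroup A] [Module (ZMod p) A]
    (f : H → (A →+ A)) (h1 : ∀ w, f 1 w = w) (hmul : ∀ a b w, f (a * b) w = f a (f b w))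
    (h : H) (w : A) : autRep p f h1 hmul h w = f h w := rfl

theorem exists_gauss_add {H : Type u} [CommGroup H] [Finite H] {W : Type*} [AddCommGroup W]
    [Finite W] (p : ℕ) [Fact p.Prime] (hexp : ∀ w : W, p • w = 0) (f : H → (W →+ W))
    (h1 : ∀ w, f 1 w = w) (hmul : ∀ a b w, f (a * b) w = f a (f b w))
    (hcop : ¬ p ∣ Nat.card H) :
    ∃ γ : H → ℂ,
      (∃ (J : Type u) (_ : Fintype J) (c : J → ℂ) (ω : J → (H →* ℂˣ)),
        (∀ j, c j ^ p = 1) ∧ ∀ h, γ h = ∑ j, c j * (ω j h : ℂ)) ∧
      (∀ h : H, ‖γ h‖ ^ 2 * (Nat.card {w : W // f h w = w} : ℝ) = (Nat.card W : ℝ)) ∧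
      (γ 1 = 1 ∨ γ 1 = -1) ∧
      (∀ h : H, (∃ w, f h w ≠ w) → ∀ M : Ideal AlgInt, IsPModular p M →
        MemLocalIdeal M (γ h)) := by
  classical
  letI : Module (ZMod p) W := AddCommGroup.zmodModule hexp
  obtain ⟨γ, hγ⟩ := exists_gauss (p := p) hcop _ W (autRep p f h1 hmul) rfl
  exact ⟨γ, hγ.expand, hγ.norm, hγ.one, hγ.localIdeal⟩

theorem exists_gauss_conj {X : Type u} [Group X] [Finite X] (p : ℕ) [Fact p.Prime]
    (V : Subgroup X) [V.Normal] (hVexp : ∀ v ∈ V, v ^ p = 1)
    (hcomm : ∀ a ∈ V, ∀ b ∈ V, a * b = b * a)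
    (H : Subgroup X) (hHab : ∀ a ∈ H, ∀ b ∈ H, a * b = b * a) (hcop : ¬ p ∣ Nat.card H) :
    ∃ γ : H → ℂ,
      (∃ (J : Type u) (_ : Fintype J) (c : J → ℂ) (ω : J → (H →* ℂˣ)),
        (∀ j, c j ^ p = 1) ∧ ∀ h, γ h = ∑ j, c j * (ω j h : ℂ)) ∧
      (∀ h : H, ‖γ h‖ ^ 2 * (Nat.card {u : V // (h : X) * u = u * h} : ℝ) = (Nat.card V : ℝ)) ∧
      (γ 1 = 1 ∨ γ 1 = -1) ∧
      (∀ h : H, (∃ u : V, (h : X) * u ≠ u * h) → ∀ M : Ideal AlgInt, IsPModular p M →
        MemLocalIdeal M (γ h)) := by
  classical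
  letI cH : CommGroup H :=
    { (inferInstance : Group H) with
      mul_comm := fun a b => Subtype.ext (hHab a a.2 b b.2) }
  letI cV : CommGroup V :=
    { (inferInstance : Group V) with
      mul_comm := fun a b => Subtype.ext (hcomm a a.2 b b.2) }
  let f : H → (Additive V →+ Additive V) := fun h =>
    MonoidHom.toAdditive ((MulAut.conjNormal (h : X) : MulAut V).toMonoidHom)
  have hf : ∀ (h : H) (w : Additive V),
      ((Additive.toMul (f h w) : V) : X) = (h : X) * (Additive.toMul w : V) * (h : X)⁻¹ := by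
    intro h w
    rfl
  have h1 : ∀ w, f 1 w = w := by
    intro w
    apply Additive.toMul.injective
    apply Subtype.ext
    rw [hf]
    simp
  have h2 : ∀ a b w, f (a * b) w = f a (f b w) := by
    intro a b w
    apply Additive.toMul.injective
    apply Subtype.ext
    rw [hf, hf, hf]
    simp [mul_assoc]
  have hexp : ∀ w : Additive V, p • w = 0 := by
    intro x
    apply Additive.toMul.injective
    apply Subtype.ext
    have := hVexp _ (Additive.toMul x).2
    simpa using this
  obtain ⟨γ, hγ1, hγ2, hγ3, hγ4⟩ := exists_gauss_add p hexp f h1 h2 hcop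
  have hρ : ∀ (h : H) (w : Additive V), f h w = w ↔ (h : X) * (Additive.toMul w : V) =
      (Additive.toMul w : V) * (h : X) := by
    intro h w
    have h1 := hf h w
    constructor
    · intro h2
      rw [h2] at h1
      have := h1.symm
      rwa [mul_inv_eq_iff_eq_mul] at this
    · intro h2
      apply Additive.toMul.injective
      apply Subtype.ext
      rw [h1, h2]
      simp
  refine ⟨γ, hγ1, ?_, hγ3, ?_⟩
  · intro h
    have h1 := hγ2 h
    have h2 : Nat.card (Additive V) = Nat.card V := Nat.card_congr Additive.toMul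
    have h3 : Nat.card {w : Additive V // f h w = w} = Nat.card {u : V // (h : X) * u = u * h} :=
      Nat.card_congr (Equiv.subtypeEquiv Additive.toMul (fun w => hρ h w))
    rw [h2, h3] at h1
    exact h1
  · rintro h ⟨u, hu⟩ M hM
    apply hγ4 h _ M hM
    refine ⟨Additive.ofMul u, fun h1 => hu ?_⟩
    exact (hρ h _).1 h1

end Cfsg.Agent.H23
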