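import Cfsg.Agent.Lib.H23.Knorr1
import Cfsg.Agent.Lib.H23.Knorr4
import Cfsg.Agent.Lib.H23.Ito2
import Cfsg.Agent.Lib.H06.CoprimeCoset
import Cfsg.Agent.Lib.H06.Brauer4

/-!
# Knörr's bound `k(GV) ≤ |V|` for abelian stabilizers
-/

set_option autoImplicit false
set_option linter.unusedSectionVars false
set_option linter.style.haveILetI false
set_option linter.unusedSimpArgs false

namespace Cfsg.Agent.H23

open scoped ComplexConjugate
open Cfsg Cfsg.Agent.H21 Cfsg.Agent.H22

universe u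

section Setup

variable {X : Type u} [Group X] [Finite X] {p : ℕ} {V G H : Subgroup X} [V.Normal] {v : X}

theorem knorr_conj_decomp (hcop : (Nat.card V).Coprime (Nat.card G))
    (hcommV : ∀ a ∈ V, ∀ b ∈ V, a * b = b * a)
    (hGV : Subgroup.IsComplement' V G) (hv : v ∈ V)
    (hHG : H ≤ G) (hHv : ∀ c ∈ H, c * v = v * c) (hHv' : ∀ c ∈ G, c * v = v * c → c ∈ H)
    (hHab : ∀ a ∈ H, ∀ b ∈ H, a * b = b * a)
    {h h' t : X} (hh : h ∈ H) (hh' : h' ∈ H) (e : t * (v * h) * t⁻¹ = v * h') :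
    ∃ u ∈ V, ∃ c ∈ H, t = u * c ∧ h' = u * h * u⁻¹ := by
  have hG : ∀ x ∈ G, x ^ Nat.card G = 1 := by
    intro x hx
    calc x ^ Nat.card G = (((⟨x, hx⟩ : G) ^ Nat.card G : G) : X) := rfl
      _ = 1 := by rw [pow_card_eq_one']; rfl
  have hab : t * v * t⁻¹ ∈ V := Subgroup.Normal.conj_mem inferInstance v hv t
  have hb : (t * h * t⁻¹) ^ Nat.card G = 1 := by
    rw [conj_pow, hG h (hHG hh)]
    simp
  have hcm : Commute v h := (hHv h hh).symm
  have hc1 : Commute (t * v * t⁻¹) (t * h * t⁻¹) := by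
    show (t * v * t⁻¹) * (t * h * t⁻¹) = (t * h * t⁻¹) * (t * v * t⁻¹)
    have := hcm.eq
    calc (t * v * t⁻¹) * (t * h * t⁻¹) = t * (v * h) * t⁻¹ := by group
      _ = t * (h * v) * t⁻¹ := by rw [this]
      _ = _ := by group
  have he : (t * v * t⁻¹) * (t * h * t⁻¹) = v * h' := by
    rw [← e]; group
  obtain ⟨h1, h2⟩ := H06.coprime_decomp_unique hcop hab hv hb (hG h' (hHG hh')) hc1
    ((hHv h' hh').symm) he
  obtain ⟨⟨u, c⟩, hu⟩ := hGV.2 t
  have hu' : (u : X) * (c : X) = t := hu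
  have hc : (c : X) ∈ H := by
    apply hHv' _ c.2
    have h3 : (c : X) * v * (c : X)⁻¹ ∈ V := Subgroup.Normal.conj_mem inferInstance v hv _
    have h1' : ((u : X) * c) * v * ((u : X) * c)⁻¹ = v := by
      rw [hu']; exact h1
    have h4 : (u : X) * ((c : X) * v * (c : X)⁻¹) * (u : X)⁻¹ = v := by
      calc (u : X) * ((c : X) * v * (c : X)⁻¹) * (u : X)⁻¹ = ((u : X) * c) * v * ((u : X) * c)⁻¹ := by
            group
        _ = v := h1'
    have h5 : (c : X) * v * (c : X)⁻¹ = v := by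
      calc (c : X) * v * (c : X)⁻¹ = (u : X) * ((c : X) * v * (c : X)⁻¹) * (u : X)⁻¹ := by
            rw [hcommV _ u.2 _ h3]; group
        _ = v := h4
    exact mul_inv_eq_iff_eq_mul.1 h5
  refine ⟨u, u.2, c, hc, hu'.symm, ?_⟩
  rw [← h2, ← hu']
  have := hHab _ hc _ hh
  calc (u : X) * c * h * ((u : X) * c)⁻¹ = (u : X) * (c * h) * (c : X)⁻¹ * (u : X)⁻¹ := by group
    _ = (u : X) * (h * c) * (c : X)⁻¹ * (u : X)⁻¹ := by rw [this]
    _ = _ := by group

theorem knorr_conj_eq (hcop : (Nat.card V).Coprime (Nat.card G))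
    (hcommV : ∀ a ∈ V, ∀ b ∈ V, a * b = b * a)
    (hGV : Subgroup.IsComplement' V G) (hv : v ∈ V)
    (hHG : H ≤ G) (hHv : ∀ c ∈ H, c * v = v * c) (hHv' : ∀ c ∈ G, c * v = v * c → c ∈ H)
    (hHab : ∀ a ∈ H, ∀ b ∈ H, a * b = b * a)
    {h h' : X} (hh : h ∈ H) (hh' : h' ∈ H) (e : IsConj (v * h) (v * h')) : h = h' := by
  obtain ⟨t, ht⟩ := isConj_iff.1 e
  obtain ⟨u, hu, c, hc, -, h2⟩ := knorr_conj_decomp hcop hcommV hGV hv hHG hHv hHv' hHab hh hh' ht
  have h3 : h' * h⁻¹ ∈ V := by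
    rw [h2]
    have h4 : h * u⁻¹ * h⁻¹ ∈ V := Subgroup.Normal.conj_mem inferInstance _ (V.inv_mem hu) h
    have := V.mul_mem hu h4
    convert this using 1
    group
  have h5 : h' * h⁻¹ ∈ G := G.mul_mem (hHG hh') (G.inv_mem (hHG hh))
  have h6 := Subgroup.disjoint_def.1 hGV.disjoint h3 h5
  exact (mul_inv_eq_one.1 h6).symm

theorem knorr_card_centralizer (hcop : (Nat.card V).Coprime (Nat.card G))
    (hcommV : ∀ a ∈ V, ∀ b ∈ V, a * b = b * a)
    (hGV : Subgroup.IsComplement' V G) (hv : v ∈ V)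
    (hHG : H ≤ G) (hHv : ∀ c ∈ H, c * v = v * c) (hHv' : ∀ c ∈ G, c * v = v * c → c ∈ H)
    (hHab : ∀ a ∈ H, ∀ b ∈ H, a * b = b * a) {h : X} (hh : h ∈ H) :
    Nat.card (Subgroup.centralizer ({v * h} : Set X)) =
      Nat.card {u : V // h * u = u * h} * Nat.card H := by
  rw [← Nat.card_prod]
  symm
  have hmem : ∀ x : {u : V // h * u = u * h} × H,
      ((x.1 : V) : X) * ((x.2 : H) : X) ∈ Subgroup.centralizer ({v * h} : Set X) := by
    rintro ⟨⟨u, hu⟩, ⟨a, ha⟩⟩
    rw [Subgroup.mem_centralizer_singleton_iff]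
    show (u : X) * a * (v * h) = v * h * ((u : X) * a)
    have h1 : Commute (u : X) (v * h) := Commute.mul_right (hcommV _ u.2 _ hv) (hu.symm)
    have h2 : Commute a (v * h) := Commute.mul_right (hHv a ha) (hHab a ha h hh)
    exact (h1.mul_left h2).eq
  refine Nat.card_congr (Equiv.ofBijective (fun x => ⟨_, hmem x⟩) ⟨?_, ?_⟩)
  · rintro ⟨⟨u, hu⟩, ⟨a, ha⟩⟩ ⟨⟨u', hu'⟩, ⟨a', ha'⟩⟩ heq
    have h1 : (u : X) * a = (u' : X) * a' := congrArg Subtype.val heq
    have h2 : ((u, (⟨a, hHG ha⟩ : G)) : V × G) = (u', (⟨a', hHG ha'⟩ : G)) := hGV.1 h1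
    simp only [Prod.mk.injEq, Subtype.mk.injEq] at h2
    obtain ⟨rfl, rfl⟩ := h2
    rfl
  · rintro ⟨t, ht⟩
    rw [Subgroup.mem_centralizer_singleton_iff] at ht
    have h0 : t * (v * h) * t⁻¹ = v * h := by
      rw [ht]; group
    obtain ⟨u, hu, c, hc, h2, h3⟩ :=
      knorr_conj_decomp hcop hcommV hGV hv hHG hHv hHv' hHab hh hh h0
    refine ⟨⟨⟨⟨u, hu⟩, ?_⟩, ⟨c, hc⟩⟩, Subtype.ext h2.symm⟩
    show h * u = u * h
    have := h3
    rw [eq_mul_inv_iff_mul_eq] at this
    exact this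

end Setup

theorem hom_avg {H : Type*} [Group H] [Fintype H] (l : H →* ℂˣ) [Decidable (l = 1)] :
    (Nat.card H : ℂ)⁻¹ * ∑ h : H, ((l h : ℂˣ) : ℂ) = if l = 1 then 1 else 0 := by
  have hn : (Nat.card H : ℂ) ≠ 0 := by
    exact_mod_cast Nat.card_pos.ne'
  split_ifs with h
  · subst h
    simp only [MonoidHom.one_apply, Units.val_one, Finset.sum_const, Finset.card_univ,
      nsmul_eq_mul, mul_one]
    rw [← Nat.card_eq_fintype_card]
    exact inv_mul_cancel₀ hn
  · have hf : (Units.coeHom ℂ).comp l ≠ 1 := by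
      intro h1
      apply h
      ext x
      have := DFunLike.congr_fun h1 x
      simpa using this
    have := sum_hom_units_eq_zero _ hf
    simp only [MonoidHom.comp_apply, Units.coeHom_apply] at this
    rw [this, mul_zero]

/-- The main theorem. -/
theorem knorr_bound {X : Type u} [Group X] [Finite X] (p : ℕ) [Fact p.Prime] (V : Subgroup X)
    [V.Normal] (hVexp : ∀ v ∈ V, v ^ p = 1) (hidx : ¬ p ∣ V.index)
    (hself : Subgroup.centralizer (V : Set X) = V) (G : Subgroup X)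
    (hGV : Subgroup.IsComplement' V G) (v : X) (hv : v ∈ V)
    (H : Subgroup X) (hHG : H ≤ G) (hHv : ∀ c ∈ H, c * v = v * c)
    (hHv' : ∀ c ∈ G, c * v = v * c → c ∈ H)
    (hHab : ∀ a ∈ H, ∀ b ∈ H, a * b = b * a) :
    Nat.card (ConjClasses X) ≤ Nat.card V := by
  classical
  have hpp : p.Prime := Fact.out
  haveI : NeZero p := ⟨hpp.ne_zero⟩
  haveI := Fintype.ofFinite X
  haveI := Fintype.ofFinite H
  haveI : Fintype (IrrCharacter X) := Fintype.ofFinite _
  have hcommV : ∀ a ∈ V, ∀ b ∈ V, a * b = b * a := by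
    intro a ha b hb
    have hb' : b ∈ Subgroup.centralizer (V : Set X) := by rw [hself]; exact hb
    exact (Subgroup.mem_centralizer_iff.1 hb') a ha
  have hidxG : V.index = Nat.card G := hGV.symm.index_eq_card
  have hcopG : ¬ p ∣ Nat.card G := by rwa [← hidxG]
  have hcopH : ¬ p ∣ Nat.card H := fun h => hcopG (h.trans (Subgroup.card_dvd_of_le hHG))
  have hcop : (Nat.card V).Coprime (Nat.card G) := by
    have hP : IsPGroup p V := fun x => ⟨1, by
      apply Subtype.ext
      simpa using hVexp _ x.2⟩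
    obtain ⟨k, hk⟩ := IsPGroup.iff_card.1 hP
    rw [hk]
    exact Nat.Coprime.pow_left k ((Nat.Prime.coprime_iff_not_dvd hpp).2 hcopG)
  have hfaith : ∀ h : H, h ≠ 1 → ∃ u : V, (h : X) * u ≠ u * h := by
    intro h hh
    by_contra hcon
    push Not at hcon
    apply hh
    have h1 : (h : X) ∈ Subgroup.centralizer (V : Set X) := by
      rw [Subgroup.mem_centralizer_iff]
      intro u hu
      exact (hcon ⟨u, hu⟩).symm
    rw [hself] at h1
    exact Subtype.ext (Subgroup.disjoint_def.1 hGV.disjoint h1 (hHG h.2))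
  obtain ⟨γ, ⟨J, _, c, ω, hc, hexp⟩, hnorm, hone, hloc⟩ :=
    exists_gauss_conj p V hVexp hcommV H hHab hcopH
  have hn : (Nat.card H : ℂ) ≠ 0 := by
    exact_mod_cast Nat.card_pos.ne'
  let L : IrrCharacter X → ℂ := fun χ =>
    (Nat.card H : ℂ)⁻¹ * ∑ h : H, γ h * (χ : X → ℂ) (v * h)
  -- the second moment
  have hsum : ∑ χ, ‖L χ‖ ^ 2 = (Nat.card V : ℝ) := by
    have h1 : ∀ χ : IrrCharacter X, ((‖L χ‖ ^ 2 : ℝ) : ℂ) =
        (Nat.card H : ℂ)⁻¹ * (Nat.card H : ℂ)⁻¹ * ∑ h : H, ∑ h' : H,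
          (γ h * conj (γ h')) * ((χ : X → ℂ) (v * h) * conj ((χ : X → ℂ) (v * h'))) := by
      intro χ
      rw [← Complex.normSq_eq_norm_sq, ← Complex.mul_conj]
      simp only [L, map_mul, map_inv₀, map_natCast, map_sum]
      rw [mul_mul_mul_comm, Finset.sum_mul_sum]
      refine congrArg _ (Finset.sum_congr rfl fun h _ => Finset.sum_congr rfl fun h' _ => ?_)
      ring
    have h2 : ((∑ χ, ‖L χ‖ ^ 2 : ℝ) : ℂ) = (Nat.card V : ℂ) := by
      push_cast
      have h1' : ∀ χ : IrrCharacter X, ((‖L χ‖ : ℂ)) ^ 2 = ((‖L χ‖ ^ 2 : ℝ) : ℂ) := by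
        intro χ
        push_cast
        rfl
      simp only [h1', h1]
      rw [← Finset.mul_sum, Finset.sum_comm]
      have h3 : ∀ h : H, ∑ χ : IrrCharacter X, ∑ h' : H,
          (γ h * conj (γ h')) * ((χ : X → ℂ) (v * h) * conj ((χ : X → ℂ) (v * h'))) =
          (Nat.card V : ℂ) * (Nat.card H : ℂ) := by
        intro h
        rw [Finset.sum_comm]
        rw [Finset.sum_eq_single h]
        · rw [← Finset.mul_sum, column_orthogonality_of_isConj (IsConj.refl _),
            knorr_card_centralizer hcop hcommV hGV hv hHG hHv hHv' hHab h.2,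
            Complex.mul_conj, Complex.normSq_eq_norm_sq]
          have := hnorm h
          have h4 : (((‖γ h‖ ^ 2 * (Nat.card {u : V // (h : X) * u = u * h} : ℝ) : ℝ)) : ℂ) =
              (Nat.card V : ℂ) := by
            rw [this]
            push_cast
            rfl
          push_cast at h4 ⊢
          rw [← h4]
          ring
        · intro h' _ hne
          rw [← Finset.mul_sum, column_orthogonality_of_not_isConj, mul_zero]
          intro hcon
          exact hne (Subtype.ext (knorr_conj_eq hcop hcommV hGV hv hHG hHv hHv' hHab h.2 h'.2 hcon).symm)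
        · simp
      rw [Finset.sum_congr rfl fun h _ => h3 h]
      simp only [Finset.sum_const, Finset.card_univ, nsmul_eq_mul]
      rw [← Nat.card_eq_fintype_card]
      field_simp
    exact_mod_cast h2
  -- nonvanishing
  have hne : ∀ χ, L χ ≠ 0 := by
    intro χ h0
    have h1 : ∑ h : H, γ h * (χ : X → ℂ) (v * h) = 0 := by
      have := (mul_eq_zero.1 h0).resolve_left (inv_ne_zero hn)
      exact this
    obtain ⟨M, hM⟩ := exists_pModular hpp
    haveI : M.IsPrime := hM.2.1.isPrime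
    have hχ := isCharacter_of_irr χ.2
    have h2 := Finset.add_sum_erase Finset.univ (fun h : H => γ h * (χ : X → ℂ) (v * h))
      (Finset.mem_univ 1)
    rw [h1] at h2
    have h3 : MemLocalIdeal M (∑ h ∈ Finset.univ.erase (1 : H), γ h * (χ : X → ℂ) (v * h)) := by
      refine mli_sum _ _ fun h hh => ?_
      exact mli_mul_right (hloc h (hfaith h (Finset.ne_of_mem_erase hh)) M hM)
        (mlr_of_isIntegral (isCharacter_isIntegral hχ _))
    have h4 : MemLocalIdeal M (γ 1 * (χ : X → ℂ) v) := by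
      have h5 : γ 1 * (χ : X → ℂ) v =
          -(∑ h ∈ Finset.univ.erase (1 : H), γ h * (χ : X → ℂ) (v * h)) := by
        have h6 : γ 1 * (χ : X → ℂ) (v * ((1 : H) : X)) +
            (∑ h ∈ Finset.univ.erase (1 : H), γ h * (χ : X → ℂ) (v * h)) = 0 := h2
        rw [Subgroup.coe_one, mul_one] at h6
        exact eq_neg_of_add_eq_zero_left h6
      rw [h5]
      exact mli_neg h3
    have h5 : MemLocalIdeal M ((χ : X → ℂ) v) := by
      rcases hone with h6 | h6
      · rwa [h6, one_mul] at h4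
      · rw [h6, neg_one_mul] at h4
        simpa using mli_neg h4
    have hov : ∃ j, orderOf v = p ^ j := by
      have h6 : orderOf v ∣ p := orderOf_dvd_of_pow_eq_one (hVexp v hv)
      rcases (Nat.dvd_prime hpp).1 h6 with h7 | h7
      · exact ⟨0, by simpa using h7⟩
      · exact ⟨1, by simpa using h7⟩
    obtain ⟨j, hj⟩ := hov
    obtain ⟨a, ha, hae⟩ := character_sub_degree_mem hM hχ hj
    have h6 : MemLocalIdeal M (a : ℂ) := mli_of_mem ha
    rw [hae] at h6
    have h7 : MemLocalIdeal M (charDegree (χ : X → ℂ) : ℂ) := by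
      have := mli_sub h5 h6
      simpa using this
    have h8 := (mli_natCast_iff hM _).1 h7
    exact hidx (h8.trans (ito_dvd χ.2 V hcommV))
  -- integrality
  have hζ := Complex.isPrimitiveRoot_exp p hpp.ne_zero
  set ζ := Complex.exp (2 * ↑Real.pi * Complex.I / ↑p) with hζdef
  have hroot : ∀ χ, RootSum ζ (L χ) := by
    intro χ
    let Z := Subgroup.zpowers v
    haveI : Fintype Z := Fintype.ofFinite _
    have hcZH : ∀ (z : Z) (h : H), Commute (z : X) (h : X) := by
      rintro ⟨z, hz⟩ ⟨h, hh⟩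
      obtain ⟨k, rfl⟩ := Subgroup.mem_zpowers_iff.1 hz
      exact Commute.zpow_left (hHv h hh).symm k
    let f : Z × H →* X := MonoidHom.noncommCoprod Z.subtype H.subtype hcZH
    have hf : ∀ (z : Z) (h : H), f (z, h) = (z : X) * h := fun _ _ => rfl
    have hψ := isCharacter_comp f (isCharacter_of_irr χ.2)
    have hA : ∀ a b : Z × H, a * b = b * a := by
      rintro ⟨a, h⟩ ⟨b, k⟩
      refine Prod.ext ?_ (Subtype.ext (hHab _ h.2 _ k.2))
      obtain ⟨a, ha⟩ := a
      obtain ⟨b, hb⟩ := b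
      obtain ⟨k, rfl⟩ := Subgroup.mem_zpowers_iff.1 ha
      obtain ⟨l, rfl⟩ := Subgroup.mem_zpowers_iff.1 hb
      exact Subtype.ext (Commute.zpow_zpow_self v k l)
    haveI : Fintype (IrrCharacter (Z × H)) := Fintype.ofFinite _
    obtain ⟨m, hm, -⟩ := isCharacter_decomp hψ
    have hlin : ∀ τ : IrrCharacter (Z × H), ∃ l : Z × H →* ℂˣ, ∀ g, ((l g : ℂˣ) : ℂ) = (τ : Z × H → ℂ) g :=
      fun τ => H06.Brauer.exists_hom_of_linear (isCharacter_of_irr τ.2)
        (irr_degree_one_of_comm hA τ.2)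
    choose l hl using hlin
    let vh : Z := ⟨v, Subgroup.mem_zpowers v⟩
    let res : IrrCharacter (Z × H) → (H →* ℂˣ) := fun τ => (l τ).comp (MonoidHom.inr Z H)
    let a : IrrCharacter (Z × H) → ℂ := fun τ => ((l τ (vh, 1) : ℂˣ) : ℂ)
    have hχval : ∀ h : H, (χ : X → ℂ) (v * h) = ∑ τ, (m τ : ℂ) * a τ * ((res τ h : ℂˣ) : ℂ) := by
      intro h
      have h1 : (χ : X → ℂ) (v * h) = ((χ : X → ℂ) ∘ f) (vh, h) := rfl
      rw [h1, hm]
      rw [Finset.sum_apply]
      refine Finset.sum_congr rfl fun τ _ => ?_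
      rw [Pi.smul_apply, nsmul_eq_mul, ← hl τ]
      have h2 : ((vh, h) : Z × H) = (vh, 1) * (1, h) := by simp
      rw [h2, map_mul, Units.val_mul, mul_assoc]
      rfl
    have hLform : L χ = ∑ τ, ∑ j, ((m τ : ℂ) * a τ * c j) *
        (if ω j * res τ = 1 then 1 else 0) := by
      simp only [← hom_avg]
      show (Nat.card H : ℂ)⁻¹ * ∑ h : H, γ h * (χ : X → ℂ) (v * h) = _
      have h1 : ∀ h : H, γ h * (χ : X → ℂ) (v * h) = ∑ τ, ∑ j,
          ((m τ : ℂ) * a τ * c j) * (((ω j * res τ) h : ℂˣ) : ℂ) := by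
        intro h
        rw [hexp, hχval, Finset.sum_mul_sum, Finset.sum_comm]
        refine Finset.sum_congr rfl fun τ _ => Finset.sum_congr rfl fun j _ => ?_
        simp only [MonoidHom.mul_apply, Units.val_mul]
        ring
      simp only [h1]
      rw [Finset.sum_comm, Finset.mul_sum]
      refine Finset.sum_congr rfl fun τ _ => ?_
      rw [Finset.sum_comm, Finset.mul_sum]
      refine Finset.sum_congr rfl fun j _ => ?_
      rw [← Finset.mul_sum, mul_left_comm]
    rw [hLform]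
    refine RootSum.sum _ _ fun τ _ => RootSum.sum _ _ fun j _ => ?_
    have hap : a τ ^ p = 1 := by
      show ((l τ (vh, 1) : ℂˣ) : ℂ) ^ p = 1
      rw [← Units.val_pow_eq_pow_val, ← map_pow]
      have h2 : ((vh, 1) : Z × H) ^ p = 1 := by
        rw [Prod.pow_mk, one_pow]
        have h3 : vh ^ p = 1 := Subtype.ext (by simpa [vh] using hVexp v hv)
        rw [h3]
        rfl
      rw [h2, map_one, Units.val_one]
    refine RootSum.mul (RootSum.mul (RootSum.mul (RootSum.natCast _ _) ?_) ?_) ?_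
    · exact RootSum.of_pow_eq_one hζ hpp.ne_zero hap
    · exact RootSum.of_pow_eq_one hζ hpp.ne_zero (hc j)
    · split_ifs
      · exact RootSum.one _
      · exact RootSum.zero _
  have hfin := card_le_of_rootSums hζ L hroot hne _ hsum
  rw [← card_irr_eq_card_conjClasses, Nat.card_eq_fintype_card]
  exact hfin

end Cfsg.Agent.H23
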