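import Cfsg.Agent.Lib.H23.SchurC

/-!
# Orbit sums of the power twists
-/

set_option autoImplicit false
set_option linter.unusedSectionVars false
set_option linter.style.haveILetI false
set_option linter.unusedSimpArgs false

namespace Cfsg.Agent.H23.FO

open Cfsg Cfsg.Agent Cfsg.Agent.H21 Cfsg.Agent.H06 Module
open scoped ComplexConjugate

universe u

/-- The target sum. -/
def SS (p N x : ℕ) : ℕ := ∑ i ∈ Finset.range (N + 1), x / ((p - 1) * p ^ i)

theorem SS_add (p N x y : ℕ) : SS p N x + SS p N y ≤ SS p N (x + y) := by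
  unfold SS
  rw [← Finset.sum_add_distrib]
  exact Finset.sum_le_sum fun i _ => Nat.div_add_div_le_add_div

theorem geom_aux (p m : ℕ) (hp : 1 ≤ p) :
    (p - 1) * (∑ j ∈ Finset.range m, p ^ j) + 1 = p ^ m := by
  induction m with
  | zero => simp
  | succ m ih =>
    obtain ⟨q, rfl⟩ : ∃ q, p = q + 1 := ⟨p - 1, by omega⟩
    simp only [Nat.add_sub_cancel] at ih ⊢
    rw [Finset.sum_range_succ, pow_succ, ← ih]
    ring

theorem geom_aux2 (p b t : ℕ) (hp : 1 ≤ p) :
    (∑ j ∈ Finset.range b, p ^ j) + (t + 1) * p ^ b ≤ ∑ j ∈ Finset.range (b + t + 1), p ^ j := by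
  induction t with
  | zero =>
    rw [Nat.add_zero, Finset.sum_range_succ]
    simp
  | succ t ih =>
    rw [show b + (t + 1) + 1 = (b + t + 1) + 1 by ring, Finset.sum_range_succ]
    have h1 : p ^ b ≤ p ^ (b + t + 1) := Nat.pow_le_pow_right hp (by omega)
    nlinarith

theorem arith_schur (p a b t N : ℕ) (hp : p.Prime)
    (h1 : (p - 1) * a ≤ (p ^ b - 1) + (p - 1) * (t + 1) * p ^ b)
    (h2 : (p - 1) * p ^ t * p ^ b ≤ N) : a ≤ SS p N ((p - 1) * p ^ t * p ^ b) := by
  have hq : 0 < p - 1 := Nat.sub_pos_of_lt hp.one_lt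
  have hp1 : 1 ≤ p := hp.one_lt.le
  have h3 : a ≤ ∑ j ∈ Finset.range (b + t + 1), p ^ j := by
    have h4 := geom_aux p b hp1
    have h5 : p ^ b - 1 = (p - 1) * (∑ j ∈ Finset.range b, p ^ j) := by
      rw [← h4]
      simp
    rw [h5] at h1
    have h6 := geom_aux2 p b t hp1
    have h7 : (p - 1) * a ≤ (p - 1) * ∑ j ∈ Finset.range (b + t + 1), p ^ j := by
      refine h1.trans ?_
      have := Nat.mul_le_mul_left (p - 1) h6
      rw [mul_add] at this
      calc _ = (p - 1) * (∑ j ∈ Finset.range b, p ^ j) + (p - 1) * ((t + 1) * p ^ b) := by ring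
        _ ≤ _ := this
    exact Nat.le_of_mul_le_mul_left h7 hq
  refine h3.trans ?_
  have hbt : b + t < N + 1 := by
    have h4 : b + t < p ^ (b + t) := Nat.lt_pow_self hp.one_lt
    have h5 : p ^ (b + t) ≤ (p - 1) * p ^ t * p ^ b := by
      rw [pow_add, mul_comm (p ^ b), mul_assoc]
      exact Nat.le_mul_of_pos_left _ hq
    omega
  unfold SS
  calc ∑ j ∈ Finset.range (b + t + 1), p ^ j
      = ∑ j ∈ Finset.range (b + t + 1), p ^ (b + t + 1 - 1 - j) :=
        (Finset.sum_range_reflect (fun j => p ^ j) (b + t + 1)).symm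
    _ = ∑ i ∈ Finset.range (b + t + 1), ((p - 1) * p ^ t * p ^ b) / ((p - 1) * p ^ i) := by
        refine Finset.sum_congr rfl fun i hi => ?_
        have hi' : i ≤ b + t := by
          have := Finset.mem_range.1 hi
          omega
        have h6 : (p - 1) * p ^ t * p ^ b = ((p - 1) * p ^ i) * p ^ (b + t - i) := by
          have h7 : p ^ t * p ^ b = p ^ i * p ^ (b + t - i) := by
            rw [← pow_add, ← pow_add]
            congr 1
            omega
          rw [mul_assoc, h7, mul_assoc]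
        rw [h6, Nat.mul_div_cancel_left _ (Nat.mul_pos hq (pow_pos hp.pos _))]
        simp
    _ ≤ _ := Finset.sum_le_sum_of_subset (Finset.range_subset_range.2 (by omega))

section Twist

variable {P : Type u} [Group P] [Fintype P] {n : ℕ} [NeZero n]

theorem tw_mul (hP : ∀ g : P, g ^ n = 1) (u v : (ZMod n)ˣ) (φ : P → ℂ) :
    tw n u (tw n v φ) = tw n (u * v) φ := by
  funext g
  rw [tw_apply, tw_apply, tw_apply, pow_val_mul hP, ← pow_mul, ← pow_mul, mul_comm]

theorem tw_one (hP : ∀ g : P, g ^ n = 1) (φ : P → ℂ) : tw n 1 φ = φ := by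
  funext g
  rw [tw_apply, pow_val_one hP]

theorem tw_coprime (hn : n = Nat.card P) (u : (ZMod n)ˣ) : ((u : ZMod n).val).Coprime (Nat.card P) := by
  rw [← hn]
  exact val_coprime u

theorem tw_irr (hn : n = Nat.card P) (u : (ZMod n)ˣ) {τ : P → ℂ} (hτ : IsIrrCharacter P τ) :
    IsIrrCharacter P (tw n u τ) :=
  isIrrCharacter_comp_pow (tw_coprime hn u) hτ

theorem tw_at_one (u : (ZMod n)ˣ) (τ : P → ℂ) : tw n u τ 1 = τ 1 := by
  rw [tw_apply, one_pow]

/-- Power-invariance. -/
def PInv (n : ℕ) [NeZero n] (φ : P → ℂ) : Prop := ∀ u : (ZMod n)ˣ, tw n u φ = φ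

theorem inner_tw (hn : n = Nat.card P) {φ : P → ℂ} (hφ : PInv n φ) (u : (ZMod n)ˣ) (τ : P → ℂ) :
    classInner φ (tw n u τ) = classInner φ τ := by
  unfold classInner
  congr 1
  have hk := tw_coprime hn u
  have h1 : ∀ g : P, φ g = φ (g ^ ((u : ZMod n).val)) := fun g => by
    conv_lhs => rw [← hφ u]
    rfl
  have h2 := Equiv.sum_comp (powCoprime hk.symm) (fun g => φ g * conj (τ g))
  rw [← h2]
  refine Finset.sum_congr rfl fun g _ => ?_
  rw [tw_apply, h1 g]
  rfl

open Classical in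
/-- The orbit. -/
noncomputable def orb (n : ℕ) [NeZero n] (τ : P → ℂ) : Finset (P → ℂ) :=
  (Finset.univ : Finset (ZMod n)ˣ).image fun u => tw n u τ

theorem mem_orb {τ η : P → ℂ} : η ∈ orb n τ ↔ ∃ u : (ZMod n)ˣ, tw n u τ = η := by
  classical
  simp [orb]

theorem card_orb (hP : ∀ g : P, g ^ n = 1) (τ : P → ℂ) : (orb n τ).card = (Sb hP τ).index := by
  classical
  rw [index_Sb, ← Set.ncard_coe_finset]
  congr 1
  ext η
  simp [mem_orb]

/-- The orbit sum. -/
noncomputable def orbSum (n : ℕ) [NeZero n] (τ : P → ℂ) : P → ℂ := ∑ η ∈ orb n τ, η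

theorem orbSum_apply (τ : P → ℂ) (g : P) : orbSum n τ g = ∑ η ∈ orb n τ, η g := by
  simp [orbSum, Finset.sum_apply]

theorem orbSum_at_one (τ : P → ℂ) : orbSum n τ 1 = (orb n τ).card * τ 1 := by
  rw [orbSum_apply, Finset.sum_congr rfl (g := fun _ => τ 1)]
  · simp
  · intro η hη
    obtain ⟨u, rfl⟩ := mem_orb.1 hη
    exact tw_at_one u τ

theorem tw_injective (hP : ∀ g : P, g ^ n = 1) (u : (ZMod n)ˣ) :
    Function.Injective (tw n u : (P → ℂ) → (P → ℂ)) := by
  intro a b h
  have h2 := congrArg (tw n u⁻¹) h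
  rwa [tw_mul hP, tw_mul hP, inv_mul_cancel, tw_one hP, tw_one hP] at h2

theorem orbSum_inv (hP : ∀ g : P, g ^ n = 1) (τ : P → ℂ) : PInv n (orbSum n τ) := by
  classical
  intro u
  funext g
  rw [tw_apply, orbSum_apply, orbSum_apply]
  have h1 : orb n τ = (orb n τ).image (tw n u) := by
    ext η
    simp only [Finset.mem_image, mem_orb]
    constructor
    · rintro ⟨v, rfl⟩
      refine ⟨tw n (u⁻¹ * v) τ, ⟨_, rfl⟩, ?_⟩
      rw [tw_mul hP, mul_inv_cancel_left]
    · rintro ⟨_, ⟨v, rfl⟩, rfl⟩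
      exact ⟨u * v, (tw_mul hP u v τ).symm⟩
  conv_rhs => rw [h1]
  rw [Finset.sum_image (fun a _ b _ h => tw_injective hP u h)]
  rfl

theorem orb_irr (hn : n = Nat.card P) {τ η : P → ℂ} (hτ : IsIrrCharacter P τ) (h : η ∈ orb n τ) :
    IsIrrCharacter P η := by
  obtain ⟨u, rfl⟩ := mem_orb.1 h
  exact tw_irr hn u hτ

theorem inner_orbSum (hn : n = Nat.card P) {τ : P → ℂ} (hτ : IsIrrCharacter P τ) (ξ : IrrCharacter P) :
    classInner (orbSum n τ) ξ.1 = if ξ.1 ∈ orb n τ then 1 else 0 := by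
  classical
  unfold orbSum
  rw [classInner_sum_left]
  split_ifs with h
  · rw [Finset.sum_eq_single ξ.1]
    · exact classInner_irr_self ξ.2
    · intro η hη hne
      exact classInner_irr_ne (orb_irr hn hτ hη) ξ.2 hne
    · intro h'
      exact absurd h h'
  · refine Finset.sum_eq_zero fun η hη => ?_
    refine classInner_irr_ne (orb_irr hn hτ hη) ξ.2 ?_
    rintro rfl
    exact h hη

theorem orbSum_class (hn : n = Nat.card P) {τ : P → ℂ} (hτ : IsIrrCharacter P τ) :
    IsClassFunction P (orbSum n τ) := by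
  haveI : Fintype (IrrCharacter P) := Fintype.ofFinite _
  intro g k
  rw [orbSum_apply, orbSum_apply]
  refine Finset.sum_congr rfl fun η hη => ?_
  exact isCharacter_conj (isCharacter_of_irr (orb_irr hn hτ hη)) _ _

/-- Removing a complete orbit from a power-invariant character. -/
theorem sub_orbSum (hn : n = Nat.card P) (hP : ∀ g : P, g ^ n = 1) {φ τ : P → ℂ}
    (hφ : IsCharacter P φ) (hinv : PInv n φ) (hτ : IsIrrCharacter P τ) (hne : classInner φ τ ≠ 0) :
    IsCharacter P (φ - orbSum n τ) ∧ PInv n (φ - orbSum n τ) := by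
  classical
  haveI : Fintype (IrrCharacter P) := Fintype.ofFinite _
  constructor
  · refine isCharacter_of_inner_nat ?_ ?_
    · intro g k
      have h1 := isClassFunction_of_isCharacter hφ g k
      have h2 := orbSum_class hn hτ g k
      simp only [Pi.sub_apply]
      rw [h1, h2]
    · intro ξ
      have hsub : φ - orbSum n τ = φ + (-1 : ℂ) • orbSum n τ := by
        simp [sub_eq_add_neg]
      rw [hsub, classInner_add_left, classInner_smul_left, inner_orbSum hn hτ]
      split_ifs with h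
      · obtain ⟨u, hu⟩ := mem_orb.1 h
        rw [← hu, inner_tw hn hinv]
        obtain ⟨m, hm⟩ := classInner_isNat hφ ⟨τ, hτ⟩
        change classInner φ τ = _ at hm
        rw [hm] at hne ⊢
        have hm0 : m ≠ 0 := by
          rintro rfl
          simp at hne
        refine ⟨m - 1, ?_⟩
        rw [Nat.cast_sub (Nat.pos_of_ne_zero hm0)]
        push_cast
        ring
      · obtain ⟨m, hm⟩ := classInner_isNat hφ ξ
        exact ⟨m, by rw [hm]; ring⟩
  · intro u
    funext g
    have h1 := congrFun (hinv u) g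
    have h2 := congrFun (orbSum_inv hP τ u) g
    rw [tw_apply] at h1 h2 ⊢
    simp only [Pi.sub_apply]
    rw [h1, h2]

/-- The kernel of a sum. -/
theorem ker_sub (hn : n = Nat.card P) {φ τ : P → ℂ} (hφ : IsCharacter P φ)
    (hτ : IsIrrCharacter P τ) (hφ' : IsCharacter P (φ - orbSum n τ)) :
    charKer τ (isCharacter_of_irr hτ) ⊓ charKer _ hφ' ≤ charKer φ hφ := by
  intro g hg
  have h1 : τ g = τ 1 := (Subgroup.mem_inf.1 hg).1
  have h2 : (φ - orbSum n τ) g = (φ - orbSum n τ) 1 := (Subgroup.mem_inf.1 hg).2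
  rw [mem_charKer]
  have h3 : orbSum n τ g = orbSum n τ 1 := by
    rw [orbSum_apply, orbSum_apply]
    refine Finset.sum_congr rfl fun η hη => ?_
    obtain ⟨u, rfl⟩ := mem_orb.1 hη
    rw [tw_at_one, tw_apply]
    have h4 : g ^ ((u : ZMod n).val) ∈ charKer τ (isCharacter_of_irr hτ) :=
      Subgroup.pow_mem _ (by rw [mem_charKer]; exact h1) _
    exact h4
  simp only [Pi.sub_apply] at h2
  linear_combination h2 + h3

end Twist

end Cfsg.Agent.H23.FO
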