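import Cfsg.Agent.Lib.H23.TwoDegP
import Cfsg.Agent.Lib.H04.Cliff.BurnsideV

/-!
# A faithful irreducible character of prime degree `p` with `p² ∣ |G|`
-/

set_option autoImplicit false
set_option linter.unusedSectionVars false
set_option linter.style.haveILetI false
set_option linter.unusedSimpArgs false

namespace Cfsg.Agent.H23.TwoDeg

open Cfsg Cfsg.Agent.H21 Cfsg.Agent.H06
open scoped commutatorElement ComplexConjugate

universe u

section

variable {G : Type u} [Group G] [Fintype G]

/-- A character with a constituent of degree at least its degree is that constituent. -/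
theorem eq_of_deg_ge {π : G → ℂ} (hπ : IsCharacter G π) (θ : IrrCharacter G) {n : ℕ} (hn : π 1 = n)
    (hn0 : n ≠ 0) (hc : classInner π θ.1 ≠ 0) (hge : n ≤ charDegree θ.1) : π = θ.1 := by
  classical
  haveI : Fintype (IrrCharacter G) := Fintype.ofFinite _
  obtain ⟨m, hm, hm2⟩ := isCharacter_decomp hπ
  have hzero : ∀ ψ : IrrCharacter G, ψ ≠ θ → m ψ = 0 := by
    intro ψ hψ
    by_contra h0
    have h1 : classInner π ψ.1 ≠ 0 := by
      rw [hm2]
      exact_mod_cast h0
    have h2 := two_constituents hπ ψ θ hψ h1 hc hn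
    have h3 := irr_charDegree_pos ψ.2
    omega
  have hπθ : π = m θ • θ.1 := by
    rw [hm, Finset.sum_eq_single θ]
    · intro ψ _ hψ
      rw [hzero ψ hψ, zero_smul]
    · intro h
      exact absurd (Finset.mem_univ _) h
  have h1 : (n : ℂ) = m θ * charDegree θ.1 := by
    rw [← hn, hπθ]
    simp only [Pi.smul_apply, nsmul_eq_mul]
    rw [one_eq_charDegree (isCharacter_of_irr θ.2)]
  have h2 : n = m θ * charDegree θ.1 := by exact_mod_cast h1
  have h3 : m θ = 1 := by
    have h4 : m θ ≠ 0 := by
      intro h
      rw [h, zero_mul] at h2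
      exact hn0 h2
    have h5 : charDegree θ.1 * m θ ≤ charDegree θ.1 * 1 := by
      rw [mul_one, mul_comm, ← h2]
      exact hge
    have h6 := Nat.le_of_mul_le_mul_left h5 (irr_charDegree_pos θ.2)
    omega
  rw [hπθ, h3, one_smul]

end

/-- A group with a faithful irreducible character of prime degree `p` and `p² ∣ |G|` has nontrivial
centre. -/
theorem center_ne_bot_of_prime_degree {G : Type u} [Group G] [Finite G] (p : ℕ) (hp : p.Prime)
    (χ : IrrCharacter G) (hdeg : χ.1 1 = p) (hfaith : ∀ g : G, χ.1 g = χ.1 1 → g = 1)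
    (hdiv : p ^ 2 ∣ Nat.card G) : Subgroup.center G ≠ ⊥ := by
  classical
  haveI := Fintype.ofFinite G
  haveI : Fact p.Prime := ⟨hp⟩
  intro hZ
  have hχc := isCharacter_of_irr χ.2
  have hd : charDegree χ.1 = p := by
    have h1 := one_eq_charDegree hχc
    rw [hdeg] at h1
    exact_mod_cast h1.symm
  have hker : charKer χ.1 hχc = ⊥ := by
    rw [eq_bot_iff]
    intro g hg
    exact hfaith g hg
  obtain ⟨S⟩ : Nonempty (Sylow p G) := inferInstance
  have hS2 : p ^ 2 ∣ Nat.card (S : Subgroup G) := S.pow_dvd_card_of_pow_dvd_card hdiv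
  haveI hSn : Nontrivial (S : Subgroup G) := by
    rw [← Finite.one_lt_card_iff_nontrivial]
    have h1 : p ^ 2 ≤ Nat.card (S : Subgroup G) := Nat.le_of_dvd Nat.card_pos hS2
    have h2 : 1 < p ^ 2 := Nat.one_lt_pow two_ne_zero hp.one_lt
    omega
  have hSp : IsPGroup p (S : Subgroup G) := S.isPGroup'
  haveI hCn : Nontrivial (Subgroup.center (S : Subgroup G)) := hSp.center_nontrivial
  haveI : Fintype (S : Subgroup G) := Fintype.ofFinite _
  haveI : Fintype (Subgroup.center (S : Subgroup G)) := Fintype.ofFinite _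
  haveI : Fintype (IrrCharacter (S : Subgroup G)) := Fintype.ofFinite _
  haveI : Fintype (IrrCharacter (Subgroup.center (S : Subgroup G))) := Fintype.ofFinite _
  -- vanishing on the centre of `S`
  have hvan : ∀ a : Subgroup.center (S : Subgroup G), a ≠ 1 → χ.1 ((a : (S : Subgroup G)) : G) = 0 := by
    intro a ha
    have hle : (S : Subgroup G) ≤ Subgroup.centralizer ({((a : (S : Subgroup G)) : G)} : Set G) := by
      intro s hs
      rw [Subgroup.mem_centralizer_singleton_iff]
      have := (Subgroup.mem_center_iff.1 a.2) ⟨s, hs⟩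
      exact congrArg Subtype.val this
    have hdvd := Subgroup.index_dvd_of_le hle
    have hcop : Nat.Coprime (Subgroup.centralizer ({((a : (S : Subgroup G)) : G)} : Set G)).index
        (charDegree χ.1) := by
      rw [hd, Nat.coprime_comm, hp.coprime_iff_not_dvd]
      exact fun h => S.not_dvd_index (h.trans hdvd)
    rcases H04.Cliff.burnside_vanish χ _ hcop with h | h
    · exact h
    · exfalso
      apply ha
      have h1 := H04.Cliff.norm_eq_degree_one χ hker hZ h
      exact Subtype.ext (Subtype.ext h1)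
  -- the order of the centre of `S`
  have hcard : Nat.card (Subgroup.center (S : Subgroup G)) = p := by
    have hc1 : IsCharacter (Subgroup.center (S : Subgroup G))
        (fun a => χ.1 ((a : (S : Subgroup G)) : G)) :=
      isCharacter_restrict _ (isCharacter_restrict (S : Subgroup G) hχc)
    obtain ⟨k, hk⟩ := classInner_isNat hc1 (H22.oneIrr _)
    have h1 : classInner (fun a : Subgroup.center (S : Subgroup G) => χ.1 ((a : (S : Subgroup G)) : G))
        (H22.oneIrr _).1 = (Nat.card (Subgroup.center (S : Subgroup G)) : ℂ)⁻¹ * p := by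
      unfold classInner
      congr 1
      rw [Finset.sum_eq_single 1]
      · simp [H22.oneIrr, hdeg]
      · intro a _ ha
        show χ.1 ((a : (S : Subgroup G)) : G) * _ = 0
        rw [hvan a ha, zero_mul]
      · intro h
        exact absurd (Finset.mem_univ _) h
    rw [h1] at hk
    have h0 : (Nat.card (Subgroup.center (S : Subgroup G)) : ℂ) ≠ 0 := by
      exact_mod_cast Nat.card_pos.ne'
    have h2 : (p : ℂ) = k * Nat.card (Subgroup.center (S : Subgroup G)) := by
      rw [← hk]
      field_simp
    have h3 : p = k * Nat.card (Subgroup.center (S : Subgroup G)) := by exact_mod_cast h2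
    have h4 : Nat.card (Subgroup.center (S : Subgroup G)) ∣ p := Dvd.intro_left _ h3.symm
    rcases (Nat.dvd_prime hp).1 h4 with h5 | h5
    · exfalso
      have := Finite.one_lt_card_iff_nontrivial.2 hCn
      omega
    · exact h5
  obtain ⟨a₀, ha₀⟩ := exists_ne (1 : Subgroup.center (S : Subgroup G))
  -- all constituents are linear
  have hπ : IsCharacter (S : Subgroup G) (fun s => χ.1 s) := isCharacter_restrict _ hχc
  have hlin : ∀ θ : IrrCharacter (S : Subgroup G), classInner (fun s : (S : Subgroup G) => χ.1 s) θ.1 ≠ 0 →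
      charDegree θ.1 = 1 := by
    intro θ hθ
    by_contra hne
    obtain ⟨c, hc⟩ := IsPGroup.iff_card.1 hSp
    have h1 := H22.charDegree_dvd_card θ
    rw [hc] at h1
    obtain ⟨j, -, hj⟩ := (Nat.dvd_prime_pow hp).1 h1
    have hj0 : j ≠ 0 := by
      rintro rfl
      exact hne (by simpa using hj)
    have hge : p ≤ charDegree θ.1 := by
      rw [hj]
      exact Nat.le_self_pow hj0 p
    have hπθ := eq_of_deg_ge hπ θ (n := p) (by simpa using hdeg) hp.ne_zero hθ hge
    have h2 : (a₀ : (S : Subgroup G)) ∈ ZC θ := center_le_ZC θ a₀.2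
    rw [mem_ZC, ← hπθ] at h2
    have h3 : χ.1 ((a₀ : (S : Subgroup G)) : G) = 0 := hvan a₀ ha₀
    simp only at h2
    rw [h3, norm_zero] at h2
    have h4 : charDegree θ.1 ≠ 0 := (irr_charDegree_pos θ.2).ne'
    rw [← hπθ] at h4
    exact h4 (by exact_mod_cast h2.symm)
  have hab : ∀ s t : (S : Subgroup G), s * t = t * s := by
    intro s t
    have h1 := char_comm_eq hπ hlin
      (Subgroup.commutator_mem_commutator (Subgroup.mem_top s) (Subgroup.mem_top t))
    have h2 := hfaith _ h1
    have h3 : ⁅s, t⁆ = 1 := Subtype.ext h2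
    exact commutatorElement_eq_one_iff_mul_comm.1 h3
  have htop : Subgroup.center (S : Subgroup G) = ⊤ := by
    rw [eq_top_iff]
    intro s _
    rw [Subgroup.mem_center_iff]
    exact fun t => hab t s
  rw [htop, Subgroup.card_top] at hcard
  rw [hcard] at hS2
  have h5 : p ^ 2 ≤ p := Nat.le_of_dvd hp.pos hS2
  have h6 : p < p ^ 2 := by
    rw [sq]
    exact lt_mul_of_one_lt_left hp.pos hp.one_lt
  omega

end Cfsg.Agent.H23.TwoDeg
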