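import Cfsg.Agent.Lib.H23.DetReg
import Cfsg.Agent.Lib.H23.RealOver
import Cfsg.Agent.Lib.H22.CharCore
import Cfsg.Agent.Lib.H21.ModP
import Cfsg.Agent.Lib.H06.Coher
import Cfsg.Agent.Lib.H23.TISyl

/-!
# Self-centralizing elements of prime order
-/

set_option autoImplicit false
set_option linter.unusedSectionVars false
set_option linter.style.haveILetI false
set_option linter.unusedSimpArgs false

namespace Cfsg.Agent.H23.SelfCent

open scoped ComplexConjugate Pointwise
open Cfsg Cfsg.Agent.H21 Module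

universe u

section Basic

variable {G : Type u} [Group G] {p : ℕ} {x : G}

theorem gen_of_mem [Finite G] (hp : p.Prime) (hx : orderOf x = p) {y : G} (hy : y ∈ Subgroup.zpowers x) (hy1 : y ≠ 1) :
    x ∈ Subgroup.zpowers y := by
  have hpow : y ^ p = 1 := by
    obtain ⟨i, rfl⟩ := hy
    change (x ^ i) ^ p = 1
    rw [← zpow_natCast, zpow_comm, zpow_natCast, ← hx, pow_orderOf_eq_one, one_zpow]
  have hd : orderOf y ∣ p := orderOf_dvd_of_pow_eq_one hpow
  have hoy : orderOf y = p := by
    rcases (Nat.dvd_prime hp).1 hd with h | h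
    · exact absurd (orderOf_eq_one_iff.1 h) hy1
    · exact h
  have hle : Subgroup.zpowers y ≤ Subgroup.zpowers x := by
    rw [Subgroup.zpowers_le]; exact hy
  have heq : Subgroup.zpowers y = Subgroup.zpowers x := by
    apply Subgroup.eq_of_le_of_card_ge hle
    rw [Nat.card_zpowers, Nat.card_zpowers, hx, hoy]
  rw [heq]
  exact Subgroup.mem_zpowers x

theorem cent_eq [Finite G] (hp : p.Prime) (hx : orderOf x = p)
    (hC : Subgroup.centralizer ({x} : Set G) = Subgroup.zpowers x) {y : G}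
    (hy : y ∈ Subgroup.zpowers x) (hy1 : y ≠ 1) :
    Subgroup.centralizer ({y} : Set G) = Subgroup.zpowers x := by
  ext g
  rw [Subgroup.mem_centralizer_singleton_iff]
  constructor
  · intro h
    rw [← hC, Subgroup.mem_centralizer_singleton_iff]
    obtain ⟨i, hi⟩ := gen_of_mem hp hx hy hy1
    have hi' : x = y ^ i := hi.symm
    rw [hi']
    have : Commute g y := h
    exact (this.zpow_right i).eq
  · intro h
    obtain ⟨i, hi⟩ := h
    obtain ⟨j, hj⟩ := hy
    have hi' : g = x ^ i := hi.symm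
    have hj' : y = x ^ j := hj.symm
    rw [hi', hj']
    exact ((Commute.refl x).zpow_zpow i j).eq

/-- Conjugation between nontrivial elements of `⟨x⟩` normalises `⟨x⟩`. -/
theorem mem_norm [Finite G] (hp : p.Prime) (hx : orderOf x = p)
    (hC : Subgroup.centralizer ({x} : Set G) = Subgroup.zpowers x) {y g : G}
    (hy : y ∈ Subgroup.zpowers x) (hy1 : y ≠ 1) (hz : g * y * g⁻¹ ∈ Subgroup.zpowers x) :
    g ∈ Subgroup.normalizer ((Subgroup.zpowers x : Subgroup G) : Set G) := by
  have hz1 : g * y * g⁻¹ ≠ 1 := by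
    intro h
    apply hy1
    have : y = g⁻¹ * (g * y * g⁻¹) * g := by group
    rw [this, h]; group
  have h1 := cent_eq hp hx hC hy hy1
  have h2 := cent_eq hp hx hC hz hz1
  rw [Subgroup.mem_normalizer_iff]
  intro h
  constructor
  · intro hh
    rw [← h1, Subgroup.mem_centralizer_singleton_iff] at hh
    rw [← h2, Subgroup.mem_centralizer_singleton_iff]
    calc g * h * g⁻¹ * (g * y * g⁻¹) = g * (h * y) * g⁻¹ := by group
      _ = g * (y * h) * g⁻¹ := by rw [hh]
      _ = _ := by group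
  · intro hh
    rw [← h2, Subgroup.mem_centralizer_singleton_iff] at hh
    rw [← h1, Subgroup.mem_centralizer_singleton_iff]
    have h3 : g * (h * y) * g⁻¹ = g * (y * h) * g⁻¹ := by
      calc g * (h * y) * g⁻¹ = g * h * g⁻¹ * (g * y * g⁻¹) := by group
        _ = g * y * g⁻¹ * (g * h * g⁻¹) := hh
        _ = _ := by group
    exact mul_left_cancel (mul_right_cancel h3)

/-- The subgroup `⟨x⟩` is a Sylow subgroup: any Sylow subgroup containing it is equal to it. -/
theorem sylow_eq [Finite G] (hp : p.Prime) (hx : orderOf x = p)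
    (hC : Subgroup.centralizer ({x} : Set G) = Subgroup.zpowers x) [Fact p.Prime] (S : Sylow p G)
    (hS : Subgroup.zpowers x ≤ (S : Subgroup G)) : (S : Subgroup G) = Subgroup.zpowers x := by
  apply le_antisymm _ hS
  have hx1 : x ≠ 1 := by
    rintro rfl
    rw [orderOf_one] at hx
    exact hp.one_lt.ne hx
  have hnt : Nontrivial (S : Subgroup G) := by
    refine ⟨⟨⟨x, hS (Subgroup.mem_zpowers x)⟩, 1, fun h => hx1 ?_⟩⟩
    exact congrArg Subtype.val h
  haveI := S.isPGroup'.center_nontrivial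
  obtain ⟨z, hz⟩ := exists_ne (1 : Subgroup.center (S : Subgroup G))
  set z₀ : G := ((z : (S : Subgroup G)) : G) with hz₀
  have hz₀1 : z₀ ≠ 1 := by
    intro h
    apply hz
    exact Subtype.ext (Subtype.ext h)
  have hcomm : ∀ s : (S : Subgroup G), (s : G) * z₀ = z₀ * s := by
    intro s
    have := (Subgroup.mem_center_iff.1 z.2) s
    exact congrArg Subtype.val this
  have hz₀x : z₀ ∈ Subgroup.zpowers x := by
    rw [← hC, Subgroup.mem_centralizer_singleton_iff]
    exact (hcomm ⟨x, hS (Subgroup.mem_zpowers x)⟩).symm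
  intro s hs
  rw [← cent_eq hp hx hC hz₀x hz₀1, Subgroup.mem_centralizer_singleton_iff]
  exact hcomm ⟨s, hs⟩

/-- Every element of order `p` has a conjugate in `⟨x⟩`. -/
theorem exists_conj_mem [Finite G] (hp : p.Prime) (hx : orderOf x = p)
    (hC : Subgroup.centralizer ({x} : Set G) = Subgroup.zpowers x) {y : G} (hy : orderOf y = p) :
    ∃ g : G, g * y * g⁻¹ ∈ Subgroup.zpowers x := by
  haveI : Fact p.Prime := ⟨hp⟩
  have h1 : IsPGroup p (Subgroup.zpowers x) := by
    intro g
    refine ⟨1, ?_⟩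
    rw [pow_one]
    have : (g : G) ^ p = 1 := by
      obtain ⟨g, i, rfl⟩ := g
      change (x ^ i) ^ p = 1
      rw [← zpow_natCast, zpow_comm, zpow_natCast, ← hx, pow_orderOf_eq_one, one_zpow]
    exact Subtype.ext this
  have h2 : IsPGroup p (Subgroup.zpowers y) := by
    intro g
    refine ⟨1, ?_⟩
    rw [pow_one]
    have : (g : G) ^ p = 1 := by
      obtain ⟨g, i, rfl⟩ := g
      change (y ^ i) ^ p = 1
      rw [← zpow_natCast, zpow_comm, zpow_natCast, ← hy, pow_orderOf_eq_one, one_zpow]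
    exact Subtype.ext this
  obtain ⟨S, hS⟩ := h1.exists_le_sylow
  obtain ⟨S', hS'⟩ := h2.exists_le_sylow
  obtain ⟨g, hg⟩ := MulAction.exists_smul_eq G S' S
  refine ⟨g, ?_⟩
  rw [← sylow_eq hp hx hC S hS, ← hg, Sylow.coe_subgroup_smul, Cfsg.Agent.H23.TISyl.mem_conj_smul]
  have : g⁻¹ * (g * y * g⁻¹) * g = y := by group
  rw [this]
  exact hS' (Subgroup.mem_zpowers y)

end Basic

section Count

variable {G : Type u} [Group G] [Fintype G] {p : ℕ} {x : G}

open Classical in
/-- The nontrivial elements of `⟨x⟩`. -/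
noncomputable def AA (x : G) : Finset G :=
  Finset.univ.filter fun y => y ∈ Subgroup.zpowers x ∧ y ≠ 1

theorem mem_AA {y : G} : y ∈ AA x ↔ y ∈ Subgroup.zpowers x ∧ y ≠ 1 := by
  classical
  simp [AA]

open Classical in
/-- The conjugates of `y₀` in `AA x`. -/
noncomputable def FF (x y₀ : G) : Finset G :=
  (AA x).filter fun z => ∃ g, g * y₀ * g⁻¹ = z

theorem mem_FF {y₀ z : G} : z ∈ FF x y₀ ↔ z ∈ AA x ∧ ∃ g, g * y₀ * g⁻¹ = z := by
  classical
  simp [FF]

theorem card_filter_mem [DecidableEq G] (H : Subgroup G) [DecidablePred (· ∈ H)] :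
    (Finset.univ.filter (· ∈ H)).card = Nat.card H := by
  classical
  rw [Nat.card_eq_fintype_card, Fintype.card_subtype]

theorem card_AA (hx : orderOf x = p) (hp : p.Prime) : (AA x).card + 1 = p := by
  classical
  have h1 : (Finset.univ.filter (· ∈ Subgroup.zpowers x)).card = p := by
    rw [card_filter_mem, Nat.card_zpowers, hx]
  have h2 : AA x = (Finset.univ.filter (· ∈ Subgroup.zpowers x)).erase 1 := by
    ext y
    simp [mem_AA, and_comm]
  rw [h2, Finset.card_erase_add_one]
  · exact h1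
  · simp [Subgroup.one_mem]

theorem card_norm_eq (hp : p.Prime) (hx : orderOf x = p)
    (hC : Subgroup.centralizer ({x} : Set G) = Subgroup.zpowers x) {y₀ : G} (hy₀ : y₀ ∈ AA x) :
    Nat.card (Subgroup.normalizer ((Subgroup.zpowers x : Subgroup G) : Set G)) =
      p * (FF x y₀).card := by
  classical
  set N := Subgroup.normalizer ((Subgroup.zpowers x : Subgroup G) : Set G) with hN
  obtain ⟨hy, hy1⟩ := mem_AA.1 hy₀
  have hfm : Set.MapsTo (fun g => g * y₀ * g⁻¹) (Finset.univ.filter (· ∈ N) : Finset G)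
      (FF x y₀ : Finset G) := by
    intro g hg
    simp only [Finset.coe_filter, Finset.mem_univ, true_and, Set.mem_ofPred_eq] at hg
    simp only [Finset.mem_coe]
    rw [mem_FF, mem_AA]
    refine ⟨⟨(Subgroup.mem_normalizer_iff.1 hg y₀).1 hy, ?_⟩, g, rfl⟩
    intro h
    apply hy1
    have : y₀ = g⁻¹ * (g * y₀ * g⁻¹) * g := by group
    rw [this, h]; group
  have h1 := Finset.card_eq_sum_card_fiberwise hfm
  rw [card_filter_mem] at h1
  rw [h1, mul_comm]
  rw [Finset.sum_const_nat (m := p)]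
  intro b hb
  obtain ⟨hbA, g₀, rfl⟩ := mem_FF.1 hb
  have hg₀ : g₀ ∈ N := mem_norm hp hx hC hy hy1 (mem_AA.1 hbA).1
  have hset : (Finset.univ.filter (· ∈ N)).filter (fun g => g * y₀ * g⁻¹ = g₀ * y₀ * g₀⁻¹) =
      (Finset.univ.filter (· ∈ Subgroup.zpowers x)).image (fun v => g₀ * v) := by
    ext g
    simp only [Finset.mem_filter, Finset.mem_univ, true_and, Finset.mem_image]
    constructor
    · rintro ⟨-, hg⟩
      refine ⟨g₀⁻¹ * g, ?_, by group⟩
      rw [← cent_eq hp hx hC hy hy1, Subgroup.mem_centralizer_singleton_iff]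
      have h2 : g₀⁻¹ * (g * y₀ * g⁻¹) * g = g₀⁻¹ * (g₀ * y₀ * g₀⁻¹) * g := by rw [hg]
      calc g₀⁻¹ * g * y₀ = g₀⁻¹ * (g * y₀ * g⁻¹) * g := by group
        _ = g₀⁻¹ * (g₀ * y₀ * g₀⁻¹) * g := h2
        _ = _ := by group
    · rintro ⟨v, hv, rfl⟩
      refine ⟨N.mul_mem hg₀ (Subgroup.le_normalizer hv), ?_⟩
      rw [← cent_eq hp hx hC hy hy1, Subgroup.mem_centralizer_singleton_iff] at hv
      calc g₀ * v * y₀ * (g₀ * v)⁻¹ = g₀ * (v * y₀) * v⁻¹ * g₀⁻¹ := by group
        _ = g₀ * (y₀ * v) * v⁻¹ * g₀⁻¹ := by rw [hv]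
        _ = _ := by group
  rw [hset, Finset.card_image_of_injective _ (mul_right_injective g₀), card_filter_mem,
    Nat.card_zpowers, hx]

open Classical in
/-- The conjugacy classes of the elements of order `p`. -/
noncomputable def TT (G : Type u) [Group G] [Fintype G] (p : ℕ) : Finset (ConjClasses G) :=
  Finset.univ.filter fun C => ∃ g ∈ C.carrier, orderOf g = p

theorem mem_TT {C : ConjClasses G} : C ∈ TT G p ↔ ∃ g ∈ C.carrier, orderOf g = p := by
  classical
  simp [TT]

theorem orderOf_of_mem_AA (hp : p.Prime) (hx : orderOf x = p) {y : G} (hy : y ∈ AA x) :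
    orderOf y = p := by
  obtain ⟨h1, h2⟩ := mem_AA.1 hy
  have hpow : y ^ p = 1 := by
    obtain ⟨i, rfl⟩ := h1
    change (x ^ i) ^ p = 1
    rw [← zpow_natCast, zpow_comm, zpow_natCast, ← hx, pow_orderOf_eq_one, one_zpow]
  rcases (Nat.dvd_prime hp).1 (orderOf_dvd_of_pow_eq_one hpow) with h | h
  · exact absurd (orderOf_eq_one_iff.1 h) h2
  · exact h

theorem exists_rep (hp : p.Prime) (hx : orderOf x = p)
    (hC : Subgroup.centralizer ({x} : Set G) = Subgroup.zpowers x) :
    ∃ rep : ConjClasses G → G, ∀ C ∈ TT G p, rep C ∈ AA x ∧ ConjClasses.mk (rep C) = C := by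
  have h : ∀ C : ConjClasses G, ∃ y : G, C ∈ TT G p → y ∈ AA x ∧ ConjClasses.mk y = C := by
    intro C
    by_cases hC' : C ∈ TT G p
    · obtain ⟨g, hg, ho⟩ := mem_TT.1 hC'
      obtain ⟨h, hh⟩ := exists_conj_mem hp hx hC ho
      refine ⟨h * g * h⁻¹, fun _ => ⟨mem_AA.2 ⟨hh, ?_⟩, ?_⟩⟩
      · intro h1
        have : g = h⁻¹ * (h * g * h⁻¹) * h := by group
        rw [h1] at this
        have h2 : g = 1 := by rw [this]; group
        rw [h2, orderOf_one] at ho
        exact hp.one_lt.ne ho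
      · rw [ConjClasses.mem_carrier_iff_mk_eq] at hg
        rw [← hg, ConjClasses.mk_eq_mk_iff_isConj, isConj_comm, isConj_iff]
        exact ⟨h, rfl⟩
    · exact ⟨1, fun h => absurd h hC'⟩
  choose rep hrep using h
  exact ⟨rep, hrep⟩

theorem sum_AA {M : Type*} [AddCommMonoid M] (hp : p.Prime) (hx : orderOf x = p) {e : ℕ}
    (he : ∀ y₀ ∈ AA x, (FF x y₀).card = e) {rep : ConjClasses G → G}
    (hrep : ∀ C ∈ TT G p, rep C ∈ AA x ∧ ConjClasses.mk (rep C) = C) (f : G → M)
    (hf : ∀ g y, f (g * y * g⁻¹) = f y) :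
    ∑ y ∈ AA x, f y = e • ∑ C ∈ TT G p, f (rep C) := by
  classical
  have hmaps : ∀ y ∈ AA x, ConjClasses.mk y ∈ TT G p := by
    intro y hy
    exact mem_TT.2 ⟨y, ConjClasses.mem_carrier_mk, orderOf_of_mem_AA hp hx hy⟩
  rw [← Finset.sum_fiberwise_of_maps_to hmaps, Finset.smul_sum]
  refine Finset.sum_congr rfl fun C hC => ?_
  obtain ⟨h1, h2⟩ := hrep C hC
  have hset : (AA x).filter (fun y => ConjClasses.mk y = C) = FF x (rep C) := by
    ext y
    simp only [Finset.mem_filter, mem_FF]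
    refine and_congr_right fun _ => ?_
    conv_lhs => rw [← h2]
    rw [ConjClasses.mk_eq_mk_iff_isConj, isConj_comm, isConj_iff]
  rw [hset, ← he _ h1, ← Finset.sum_const]
  refine Finset.sum_congr rfl fun y hy => ?_
  obtain ⟨-, g, rfl⟩ := mem_FF.1 hy
  exact hf _ _

theorem sum_norm_le (hp : p.Prime) (hx : orderOf x = p)
    (hC : Subgroup.centralizer ({x} : Set G) = Subgroup.zpowers x) (f : G → ℝ) (hf0 : ∀ g, 0 ≤ f g)
    (hf : ∀ g y, f (g * y * g⁻¹) = f y) :
    (Nat.card G : ℝ) * ∑ y ∈ AA x, f y ≤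
      (Nat.card (Subgroup.normalizer ((Subgroup.zpowers x : Subgroup G) : Set G)) : ℝ) *
        ∑ g, f g := by
  classical
  set N := Subgroup.normalizer ((Subgroup.zpowers x : Subgroup G) : Set G) with hN
  have h1 : (Nat.card G : ℝ) * ∑ y ∈ AA x, f y =
      ∑ q ∈ (Finset.univ : Finset G) ×ˢ AA x, f (q.1 * q.2 * q.1⁻¹) := by
    rw [Finset.sum_product, Nat.card_eq_fintype_card, ← Finset.card_univ, ← nsmul_eq_mul,
      ← Finset.sum_const]
    refine Finset.sum_congr rfl fun g _ => Finset.sum_congr rfl fun y _ => (hf _ _).symm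
  rw [h1]
  have h2 : ∑ q ∈ (Finset.univ : Finset G) ×ˢ AA x, f (q.1 * q.2 * q.1⁻¹) =
      ∑ w : G, ∑ q ∈ ((Finset.univ : Finset G) ×ˢ AA x).filter (fun q => q.1 * q.2 * q.1⁻¹ = w),
        f (q.1 * q.2 * q.1⁻¹) :=
    (Finset.sum_fiberwise_of_maps_to (fun _ _ => Finset.mem_univ _) _).symm
  rw [h2, Finset.mul_sum]
  refine Finset.sum_le_sum fun w _ => ?_
  have h3 : ∑ q ∈ ((Finset.univ : Finset G) ×ˢ AA x).filter (fun q => q.1 * q.2 * q.1⁻¹ = w),
      f (q.1 * q.2 * q.1⁻¹) = (((Finset.univ : Finset G) ×ˢ AA x).filter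
        (fun q => q.1 * q.2 * q.1⁻¹ = w)).card * f w := by
    rw [← nsmul_eq_mul, ← Finset.sum_const]
    refine Finset.sum_congr rfl fun q hq => ?_
    rw [(Finset.mem_filter.1 hq).2]
  rw [h3]
  refine mul_le_mul_of_nonneg_right ?_ (hf0 w)
  have h4 : (((Finset.univ : Finset G) ×ˢ AA x).filter (fun q => q.1 * q.2 * q.1⁻¹ = w)).card ≤
      Nat.card N := by
    rcases (((Finset.univ : Finset G) ×ˢ AA x).filter (fun q => q.1 * q.2 * q.1⁻¹ = w)).eq_empty_or_nonempty
      with h0 | ⟨⟨g₀, y₀⟩, h0⟩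
    · rw [h0]; simp
    · rw [← card_filter_mem]
      simp only [Finset.mem_filter, Finset.mem_product, Finset.mem_univ, true_and] at h0
      obtain ⟨hy₀, rfl⟩ := h0
      obtain ⟨hy₀P, hy₀1⟩ := mem_AA.1 hy₀
      refine Finset.card_le_card_of_injOn (fun q => g₀⁻¹ * q.1) ?_ ?_
      · rintro ⟨g, y⟩ hq
        simp only [Finset.coe_filter, Finset.mem_filter, Finset.mem_product, Finset.mem_univ,
          true_and, Set.mem_ofPred_eq] at hq ⊢
        obtain ⟨hy, hq⟩ := hq
        obtain ⟨hyP, hy1⟩ := mem_AA.1 hy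
        refine mem_norm hp hx hC hyP hy1 ?_
        have : g₀⁻¹ * g * y * (g₀⁻¹ * g)⁻¹ = g₀⁻¹ * (g * y * g⁻¹) * g₀ := by group
        rw [this, hq]
        have : g₀⁻¹ * (g₀ * y₀ * g₀⁻¹) * g₀ = y₀ := by group
        rw [this]
        exact hy₀P
      · rintro ⟨g, y⟩ hq ⟨g', y'⟩ hq' heq
        simp only [Finset.coe_filter, Finset.mem_filter, Finset.mem_product, Finset.mem_univ,
          true_and, Set.mem_ofPred_eq] at hq hq'
        have hgg : g = g' := mul_left_cancel heq
        subst hgg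
        have h5 : g * y * g⁻¹ = g * y' * g⁻¹ := hq.2.trans hq'.2.symm
        have h6 : y = y' := by
          have := mul_right_cancel h5
          exact mul_left_cancel this
        rw [h6]
  exact_mod_cast h4

end Count

section Char

variable {G : Type u} [Group G] [Fintype G] {p : ℕ} {x : G}

theorem abelian_norm_ge {P : Type u} [Group P] [Fintype P] (hc : ∀ a b : P, a * b = b * a)
    {β : P → ℂ} (hβ : IsCharacter P β) {a d r : ℕ} (ha : classInner β (fun _ => 1) = a)
    (hd : β 1 = d) (hr : classInner β β = r) : a * a + d ≤ r + a := by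
  classical
  haveI : Fintype (IrrCharacter P) := Fintype.ofFinite _
  obtain ⟨m, hm, hm'⟩ := isCharacter_decomp hβ
  obtain ⟨m2, h1, h2⟩ := H06.classInner_self_char_eq_sum hβ
  have hmm : m2 = m := by
    funext ψ
    have := (h1 ψ).symm.trans (hm' ψ)
    exact_mod_cast this
  subst hmm
  let ι : IrrCharacter P := ⟨fun _ => 1, isIrrCharacter_one⟩
  have ha' : a = m2 ι := by
    have := ha.symm.trans (hm' ι)
    exact_mod_cast this
  have hr' : r = ∑ ψ, m2 ψ * m2 ψ := by
    have := hr.symm.trans h2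
    exact_mod_cast this
  have hd' : d = ∑ ψ, m2 ψ := by
    have h3 := congrFun hm 1
    rw [hd] at h3
    simp only [Finset.sum_apply, Pi.smul_apply] at h3
    have h4 : ∀ ψ : IrrCharacter P, ψ.1 1 = 1 := by
      intro ψ
      rw [one_eq_charDegree (isCharacter_of_irr ψ.2), irr_degree_one_of_comm hc ψ.2]
      simp
    have h3' : (d : ℂ) = ∑ ψ, (m2 ψ : ℂ) := by
      rw [h3]
      refine Finset.sum_congr rfl fun ψ _ => ?_
      rw [h4, nsmul_eq_mul, mul_one]
    exact_mod_cast h3'
  rw [hr', hd', ha', ← Finset.add_sum_erase _ (fun ψ => m2 ψ * m2 ψ) (Finset.mem_univ ι),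
    ← Finset.add_sum_erase _ (fun ψ => m2 ψ) (Finset.mem_univ ι)]
  have h5 : ∑ ψ ∈ Finset.univ.erase ι, m2 ψ ≤ ∑ ψ ∈ Finset.univ.erase ι, m2 ψ * m2 ψ :=
    Finset.sum_le_sum fun ψ _ => Nat.le_mul_self _
  omega

theorem sum_P_split {M : Type*} [AddCommMonoid M] (F : G → M) (P : Subgroup G) [Fintype P] (hP : P = Subgroup.zpowers x) :
    ∑ y : P, F y = F 1 + ∑ y ∈ AA x, F y := by
  classical
  have h1 : ∑ y : P, F y = ∑ y ∈ Finset.univ.filter (· ∈ P), F y := by
    refine (Finset.sum_subtype _ ?_ F).symm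
    intro y
    simp
  have h2 : AA x = (Finset.univ.filter (· ∈ P)).erase 1 := by
    ext y
    subst hP
    simp [mem_AA, and_comm]
  rw [h1, h2, Finset.add_sum_erase]
  exact Finset.mem_filter.2 ⟨Finset.mem_univ _, P.one_mem⟩

theorem sum_P_zero (hp : p.Prime) (hx : orderOf x = p)
    (hC : Subgroup.centralizer ({x} : Set G) = Subgroup.zpowers x) {χ : G → ℂ}
    (hχ : IsIrrCharacter G χ) (hd : charDegree χ + 1 = p) {e : ℕ} (he2 : 2 ≤ e)
    (hN : Nat.card (Subgroup.normalizer ((Subgroup.zpowers x : Subgroup G) : Set G)) = p * e)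
    (hF : ∀ y₀ ∈ AA x, (FF x y₀).card = e) (P : Subgroup G) [Fintype P]
    (hPdef : P = Subgroup.zpowers x) :
    ∑ y : P, χ y = 0 := by
  classical
  haveI : Fintype (IrrCharacter G) := Fintype.ofFinite _
  set d := charDegree χ with hddef
  have hcardP : Nat.card P = p := by rw [hPdef, Nat.card_zpowers, hx]
  have hcomm : ∀ a b : P, a * b = b * a := by
    rintro ⟨a, ha⟩ ⟨b, hb⟩
    have ha' := ha
    have hb' := hb
    rw [hPdef] at ha' hb'
    obtain ⟨i, hi⟩ := ha'
    obtain ⟨j, hj⟩ := hb'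
    apply Subtype.ext
    change a * b = b * a
    have hi' : a = x ^ i := hi.symm
    have hj' : b = x ^ j := hj.symm
    rw [hi', hj']
    exact ((Commute.refl x).zpow_zpow i j).eq
  have hχc := isCharacter_of_irr hχ
  have hβ : IsCharacter P (fun y : P => χ y) := isCharacter_restrict P hχc
  obtain ⟨a, ha⟩ := classInner_isCharacter_nat hβ (isCharacter_one (G := P))
  obtain ⟨r, hr⟩ := classInner_isCharacter_nat hβ hβ
  have hχ1 : χ 1 = d := one_eq_charDegree hχc
  have hab := abelian_norm_ge hcomm hβ ha (by simpa using hχ1) hr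
  have hp0 : (p : ℂ) ≠ 0 := by exact_mod_cast hp.ne_zero
  have hsum : ∑ y : P, χ y = (p : ℂ) * a := by
    rw [← ha, classInner, hcardP]
    simp only [map_one, mul_one]
    rw [mul_inv_cancel_left₀ hp0]
  have hsum2 : ∑ y : P, ‖χ y‖ ^ 2 = (p : ℝ) * r := by
    have h1 := H06.classInner_self_eq_real (fun y : P => χ y)
    rw [hr, hcardP] at h1
    have h2 : (r : ℝ) = (p : ℝ)⁻¹ * ∑ y : P, ‖χ y‖ ^ 2 := by exact_mod_cast h1
    rw [h2, mul_inv_cancel_left₀]
    exact_mod_cast hp.ne_zero
  obtain ⟨rep, hrep⟩ := exists_rep hp hx hC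
  -- the number of classes
  have hcount : d = e * (TT G p).card := by
    have h1 := sum_AA hp hx hF hrep (fun _ => (1 : ℕ)) (fun _ _ => rfl)
    have h2 := card_AA hx hp
    simp only [Finset.sum_const, smul_eq_mul, mul_one] at h1
    rw [h1] at h2
    have h3 : d + 1 = p := hd
    omega
  -- the divisibility
  have hsumA := sum_AA hp hx hF hrep χ (fun g y => isClassFunction_of_isCharacter hχc y g)
  have hsplit := sum_P_split χ P hPdef
  rw [hsum, hχ1, hsumA] at hsplit
  set w := ∑ C ∈ TT G p, χ (rep C) with hw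
  have hwint : IsIntegral ℤ w := IsIntegral.sum _ fun C _ => H22.isCharacter_isIntegral hχc _
  have he0 : (e : ℂ) ≠ 0 := by
    have : e ≠ 0 := by omega
    exact_mod_cast this
  have hwq : w = (((((p : ℤ) * a - d : ℤ) : ℚ) / (e : ℚ) : ℚ) : ℂ) := by
    push_cast
    rw [eq_div_iff he0]
    rw [nsmul_eq_mul] at hsplit
    rw [hsplit]
    ring
  obtain ⟨n, hn⟩ := isInt_of_isIntegral_rat (((((p : ℤ) * a - d : ℤ) : ℚ) / (e : ℚ) : ℚ)) (by
    rw [← hwq]; exact hwint)
  have hed : (e : ℤ) ∣ (p : ℤ) * a - d := by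
    refine ⟨n, ?_⟩
    have he0' : (e : ℚ) ≠ 0 := by
      have : e ≠ 0 := by omega
      exact_mod_cast this
    rw [div_eq_iff he0'] at hn
    have : (((p : ℤ) * a - d : ℤ) : ℚ) = ((n * e : ℤ) : ℚ) := by
      rw [hn]; push_cast; ring
    have h2 : (p : ℤ) * a - d = n * e := by exact_mod_cast this
    rw [h2]; ring
  have hed2 : (e : ℤ) ∣ d := ⟨((TT G p).card : ℤ), by rw [hcount]; push_cast; ring⟩
  have hepa : e ∣ p * a := by
    have : (e : ℤ) ∣ (p : ℤ) * a := by
      have := dvd_add hed hed2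
      simpa using this
    exact_mod_cast this
  have hcop : Nat.Coprime e p := by
    rw [Nat.coprime_comm, hp.coprime_iff_not_dvd]
    intro hpe
    have h1 : p ∣ d := hpe.trans ⟨(TT G p).card, hcount⟩
    have h2 : d ≠ 0 := by
      intro h0
      rw [h0] at hd
      exact hp.one_lt.ne' hd.symm
    have := Nat.le_of_dvd (Nat.pos_of_ne_zero h2) h1
    omega
  have hea : e ∣ a := hcop.dvd_of_dvd_mul_left hepa
  -- a is zero
  have ha0 : a = 0 := by
    by_contra hane
    have hae : e ≤ a := Nat.le_of_dvd (Nat.pos_of_ne_zero hane) hea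
    have hS : ∑ y ∈ AA x, ‖χ y‖ ^ 2 ≤ (p : ℝ) * e := by
      have h1 := sum_norm_le hp hx hC (fun g => ‖χ g‖ ^ 2) (fun _ => by positivity)
        (fun g y => by
          rw [isClassFunction_of_isCharacter hχc y g])
      have h2 : ∑ g, ‖χ g‖ ^ 2 = (Nat.card G : ℝ) := by
        have h3 := H06.classInner_self_eq_real χ
        rw [H06.classInner_irr_self hχ] at h3
        have h4 : (1 : ℝ) = (Nat.card G : ℝ)⁻¹ * ∑ g, ‖χ g‖ ^ 2 := by exact_mod_cast h3
        have h5 : (Nat.card G : ℝ) ≠ 0 := by exact_mod_cast Nat.card_pos.ne'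
        field_simp at h4
        linarith
      rw [h2, hN] at h1
      have h5 : (0 : ℝ) < (Nat.card G : ℝ) := by exact_mod_cast Nat.card_pos
      have h6 : (Nat.card G : ℝ) * ∑ y ∈ AA x, ‖χ y‖ ^ 2 ≤ (Nat.card G : ℝ) * ((p : ℝ) * e) := by
        push_cast at h1
        linarith
      exact le_of_mul_le_mul_left h6 h5
    have hsplit2 := sum_P_split (fun g => ‖χ g‖ ^ 2) P hPdef
    rw [hsum2, hχ1] at hsplit2
    have hnorm : ‖(d : ℂ)‖ ^ 2 = (d : ℝ) * d := by
      rw [Complex.norm_natCast]; ring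
    rw [hnorm] at hsplit2
    have hle : (p : ℝ) * r ≤ (d : ℝ) * d + (p : ℝ) * e := by
      rw [hsplit2]; linarith
    have hle' : p * r ≤ d * d + p * e := by exact_mod_cast hle
    have h2a : 2 ≤ a := he2.trans hae
    have h3 : a + e ≤ a * a := by nlinarith
    have h4 : e + d ≤ r := by omega
    have h5 : p * (e + d) ≤ p * r := Nat.mul_le_mul_left _ h4
    have hdpos : 1 ≤ d := by
      by_contra h0
      have : d = 0 := by omega
      rw [this] at hd
      exact hp.one_lt.ne' hd.symm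
    have hpd : p = d + 1 := hd.symm
    subst hpd
    nlinarith
  rw [hsum, ha0]
  simp

/-- If the sum of a character over `⟨x⟩` vanishes, the character vanishes on the elements which
normalise `⟨x⟩` but do not centralise it. -/
theorem char_zero_of_fpf (hp : p.Prime) (hx : orderOf x = p)
    (hC : Subgroup.centralizer ({x} : Set G) = Subgroup.zpowers x) {χ : G → ℂ}
    (hχ : IsCharacter G χ) (P : Subgroup G) [Fintype P] (hPdef : P = Subgroup.zpowers x)
    (h0 : ∑ y : P, χ y = 0) {h : G} (hN : h ∈ Subgroup.normalizer ((P : Subgroup G) : Set G))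
    (hP : h ∉ P) : χ h = 0 := by
  classical
  haveI : Fintype (IrrCharacter G) := Fintype.ofFinite _
  set N₀ := Subgroup.normalizer ((P : Subgroup G) : Set G) with hN₀
  haveI : Fintype N₀ := Fintype.ofFinite _
  haveI : Fintype (IrrCharacter N₀) := Fintype.ofFinite _
  haveI hnor : (P.subgroupOf N₀).Normal := Subgroup.normal_in_normalizer
  haveI : Fintype (P.subgroupOf N₀) := Fintype.ofFinite _
  have hle : P ≤ N₀ := Subgroup.le_normalizer
  let E := Subgroup.subgroupOfEquivOfLe hle
  have hE : ∀ n : P.subgroupOf N₀, ((E n : P) : G) = ((n : N₀) : G) := fun _ => rfl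
  have hξ : IsCharacter N₀ (fun n : N₀ => χ n) := isCharacter_restrict N₀ hχ
  have h1 : ∑ n : P.subgroupOf N₀, (fun n : N₀ => χ n) n = 0 := by
    rw [← h0, ← Equiv.sum_comp E.toEquiv (fun y : P => χ y)]
    rfl
  have h2 := Cfsg.Agent.H23.sum_mul_eq_zero_of_sum_eq_zero (P.subgroupOf N₀) hξ h1 ⟨h, hN⟩
  have h3 : ∑ y : P, χ ((y : G) * h) = 0 := by
    rw [← Equiv.sum_comp E.toEquiv (fun y : P => χ ((y : G) * h))]
    exact h2
  have hcardP : Nat.card P = p := by rw [hPdef, Nat.card_zpowers, hx]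
  have hcl := isClassFunction_of_isCharacter hχ
  -- every `y * h` is conjugate to `h`
  have hinj : Function.Injective (fun z : P => (⟨(z : G) * (h * (z : G)⁻¹ * h⁻¹), by
      refine P.mul_mem z.2 ?_
      exact (Subgroup.mem_normalizer_iff.1 hN _).1 (P.inv_mem z.2)⟩ : P)) := by
    intro z z' hzz
    have h4 : (z : G) * (h * (z : G)⁻¹ * h⁻¹) = (z' : G) * (h * (z' : G)⁻¹ * h⁻¹) :=
      congrArg Subtype.val hzz
    by_contra hne
    set v : G := (z : G)⁻¹ * z' with hv
    have hvP : v ∈ Subgroup.zpowers x := by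
      rw [← hPdef]
      exact P.mul_mem (P.inv_mem z.2) z'.2
    have hv1 : v ≠ 1 := by
      intro h1
      apply hne
      apply Subtype.ext
      rw [hv, inv_mul_eq_one] at h1
      exact h1
    apply hP
    rw [hPdef, ← cent_eq hp hx hC hvP hv1, Subgroup.mem_centralizer_singleton_iff]
    have h5 : (z : G)⁻¹ * ((z : G) * (h * (z : G)⁻¹ * h⁻¹)) * h = (z : G)⁻¹ * ((z' : G) * (h * (z' : G)⁻¹ * h⁻¹)) * h := by
      rw [h4]
    have h6 : h * (z : G)⁻¹ = v * h * (z' : G)⁻¹ := by
      calc h * (z : G)⁻¹ = (z : G)⁻¹ * ((z : G) * (h * (z : G)⁻¹ * h⁻¹)) * h := by group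
        _ = (z : G)⁻¹ * ((z' : G) * (h * (z' : G)⁻¹ * h⁻¹)) * h := h5
        _ = _ := by rw [hv]; group
    have h7 : h * v = v * h := by
      calc h * v = (h * (z : G)⁻¹) * z' := by rw [hv]; group
        _ = (v * h * (z' : G)⁻¹) * z' := by rw [h6]
        _ = _ := by group
    exact h7
  have hsurj := Finite.injective_iff_surjective.1 hinj
  have h4 : ∀ y : P, χ ((y : G) * h) = χ h := by
    intro y
    obtain ⟨z, hz⟩ := hsurj y
    have hz' : (z : G) * (h * (z : G)⁻¹ * h⁻¹) = y := congrArg Subtype.val hz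
    rw [← hz']
    have : (z : G) * (h * (z : G)⁻¹ * h⁻¹) * h = (z : G) * h * (z : G)⁻¹ := by group
    rw [this]
    exact hcl h z
  simp only [h4, Finset.sum_const, Finset.card_univ] at h3
  rw [nsmul_eq_mul] at h3
  have h5 : ((Fintype.card P : ℕ) : ℂ) ≠ 0 := by
    rw [← Nat.card_eq_fintype_card, hcardP]
    exact_mod_cast hp.ne_zero
  exact (mul_eq_zero.1 h3).resolve_left h5

end Char

theorem main {G : Type u} [Group G] [Finite G] (p : ℕ) (hp : p.Prime) (x : G)
    (hx : orderOf x = p) (hC : Subgroup.centralizer ({x} : Set G) = Subgroup.zpowers x) (t : ℕ)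
    (ht : Nat.card {C : ConjClasses G // ∃ g ∈ C.carrier, orderOf g = p} = t)
    (χ : IrrCharacter G) (hχ : charDegree (χ : G → ℂ) + 1 = p) :
    Even t ∨ Even (commutator G).index := by
  classical
  haveI : Fintype G := Fintype.ofFinite G
  haveI : Fact p.Prime := ⟨hp⟩
  by_cases htev : Even t
  · exact Or.inl htev
  right
  have htodd : Odd t := Nat.not_even_iff_odd.1 htev
  have hPp : IsPGroup p (Subgroup.zpowers x) := by
    intro g
    refine ⟨1, ?_⟩
    rw [pow_one]
    have : (g : G) ^ p = 1 := by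
      obtain ⟨g, i, rfl⟩ := g
      change (x ^ i) ^ p = 1
      rw [← zpow_natCast, zpow_comm, zpow_natCast, ← hx, pow_orderOf_eq_one, one_zpow]
    exact Subtype.ext this
  by_cases hp2 : p = 2
  · subst hp2
    obtain ⟨S, hS⟩ := hPp.exists_le_sylow
    have hSeq := sylow_eq hp hx hC S hS
    have hnd : ¬ 2 ∣ (Subgroup.zpowers x).index := by
      rw [← hSeq]
      exact S.not_dvd_index
    have hcard : (Nat.card G : ℂ) = (Subgroup.zpowers x).index * 2 ^ 1 := by
      have := (Subgroup.zpowers x).card_mul_index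
      rw [Nat.card_zpowers, hx] at this
      rw [← this]
      push_cast
      ring
    have hoddi : Odd (Subgroup.zpowers x).index := by
      rw [← Nat.not_even_iff_odd, even_iff_two_dvd]
      exact hnd
    refine even_index_of_regular (φ := indFun (⊥ : Subgroup G) (fun _ => 1))
      (isCharacter_indFun _ isCharacter_one) x 1 _ le_rfl (by rw [hx]; norm_num) hoddi ?_ ?_
    · rw [indFun_one, Subgroup.index_bot, hcard]
      simp
    · intro i hi hi2
      have hi1 : i = 1 := by omega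
      subst hi1
      rw [pow_one]
      apply H06.indFun_of_not_mem
      rw [Subgroup.mem_bot]
      rintro rfl
      rw [orderOf_one] at hx
      norm_num at hx
  -- p odd
  have hpodd : Odd p := hp.odd_of_ne_two hp2
  have hx1 : x ≠ 1 := by
    rintro rfl
    rw [orderOf_one] at hx
    exact hp.one_lt.ne hx
  have hxA : x ∈ AA x := mem_AA.2 ⟨Subgroup.mem_zpowers x, hx1⟩
  have hN := card_norm_eq hp hx hC hxA
  set e := (FF x x).card with he
  have hF : ∀ y₀ ∈ AA x, (FF x y₀).card = e := by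
    intro y₀ hy₀
    have h1 := card_norm_eq hp hx hC hy₀
    rw [hN] at h1
    exact (Nat.eq_of_mul_eq_mul_left hp.pos h1).symm
  obtain ⟨rep, hrep⟩ := exists_rep hp hx hC
  have hTT : (TT G p).card = t := by
    rw [← ht, Nat.card_eq_fintype_card]
    exact (Fintype.card_of_subtype (TT G p) (fun C => mem_TT)).symm
  set d := charDegree (χ : G → ℂ) with hd
  have hcount : d = e * t := by
    have h1 := sum_AA hp hx hF hrep (fun _ => (1 : ℕ)) (fun _ _ => rfl)
    have h2 := card_AA hx hp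
    simp only [Finset.sum_const, smul_eq_mul, mul_one] at h1
    rw [h1, hTT] at h2
    omega
  have hd0 : d ≠ 0 := by
    intro h0
    rw [h0] at hχ
    exact hp.one_lt.ne' hχ.symm
  have hdev : Even d := by
    obtain ⟨c, hc⟩ := hpodd
    have : d = 2 * c := by omega
    exact ⟨c, by omega⟩
  obtain ⟨k, m, hm, hdk⟩ := Nat.exists_eq_two_pow_mul_odd hd0
  have hk : 1 ≤ k := by
    by_contra h0
    have : k = 0 := by omega
    rw [this, pow_zero, one_mul] at hdk
    rw [hdk] at hdev
    exact (Nat.not_even_iff_odd.2 hm) hdev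
  have heev : Even e := by
    rw [hcount] at hdev
    rcases Nat.even_mul.1 hdev with h | h
    · exact h
    · exact absurd h htev
  have he0 : e ≠ 0 := by
    intro h0
    rw [hcount, h0, zero_mul] at hd0
    exact hd0 rfl
  have he2 : 2 ≤ e := by
    obtain ⟨c, hc⟩ := heev
    omega
  have h0 := sum_P_zero hp hx hC χ.2 hχ he2 hN hF (Subgroup.zpowers x) rfl
  set P : Subgroup G := Subgroup.zpowers x with hP
  set N₀ := Subgroup.normalizer ((P : Subgroup G) : Set G) with hN₀
  haveI : Fintype N₀ := Fintype.ofFinite _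
  let Q : Sylow 2 N₀ := default
  have hfac : (Nat.card N₀).factorization 2 = k := by
    rw [hN, Nat.factorization_mul hp.ne_zero he0, Finsupp.add_apply,
      Nat.factorization_eq_zero_of_not_dvd (fun h => by
        rw [← even_iff_two_dvd] at h
        exact (Nat.not_even_iff_odd.2 hpodd) h), zero_add]
    have h1 : (e * t).factorization 2 = (2 ^ k * m).factorization 2 := by rw [← hcount, hdk]
    rw [Nat.factorization_mul he0 (Nat.pos_of_ne_zero (fun h => by
        rw [h] at htodd; simp at htodd)).ne',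
      Nat.factorization_mul (by positivity) (fun h => by rw [h] at hm; simp at hm),
      Nat.factorization_pow, Finsupp.add_apply, Finsupp.add_apply,
      Nat.factorization_eq_zero_of_not_dvd (n := t) (fun h => by
        rw [← even_iff_two_dvd] at h
        exact htev h),
      Nat.factorization_eq_zero_of_not_dvd (n := m) (fun h => by
        rw [← even_iff_two_dvd] at h
        exact (Nat.not_even_iff_odd.2 hm) h)] at h1
    have h2 : (Nat.factorization 2) 2 = 1 := Nat.Prime.factorization_self Nat.prime_two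
    simpa [h2] using h1
  have hQcard : Nat.card Q = 2 ^ k := by
    rw [Sylow.card_eq_multiplicity, hfac]
  have hcardP : Nat.card P = p := by rw [hP, Nat.card_zpowers, hx]
  -- Q meets P trivially
  have hQP : ∀ q : (Q : Subgroup N₀), ((q : N₀) : G) ∈ P → q = 1 := by
    intro q hq
    have h1 : orderOf ((q : N₀) : G) ∣ p := by
      rw [← hcardP]
      have := orderOf_dvd_natCard (⟨_, hq⟩ : P)
      rwa [Subgroup.orderOf_mk] at this
    have h2 : orderOf ((q : N₀) : G) ∣ 2 ^ k := by
      rw [← hQcard]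
      have := orderOf_dvd_natCard q
      rwa [← Subgroup.orderOf_coe q, ← Subgroup.orderOf_coe (q : N₀)] at this
    have hcop : Nat.Coprime p (2 ^ k) := by
      apply Nat.Coprime.pow_right
      exact Nat.Coprime.symm (Nat.coprime_two_left.2 hpodd)
    have h3 : orderOf ((q : N₀) : G) = 1 := Nat.eq_one_of_dvd_coprimes hcop h1 h2
    rw [orderOf_eq_one_iff] at h3
    exact Subtype.ext (Subtype.ext h3)
  have hcycAut : IsCyclic (MulAut P) := by
    have h1 : IsCyclic (ZMod (Nat.card P))ˣ := by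
      rw [hcardP]; infer_instance
    exact isCyclic_of_injective (IsCyclic.mulAutMulEquiv P).toMonoidHom (MulEquiv.injective _)
  let f : (Q : Subgroup N₀) →* MulAut P := P.normalizerMonoidHom.comp (Q : Subgroup N₀).subtype
  have hfinj : Function.Injective f := by
    rw [injective_iff_map_eq_one]
    intro q hq
    apply hQP
    have h1 : (q : N₀) ∈ P.normalizerMonoidHom.ker := hq
    rw [Subgroup.normalizerMonoidHom_ker, Subgroup.mem_subgroupOf] at h1
    rw [← hC, Subgroup.mem_centralizer_singleton_iff]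
    have h2 := (Subgroup.mem_centralizer_iff.1 h1) x (Subgroup.mem_zpowers x)
    exact h2.symm
  haveI hQcyc : IsCyclic (Q : Subgroup N₀) := isCyclic_of_injective f hfinj
  obtain ⟨τ₀, hτ₀⟩ := IsCyclic.exists_generator (α := (Q : Subgroup N₀))
  have hoτ₀ : orderOf τ₀ = 2 ^ k := by
    rw [orderOf_eq_card_of_forall_mem_zpowers hτ₀, hQcard]
  have hoτ : orderOf ((τ₀ : N₀) : G) = 2 ^ k := by
    rw [Subgroup.orderOf_coe, Subgroup.orderOf_coe, hoτ₀]
  refine even_index_of_regular (isCharacter_of_irr χ.2) ((τ₀ : N₀) : G) k m hk hoτ hm ?_ ?_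
  · rw [one_eq_charDegree (isCharacter_of_irr χ.2), ← hd, hdk]
    push_cast
    ring
  · intro i hi hi2
    have hne : τ₀ ^ i ≠ 1 := by
      apply pow_ne_one_of_lt_orderOf hi.ne'
      rw [hoτ₀]
      exact hi2
    have hval : ((τ₀ ^ i : (Q : Subgroup N₀)) : N₀).1 = ((τ₀ : N₀) : G) ^ i := by
      simp
    rw [← hval]
    refine char_zero_of_fpf hp hx hC (isCharacter_of_irr χ.2) P rfl h0 ?_ ?_
    · exact ((τ₀ ^ i : (Q : Subgroup N₀)) : N₀).2
    · intro hmem
      exact hne (hQP _ hmem)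

end Cfsg.Agent.H23.SelfCent
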