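import Cfsg.Agent.Lib.H23.Prim2Arith
import Cfsg.Agent.Lib.H23.PrimeDegCenter
import Cfsg.Agent.Lib.H23.TwoDegP
import Cfsg.Agent.Lib.H23.TISyl
import Cfsg.Agent.Lib.H23.Ito2
import Cfsg.Agent.Lib.H06.CoherInd
import Cfsg.Agent.Lib.H23.SelfCent

/-!
# Primitive linear groups of degree two
-/

set_option autoImplicit false
set_option linter.unusedSectionVars false
set_option linter.style.haveILetI false
set_option linter.unusedSimpArgs false

namespace Cfsg.Agent.H23.Prim2

open Cfsg Cfsg.Agent.H21 Cfsg.Agent.H06 Cfsg.Agent.H23.TwoDeg Cfsg.Agent.H23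
open scoped ComplexConjugate Pointwise

universe u

variable {G : Type u} [Group G] [Fintype G]

/-- A character of degree one is irreducible. -/
theorem irr_of_deg_one' {X : Type u} [Group X] [Fintype X] {β : X → ℂ} (hβ : IsCharacter X β)
    (h1 : charDegree β = 1) : IsIrrCharacter X β := by
  haveI : Fintype (IrrCharacter X) := Fintype.ofFinite _
  apply isIrrCharacter_of_inner_self_eq_one hβ
  rw [classInner]
  have h2' : ∀ x : X, β x * conj (β x) = 1 := by
    intro x
    rw [Complex.mul_conj', linear_norm hβ h1 x]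
    simp
  simp only [h2', Finset.sum_const, Finset.card_univ, nsmul_eq_mul, mul_one]
  rw [← Nat.card_eq_fintype_card]
  exact inv_mul_cancel₀ (by exact_mod_cast Nat.card_pos.ne')

theorem pair_unique {X : Type u} [Group X] [Fintype X] {l m l' m' : X → ℂ} (hl : IsIrrCharacter X l)
    (hm : IsIrrCharacter X m) (hl' : IsIrrCharacter X l') (hm' : IsIrrCharacter X m')
    (h : l' + m' = l + m) : l' = l ∨ l' = m := by
  classical
  by_contra hcon
  push Not at hcon
  obtain ⟨h1, h2⟩ := hcon
  have h3 : classInner (l + m) l' = 0 := by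
    rw [classInner_add_left, H06.classInner_irr_ne hl hl' (Ne.symm h1),
      H06.classInner_irr_ne hm hl' (Ne.symm h2), add_zero]
  rw [← h, classInner_add_left, H06.classInner_irr_self hl'] at h3
  by_cases h4 : m' = l'
  · rw [h4, H06.classInner_irr_self hl'] at h3
    norm_num at h3
  · rw [H06.classInner_irr_ne hm' hl' h4] at h3
    norm_num at h3

section Basic

variable (χ : IrrCharacter G) (hf : ∀ g, χ.1 g = χ.1 1 → g = 1) (h2 : charDegree χ.1 = 2)

include hf h2

theorem center_of_norm {z : G} (hz : ‖χ.1 z‖ = 2) : z ∈ Subgroup.center G := by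
  have hz' : z ∈ ZC χ := by
    rw [mem_ZC, h2, hz]
    norm_num
  rw [Subgroup.mem_center_iff]
  intro h
  have h3 := hf _ (ZC_comm hz' h)
  have h4 : z * h = h * z := by
    have h5 : z * h * z⁻¹ * h⁻¹ * (h * z) = z * h := by group
    rw [← h5, h3, one_mul]
  exact h4.symm

/-- Either the restriction of `χ` to `H` is irreducible or `H` is abelian. -/
theorem comm_or_irr (H : Subgroup G) [Fintype H] :
    (∀ a b : H, a * b = b * a) ∨ IsIrrCharacter H (fun h : H => χ.1 h) := by
  classical
  haveI : Fintype (IrrCharacter H) := Fintype.ofFinite _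
  have hβ : IsCharacter H (fun h : H => χ.1 h) := isCharacter_restrict H (isCharacter_of_irr χ.2)
  have hχ1 : χ.1 1 = 2 := by
    rw [one_eq_charDegree (isCharacter_of_irr χ.2), h2]
    norm_num
  by_cases hex : ∃ τ : IrrCharacter H, classInner (fun h : H => χ.1 h) τ.1 ≠ 0 ∧ charDegree τ.1 ≠ 1
  · right
    obtain ⟨τ, hτ, hτ1⟩ := hex
    have hpos := irr_charDegree_pos τ.2
    have := eq_of_deg_ge hβ τ (n := 2) (by simpa using hχ1) (by norm_num) hτ (by omega)
    rw [this]
    exact τ.2
  · left
    push Not at hex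
    intro a b
    obtain ⟨m, hm, hm'⟩ := isCharacter_decomp hβ
    set w : H := a * b * a⁻¹ * b⁻¹ with hw
    have hval : ∀ x : H, χ.1 x = ∑ τ : IrrCharacter H, (m τ : ℂ) * τ.1 x := by
      intro x
      have := congrFun hm x
      simp only [Finset.sum_apply, Pi.smul_apply] at this
      rw [this]
      exact Finset.sum_congr rfl fun τ _ => nsmul_eq_mul _ _
    have h1 : χ.1 w = χ.1 ((1 : H) : G) := by
      rw [hval, hval]
      refine Finset.sum_congr rfl fun τ _ => ?_
      by_cases h0 : m τ = 0
      · rw [h0]; simp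
      · have h3 : charDegree τ.1 = 1 := hex τ (by
          rw [hm']
          exact_mod_cast h0)
        have hτc := isCharacter_of_irr τ.2
        congr 1
        have h4 : ∀ x : H, τ.1 x * τ.1 x⁻¹ = 1 := by
          intro x
          rw [← linear_mul hτc h3, mul_inv_cancel, linear_one hτc h3]
        rw [hw, linear_mul hτc h3, linear_mul hτc h3, linear_mul hτc h3, linear_one hτc h3]
        have h5 := h4 a
        have h6 := h4 b
        calc τ.1 a * τ.1 b * τ.1 a⁻¹ * τ.1 b⁻¹ = (τ.1 a * τ.1 a⁻¹) * (τ.1 b * τ.1 b⁻¹) := by ring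
          _ = 1 := by rw [h5, h6, one_mul]
    have h3 : (w : G) = 1 := hf _ (by simpa using h1)
    have h4 : w = 1 := Subtype.ext h3
    have h5 : a * b * a⁻¹ * b⁻¹ * (b * a) = a * b := by group
    rw [← h5, ← hw, h4, one_mul]

/-- The centraliser of a noncentral element is abelian. -/
theorem cent_abelian {z : G} (hz : z ∉ Subgroup.center G) (a b : G)
    (ha : a ∈ Subgroup.centralizer ({z} : Set G)) (hb : b ∈ Subgroup.centralizer ({z} : Set G)) :
    a * b = b * a := by
  classical
  set C := Subgroup.centralizer ({z} : Set G) with hC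
  haveI : Fintype C := Fintype.ofFinite _
  have hzC : z ∈ C := by
    rw [hC, Subgroup.mem_centralizer_singleton_iff]
  rcases comm_or_irr χ hf h2 C with h | h
  · exact congrArg Subtype.val (h ⟨a, ha⟩ ⟨b, hb⟩)
  · exfalso
    apply hz
    apply center_of_norm χ hf h2
    have h3 : (⟨z, hzC⟩ : C) ∈ Subgroup.center C := by
      rw [Subgroup.mem_center_iff]
      rintro ⟨g, hg⟩
      apply Subtype.ext
      rw [hC, Subgroup.mem_centralizer_singleton_iff] at hg
      exact hg
    have h4 := center_le_ZC (⟨_, h⟩ : IrrCharacter C) h3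
    rw [mem_ZC] at h4
    have h5 : charDegree (fun h : C => χ.1 h) = 2 := by
      simp [charDegree, h2.symm]
    have h6 : ‖χ.1 z‖ = ((charDegree (fun h : C => χ.1 h) : ℕ) : ℝ) := h4
    rw [h6, h5]
    norm_num

omit hf h2 in
theorem mem_cc_iff {z g : G} : g ∈ Subgroup.centralizer ({z} : Set G) ↔ g * z = z * g :=
  Subgroup.mem_centralizer_singleton_iff

/-- The centraliser of a noncentral element of a centraliser is the same. -/
theorem cc_eq {z w : G} (hz : z ∉ Subgroup.center G) (hw : w ∈ Subgroup.centralizer ({z} : Set G))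
    (hw' : w ∉ Subgroup.center G) :
    Subgroup.centralizer ({w} : Set G) = Subgroup.centralizer ({z} : Set G) := by
  ext g
  rw [mem_cc_iff, mem_cc_iff]
  have hw2 := mem_cc_iff.1 hw
  constructor
  · intro hg
    exact cent_abelian χ hf h2 hw' g z (mem_cc_iff.2 hg) (mem_cc_iff.2 hw2.symm)
  · intro hg
    exact cent_abelian χ hf h2 hz g w (mem_cc_iff.2 hg) hw

section Tor

variable {z : G} (hz : z ∉ Subgroup.center G)

include hz

/-- The two linear constituents. -/
theorem exists_two [Fintype (Subgroup.centralizer ({z} : Set G))] :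
    ∃ l m : Subgroup.centralizer ({z} : Set G) → ℂ,
      IsCharacter _ l ∧ IsCharacter _ m ∧ charDegree l = 1 ∧ charDegree m = 1 ∧
      IsIrrCharacter _ l ∧ IsIrrCharacter _ m ∧
        ∀ b : Subgroup.centralizer ({z} : Set G), χ.1 b = l b + m b := by
  classical
  set B := Subgroup.centralizer ({z} : Set G) with hB
  have hcomm : ∀ a b : B, a * b = b * a := fun a b =>
    Subtype.ext (cent_abelian χ hf h2 hz a b a.2 b.2)
  obtain ⟨l, hl, hne⟩ := H23.exists_constituent B χ.2
  have hlc := isCharacter_of_irr hl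
  have hl1 : charDegree l = 1 := irr_degree_one_of_comm hcomm hl
  have hβ : IsCharacter B (fun h : B => χ.1 h) := isCharacter_restrict B (isCharacter_of_irr χ.2)
  have hm := H06.isCharacter_sub_constituent hl hβ hne
  have hm1 : charDegree ((fun h : B => χ.1 h) - l) = 1 := by
    have h3 := one_eq_charDegree hm
    have h4 : ((fun h : B => χ.1 h) - l) 1 = 1 := by
      simp only [Pi.sub_apply, linear_one hlc hl1]
      have : χ.1 ((1 : B) : G) = 2 := by
        rw [Subgroup.coe_one, one_eq_charDegree (isCharacter_of_irr χ.2), h2]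
        norm_num
      rw [this]
      norm_num
    rw [h4] at h3
    exact_mod_cast h3.symm
  refine ⟨l, _, hlc, hm, hl1, hm1, hl, irr_of_deg_one' hm hm1, fun b => ?_⟩
  simp

/-- The torus has index at most two in its normaliser. -/
theorem relIndex_norm :
    (Subgroup.centralizer ({z} : Set G)).relIndex
      (Subgroup.normalizer ((Subgroup.centralizer ({z} : Set G) : Subgroup G) : Set G)) = 1 ∨
    (Subgroup.centralizer ({z} : Set G)).relIndex
      (Subgroup.normalizer ((Subgroup.centralizer ({z} : Set G) : Subgroup G) : Set G)) = 2 := by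
  classical
  set B := Subgroup.centralizer ({z} : Set G) with hB
  haveI : Fintype B := Fintype.ofFinite _
  obtain ⟨l, m, hlc, hmc, hl1, hm1, hli, hmi, hsum⟩ := exists_two χ hf h2 hz
  set N := Subgroup.normalizer ((B : Subgroup G) : Set G) with hN
  let F : N →* MulAut B := B.normalizerMonoidHom
  have hF : ∀ (g : N) (b : B), ((F g b : B) : G) = (g : G) * b * (g : G)⁻¹ := fun _ _ => rfl
  have hχc := isCharacter_of_irr χ.2
  have hχinv : ∀ (g : N) (b : B), l (F g b) + m (F g b) = l b + m b := by
    intro g b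
    rw [← hsum, ← hsum, hF]
    exact isCharacter_conj hχc _ _
  have hunique : ∀ g : N, l ∘ (F g) = l ∨ l ∘ (F g) = m := by
    intro g
    refine pair_unique hli hmi
      (isIrrCharacter_comp_of_surjective (F g).toMonoidHom (F g).surjective hli)
      (isIrrCharacter_comp_of_surjective (F g).toMonoidHom (F g).surjective hmi) ?_
    funext b
    exact hχinv g b
  have hχ1 : χ.1 1 = 2 := by
    rw [one_eq_charDegree hχc, h2]
    norm_num
  have hzB : z ∈ B := by
    rw [hB, mem_cc_iff]
  have hinv1 : ∀ {p : B → ℂ}, IsCharacter B p → charDegree p = 1 → ∀ a : B, p a * p a⁻¹ = 1 := by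
    intro p hp hp1 a
    rw [← linear_mul hp hp1, mul_inv_cancel, linear_one hp hp1]
  have key1 : ∀ g : N, l ∘ (F g) = l → (g : G) ∈ B := by
    intro g hg
    have hl' : ∀ b, l (F g b) = l b := fun b => congrFun hg b
    have hm' : ∀ b, m (F g b) = m b := by
      intro b
      have := hχinv g b
      rw [hl'] at this
      exact add_left_cancel this
    set b : B := ⟨z, hzB⟩ with hb
    have hw : χ.1 ((F g b * b⁻¹ : B) : G) = χ.1 1 := by
      rw [hsum, linear_mul hlc hl1, linear_mul hmc hm1, hl', hm', hinv1 hlc hl1, hinv1 hmc hm1, hχ1]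
      norm_num
    have h3 := hf _ hw
    have h4 : (g : G) * z * (g : G)⁻¹ * z⁻¹ = 1 := h3
    rw [hB, mem_cc_iff]
    have h5 : (g : G) * z * (g : G)⁻¹ * z⁻¹ * (z * g) = (g : G) * z := by group
    rw [← h5, h4, one_mul]
  have key2 : ∀ g h : N, l ∘ (F g) = l ∘ (F h) → ((g * h⁻¹ : N) : G) ∈ B := by
    intro g h hgh
    apply key1
    funext c
    have h3 := congrFun hgh ((F h⁻¹) c)
    simp only [Function.comp] at h3 ⊢
    rw [map_mul]
    change l (F g (F h⁻¹ c)) = l c
    rw [h3]
    congr 1
    have : F h (F h⁻¹ c) = (F h * F h⁻¹) c := rfl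
    rw [this, ← map_mul, mul_inv_cancel, map_one]
    rfl
  by_cases hall : ∀ g : N, (g : G) ∈ B
  · left
    apply Subgroup.index_eq_one.2
    ext g
    simp [Subgroup.mem_subgroupOf, hall g]
  · right
    push Not at hall
    obtain ⟨g₀, hg₀⟩ := hall
    apply Subgroup.index_eq_two_iff.2
    refine ⟨g₀, fun b => ?_⟩
    simp only [Subgroup.mem_subgroupOf]
    by_cases hb : (b : G) ∈ B
    · right
      refine ⟨hb, fun h3 => hg₀ ?_⟩
      have h4 := B.mul_mem (B.inv_mem hb) h3
      simpa using h4
    · left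
      refine ⟨?_, hb⟩
      have h3 : l ∘ (F b) = m := (hunique b).resolve_left fun h => hb (key1 b h)
      have h4 : l ∘ (F g₀⁻¹) = m := (hunique g₀⁻¹).resolve_left fun h => by
        have := B.inv_mem (key1 g₀⁻¹ h)
        apply hg₀
        simpa using this
      have h5 := key2 b g₀⁻¹ (h3.trans h4.symm)
      simpa using h5

end Tor

end Basic

section Count

/-- Conjugation on subgroups. -/
@[reducible] noncomputable def conjAction : MulAction G (Subgroup G) :=
  MulAction.compHom (Subgroup G) (MulAut.conj : G →* MulAut G)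

attribute [local instance] conjAction

theorem smul_def' (g : G) (B : Subgroup G) : g • B = MulAut.conj g • B := rfl

theorem mem_smul' {g x : G} {B : Subgroup G} : x ∈ g • B ↔ g⁻¹ * x * g ∈ B :=
  H23.TISyl.mem_conj_smul g x B

theorem smul_cc (g z : G) :
    g • Subgroup.centralizer ({z} : Set G) = Subgroup.centralizer ({g * z * g⁻¹} : Set G) := by
  ext x
  rw [mem_smul', mem_cc_iff, mem_cc_iff]
  constructor
  · intro h
    have h3 : g * (g⁻¹ * x * g * z) * g⁻¹ = g * (z * (g⁻¹ * x * g)) * g⁻¹ := by rw [h]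
    calc x * (g * z * g⁻¹) = g * (g⁻¹ * x * g * z) * g⁻¹ := by group
      _ = g * (z * (g⁻¹ * x * g)) * g⁻¹ := h3
      _ = _ := by group
  · intro h
    have h3 : g⁻¹ * (x * (g * z * g⁻¹)) * g = g⁻¹ * (g * z * g⁻¹ * x) * g := by rw [h]
    calc g⁻¹ * x * g * z = g⁻¹ * (x * (g * z * g⁻¹)) * g := by group
      _ = g⁻¹ * (g * z * g⁻¹ * x) * g := h3
      _ = _ := by group

theorem stab_eq (B : Subgroup G) :
    MulAction.stabilizer G B = Subgroup.normalizer ((B : Subgroup G) : Set G) := by
  ext g
  rw [MulAction.mem_stabilizer_iff, Subgroup.mem_normalizer_iff]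
  constructor
  · intro h x
    have h3 : ∀ y, y ∈ g • B ↔ y ∈ B := fun y => by rw [h]
    have h4 := h3 (g * x * g⁻¹)
    rw [mem_smul'] at h4
    have h5 : g⁻¹ * (g * x * g⁻¹) * g = x := by group
    rw [h5] at h4
    exact h4
  · intro h
    ext x
    rw [mem_smul', h (g⁻¹ * x * g)]
    have h5 : g * (g⁻¹ * x * g) * g⁻¹ = x := by group
    rw [h5]

theorem card_smul' (g : G) (B : Subgroup G) : Nat.card (g • B : Subgroup G) = Nat.card B := by
  classical
  have h : (g • B : Subgroup G) = B.map (MulAut.conj g).toMonoidHom := rfl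
  rw [h]
  exact Subgroup.card_map_of_injective (MulEquiv.injective _)

/-- The set of tori. -/
noncomputable def TT (G : Type u) [Group G] [Fintype G] : Finset (Subgroup G) := by
  classical
  exact (Finset.univ.filter (· ∉ Subgroup.center G)).image
    (fun z => Subgroup.centralizer ({z} : Set G))

theorem mem_TT {B : Subgroup G} :
    B ∈ TT G ↔ ∃ z, z ∉ Subgroup.center G ∧ B = Subgroup.centralizer ({z} : Set G) := by
  classical
  simp only [TT, Finset.mem_image, Finset.mem_filter, Finset.mem_univ, true_and]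
  constructor
  · rintro ⟨z, hz, rfl⟩
    exact ⟨z, hz, rfl⟩
  · rintro ⟨z, hz, rfl⟩
    exact ⟨z, hz, rfl⟩

theorem smul_mem_TT {B : Subgroup G} (hB : B ∈ TT G) (g : G) : g • B ∈ TT G := by
  obtain ⟨z, hz, rfl⟩ := mem_TT.1 hB
  refine mem_TT.2 ⟨g * z * g⁻¹, ?_, smul_cc g z⟩
  intro h
  apply hz
  have h3 := (inferInstance : (Subgroup.center G).Normal).conj_mem _ h g⁻¹
  have h4 : g⁻¹ * (g * z * g⁻¹) * g⁻¹⁻¹ = z := by group
  rwa [h4] at h3

theorem center_le_of_mem_TT {B : Subgroup G} (hB : B ∈ TT G) : Subgroup.center G ≤ B := by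
  obtain ⟨z, hz, rfl⟩ := mem_TT.1 hB
  intro c hc
  rw [mem_cc_iff]
  exact (Subgroup.mem_center_iff.1 hc z).symm

theorem card_eq_relIndex {B : Subgroup G} (hB : Subgroup.center G ≤ B) :
    Nat.card B = (Subgroup.center G).relIndex B * Nat.card (Subgroup.center G) := by
  have h1 := Subgroup.card_mul_index ((Subgroup.center G).subgroupOf B)
  have h2 : Nat.card ((Subgroup.center G).subgroupOf B) = Nat.card (Subgroup.center G) :=
    Nat.card_congr (Subgroup.subgroupOfEquivOfLe hB).toEquiv
  rw [h2] at h1
  rw [← h1, Subgroup.relIndex, mul_comm]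

theorem relIndex_smul {B : Subgroup G} (hB : B ∈ TT G) (g : G) :
    (Subgroup.center G).relIndex (g • B) = (Subgroup.center G).relIndex B := by
  have h1 := card_eq_relIndex (center_le_of_mem_TT hB)
  have h2 := card_eq_relIndex (center_le_of_mem_TT (smul_mem_TT hB g))
  rw [card_smul', h1] at h2
  exact (Nat.eq_of_mul_eq_mul_right Nat.card_pos h2).symm

section Main

variable (χ : IrrCharacter G) (hf : ∀ g, χ.1 g = χ.1 1 → g = 1) (h2 : charDegree χ.1 = 2)

include hf h2

/-- The class equation for the tori. -/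
theorem sum_TT :
    ∑ B ∈ TT G, ((Subgroup.center G).relIndex B - 1) + 1 = (Subgroup.center G).index := by
  classical
  set Z := Subgroup.center G with hZ
  set c := Nat.card Z with hc
  have hcpos : 0 < c := Nat.card_pos
  have hmaps : Set.MapsTo (fun z => Subgroup.centralizer ({z} : Set G))
      (Finset.univ.filter (· ∉ Z) : Finset G) (TT G : Finset (Subgroup G)) := by
    intro z hz
    simp only [Finset.coe_filter, Finset.mem_univ, true_and, Set.mem_ofPred_eq] at hz
    exact mem_TT.2 ⟨z, hz, rfl⟩
  have h1 := Finset.card_eq_sum_card_fiberwise hmaps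
  have hfib : ∀ B ∈ TT G, ((Finset.univ.filter (· ∉ Z)).filter
      (fun z => Subgroup.centralizer ({z} : Set G) = B)).card = (Z.relIndex B - 1) * c := by
    intro B hB
    obtain ⟨y, hy, rfl⟩ := mem_TT.1 hB
    have hset : (Finset.univ.filter (· ∉ Z)).filter
        (fun z => Subgroup.centralizer ({z} : Set G) = Subgroup.centralizer ({y} : Set G)) =
        (Finset.univ.filter (· ∈ Subgroup.centralizer ({y} : Set G))) \ (Finset.univ.filter (· ∈ Z)) := by
      ext z
      simp only [Finset.mem_filter, Finset.mem_univ, true_and, Finset.mem_sdiff]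
      constructor
      · rintro ⟨hz, hcz⟩
        refine ⟨?_, hz⟩
        rw [← hcz, mem_cc_iff]
      · rintro ⟨hz, hz'⟩
        exact ⟨hz', cc_eq χ hf h2 hy hz hz'⟩
    rw [hset, Finset.card_sdiff_of_subset, SelfCent.card_filter_mem, SelfCent.card_filter_mem,
      card_eq_relIndex (center_le_of_mem_TT hB), Nat.sub_mul, one_mul]
    intro z hz
    simp only [Finset.mem_filter, Finset.mem_univ, true_and] at hz ⊢
    exact center_le_of_mem_TT hB hz
  rw [Finset.sum_congr rfl hfib, ← Finset.sum_mul] at h1
  have h3 : (Finset.univ.filter (· ∉ Z)).card + c = Nat.card G := by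
    rw [hc, ← SelfCent.card_filter_mem, Nat.card_eq_fintype_card, ← Finset.card_univ,
      add_comm, Finset.card_filter_add_card_filter_not]
  have h4 : Nat.card G = Z.index * c := Subgroup.index_mul_card Z |>.symm
  rw [h1, h4] at h3
  have h5 : (∑ B ∈ TT G, (Z.relIndex B - 1) + 1) * c = Z.index * c := by
    rw [add_mul, one_mul]
    exact h3
  exact Nat.eq_of_mul_eq_mul_right hcpos h5

theorem main
    (hprim : ∀ H : Subgroup G, H ≠ ⊤ → ∀ θ : H → ℂ, IsCharacter H θ → χ.1 ≠ indFun H θ) :
    (Subgroup.center G).index = 12 ∨ (Subgroup.center G).index = 24 ∨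
      (Subgroup.center G).index = 60 := by
  classical
  haveI : Fintype (IrrCharacter G) := Fintype.ofFinite _
  set Z := Subgroup.center G with hZ
  have hχc := isCharacter_of_irr χ.2
  have hn : 2 ≤ Z.index := by
    have h0 : Z.index ≠ 0 := Subgroup.index_ne_zero_of_finite
    have h1 : Z.index ≠ 1 := by
      intro h
      have h3 : Z = ⊤ := Subgroup.index_eq_one.1 h
      have h4 : ∀ a b : G, a * b = b * a := by
        intro a b
        have : a ∈ Z := h3 ▸ Subgroup.mem_top a
        exact (Subgroup.mem_center_iff.1 this b).symm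
      have := irr_degree_one_of_comm h4 χ.2
      omega
    omega
  let st := MulAction.orbitRel G (Subgroup G)
  set R := (TT G).image (Quotient.mk st) with hR
  let rep : Quotient st → Subgroup G := Quotient.out
  have hrep : ∀ q : Quotient st, Quotient.mk st (rep q) = q := fun q => Quotient.out_eq q
  have horb : ∀ (q : Quotient st) (y : Subgroup G), Quotient.mk st y = q → ∃ g : G, y = g • rep q := by
    intro q y hy
    have h3 : Quotient.mk st y = Quotient.mk st (rep q) := hy.trans (hrep q).symm
    have h4 : y ∈ MulAction.orbit G (rep q) := Quotient.exact h3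
    obtain ⟨g, hg⟩ := h4
    exact ⟨g, hg.symm⟩
  have hrepT : ∀ q ∈ R, rep q ∈ TT G := by
    intro q hq
    obtain ⟨B, hB, rfl⟩ := Finset.mem_image.1 hq
    have h3 : Quotient.mk st (rep (Quotient.mk st B)) = Quotient.mk st B := hrep _
    have h4 : rep (Quotient.mk st B) ∈ MulAction.orbit G B := Quotient.exact h3
    obtain ⟨g, hg⟩ := h4
    rw [← hg]
    exact smul_mem_TT hB g
  let N : Quotient st → Subgroup G := fun q => Subgroup.normalizer ((rep q : Subgroup G) : Set G)
  let k : Quotient st → ℕ := fun q => (N q).index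
  let m : Quotient st → ℕ := fun q => Z.relIndex (rep q)
  let d : Quotient st → ℕ := fun q => (rep q).relIndex (N q)
  have hsum : ∑ q ∈ R, k q * (m q - 1) + 1 = Z.index := by
    rw [← sum_TT χ hf h2, Finset.sum_partition st]
    congr 1
    refine Finset.sum_congr rfl fun q hq => ?_
    have hT := hrepT q hq
    have h3 : ∀ y ∈ (TT G).filter (fun y => Quotient.mk st y = q), Z.relIndex y - 1 = m q - 1 := by
      intro y hy
      obtain ⟨g, rfl⟩ := horb q y (Finset.mem_filter.1 hy).2
      rw [relIndex_smul hT]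
    rw [Finset.sum_congr rfl h3, Finset.sum_const, smul_eq_mul]
    congr 1
    have h4 : ((TT G).filter (fun y => Quotient.mk st y = q) : Finset (Subgroup G)) =
        (MulAction.orbit G (rep q) : Set (Subgroup G)) := by
      ext y
      simp only [Finset.coe_filter, Set.mem_ofPred_eq]
      constructor
      · rintro ⟨-, hy⟩
        obtain ⟨g, rfl⟩ := horb q y hy
        exact ⟨g, rfl⟩
      · rintro ⟨g, rfl⟩
        refine ⟨smul_mem_TT hT g, ?_⟩
        have h5 : Quotient.mk st (g • rep q) = Quotient.mk st (rep q) :=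
          Quotient.sound (⟨g, rfl⟩ : g • rep q ∈ MulAction.orbit G (rep q))
        exact h5.trans (hrep q)
    have h5 := MulAction.index_stabilizer G (rep q)
    rw [stab_eq, ← h4, Set.ncard_coe_finset] at h5
    exact h5
  have hm : ∀ q ∈ R, 2 ≤ m q := by
    intro q hq
    obtain ⟨z, hz, hB⟩ := mem_TT.1 (hrepT q hq)
    have h0 : m q ≠ 0 := (Subgroup.index_ne_zero_of_finite : (Z.subgroupOf (rep q)).index ≠ 0)
    have h1 : m q ≠ 1 := by
      intro h
      have h3 : rep q ≤ Z := Subgroup.relIndex_eq_one.1 h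
      apply hz
      apply h3
      rw [hB, mem_cc_iff]
    omega
  have hd : ∀ q ∈ R, d q = 1 ∨ d q = 2 := by
    intro q hq
    obtain ⟨z, hz, hB⟩ := mem_TT.1 (hrepT q hq)
    have := relIndex_norm χ hf h2 hz
    simp only [d, N]
    rw [hB]
    exact this
  have hk : ∀ q ∈ R, k q * m q * d q = Z.index := by
    intro q hq
    have h3 : Z ≤ rep q := center_le_of_mem_TT (hrepT q hq)
    have h4 : rep q ≤ N q := Subgroup.le_normalizer
    have h5 := Subgroup.relIndex_mul_relIndex Z (rep q) (N q) h3 h4
    have h6 := Subgroup.relIndex_mul_index (h3.trans h4)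
    rw [← h6, ← h5]
    simp only [k, m, d]
    ring
  rcases orbit_arith R k m d Z.index hn hm hd hk hsum with h | h | h | ⟨q, hq, hk1⟩
  · exact Or.inl h
  · exact Or.inr (Or.inl h)
  · exact Or.inr (Or.inr h)
  exfalso
  obtain ⟨z, hz, hB⟩ := mem_TT.1 (hrepT q hq)
  have hNtop : N q = ⊤ := Subgroup.index_eq_one.1 hk1
  have hdq := hd q hq
  have hdi : d q = (rep q).index := by
    simp only [d]
    rw [hNtop, Subgroup.relIndex_top_right]
  rw [hdi] at hdq
  rcases hdq with h1 | h1
  · apply hz
    have h3 : rep q = ⊤ := Subgroup.index_eq_one.1 h1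
    rw [Subgroup.mem_center_iff]
    intro g
    have h4 : g ∈ rep q := h3 ▸ Subgroup.mem_top g
    rw [hB, mem_cc_iff] at h4
    exact h4
  · have hne : rep q ≠ ⊤ := by
      intro h
      rw [h, Subgroup.index_top] at h1
      norm_num at h1
    rw [hB] at h1 hne
    haveI : Fintype (Subgroup.centralizer ({z} : Set G)) := Fintype.ofFinite _
    obtain ⟨l, m', hlc, hmc, hl1, hm1, hli, hmi, hsum'⟩ := exists_two χ hf h2 hz
    apply hprim _ hne l hlc
    symm
    apply eq_of_deg_ge (isCharacter_indFun _ hlc) χ (n := 2)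
    · rw [indFun_one, h1, linear_one hlc hl1]
      norm_num
    · norm_num
    · rw [frobenius_reciprocity _ l χ.1 (isClassFunction_of_isCharacter hχc), ← classInner_comm_conj]
      have h3 : (fun h : Subgroup.centralizer ({z} : Set G) => χ.1 h) = l + m' := funext hsum'
      rw [h3, classInner_add_left, H06.classInner_irr_self hli]
      intro h4
      have h5 := (map_eq_zero _).1 h4
      by_cases h6 : m' = l
      · rw [h6, H06.classInner_irr_self hli] at h5
        norm_num at h5
      · rw [H06.classInner_irr_ne hmi hli h6] at h5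
        norm_num at h5
    · rw [h2]

end Main

end Count

end Cfsg.Agent.H23.Prim2
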