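import Mathlib

/-!
# The arithmetic of orbit counting for primitive linear groups of degree two
-/

set_option autoImplicit false

namespace Cfsg.Agent.H23.Prim2

theorem three_arith {N ka kb kc ma mb mc : ℕ} (ha : ka * ma = N) (hb : kb * mb = N) (hc : kc * mc = N)
    (hsum : ka + kb + kc = N + 1) (h2 : 2 ≤ ma) (hab : ma ≤ mb) (hbc : mb ≤ mc)
    (hkc : 2 ≤ kc) : N = 6 ∨ N = 12 ∨ N = 30 := by
  have hma : ma = 2 := by
    by_contra h
    have h3 : 3 ≤ ma := by omega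
    have h4 : ka * 3 ≤ N := ha ▸ Nat.mul_le_mul_left _ h3
    have h5 : kb * 3 ≤ N := hb ▸ Nat.mul_le_mul_left _ (h3.trans hab)
    have h6 : kc * 3 ≤ N := hc ▸ Nat.mul_le_mul_left _ ((h3.trans hab).trans hbc)
    omega
  subst hma
  have hmb : mb ≤ 3 := by
    by_contra h
    have h3 : 4 ≤ mb := by omega
    have h5 : kb * 4 ≤ N := hb ▸ Nat.mul_le_mul_left _ h3
    have h6 : kc * 4 ≤ N := hc ▸ Nat.mul_le_mul_left _ (h3.trans hbc)
    omega
  have hmb2 : mb = 2 ∨ mb = 3 := by omega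
  rcases hmb2 with rfl | rfl
  · omega
  · have hmc : mc ≤ 5 := by
      by_contra h
      have h3 : 6 ≤ mc := by omega
      have h6 : kc * 6 ≤ N := hc ▸ Nat.mul_le_mul_left _ h3
      omega
    have hmc3 : mc = 3 ∨ mc = 4 ∨ mc = 5 := by omega
    rcases hmc3 with rfl | rfl | rfl <;> omega

theorem three_arith' {N ka kb kc ma mb mc : ℕ} (ha : ka * ma = N) (hb : kb * mb = N) (hc : kc * mc = N)
    (hsum : ka + kb + kc = N + 1) (h2a : 2 ≤ ma) (h2b : 2 ≤ mb) (h2c : 2 ≤ mc)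
    (hka : 2 ≤ ka) (hkb : 2 ≤ kb) (hkc : 2 ≤ kc) : N = 6 ∨ N = 12 ∨ N = 30 := by
  rcases le_total ma mb with h1 | h1 <;> rcases le_total mb mc with h3 | h3 <;>
    rcases le_total ma mc with h4 | h4
  · exact three_arith ha hb hc hsum h2a h1 h3 hkc
  · exact three_arith ha hb hc hsum h2a h1 h3 hkc
  · exact three_arith ha hc hb (by omega) h2a h4 h3 hkb
  · exact three_arith hc ha hb (by omega) h2c h4 h1 hkb
  · exact three_arith hb ha hc (by omega) h2b h1 h4 hkc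
  · exact three_arith hb hc ha (by omega) h2b h3 h4 hka
  · exact three_arith hc hb ha (by omega) h2c h3 h1 hka
  · exact three_arith hc hb ha (by omega) h2c h3 h1 hka

theorem two_arith {N k1 k2 m1 m2 : ℕ} (h1 : k1 * m1 = 2 * N) (h2 : k2 * m2 = N)
    (hsum : k1 + k2 = N + 1) (hm1 : 2 ≤ m1) (hm2 : 2 ≤ m2) (hk2 : 2 ≤ k2) : N = 6 := by
  have h3 : k2 * 2 ≤ N := h2 ▸ Nat.mul_le_mul_left _ hm2
  have hm1' : m1 ≤ 3 := by
    by_contra h
    have h4 : 4 ≤ m1 := by omega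
    have h5 : k1 * 4 ≤ 2 * N := h1 ▸ Nat.mul_le_mul_left _ h4
    omega
  have hm1'' : m1 = 2 ∨ m1 = 3 := by omega
  rcases hm1'' with rfl | rfl
  · omega
  · have hm2' : m2 = 2 := by
      by_contra h
      have h4 : 3 ≤ m2 := by omega
      have h5 : k2 * 3 ≤ N := h2 ▸ Nat.mul_le_mul_left _ h4
      omega
    subst hm2'
    omega

/-- Elementary data of one orbit. -/
theorem term_facts {n k m d : ℕ} (hm : 2 ≤ m) (hd : d = 1 ∨ d = 2) (hk : k * m * d = n) :
    ∃ P, P = k * m ∧ k * (m - 1) = P - k ∧ 2 * k ≤ P ∧ (d = 1 ∧ P = n ∨ d = 2 ∧ 2 * P = n) := by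
  refine ⟨k * m, rfl, ?_, ?_, ?_⟩
  · rw [Nat.mul_sub, mul_one]
  · rw [mul_comm 2]
    exact Nat.mul_le_mul_left _ hm
  · rcases hd with rfl | rfl
    · left; exact ⟨rfl, by simpa using hk⟩
    · right; exact ⟨rfl, by rw [← hk]; ring⟩

theorem orbit_arith {ι : Type*} [DecidableEq ι] (R : Finset ι) (k m d : ι → ℕ) (n : ℕ) (hn : 2 ≤ n)
    (hm : ∀ i ∈ R, 2 ≤ m i) (hd : ∀ i ∈ R, d i = 1 ∨ d i = 2) (hk : ∀ i ∈ R, k i * m i * d i = n)
    (hsum : ∑ i ∈ R, k i * (m i - 1) + 1 = n) :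
    n = 12 ∨ n = 24 ∨ n = 60 ∨ ∃ i ∈ R, k i = 1 := by
  by_contra hcon
  push Not at hcon
  obtain ⟨h12, h24, h60, hk1⟩ := hcon
  have hkpos : ∀ i ∈ R, 2 ≤ k i := by
    intro i hi
    have h0 : k i ≠ 0 := by
      intro h
      have := hk i hi
      rw [h] at this
      simp at this
      omega
    have := hk1 i hi
    omega
  have hcard : R.card ≤ 3 := by
    by_contra h
    have h4 : 4 ≤ R.card := by omega
    have h5 : R.card • n ≤ ∑ i ∈ R, 4 * (k i * (m i - 1)) := by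
      apply Finset.card_nsmul_le_sum
      intro i hi
      obtain ⟨P, hP, hT, h2k, hc⟩ := term_facts (hm i hi) (hd i hi) (hk i hi)
      rw [hT]
      rcases hc with ⟨_, h⟩ | ⟨_, h⟩ <;> omega
    rw [← Finset.mul_sum, smul_eq_mul] at h5
    have h6 : 4 * n ≤ R.card * n := Nat.mul_le_mul_right _ h4
    omega
  have hc4 : R.card = 0 ∨ R.card = 1 ∨ R.card = 2 ∨ R.card = 3 := by omega
  rcases hc4 with h0 | h0 | h0 | h0
  · rw [Finset.card_eq_zero] at h0
    subst h0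
    simp at hsum
    omega
  · obtain ⟨a, rfl⟩ := Finset.card_eq_one.1 h0
    simp only [Finset.sum_singleton] at hsum
    have hma := hm a (by simp)
    obtain ⟨P, hP, hT, h2k, hc⟩ := term_facts hma (hd a (by simp)) (hk a (by simp))
    have hka := hkpos a (by simp)
    rw [hT] at hsum
    have := hk1 a (by simp)
    rcases hc with ⟨_, h⟩ | ⟨_, h⟩ <;> omega
  · obtain ⟨a, b, hab, rfl⟩ := Finset.card_eq_two.1 h0
    rw [Finset.sum_pair hab] at hsum
    obtain ⟨P1, hP1, hT1, h2k1, hc1⟩ := term_facts (hm a (by simp)) (hd a (by simp)) (hk a (by simp))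
    obtain ⟨P2, hP2, hT2, h2k2, hc2⟩ := term_facts (hm b (by simp)) (hd b (by simp)) (hk b (by simp))
    have hka := hkpos a (by simp)
    have hkb := hkpos b (by simp)
    rw [hT1, hT2] at hsum
    rcases hc1 with ⟨_, h1⟩ | ⟨_, h1⟩ <;> rcases hc2 with ⟨_, h2⟩ | ⟨_, h2⟩
    · omega
    · -- δ = (1, 2)
      obtain ⟨N, rfl⟩ : ∃ N, n = 2 * N := ⟨P2, h2.symm⟩
      have h3 : P2 = N := by omega
      have h4 := two_arith (N := N) (k1 := k a) (k2 := k b) (m1 := m a) (m2 := m b) (by rw [← hP1, h1])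
        (by rw [← hP2, h3]) (by omega) (hm a (by simp)) (hm b (by simp)) hkb
      omega
    · obtain ⟨N, rfl⟩ : ∃ N, n = 2 * N := ⟨P1, h1.symm⟩
      have h3 : P1 = N := by omega
      have h4 := two_arith (N := N) (k1 := k b) (k2 := k a) (m1 := m b) (m2 := m a) (by rw [← hP2, h2])
        (by rw [← hP1, h3]) (by omega) (hm b (by simp)) (hm a (by simp)) hka
      omega
    · omega
  · obtain ⟨a, b, c, hab, hac, hbc, rfl⟩ := Finset.card_eq_three.1 h0
    rw [Finset.sum_insert (by simp [hab, hac]), Finset.sum_pair hbc] at hsum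
    obtain ⟨P1, hP1, hT1, h2k1, hc1⟩ := term_facts (hm a (by simp)) (hd a (by simp)) (hk a (by simp))
    obtain ⟨P2, hP2, hT2, h2k2, hc2⟩ := term_facts (hm b (by simp)) (hd b (by simp)) (hk b (by simp))
    obtain ⟨P3, hP3, hT3, h2k3, hc3⟩ := term_facts (hm c (by simp)) (hd c (by simp)) (hk c (by simp))
    have hka := hkpos a (by simp)
    have hkb := hkpos b (by simp)
    have hkc := hkpos c (by simp)
    rw [hT1, hT2, hT3] at hsum
    rcases hc1 with ⟨_, h1⟩ | ⟨_, h1⟩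
    · rcases hc2 with ⟨_, h2⟩ | ⟨_, h2⟩ <;> rcases hc3 with ⟨_, h3⟩ | ⟨_, h3⟩ <;> omega
    · rcases hc2 with ⟨_, h2⟩ | ⟨_, h2⟩
      · rcases hc3 with ⟨_, h3⟩ | ⟨_, h3⟩ <;> omega
      · rcases hc3 with ⟨_, h3⟩ | ⟨_, h3⟩
        · omega
        · obtain ⟨N, rfl⟩ : ∃ N, n = 2 * N := ⟨P1, h1.symm⟩
          have e1 : P1 = N := by omega
          have e2 : P2 = N := by omega
          have e3 : P3 = N := by omega
          have h4 := three_arith' (N := N) (ka := k a) (kb := k b) (kc := k c) (ma := m a) (mb := m b)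
            (mc := m c) (by rw [← hP1, e1]) (by rw [← hP2, e2]) (by rw [← hP3, e3]) (by omega)
            (hm a (by simp)) (hm b (by simp)) (hm c (by simp)) hka hkb hkc
          omega

end Cfsg.Agent.H23.Prim2
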