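import Cfsg.Agent.Lib.H22.BlockRank
import Cfsg.Agent.Lib.H06.Brauer5
import Cfsg.Agent.Lib.H21.Adams
import Cfsg.Agent.Lib.H21.KernelPPrime
import Cfsg.Agent.Lib.H06.CharGallagher
import Cfsg.Agent.Lib.H08.PCoreL

/-!
# `p^a χ` on `p`-regular elements is an integer combination of the characters of the block
-/

set_option autoImplicit false
set_option linter.unusedSectionVars false
set_option linter.style.haveILetI false
set_option linter.unusedSimpArgs false

namespace Cfsg.Agent.H23.ProjReg

open Cfsg Cfsg.Agent.H21 Cfsg.Agent.H22 Module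
open scoped ComplexConjugate

universe u

theorem quot_core_isPGroup {E : Type*} [Group E] [Finite E] (hnil : Group.IsNilpotent E) (p : ℕ)
    [hp : Fact p.Prime] : IsPGroup p (E ⧸ pPrimeCore p E) := by
  haveI : (pPrimeCore p E).Normal := pPrimeCore_normal p E
  have hq : Group.IsNilpotent (E ⧸ pPrimeCore p E) :=
    Group.nilpotent_of_surjective (QuotientGroup.mk' (pPrimeCore p E)) (QuotientGroup.mk'_surjective _)
  have hbot := H08.pPrimeCore_quotient_eq_bot (G := E) p
  have hnorm := (Group.isNilpotent_of_finite_tfae (G := E ⧸ pPrimeCore p E)).out 0 3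
  have hnorm2 := hnorm.1 hq
  rw [IsPGroup.iff_card]
  refine ⟨_, Nat.eq_prime_pow_of_unique_prime_dvd Nat.card_pos.ne' ?_⟩
  intro q hq hd
  by_contra hne
  haveI : Fact q.Prime := ⟨hq⟩
  obtain ⟨S⟩ : Nonempty (Sylow q (E ⧸ pPrimeCore p E)) := inferInstance
  have hS1 := S.ne_bot_of_dvd_card hd
  have hSn := hnorm2 q ‹_› S
  have hc : (Nat.card (S : Subgroup (E ⧸ pPrimeCore p E))).Coprime p := by
    obtain ⟨n, hn⟩ := IsPGroup.iff_card.1 S.2
    rw [hn]
    exact Nat.Coprime.pow_left _ ((Nat.coprime_primes hq hp.out).2 hne)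
  have h1 := H08.le_pPrimeCore hSn hc
  rw [hbot] at h1
  exact hS1 (le_bot_iff.1 h1)

theorem mem_core_iff {E : Type*} [Group E] [Finite E] (hnil : Group.IsNilpotent E) (p : ℕ)
    [hp : Fact p.Prime] (e : E) : e ∈ pPrimeCore p E ↔ ¬ p ∣ orderOf e := by
  haveI : (pPrimeCore p E).Normal := pPrimeCore_normal p E
  constructor
  · intro he hd
    have h1 : orderOf (⟨e, he⟩ : pPrimeCore p E) ∣ Nat.card (pPrimeCore p E) := orderOf_dvd_natCard _
    rw [Subgroup.orderOf_mk] at h1
    have hc := H06.coprime_card_pPrimeCore (G := E) p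
    have : p ∣ 1 := by
      have h2 := Nat.dvd_gcd (hd.trans h1) (dvd_refl p)
      rwa [hc] at h2
    exact hp.out.one_lt.ne' (Nat.dvd_one.1 this)
  · intro hd
    obtain ⟨k, hk⟩ := IsPGroup.iff_orderOf.1 (quot_core_isPGroup hnil p) (e : E ⧸ pPrimeCore p E)
    have h1 : orderOf (e : E ⧸ pPrimeCore p E) ∣ orderOf e := by
      apply orderOf_dvd_of_pow_eq_one
      rw [← QuotientGroup.mk_pow, pow_orderOf_eq_one]
      rfl
    have hk0 : k = 0 := by
      by_contra hk0
      apply hd
      rw [hk] at h1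
      exact (dvd_pow_self p hk0).trans h1
    rw [hk0, pow_zero, orderOf_eq_one_iff, QuotientGroup.eq_one_iff] at hk
    exact hk

variable {G : Type u} [Group G] [Fintype G]

/-- `p^a` times the indicator function of the `p`-regular elements is a generalized character. -/
theorem gen_reg (p : ℕ) [hp : Fact p.Prime] :
    IsGeneralizedCharacter G (fun x : G => if p ∣ orderOf x then (0 : ℂ) else
      ((p ^ (Nat.card G).factorization p : ℕ) : ℂ)) := by
  classical
  refine H06.Brauer.gen_of_restrict H06.Brauer.one_mem_VZ ?_ ?_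
  · intro g x
    have : orderOf (x⁻¹ * g * x) = orderOf g := by
      have := orderOf_injective (MulAut.conj x⁻¹).toMonoidHom (MulAut.conj x⁻¹).injective g
      simpa using this
    have h2 : orderOf (x * g * x⁻¹) = orderOf g := by
      have := orderOf_injective (MulAut.conj x).toMonoidHom (MulAut.conj x).injective g
      simpa using this
    simp only [h2]
  · rintro E ⟨q, hq, he⟩
    haveI : Fintype E := Fintype.ofFinite E
    have hnil := H06.Brauer.IsElementary_nilpotent hq he
    haveI hKn : (pPrimeCore p E).Normal := pPrimeCore_normal p E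
    obtain ⟨b, hb⟩ := IsPGroup.iff_card.1 (quot_core_isPGroup hnil p)
    have hidx : (pPrimeCore p E).index = p ^ b := by
      rw [Subgroup.index_eq_card, hb]
    have hdvd : p ^ b ∣ Nat.card G := by
      have h1 : p ^ b ∣ Nat.card E := by
        rw [← hidx]; exact Subgroup.index_dvd_card _
      exact h1.trans (Subgroup.card_subgroup_dvd_card E)
    have hba : b ≤ (Nat.card G).factorization p :=
      (hp.out.pow_dvd_iff_le_factorization Nat.card_pos.ne').1 hdvd
    have hchar : IsCharacter E (indFun (pPrimeCore p E) (fun _ => (1 : ℂ))) :=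
      isCharacter_indFun _ (isCharacter_of_irr isIrrCharacter_one)
    have h := H06.gen_zsmul (H06.gen_of_char hchar) ((p ^ ((Nat.card G).factorization p - b) : ℕ) : ℤ)
    convert h using 1
    funext e
    have hone : indFun (pPrimeCore p E) (fun _ => (1 : ℂ)) 1 = ((p ^ b : ℕ) : ℂ) := by
      rw [indFun_one, hidx, mul_one]
    have hpow : ((p ^ (Nat.card G).factorization p : ℕ) : ℂ)
        = ((p ^ ((Nat.card G).factorization p - b) : ℕ) : ℂ) * ((p ^ b : ℕ) : ℂ) := by
      rw [← Nat.cast_mul, ← pow_add, Nat.sub_add_cancel hba]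
    have hord : orderOf (e : G) = orderOf e := Subgroup.orderOf_coe e
    simp only [Pi.smul_apply, zsmul_eq_mul, Int.cast_natCast]
    rw [hord]
    by_cases he1 : p ∣ orderOf e
    · rw [if_pos he1, H06.indFun_of_not_mem]
      · simp
      · rw [mem_core_iff hnil p]; exact not_not.2 he1
    · have h3 := indFun_one_const (pPrimeCore p E) ((mem_core_iff hnil p e).2 he1)
      rw [if_neg he1, hpow, ← hone]
      congr 1
      convert h3.symm

variable [Fintype (IrrCharacter G)]
variable {M : Ideal AlgInt} [hM : M.IsPrime] {p : ℕ} [hp : Fact p.Prime]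

/-- The indicator of the `p`-regular elements. -/
noncomputable def rr (p : ℕ) (x : G) : ℂ := if p ∣ orderOf x then 0 else 1

theorem conj_rr (x : G) : conj (rr p x) = rr p x := by
  unfold rr; split_ifs <;> simp

theorem conj_blockKernel (B : Set (IrrCharacter G)) (x y : G) :
    conj (blockKernel B x y) = blockKernel B y x := by
  unfold blockKernel
  rw [map_sum]
  refine Finset.sum_congr rfl fun χ _ => ?_
  rw [map_mul, map_mul, eB_conj, Complex.conj_conj, mul_comm (conj (χ.1 x))]

theorem sum_blockKernel_mul_irr (B : Set (IrrCharacter G)) (ω : IrrCharacter G) (y : G) :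
    ∑ x, blockKernel B y x * ω.1 x = (Nat.card G : ℂ) * eB B ω * ω.1 y := by
  classical
  unfold blockKernel
  have h1 : ∀ x : G, (∑ τ : IrrCharacter G, eB B τ * (τ.1 y * conj (τ.1 x))) * ω.1 x
      = ∑ τ : IrrCharacter G, (eB B τ * τ.1 y) * (ω.1 x * conj (τ.1 x)) := by
    intro x
    rw [Finset.sum_mul]
    refine Finset.sum_congr rfl fun τ _ => ?_
    ring
  simp only [h1]
  rw [Finset.sum_comm]
  have h2 : ∀ τ : IrrCharacter G, ∑ x : G, (eB B τ * τ.1 y) * (ω.1 x * conj (τ.1 x))
      = (eB B τ * τ.1 y) * ((Nat.card G : ℂ) * (if ω = τ then 1 else 0)) := by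
    intro τ
    rw [← Finset.mul_sum]
    congr 1
    have h4 := classInner_irr ω τ
    unfold classInner at h4
    have h0 := card_ne_zero_C (G := G)
    rw [← h4]
    field_simp
  simp only [h2]
  rw [Finset.sum_eq_single ω]
  · rw [if_pos rfl]; ring
  · intro τ _ hne
    rw [if_neg (Ne.symm hne), mul_zero, mul_zero]
  · intro h
    exact absurd (Finset.mem_univ _) h

theorem sum_rr_blockKernel (hMp : IsPModular p M) {B : Set (IrrCharacter G)} (hB : IsPBlock M B)
    (ω : IrrCharacter G) {y : G} (hy : ¬ p ∣ orderOf y) :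
    ∑ x, rr p x * (blockKernel B y x * ω.1 x) = (Nat.card G : ℂ) * eB B ω * ω.1 y := by
  rw [← sum_blockKernel_mul_irr]
  refine Finset.sum_congr rfl fun x _ => ?_
  unfold rr
  by_cases hx : p ∣ orderOf x
  · have : blockKernel B y x = 0 := block_orth_regular_singular hMp hB hy hx
    rw [this]; simp
  · rw [if_neg hx, one_mul]

/-- Regular orthogonality of characters in different blocks. -/
theorem sum_rr_eq_zero (hMp : IsPModular p M) {B : Set (IrrCharacter G)} (hB : IsPBlock M B)
    {χ ψ : IrrCharacter G} (hχ : χ ∈ B) (hψ : ψ ∉ B) :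
    ∑ y, rr p y * (χ.1 y * conj (ψ.1 y)) = 0 := by
  have h0 := card_ne_zero_C (G := G)
  have key : (Nat.card G : ℂ) * ∑ y, rr p y * (χ.1 y * conj (ψ.1 y)) = 0 := by
    rw [Finset.mul_sum]
    have h1 : ∀ y : G, (Nat.card G : ℂ) * (rr p y * (χ.1 y * conj (ψ.1 y)))
        = ∑ x, rr p y * (rr p x * (blockKernel B y x * χ.1 x)) * conj (ψ.1 y) := by
      intro y
      by_cases hy : p ∣ orderOf y
      · have hr : rr p y = 0 := by unfold rr; rw [if_pos hy]
        simp [hr]
      · have h2 := sum_rr_blockKernel hMp hB χ hy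
        rw [eB_apply_mem hχ, mul_one] at h2
        rw [← Finset.sum_mul, ← Finset.mul_sum, h2]
        ring
    simp only [h1]
    rw [Finset.sum_comm]
    refine Finset.sum_eq_zero fun x _ => ?_
    by_cases hx : p ∣ orderOf x
    · have hr : rr p x = 0 := by unfold rr; rw [if_pos hx]
      simp [hr]
    · have h3 := sum_rr_blockKernel hMp hB ψ hx
      rw [eB_apply_not_mem hψ, mul_zero, zero_mul] at h3
      have h4 := congrArg conj h3
      rw [map_sum, map_zero] at h4
      have h5 : ∀ y : G, conj (rr p y * (blockKernel B x y * ψ.1 y))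
          = rr p y * (blockKernel B y x * conj (ψ.1 y)) := by
        intro y
        rw [map_mul, map_mul, conj_rr, conj_blockKernel]
      simp only [h5] at h4
      have h6 : ∀ y : G, rr p y * (rr p x * (blockKernel B y x * χ.1 x)) * conj (ψ.1 y)
          = (rr p x * χ.1 x) * (rr p y * (blockKernel B y x * conj (ψ.1 y))) := by
        intro y; ring
      simp only [h6]
      rw [← Finset.mul_sum, h4, mul_zero]
  exact (mul_eq_zero.1 key).resolve_left h0

theorem main_fin (hMp : IsPModular p M) {B : Set (IrrCharacter G)} (hB : IsPBlock M B)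
    {χ : IrrCharacter G} (hχ : χ ∈ B) :
    ∃ a : IrrCharacter G → ℤ, (∀ ψ, ψ ∉ B → a ψ = 0) ∧
      (fun x : G => if p ∣ orderOf x then (0 : ℂ) else
        ((p ^ (Nat.card G).factorization p : ℕ) : ℂ) * (χ : G → ℂ) x) =
        fun x => ∑ ψ : IrrCharacter G, (a ψ : ℂ) * (ψ : G → ℂ) x := by
  classical
  obtain ⟨F, hF⟩ : ∃ F : G → ℂ, F = fun x : G => if p ∣ orderOf x then (0 : ℂ) else
        ((p ^ (Nat.card G).factorization p : ℕ) : ℂ) * (χ : G → ℂ) x := ⟨_, rfl⟩
  have hgen : IsGeneralizedCharacter G F := by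
    have := gen_mul_char (gen_reg (G := G) p) (isCharacter_of_irr χ.2)
    convert this using 1
    rw [hF]
    funext x
    by_cases hx : p ∣ orderOf x <;> simp [hx]
  have hint : ∀ ψ : IrrCharacter G, ∃ n : ℤ, classInner F ψ.1 = n := fun ψ =>
    H06.gen_inner_int hgen (H06.gen_of_char (isCharacter_of_irr ψ.2))
  choose a ha using hint
  refine ⟨a, ?_, ?_⟩
  · intro ψ hψ
    have h1 := ha ψ
    have h2 : classInner F ψ.1 = 0 := by
      unfold classInner
      have h3 := sum_rr_eq_zero (p := p) hMp hB hχ hψ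
      have h4 : ∑ g, F g * conj (ψ.1 g) = ((p ^ (Nat.card G).factorization p : ℕ) : ℂ) *
          ∑ y, rr p y * (χ.1 y * conj (ψ.1 y)) := by
        rw [Finset.mul_sum]
        refine Finset.sum_congr rfl fun y _ => ?_
        rw [hF]
        unfold rr
        by_cases hy : p ∣ orderOf y <;> simp [hy]
        ring
      rw [h4, h3]; simp
    rw [h2] at h1
    exact_mod_cast h1.symm
  · rw [← hF]
    have hcl : IsClassFunction G F := H06.gen_isClass hgen
    have h1 := classFunction_expansion F hcl
    funext x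
    have h2 := congrFun h1 x
    rw [h2]
    simp only [Finset.sum_apply, Pi.smul_apply, smul_eq_mul, ha]

end Cfsg.Agent.H23.ProjReg

namespace Cfsg.Agent.H23.ProjReg

theorem main {G : Type*} [Group G] [Finite G] (p : ℕ) [Fact p.Prime] (M : Ideal Cfsg.AlgInt)
    (hM : Cfsg.IsPModular p M) (B : Set (Cfsg.IrrCharacter G)) (hB : Cfsg.IsPBlock M B)
    (χ : Cfsg.IrrCharacter G) (hχ : χ ∈ B) :
    ∃ a : Cfsg.IrrCharacter G → ℤ, (∀ ψ, ψ ∉ B → a ψ = 0) ∧
      (fun x : G => if p ∣ orderOf x then (0 : ℂ) else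
        ((p ^ (Nat.card G).factorization p : ℕ) : ℂ) * (χ : G → ℂ) x) =
        fun x => ∑ᶠ ψ : Cfsg.IrrCharacter G, (a ψ : ℂ) * (ψ : G → ℂ) x := by
  classical
  haveI := Fintype.ofFinite G
  haveI : Fintype (Cfsg.IrrCharacter G) := Fintype.ofFinite _
  haveI : M.IsPrime := hM.2.1.isPrime
  obtain ⟨a, h1, h2⟩ := main_fin hM hB hχ
  refine ⟨a, h1, ?_⟩
  rw [h2]
  funext x
  rw [finsum_eq_sum_of_fintype]

end Cfsg.Agent.H23.ProjReg
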