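import Cfsg.Agent.Lib.H23.RootTriple

/-!
# Rank one groups acting quadratically
-/

set_option autoImplicit false

namespace Cfsg.Agent.H23

open Cfsg

section Quadratic

variable {X : Type*} [Group X] {R : Type*} [Ring R] (ρ : X →* R) {A B : Subgroup X}

/-- `τ x = ρ x - 1`. -/
def tau (x : X) : R := ρ x - 1

lemma rho_eq (x : X) : ρ x = 1 + tau ρ x := by simp [tau]

@[simp] lemma tau_one : tau ρ (1 : X) = 0 := by simp [tau]

lemma tau_mul (x y : X) : tau ρ (x * y) = tau ρ x * tau ρ y + tau ρ x + tau ρ y := by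
  simp only [tau, map_mul]
  noncomm_ring

lemma rho_mul_inv (x : X) : ρ x * ρ x⁻¹ = 1 := by
  rw [← map_mul, mul_inv_cancel, map_one]

lemma rho_inv_mul (x : X) : ρ x⁻¹ * ρ x = 1 := by
  rw [← map_mul, inv_mul_cancel, map_one]

lemma tau_inv (x : X) : tau ρ x⁻¹ = - (tau ρ x * ρ x⁻¹) := by
  simp only [tau, sub_mul, one_mul, rho_mul_inv]
  abel

lemma tau_inv' (x : X) : tau ρ x⁻¹ = - (ρ x⁻¹ * tau ρ x) := by
  simp only [tau, mul_sub, mul_one, rho_inv_mul]
  abel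

lemma tau_conj (g x : X) : tau ρ (g * x * g⁻¹) = ρ g * tau ρ x * ρ g⁻¹ := by
  simp only [tau, map_mul, mul_sub, sub_mul, mul_one, rho_mul_inv]

/-- Under `τ x * τ x = 0`, the inverse of `ρ x` is `1 - τ x`. -/
lemma rho_inv_of_sq {x : X} (hx : tau ρ x * tau ρ x = 0) : ρ x⁻¹ = 1 - tau ρ x := by
  have h1 : ρ x * (1 - tau ρ x) = 1 := by
    rw [rho_eq ρ x]
    simp only [tau] at hx ⊢
    calc (1 + (ρ x - 1)) * (1 - (ρ x - 1)) = 1 - (ρ x - 1) * (ρ x - 1) := by noncomm_ring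
      _ = 1 := by rw [hx, sub_zero]
  calc ρ x⁻¹ = ρ x⁻¹ * (ρ x * (1 - tau ρ x)) := by rw [h1, mul_one]
    _ = (ρ x⁻¹ * ρ x) * (1 - tau ρ x) := by rw [mul_assoc]
    _ = _ := by rw [rho_inv_mul, one_mul]

/-- A subgroup acts quadratically. -/
def Quad (U : Subgroup X) : Prop := ∀ x ∈ U, ∀ y ∈ U, tau ρ x * tau ρ y = 0

variable {ρ}

lemma Quad.conj {U : Subgroup X} (h : Quad ρ U) (g : X) : Quad ρ (conjBy U g) := by
  intro x hx y hy
  rw [mem_conjBy] at hx hy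
  have hx' : x = g * (g⁻¹ * x * g) * g⁻¹ := by group
  have hy' : y = g * (g⁻¹ * y * g) * g⁻¹ := by group
  rw [hx', hy', tau_conj, tau_conj]
  set x₀ := g⁻¹ * x * g
  set y₀ := g⁻¹ * y * g
  calc ρ g * tau ρ x₀ * ρ g⁻¹ * (ρ g * tau ρ y₀ * ρ g⁻¹)
      = ρ g * tau ρ x₀ * (ρ g⁻¹ * ρ g) * tau ρ y₀ * ρ g⁻¹ := by noncomm_ring
    _ = ρ g * (tau ρ x₀ * tau ρ y₀) * ρ g⁻¹ := by rw [rho_inv_mul]; noncomm_ring
    _ = 0 := by rw [h x₀ hx y₀ hy]; simp

variable (ρ)

/-- The subgroup acting trivially on `[N, X]`. -/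
def topKer : Subgroup X where
  carrier := {x | ∀ y, tau ρ x * tau ρ y = 0}
  mul_mem' := by
    intro x₁ x₂ h₁ h₂ y
    rw [tau_mul, add_mul, add_mul, mul_assoc, h₂ y, mul_zero, h₁ y]; simp
  one_mem' := by intro y; simp
  inv_mem' := by
    intro x h y
    rw [tau_inv', neg_mul, mul_assoc, h y]; simp

lemma mem_topKer {x : X} : x ∈ topKer ρ ↔ ∀ y, tau ρ x * tau ρ y = 0 := Iff.rfl

instance topKer_normal : (topKer ρ).Normal := ⟨by
  intro x hx g y
  rw [tau_conj]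
  have h1 : ρ g⁻¹ * tau ρ y = tau ρ (g⁻¹ * y) - tau ρ g⁻¹ := by
    simp only [tau, map_mul, mul_sub, mul_one]
    abel
  have hx' : ∀ y, tau ρ x * tau ρ y = 0 := hx
  calc ρ g * tau ρ x * ρ g⁻¹ * tau ρ y = ρ g * (tau ρ x * (ρ g⁻¹ * tau ρ y)) := by noncomm_ring
    _ = 0 := by rw [h1, mul_sub, hx', hx']; simp⟩

variable {ρ}

lemma mul_tau_eq_zero_of_gens {w : R} (htop : A ⊔ B = ⊤) (hA : ∀ a ∈ A, w * tau ρ a = 0)
    (hB : ∀ b ∈ B, w * tau ρ b = 0) (y : X) : w * tau ρ y = 0 := by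
  have hy : y ∈ A ⊔ B := by rw [htop]; trivial
  rw [Subgroup.sup_eq_closure] at hy
  induction hy using Subgroup.closure_induction with
  | mem u hu =>
    rcases hu with hu | hu
    · exact hA u hu
    · exact hB u hu
  | one => simp
  | mul u v _ _ hu hv =>
    rw [tau_mul, mul_add, mul_add, ← mul_assoc, hu, hv]; simp
  | inv u _ hu =>
    rw [tau_inv, mul_neg, ← mul_assoc, hu]; simp

lemma tau_mul_eq_zero_of_gens {w : R} (htop : A ⊔ B = ⊤) (hA : ∀ a ∈ A, tau ρ a * w = 0)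
    (hB : ∀ b ∈ B, tau ρ b * w = 0) (y : X) : tau ρ y * w = 0 := by
  have hy : y ∈ A ⊔ B := by rw [htop]; trivial
  rw [Subgroup.sup_eq_closure] at hy
  induction hy using Subgroup.closure_induction with
  | mem u hu =>
    rcases hu with hu | hu
    · exact hA u hu
    · exact hB u hu
  | one => simp
  | mul u v _ _ hu hv =>
    rw [tau_mul, add_mul, add_mul, mul_assoc, hv, hu]; simp
  | inv u _ hu =>
    rw [tau_inv', neg_mul, mul_assoc, hu]; simp

/-- If two supplements to `topKer` act on `[N, X]` trivially ... -/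
lemma tau_mul_tau_of_sup {B' : Subgroup X} (hq : Quad ρ B') (hs : topKer ρ ⊔ B' = ⊤)
    {b : X} (hb : b ∈ B') (x : X) : tau ρ x * tau ρ b = 0 := by
  have hx : x ∈ topKer ρ ⊔ B' := by rw [hs]; trivial
  obtain ⟨k, hk, b', hb', rfl⟩ := Subgroup.mem_sup_of_normal_left.1 hx
  have hk' : ∀ y, tau ρ k * tau ρ y = 0 := hk
  rw [tau_mul, add_mul, add_mul, mul_assoc, hq b' hb' b hb, hk' b]
  simp

lemma ring_key {e f e' f' : R} (hff : f * f = 0) (hee : e * e = 0) (hff' : f * f' = 0)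
    (he'e : e' * e = 0) (h0 : ((1 - f) * e' * (1 + f)) * ((1 - e) * f' * (1 + e)) = 0) :
    e' * f' = e' * f * e * f' := by
  have hl : (1 + f) * (1 - f) = 1 := by
    calc (1 + f) * (1 - f) = 1 - f * f := by noncomm_ring
      _ = 1 := by rw [hff, sub_zero]
  have hr : (1 + e) * (1 - e) = 1 := by
    calc (1 + e) * (1 - e) = 1 - e * e := by noncomm_ring
      _ = 1 := by rw [hee, sub_zero]
  have h1 : e' * (1 + f) * ((1 - e) * f') = 0 := by
    calc e' * (1 + f) * ((1 - e) * f')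
        = ((1 + f) * (1 - f)) * e' * (1 + f) * ((1 - e) * f') * ((1 + e) * (1 - e)) := by
          rw [hl, hr]; noncomm_ring
      _ = (1 + f) * (((1 - f) * e' * (1 + f)) * ((1 - e) * f' * (1 + e))) * (1 - e) := by
          noncomm_ring
      _ = 0 := by rw [h0]; simp
  have h2 : e' * (1 + f) * ((1 - e) * f') = e' * f' + e' * (f * f') - (e' * e) * f' - e' * f * e * f' := by
    noncomm_ring
  rw [h2, hff', he'e] at h1
  simp only [mul_zero, add_zero, zero_mul, sub_zero] at h1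
  exact sub_eq_zero.1 h1

/-- **S5019**, ring form. -/
theorem special_of_quad (hr : IsRankOneGroup X A B) (hq : Quad ρ A)
    (hX : ∃ x y : X, tau ρ y * tau ρ x ≠ 0) : IsSpecialRankOnePair A B := by
  refine ⟨hr.2, ?_⟩
  intro a ha ha1 b hb hb1 hab
  obtain ⟨z, hz, hBz⟩ := rop_exists_conj_right hr.2
  have hqB : Quad ρ B := hBz ▸ hq.conj z
  have hqD : Quad ρ (conjBy A b⁻¹) := hq.conj b⁻¹
  set e := tau ρ a with he
  set f := tau ρ b with hf
  have hee : e * e = 0 := hq a ha a ha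
  have hff : f * f = 0 := hqB b hb b hb
  have hinva : ρ a⁻¹ = 1 - e := rho_inv_of_sq ρ hee
  have hinvb : ρ b⁻¹ = 1 - f := rho_inv_of_sq ρ hff
  have hra : ρ a = 1 + e := rho_eq ρ a
  have hrb : ρ b = 1 + f := rho_eq ρ b
  have hcb : ∀ a' : X, tau ρ (b⁻¹ * a' * b) = (1 - f) * tau ρ a' * (1 + f) := by
    intro a'
    have := tau_conj ρ b⁻¹ a'
    rw [inv_inv] at this
    rw [this, hinvb, hrb]
  have hca : ∀ b' : X, tau ρ (a⁻¹ * b' * a) = (1 - e) * tau ρ b' * (1 + e) := by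
    intro b'
    have := tau_conj ρ a⁻¹ b'
    rw [inv_inv] at this
    rw [this, hinva, hra]
  have hd1 : ∀ a' ∈ A, b⁻¹ * a' * b ∈ conjBy A b⁻¹ := fun a' h => conj_inv_mem h b
  have hd2 : ∀ b' ∈ B, a⁻¹ * b' * a ∈ conjBy A b⁻¹ := by
    intro b' h
    rw [hab]
    exact conj_inv_mem h a
  have eq1 : ∀ a' ∈ A, ∀ b' ∈ B, tau ρ a' * tau ρ b' = tau ρ a' * f * e * tau ρ b' := by
    intro a' ha' b' hb'
    apply ring_key hff hee (hqB b hb b' hb') (hq a' ha' a ha)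
    have := hqD _ (hd1 a' ha') _ (hd2 b' hb')
    rwa [hcb a', hca b'] at this
  have eq2 : ∀ a' ∈ A, ∀ b' ∈ B, tau ρ b' * tau ρ a' = tau ρ b' * e * f * tau ρ a' := by
    intro a' ha' b' hb'
    apply ring_key hee hff (hq a ha a' ha') (hqB b' hb' b hb)
    have := hqD _ (hd2 b' hb') _ (hd1 a' ha')
    rwa [hcb a', hca b'] at this
  set u := e - e * f * e with hu
  set v := f - f * e * f with hv
  have hua : ∀ a' ∈ A, u * tau ρ a' = 0 := by
    intro a' ha'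
    have h1 : e * tau ρ a' = 0 := hq a ha a' ha'
    rw [hu, sub_mul, h1, mul_assoc, h1]; simp
  have hub : ∀ b' ∈ B, u * tau ρ b' = 0 := by
    intro b' hb'
    rw [hu, sub_mul]
    exact sub_eq_zero.2 (eq1 a ha b' hb')
  have hva : ∀ a' ∈ A, v * tau ρ a' = 0 := by
    intro a' ha'
    rw [hv, sub_mul]
    exact sub_eq_zero.2 (eq2 a' ha' b hb)
  have hvb : ∀ b' ∈ B, v * tau ρ b' = 0 := by
    intro b' hb'
    have h1 : f * tau ρ b' = 0 := hqB b hb b' hb'
    rw [hv, sub_mul, h1, mul_assoc, h1]; simp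
  set d₁ := b⁻¹ * a * b with hd₁
  set d₂ := a⁻¹ * b * a with hd₂
  have hd₁m : d₁ ∈ conjBy A b⁻¹ := hd1 a ha
  have hd₂m : d₂ ∈ conjBy A b⁻¹ := hd2 b hb
  have hτs : tau ρ (d₁ * d₂) = u + v := by
    rw [tau_mul, hqD _ hd₁m _ hd₂m, hd₁, hd₂, hcb a, hca b, hu, hv]
    noncomm_ring
  have hsK : d₁ * d₂ ∈ topKer ρ := by
    intro y
    rw [hτs, add_mul, mul_tau_eq_zero_of_gens hr.1 hua hub, mul_tau_eq_zero_of_gens hr.1 hva hvb]
    simp
  by_cases hc : topKer ρ ≤ Subgroup.center X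
  · -- `s` is central, hence trivial
    have hsc : d₁ * d₂ ∈ Subgroup.center X := hc hsK
    have hsD : d₁ * d₂ ∈ conjBy A b⁻¹ := Subgroup.mul_mem _ hd₁m hd₂m
    have hsA : d₁ * d₂ ∈ A := by
      rw [mem_conj_inv] at hsD
      have h1 := Subgroup.mem_center_iff.1 hsc b
      have : b * (d₁ * d₂) * b⁻¹ = d₁ * d₂ := by
        rw [h1]; group
      rwa [this] at hsD
    have hs1 : d₁ * d₂ = 1 := by
      by_contra hne
      apply rop_conj_ne_right hr.2 hsA hne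
      apply conjBy_eq_of_commute
      intro y _
      exact (Subgroup.mem_center_iff.1 hsc y).symm
    have : d₁ = d₂⁻¹ := eq_inv_of_mul_eq_one_left hs1
    rw [this, hd₂]
    group
  · exfalso
    obtain ⟨x, y, hxy⟩ := hX
    have h1 : topKer ρ ⊔ A = ⊤ := (rog_normal_dichotomy hr inferInstance).resolve_right hc
    have hr' : IsRankOneGroup X B A := ⟨by rw [sup_comm]; exact hr.1, rop_symm hr.2⟩
    have h2 : topKer ρ ⊔ B = ⊤ := (rog_normal_dichotomy hr' inferInstance).resolve_right hc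
    apply hxy
    apply mul_tau_eq_zero_of_gens hr.1
    · intro a' ha'
      exact tau_mul_tau_of_sup hq h1 ha' y
    · intro b' hb'
      exact tau_mul_tau_of_sup hqB h2 hb' y

end Quadratic

end Cfsg.Agent.H23
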