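import Cfsg.Agent.Lib.H23.Quadratic
import Cfsg.Prelude.Def_Transfer

/-!
# Rank one groups acting quadratically and faithfully: the unipotent subgroups
-/

set_option autoImplicit false

namespace Cfsg.Agent.H23

open Cfsg

section Quadratic2

variable {X : Type*} [Group X] {R : Type*} [Ring R] (ρ : X →* R) {A B : Subgroup X}

/-- The kernel of the action on `pV`. -/
def pKer (p : ℕ) : Subgroup X where
  carrier := {x | p • tau ρ x = 0}
  mul_mem' := by
    intro x y hx hy
    have hx' : p • tau ρ x = 0 := hx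
    have hy' : p • tau ρ y = 0 := hy
    show p • tau ρ (x * y) = 0
    rw [tau_mul, smul_add, smul_add, ← smul_mul_assoc, hx', hy']
    simp
  one_mem' := by
    show p • tau ρ (1 : X) = 0
    simp
  inv_mem' := by
    intro x hx
    have hx' : p • tau ρ x = 0 := hx
    show p • tau ρ x⁻¹ = 0
    rw [tau_inv', smul_neg, ← mul_smul_comm, hx']
    simp

lemma mem_pKer {p : ℕ} {x : X} : x ∈ pKer ρ p ↔ p • tau ρ x = 0 := Iff.rfl

instance pKer_normal (p : ℕ) : (pKer ρ p).Normal := ⟨by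
  intro x hx g
  rw [mem_pKer] at hx ⊢
  rw [tau_conj, ← smul_mul_assoc, ← mul_smul_comm, hx]
  simp⟩

variable {ρ}

lemma tau_pow {a : X} (ha : tau ρ a * tau ρ a = 0) (n : ℕ) : tau ρ (a ^ n) = n • tau ρ a := by
  induction n with
  | zero => simp
  | succ n ih =>
    rw [pow_succ, tau_mul, ih, smul_mul_assoc, ha, smul_zero, zero_add, succ_nsmul]

lemma tau_inj (hf : ∀ x, ρ x = 1 → x = 1) {x y : X} (h : tau ρ x = tau ρ y) : x = y := by
  have h1 : ρ x = ρ y := by
    simpa [tau] using h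
  have h2 : ρ (x⁻¹ * y) = 1 := by
    rw [map_mul, ← h1, rho_inv_mul]
  have := hf _ h2
  exact (inv_mul_eq_one.1 this)

/-- `p` times the products of two `τ`'s vanish when an element of `A#` has order `p`. -/
lemma p_tau_mul_tau (hr : IsRankOneGroup X A B) (hq : Quad ρ A) {p : ℕ} {a : X} (ha : a ∈ A)
    (ha1 : a ≠ 1) (hpa : p • tau ρ a = 0) (x y : X) : p • (tau ρ x * tau ρ y) = 0 := by
  obtain ⟨z, hz, hBz⟩ := rop_exists_conj_right hr.2
  have hqB : Quad ρ B := hBz ▸ hq.conj z
  have hnc : ¬ pKer ρ p ≤ Subgroup.center X := by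
    intro hc
    have hcen : a ∈ Subgroup.center X := hc hpa
    apply rop_conj_ne_right hr.2 ha ha1
    apply conjBy_eq_of_commute
    intro y _
    exact (Subgroup.mem_center_iff.1 hcen y).symm
  have h1 : pKer ρ p ⊔ A = ⊤ := (rog_normal_dichotomy hr inferInstance).resolve_right hnc
  have hr' : IsRankOneGroup X B A := ⟨by rw [sup_comm]; exact hr.1, rop_symm hr.2⟩
  have h2 : pKer ρ p ⊔ B = ⊤ := (rog_normal_dichotomy hr' inferInstance).resolve_right hnc
  have key : ∀ {B' : Subgroup X}, Quad ρ B' → pKer ρ p ⊔ B' = ⊤ → ∀ b ∈ B',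
      p • tau ρ x * tau ρ b = 0 := by
    intro B' hqB' hs b hb
    have hx : x ∈ pKer ρ p ⊔ B' := by rw [hs]; trivial
    obtain ⟨k, hk, b', hb', rfl⟩ := Subgroup.mem_sup_of_normal_left.1 hx
    have hk' : p • tau ρ k = 0 := hk
    rw [tau_mul, smul_add, smul_add, ← smul_mul_assoc, hk', add_mul, add_mul, smul_mul_assoc,
      hqB' b' hb' b hb]
    simp
  have := mul_tau_eq_zero_of_gens (ρ := ρ) hr.1 (w := p • tau ρ x) (key hq h1) (key hqB h2) y
  rwa [smul_mul_assoc] at this

lemma rop_center_eq_one {X : Type*} [Group X] {A B : Subgroup X} (hr : IsRankOnePair A B)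
    {a b : X} (ha : a ∈ A) (hb : b ∈ B) (hab : a * b = 1) : a = 1 := by
  have h1 : a = b⁻¹ := eq_inv_of_mul_eq_one_left hab
  have h2 : a ∈ A ⊓ B := ⟨ha, by rw [h1]; exact B.inv_mem hb⟩
  rw [rop_inf_eq_bot hr] at h2
  simpa using h2

/-- **S5023**, ring form. -/
theorem elem_abelian_of_quad (hr : IsRankOneGroup X A B) (hq : Quad ρ A)
    (hf : ∀ x, ρ x = 1 → x = 1) :
    (∀ a ∈ A, a ≠ 1 → ¬ IsOfFinOrder a) ∨ ∃ p : ℕ, p.Prime ∧ IsElementaryAbelian p A := by
  by_cases hfin : ∀ a ∈ A, a ≠ 1 → ¬ IsOfFinOrder a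
  · exact Or.inl hfin
  right
  push Not at hfin
  obtain ⟨a₀, ha₀, ha₀1, hfo⟩ := hfin
  have hn1 : orderOf a₀ ≠ 1 := by
    rwa [Ne, orderOf_eq_one_iff]
  set n := orderOf a₀ with hn
  have hn0 : 0 < n := hfo.orderOf_pos
  set p := n.minFac with hp
  have hpp : p.Prime := Nat.minFac_prime hn1
  refine ⟨p, hpp, ?_⟩
  have hpn : p ∣ n := Nat.minFac_dvd n
  obtain ⟨m, hm⟩ := hpn
  have hm0 : 0 < m := by
    rcases Nat.eq_zero_or_pos m with h | h
    · rw [h, mul_zero] at hm; omega
    · exact h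
  have hmn : m < n := by
    rw [hm]
    have := hpp.two_le
    nlinarith
  set a := a₀ ^ m with ha
  have haA : a ∈ A := A.pow_mem ha₀ m
  have ha1 : a ≠ 1 := pow_ne_one_of_lt_orderOf hm0.ne' hmn
  have hap : a ^ p = 1 := by
    rw [ha, ← pow_mul, mul_comm, ← hm, hn]
    exact pow_orderOf_eq_one a₀
  have hpa : p • tau ρ a = 0 := by
    rw [← tau_pow (hq a haA a haA), hap, tau_one]
  have hpx := p_tau_mul_tau hr hq haA ha1 hpa
  refine ⟨?_, ?_⟩
  · -- `A` is abelian
    refine ⟨⟨?_⟩⟩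
    rintro ⟨x, hx⟩ ⟨y, hy⟩
    apply Subtype.ext
    apply tau_inj hf
    show tau ρ (x * y) = tau ρ (y * x)
    rw [tau_mul, tau_mul, hq x hx y hy, hq y hy x hx, add_assoc, add_assoc, add_comm (tau ρ x)]
  · intro c hc
    by_cases hc1 : c = 1
    · simp [hc1]
    obtain ⟨b, hb, hb1, hab⟩ := hr.2.cond_left c hc hc1
    obtain ⟨z, hz, hBz⟩ := rop_exists_conj_right hr.2
    have hqB : Quad ρ B := hBz ▸ hq.conj z
    have hnc : ∃ x y : X, tau ρ y * tau ρ x ≠ 0 := by
      by_contra hcon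
      push Not at hcon
      apply rog_not_comm hr
      intro x y
      apply tau_inj hf
      rw [tau_mul, tau_mul, hcon, hcon, zero_add, zero_add, add_comm]
    have hsp := (special_of_quad hr hq hnc).2 c hc hc1 b hb hb1 hab
    have hcc : tau ρ c * tau ρ c = 0 := hq c hc c hc
    have hbb : tau ρ b * tau ρ b = 0 := hqB b hb b hb
    have hinvc : ρ c⁻¹ = 1 - tau ρ c := rho_inv_of_sq ρ hcc
    have hinvb : ρ b⁻¹ = 1 - tau ρ b := rho_inv_of_sq ρ hbb
    have hrc : ρ c = 1 + tau ρ c := rho_eq ρ c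
    have hrb : ρ b = 1 + tau ρ b := rho_eq ρ b
    have hring := congrArg ρ hsp
    simp only [map_mul, hinvc, hinvb, hrc, hrb] at hring
    set e := tau ρ c with he
    set f := tau ρ b with hf'
    have hsum : e + f - f * e * f - e * f * e = 0 := by
      have h1 : (1 - f) * (1 + e) * (1 + f) - (1 - e) * (1 - f) * (1 + e) =
          e + f + e * e - f * f - f * e * f - e * f * e := by
        noncomm_ring
      rw [hcc, hbb, add_zero, sub_zero] at h1
      rw [← h1, hring, sub_self]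
    have hpef : p • (e * f) = 0 := hpx c b
    have hpfe : p • (f * e) = 0 := hpx b c
    have hp1 : p • e + p • f = 0 := by
      have h2 := congrArg (fun r => p • r) hsum
      simp only [smul_sub, smul_add, smul_zero] at h2
      have h3 : p • (f * e * f) = 0 := by rw [← smul_mul_assoc, hpfe, zero_mul]
      have h4 : p • (e * f * e) = 0 := by rw [← smul_mul_assoc, hpef, zero_mul]
      rw [h3, h4, sub_zero, sub_zero] at h2
      exact h2
    have hτ : tau ρ (c ^ p * b ^ p) = 0 := by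
      rw [tau_mul, tau_pow hcc, tau_pow hbb, ← he, ← hf']
      have h5 : p • f = - (p • e) := eq_neg_of_add_eq_zero_right hp1
      have h6 : p • e * p • e = 0 := by
        rw [smul_mul_assoc, mul_smul_comm, hcc]; simp
      rw [h5, mul_neg, h6]
      simp
    have h1 : c ^ p * b ^ p = 1 := tau_inj hf (hτ.trans (tau_one ρ).symm)
    exact rop_center_eq_one hr.2 (A.pow_mem hc p) (B.pow_mem hb p) h1

end Quadratic2

end Cfsg.Agent.H23
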