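import Cfsg.Agent.Lib.H23.GalExt
import Cfsg.Agent.Lib.H23.LinInd
import Cfsg.Agent.Lib.H06.Coher

/-!
# Fully ramified sections under a cyclic Frobenius action
-/

set_option autoImplicit false
set_option linter.unusedSectionVars false
set_option linter.style.haveILetI false
set_option linter.unusedSimpArgs false

namespace Cfsg.Agent.H23.RamCyc

open scoped ComplexConjugate
open Cfsg Cfsg.Agent Cfsg.Agent.H21 Cfsg.Agent.H06 Module

universe u

/-- The arithmetic heart: integers with prescribed first two moments. -/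
theorem int_lemma {ι : Type*} (s : Finset ι) (r : ι → ℕ) (m e : ℕ) (hm : 2 ≤ m) (hs : s.card = m)
    (h1 : ∑ i ∈ s, r i = e) (h2 : m * ∑ i ∈ s, r i * r i + 1 = e * e + m) :
    (m : ℤ) ∣ (e : ℤ) - 1 ∨ (m : ℤ) ∣ (e : ℤ) + 1 := by
  set q := e / m with hq
  set t := e % m with ht
  have hmpos : 0 < m := by omega
  have het : e = m * q + t := (Nat.div_add_mod e m).symm
  have htm : t < m := Nat.mod_lt _ hmpos
  -- the consecutive-integers inequality
  have hsum : 0 ≤ ∑ i ∈ s, ((r i : ℤ) - q) * ((r i : ℤ) - q - 1) := by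
    refine Finset.sum_nonneg fun i _ => ?_
    rcases le_or_gt ((r i : ℤ) - q) 0 with h | h
    · nlinarith
    · have : 1 ≤ (r i : ℤ) - q := by omega
      nlinarith
  have hexp : ∑ i ∈ s, ((r i : ℤ) - q) * ((r i : ℤ) - q - 1) =
      ((∑ i ∈ s, r i * r i : ℕ) : ℤ) - (2 * q + 1) * ((∑ i ∈ s, r i : ℕ) : ℤ) + m * (q * (q + 1)) := by
    push_cast
    have h3 : ∀ i ∈ s, ((r i : ℤ) - q) * ((r i : ℤ) - q - 1) =
        (r i : ℤ) * r i - (2 * q + 1) * r i + q * (q + 1) := fun i _ => by ring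
    rw [Finset.sum_congr rfl h3, Finset.sum_add_distrib, Finset.sum_sub_distrib, Finset.sum_const,
      Finset.mul_sum, hs]
    simp
  rw [hexp, h1] at hsum
  set S := ∑ i ∈ s, r i * r i with hS
  have hS' : (m : ℤ) * S + 1 = (e : ℤ) * e + m := by exact_mod_cast h2
  have het' : (e : ℤ) = m * q + t := by exact_mod_cast het
  have hkey : 0 ≤ ((t : ℤ) - 1) * ((t : ℤ) - m + 1) := by
    have h3 : 0 ≤ (m : ℤ) * ((S : ℤ) - (2 * q + 1) * e + m * (q * (q + 1))) :=
      mul_nonneg (by positivity) hsum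
    have h4 : (m : ℤ) * ((S : ℤ) - (2 * q + 1) * e + m * (q * (q + 1))) =
        ((t : ℤ) - 1) * ((t : ℤ) - m + 1) := by
      have h5 : (m : ℤ) * S = (e : ℤ) * e + m - 1 := by linarith
      calc (m : ℤ) * ((S : ℤ) - (2 * q + 1) * e + m * (q * (q + 1)))
          = (m : ℤ) * S - m * ((2 * q + 1) * e) + m * (m * (q * (q + 1))) := by ring
        _ = (e : ℤ) * e + m - 1 - m * ((2 * q + 1) * e) + m * (m * (q * (q + 1))) := by rw [h5]
        _ = _ := by rw [het']; ring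
    rw [h4] at h3
    exact h3
  have hcases : t = 0 ∨ t = 1 ∨ t + 1 = m := by
    by_contra hcon
    push Not at hcon
    obtain ⟨h0, h1', h2'⟩ := hcon
    have h3 : 2 ≤ t := by omega
    have h4 : t + 2 ≤ m := by omega
    have h5 : (0 : ℤ) < (t : ℤ) - 1 := by
      have : (2 : ℤ) ≤ t := by exact_mod_cast h3
      linarith
    have h6 : (t : ℤ) - m + 1 < 0 := by
      have : ((t : ℤ) + 2) ≤ m := by exact_mod_cast h4
      linarith
    nlinarith
  rcases hcases with h0 | h0 | h0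
  · exfalso
    rw [h0, add_zero] at het
    have h3 : m ∣ 1 := by
      have h4 : m ∣ m * S + 1 - 0 := by
        rw [h2, Nat.sub_zero, het]
        exact Dvd.dvd.add (Dvd.dvd.mul_right (Dvd.intro _ rfl) _) dvd_rfl
      have h5 : m ∣ m * S := Dvd.intro _ rfl
      exact (Nat.dvd_add_right h5).1 (by simpa using h4)
    have := Nat.le_of_dvd one_pos h3
    omega
  · left
    refine ⟨q, ?_⟩
    rw [het', h0]
    push_cast
    ring
  · right
    refine ⟨q + 1, ?_⟩
    rw [het']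
    have : (t : ℤ) + 1 = m := by exact_mod_cast h0
    linear_combination this

section Decomp

variable {T : Type u} [Group T] [Fintype T] (H : Subgroup T) [hH : H.Normal] [Fintype H]

/-- The decomposition of a character lying over an invariant character, across a cyclic quotient. -/
theorem cyc_decomp (hcyc : IsCyclic (T ⧸ H)) (θ : IrrCharacter H)
    (hinv : ∀ (g : T) (n : H), θ.1 ⟨g * n * g⁻¹, hH.conj_mem (n : T) n.2 g⟩ = θ.1 n)
    {ξ : T → ℂ} (hξ : IsCharacter T ξ) (e : ℕ) (hres : ∀ n : H, ξ n = (e : ℂ) * θ.1 n) :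
    ∃ (s : Finset (IrrCharacter T)) (r : IrrCharacter T → ℕ),
      s.card * Nat.card H = Nat.card T ∧ ∑ ψ ∈ s, r ψ = e ∧
        classInner ξ ξ = ((∑ ψ ∈ s, r ψ * r ψ : ℕ) : ℂ) := by
  classical
  haveI : Fintype (IrrCharacter T) := Fintype.ofFinite _
  haveI : Fintype (IrrCharacter H) := Fintype.ofFinite _
  set s : Finset (IrrCharacter T) := Finset.univ.filter fun ψ => ∀ n : H, ψ.1 n = θ.1 n with hs
  have hmem : ∀ ψ, ψ ∈ s ↔ ∀ n : H, ψ.1 n = θ.1 n := fun ψ => by simp [hs]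
  have hθθ : classInner θ.1 θ.1 = 1 := by simpa using classInner_irr θ θ
  have hin : ∀ ψ : IrrCharacter T, ψ ∈ s → classInner (fun n : H => ψ.1 n) θ.1 = 1 := by
    intro ψ hψ
    have : (fun n : H => ψ.1 n) = θ.1 := funext ((hmem ψ).1 hψ)
    rw [this, hθθ]
  have hout : ∀ ψ : IrrCharacter T, ψ ∉ s → classInner (fun n : H => ψ.1 n) θ.1 = 0 := by
    intro ψ hψ
    by_contra hne
    exact hψ ((hmem ψ).2 (over_restrict_of_cyclic T H hcyc θ hinv ψ hne))
  have hθ1 : θ.1 1 ≠ 0 := H06.irr_one_ne_zero' θ.2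
  have hdeg : ∀ ψ : IrrCharacter T, ψ ∈ s → ψ.1 1 = θ.1 1 := by
    intro ψ hψ
    exact (hmem ψ).1 hψ 1
  -- the cardinality
  have hcard : s.card = H.index := by
    obtain ⟨m, hm, hm'⟩ := isCharacter_decomp (isCharacter_indFun H (isCharacter_of_irr θ.2))
    have hmv : ∀ ψ : IrrCharacter T, (m ψ : ℂ) = if ψ ∈ s then 1 else 0 := by
      intro ψ
      rw [← hm', frobenius_reciprocity H θ.1 ψ.1 (isClassFunction_of_isCharacter (isCharacter_of_irr ψ.2)),
        ← classInner_comm_conj]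
      split_ifs with h
      · rw [hin ψ h]; simp
      · rw [hout ψ h]; simp
    have h1 := congrFun hm 1
    rw [indFun_one] at h1
    simp only [Finset.sum_apply] at h1
    have h2 : ∑ ψ : IrrCharacter T, (m ψ • ψ.1) 1 = (s.card : ℂ) * θ.1 1 := by
      have h3 : ∀ ψ : IrrCharacter T, (m ψ • ψ.1) 1 = if ψ ∈ s then θ.1 1 else 0 := by
        intro ψ
        rw [Pi.smul_apply, nsmul_eq_mul, hmv]
        split_ifs with h
        · rw [one_mul, hdeg ψ h]
        · rw [zero_mul]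
      simp only [h3]
      rw [Finset.sum_ite_mem, Finset.univ_inter, Finset.sum_const, nsmul_eq_mul]
    rw [h2] at h1
    have h3 := mul_right_cancel₀ hθ1 h1
    exact_mod_cast h3.symm
  refine ⟨s, ?_⟩
  obtain ⟨r, hr, hr'⟩ := isCharacter_decomp hξ
  obtain ⟨r2, hr21, hr22⟩ := H06.classInner_self_char_eq_sum hξ
  have hrr : r2 = r := by
    funext ψ
    have := (hr21 ψ).symm.trans (hr' ψ)
    exact_mod_cast this
  subst hrr
  have hrc : ∀ x, ξ x = ∑ ψ : IrrCharacter T, (r2 ψ : ℂ) * ψ.1 x := by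
    intro x
    rw [hr]
    simp only [Finset.sum_apply, Pi.smul_apply]
    exact Finset.sum_congr rfl fun ψ _ => nsmul_eq_mul _ _
  -- the sum over `s`
  have he : ∑ ψ ∈ s, r2 ψ = e := by
    have h1 : classInner (fun n : H => ξ n) θ.1 = (e : ℂ) := by
      have : (fun n : H => ξ n) = (e : ℂ) • θ.1 := by
        funext n
        simp [hres]
      rw [this, classInner_smul_left, hθθ, mul_one]
    have h2 : classInner (fun n : H => ξ n) θ.1 = ∑ ψ ∈ s, (r2 ψ : ℂ) := by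
      have h3 : (fun n : H => ξ n) = ∑ ψ : IrrCharacter T, (r2 ψ : ℂ) • (fun n : H => ψ.1 n) := by
        funext n
        rw [hrc]
        simp only [Finset.sum_apply, Pi.smul_apply, smul_eq_mul]
      rw [h3, classInner_sum_left]
      simp only [classInner_smul_left]
      rw [← Finset.sum_subset (Finset.subset_univ s)]
      · refine Finset.sum_congr rfl fun ψ hψ => ?_
        rw [hin ψ hψ, mul_one]
      · intro ψ _ hψ
        rw [hout ψ hψ, mul_zero]
    have h4 := h2.symm.trans h1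
    exact_mod_cast h4
  have hzero : ∀ ψ, ψ ∉ s → r2 ψ = 0 := by
    have h1 : ξ 1 = (e : ℂ) * θ.1 1 := hres 1
    rw [hrc] at h1
    have h2 : ∑ ψ : IrrCharacter T, (r2 ψ : ℂ) * ψ.1 1 = ∑ ψ ∈ s, (r2 ψ : ℂ) * ψ.1 1 +
        ∑ ψ ∈ Finset.univ.filter (· ∉ s), (r2 ψ : ℂ) * ψ.1 1 := by
      rw [← Finset.sum_filter_add_sum_filter_not Finset.univ (· ∈ s)]
      simp
    have h3 : ∑ ψ ∈ s, (r2 ψ : ℂ) * ψ.1 1 = (e : ℂ) * θ.1 1 := by
      rw [← he]
      push_cast
      rw [Finset.sum_mul]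
      refine Finset.sum_congr rfl fun ψ hψ => ?_
      rw [hdeg ψ hψ]
    rw [h2, h3] at h1
    have h4 : ∑ ψ ∈ Finset.univ.filter (· ∉ s), (r2 ψ : ℂ) * ψ.1 1 = 0 := by
      linear_combination h1
    have h5 : ∀ ψ : IrrCharacter T, (r2 ψ : ℂ) * ψ.1 1 = ((r2 ψ * charDegree ψ.1 : ℕ) : ℂ) := by
      intro ψ
      rw [one_eq_charDegree (isCharacter_of_irr ψ.2)]
      push_cast
      ring
    simp only [h5] at h4
    have h6 : ∑ ψ ∈ Finset.univ.filter (· ∉ s), (r2 ψ * charDegree ψ.1) = 0 := by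
      exact_mod_cast h4
    intro ψ hψ
    have h7 := (Finset.sum_eq_zero_iff.1 h6) ψ (by simp [hψ])
    rcases Nat.mul_eq_zero.1 h7 with h8 | h8
    · exact h8
    · exfalso
      have h9 := H06.irr_one_ne_zero' ψ.2
      rw [one_eq_charDegree (isCharacter_of_irr ψ.2), h8] at h9
      simp at h9
  refine ⟨r2, ?_, he, ?_⟩
  · rw [hcard]
    exact Subgroup.index_mul_card H
  · rw [hr22]
    congr 1
    symm
    apply Finset.sum_subset (Finset.subset_univ s)
    intro ψ _ hψ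
    rw [hzero ψ hψ, mul_zero]

end Decomp

section Frob

variable {Γ : Type u} [Group Γ] [Fintype Γ] (G N : Subgroup Γ) [hG : G.Normal] [hN : N.Normal]
  [Fintype G] [Fintype N]

/-- A Frobenius action: every coset of `G` outside `G` is covered by conjugates of one coset of `N`. -/
theorem frob_surj (hNG : N ≤ G)
    (hfrob : ∀ x : Γ, x ∉ G → ∀ g : Γ, g ∈ G → x * g * x⁻¹ * g⁻¹ ∈ N → g ∈ N) {u : Γ} (hu : u ∉ G)
    {g : Γ} (hg : g ∈ G) : ∃ h ∈ G, ∃ n ∈ N, g * u = n * (h * u * h⁻¹) := by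
  classical
  haveI hnorm : (N.subgroupOf G).Normal := Subgroup.normal_subgroupOf
  let a : G → G := fun h => ⟨(h : Γ) * (u * (h : Γ)⁻¹ * u⁻¹), G.mul_mem h.2 (hG.conj_mem _ (G.inv_mem h.2) u)⟩
  let c : G ⧸ N.subgroupOf G → G ⧸ N.subgroupOf G := fun k => ((a (Quotient.out k) : G) : G ⧸ N.subgroupOf G)
  have hinj : Function.Injective c := by
    intro k k' hkk
    have h1 : ((a (Quotient.out k))⁻¹ * a (Quotient.out k') : G) ∈ N.subgroupOf G :=
      QuotientGroup.eq.1 hkk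
    rw [Subgroup.mem_subgroupOf] at h1
    set h : Γ := ((Quotient.out k : G) : Γ) with hh
    set h' : Γ := ((Quotient.out k' : G) : Γ) with hh'
    have hhG : h ∈ G := (Quotient.out k).2
    have hh'G : h' ∈ G := (Quotient.out k').2
    have h2 : (h * (u * h⁻¹ * u⁻¹))⁻¹ * (h' * (u * h'⁻¹ * u⁻¹)) ∈ N := by
      simpa [a, hh, hh'] using h1
    have h3 : u * (h'⁻¹ * h) * u⁻¹ * (h'⁻¹ * h)⁻¹ ∈ N := by
      have h4 := hN.conj_mem _ h2 (u * h'⁻¹ * u⁻¹)
      have h5 : u * h'⁻¹ * u⁻¹ * ((h * (u * h⁻¹ * u⁻¹))⁻¹ * (h' * (u * h'⁻¹ * u⁻¹))) * (u * h'⁻¹ * u⁻¹)⁻¹ =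
          u * (h'⁻¹ * h) * u⁻¹ * (h'⁻¹ * h)⁻¹ := by group
      rwa [h5] at h4
    have h6 : h'⁻¹ * h ∈ N := hfrob u hu _ (G.mul_mem (G.inv_mem hh'G) hhG) h3
    have h7 : ((Quotient.out k' : G) : G ⧸ N.subgroupOf G) = ((Quotient.out k : G) : G ⧸ N.subgroupOf G) := by
      apply QuotientGroup.eq.2
      rw [Subgroup.mem_subgroupOf]
      simpa [hh, hh'] using h6
    have h8 : ∀ q : G ⧸ N.subgroupOf G, ((Quotient.out q : G) : G ⧸ N.subgroupOf G) = q :=
      fun q => Quotient.out_eq' q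
    rw [← h8 k, ← h8 k', h7]
  have hsurj := Finite.injective_iff_surjective.1 hinj
  obtain ⟨k, hk⟩ := hsurj ((⟨g, hg⟩ : G) : G ⧸ N.subgroupOf G)
  set h : Γ := ((Quotient.out k : G) : Γ) with hh
  have hhG : h ∈ G := (Quotient.out k).2
  have h1 : ((a (Quotient.out k))⁻¹ * (⟨g, hg⟩ : G) : G) ∈ N.subgroupOf G := QuotientGroup.eq.1 hk
  rw [Subgroup.mem_subgroupOf] at h1
  have h2 : (h * (u * h⁻¹ * u⁻¹))⁻¹ * g ∈ N := by
    simpa [a, hh] using h1
  refine ⟨h, hhG, g * (h * (u * h⁻¹ * u⁻¹))⁻¹, ?_, by group⟩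
  have h3 := hN.conj_mem _ h2 g
  have h4 : g * ((h * (u * h⁻¹ * u⁻¹))⁻¹ * g) * g⁻¹ = g * (h * (u * h⁻¹ * u⁻¹))⁻¹ := by group
  rwa [h4] at h3

/-- The mass of a class function on the cosets of `N` in a coset of `G` outside `G` is constant. -/
theorem frob_sum (hNG : N ≤ G)
    (hfrob : ∀ x : Γ, x ∉ G → ∀ g : Γ, g ∈ G → x * g * x⁻¹ * g⁻¹ ∈ N → g ∈ N) {u : Γ} (hu : u ∉ G)
    (F : Γ → ℝ) (hF : ∀ g y, F (g * y * g⁻¹) = F y) :
    (Nat.card N : ℝ) * ∑ g : G, F (g * u) = (Nat.card G : ℝ) * ∑ n : N, F (n * u) := by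
  classical
  have hconst : ∀ g : G, ∑ n : N, F (n * (g * u)) = ∑ n : N, F (n * u) := by
    intro g
    obtain ⟨h, hhG, n₀, hn₀, hgu⟩ := frob_surj G N hNG hfrob hu g.2
    rw [hgu]
    have h1 : ∑ n : N, F (n * (n₀ * (h * u * h⁻¹))) = ∑ n : N, F (n * (h * u * h⁻¹)) := by
      have := Equiv.sum_comp (Equiv.mulRight (⟨n₀, hn₀⟩ : N)) (fun n : N => F (n * (h * u * h⁻¹)))
      rw [← this]
      refine Finset.sum_congr rfl fun n _ => ?_
      simp only [Equiv.coe_mulRight, Subgroup.coe_mul, mul_assoc]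
    rw [h1]
    have h2 := Equiv.sum_comp (MulAut.conjNormal h⁻¹ : MulAut N).toEquiv (fun n : N => F (n * u))
    rw [← h2]
    refine Finset.sum_congr rfl fun n _ => ?_
    have h3 : ((((MulAut.conjNormal h⁻¹ : MulAut N).toEquiv n : N)) : Γ) = h⁻¹ * n * h⁻¹⁻¹ :=
      MulAut.conjNormal_apply _ _
    rw [h3, ← hF h (h⁻¹ * n * h⁻¹⁻¹ * u)]
    congr 1
    group
  have h1 : ∀ n : N, ∑ g : G, F (g * u) = ∑ g : G, F (n * (g * u)) := by
    intro n
    have := Equiv.sum_comp (Equiv.mulLeft (⟨n, hNG n.2⟩ : G)) (fun g : G => F (g * u))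
    rw [← this]
    refine Finset.sum_congr rfl fun g _ => ?_
    simp only [Equiv.coe_mulLeft, Subgroup.coe_mul, mul_assoc]
  have h2 : (Nat.card N : ℝ) * ∑ g : G, F (g * u) = ∑ n : N, ∑ g : G, F (n * (g * u)) := by
    rw [← Finset.sum_congr rfl (fun n _ => h1 n), Finset.sum_const, Finset.card_univ,
      ← Nat.card_eq_fintype_card, nsmul_eq_mul]
  rw [h2, Finset.sum_comm, Finset.sum_congr rfl (fun g _ => hconst g), Finset.sum_const,
    Finset.card_univ, ← Nat.card_eq_fintype_card, nsmul_eq_mul]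

/-- Consequences of full ramification. -/
theorem ram_facts (hNG : N ≤ G) (θ : IrrCharacter N)
    (hinv : ∀ (x : Γ) (n : N), (θ : N → ℂ) ⟨x * n * x⁻¹, hN.conj_mem n n.2 x⟩ = (θ : N → ℂ) n)
    (χ : IrrCharacter G) (e : ℕ)
    (hram : indFun (N.subgroupOf G) (fun n : N.subgroupOf G => (θ : N → ℂ) ⟨(n : G), n.2⟩) =
      fun g => (e : ℂ) * (χ : G → ℂ) g) :
    0 < e ∧ (∀ n : N, χ.1 ⟨n, hNG n.2⟩ = (e : ℂ) * θ.1 n) ∧
      ∀ (γ : Γ) (g : G), χ.1 ⟨γ * g * γ⁻¹, hG.conj_mem g g.2 γ⟩ = χ.1 g := by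
  classical
  haveI : Fintype (N.subgroupOf G) := Fintype.ofFinite _
  haveI : Fintype (IrrCharacter G) := Fintype.ofFinite _
  set θ' : N.subgroupOf G → ℂ := fun n : N.subgroupOf G => (θ : N → ℂ) ⟨(n : G), n.2⟩ with hθ'
  have hθ'irr : IsIrrCharacter (N.subgroupOf G) θ' := (relIrr N G hNG θ).2
  -- values of the extension by zero
  have hE1 : ∀ w : G, ∀ hw : (w : Γ) ∈ N, extendByZero (N.subgroupOf G) θ' w = θ.1 ⟨w, hw⟩ := by
    intro w hw
    exact extendByZero_coe (N.subgroupOf G) θ' ⟨w, hw⟩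
  have hE0 : ∀ w : G, (w : Γ) ∉ N → extendByZero (N.subgroupOf G) θ' w = 0 := by
    intro w hw
    exact H21.extendByZero_of_not_mem (N.subgroupOf G) θ' hw
  have hconjE : ∀ (γ : Γ) (w : G), extendByZero (N.subgroupOf G) θ' (MulAut.conjNormal γ w) =
      extendByZero (N.subgroupOf G) θ' w := by
    intro γ w
    have hval : ((MulAut.conjNormal γ w : G) : Γ) = γ * w * γ⁻¹ := MulAut.conjNormal_apply _ _
    by_cases hw : (w : Γ) ∈ N
    · have hw' : ((MulAut.conjNormal γ w : G) : Γ) ∈ N := by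
        rw [hval]; exact hN.conj_mem _ hw γ
      rw [hE1 _ hw', hE1 _ hw, ← hinv γ ⟨w, hw⟩]
      exact congrArg θ.1 (Subtype.ext hval)
    · have hw' : ((MulAut.conjNormal γ w : G) : Γ) ∉ N := by
        rw [hval]
        intro h
        apply hw
        have := hN.conj_mem _ h γ⁻¹
        have h2 : γ⁻¹ * (γ * (w : Γ) * γ⁻¹) * γ⁻¹⁻¹ = w := by group
        rwa [h2] at this
      rw [hE0 _ hw', hE0 _ hw]
  have hval : ∀ g : G, (e : ℂ) * χ.1 g = (Nat.card (N.subgroupOf G) : ℂ)⁻¹ *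
      ∑ y : G, extendByZero (N.subgroupOf G) θ' (y⁻¹ * g * y) := by
    intro g
    have := congrFun hram g
    rw [← this]
    rfl
  have hcN : (Nat.card (N.subgroupOf G) : ℂ) ≠ 0 := by exact_mod_cast Nat.card_pos.ne'
  have hk : (Nat.card G : ℂ) = ((N.subgroupOf G).index : ℂ) * (Nat.card (N.subgroupOf G) : ℂ) := by
    exact_mod_cast (Subgroup.index_mul_card (N.subgroupOf G)).symm
  set k := (N.subgroupOf G).index with hkdef
  have hk0 : (k : ℂ) ≠ 0 := by exact_mod_cast Subgroup.index_ne_zero_of_finite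
  have hvalN : ∀ n : N, (e : ℂ) * χ.1 ⟨n, hNG n.2⟩ = (k : ℂ) * θ.1 n := by
    intro n
    rw [hval]
    have h1 : ∀ y : G, extendByZero (N.subgroupOf G) θ' (y⁻¹ * ⟨n, hNG n.2⟩ * y) = θ.1 n := by
      intro y
      have h2 : (((y⁻¹ * ⟨n, hNG n.2⟩ * y : G)) : Γ) ∈ N := by
        have := hN.conj_mem _ n.2 (y⁻¹ : Γ)
        simpa using this
      rw [hE1 _ h2, ← hinv (y⁻¹ : G) n]
      refine congrArg θ.1 (Subtype.ext ?_)
      simp
    simp only [h1, Finset.sum_const, Finset.card_univ, nsmul_eq_mul]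
    rw [← Nat.card_eq_fintype_card, hk]
    field_simp
  have hθ1 : θ.1 1 ≠ 0 := H06.irr_one_ne_zero' θ.2
  have he0 : e ≠ 0 := by
    intro h0
    have := hvalN 1
    rw [h0] at this
    simp only [Nat.cast_zero, zero_mul] at this
    exact (mul_ne_zero hk0 hθ1) this.symm
  have hec : (e : ℂ) ≠ 0 := by exact_mod_cast he0
  have hχN : ∀ n : N, χ.1 ⟨n, hNG n.2⟩ = (k : ℂ) / e * θ.1 n := by
    intro n
    have := hvalN n
    field_simp
    linear_combination this
  -- Frobenius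
  have hsq : (e : ℂ) * e = k := by
    have h1 := frobenius_reciprocity (N.subgroupOf G) θ' χ.1
      (isClassFunction_of_isCharacter (isCharacter_of_irr χ.2))
    rw [hram] at h1
    have h2 : (fun g => (e : ℂ) * (χ : G → ℂ) g) = (e : ℂ) • χ.1 := by
      funext g
      simp
    rw [h2, classInner_smul_left] at h1
    have h3 : classInner χ.1 χ.1 = 1 := H06.classInner_irr_self χ.2
    rw [h3, mul_one] at h1
    have h4 : (fun h : N.subgroupOf G => χ.1 h) = ((k : ℂ) / e) • θ' := by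
      funext h
      have := hχN ⟨(h : G), h.2⟩
      simpa using this
    rw [h4, ← classInner_comm_conj, classInner_smul_left, H06.classInner_irr_self hθ'irr] at h1
    simp only [mul_one, map_div₀, Complex.conj_natCast] at h1
    field_simp at h1
    linear_combination h1
  refine ⟨Nat.pos_of_ne_zero he0, ?_, ?_⟩
  · intro n
    rw [hχN, ← hsq]
    field_simp
  · intro γ g
    have h1 := hval g
    have h2 := hval ⟨γ * g * γ⁻¹, hG.conj_mem g g.2 γ⟩
    have h3 : ∑ y : G, extendByZero (N.subgroupOf G) θ' (y⁻¹ * ⟨γ * g * γ⁻¹, hG.conj_mem g g.2 γ⟩ * y) =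
        ∑ y : G, extendByZero (N.subgroupOf G) θ' (y⁻¹ * g * y) := by
      rw [← Equiv.sum_comp (MulAut.conjNormal γ : MulAut G).toEquiv]
      refine Finset.sum_congr rfl fun z _ => ?_
      rw [← hconjE γ (z⁻¹ * g * z)]
      congr 1
      apply Subtype.ext
      have h4 : ((MulAut.conjNormal γ (z⁻¹ * g * z) : G) : Γ) = γ * ((z⁻¹ * g * z : G) : Γ) * γ⁻¹ :=
        MulAut.conjNormal_apply _ _
      have h5 : (((MulAut.conjNormal γ : MulAut G).toEquiv z : G) : Γ) = γ * z * γ⁻¹ :=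
        MulAut.conjNormal_apply _ _
      rw [h4]
      simp only [Subgroup.coe_mul, Subgroup.coe_inv, h5]
      group
    rw [h3, ← h1] at h2
    exact mul_left_cancel₀ hec h2

end Frob

theorem main {Γ : Type u} [Group Γ] [Fintype Γ] (G N : Subgroup Γ) [hG : G.Normal] [hN : N.Normal]
    [Fintype G] [Fintype N] (hNG : N ≤ G) (hGlt : G ≠ ⊤) (hcyc : IsCyclic (Γ ⧸ G))
    (hfrob : ∀ x : Γ, x ∉ G → ∀ g : Γ, g ∈ G → x * g * x⁻¹ * g⁻¹ ∈ N → g ∈ N) (θ : IrrCharacter N)
    (hinv : ∀ (x : Γ) (n : N), (θ : N → ℂ) ⟨x * n * x⁻¹, hN.conj_mem n n.2 x⟩ = (θ : N → ℂ) n)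
    (χ : IrrCharacter G) (e : ℕ)
    (hram : indFun (N.subgroupOf G) (fun n : N.subgroupOf G => (θ : N → ℂ) ⟨(n : G), n.2⟩) =
      fun g => (e : ℂ) * (χ : G → ℂ) g) :
    (G.index : ℤ) ∣ (e : ℤ) - 1 ∨ (G.index : ℤ) ∣ (e : ℤ) + 1 := by
  classical
  haveI : Fintype (IrrCharacter Γ) := Fintype.ofFinite _
  obtain ⟨he0, hχN, hχinv⟩ := ram_facts G N hNG θ hinv χ e hram
  obtain ⟨X, hX⟩ := ext_char_of_cyclic G hcyc χ hχinv
  have hXc := isCharacter_of_irr X.2
  have hres : classInner (fun n : G => X.1 n) (fun n : G => X.1 n) = 1 := by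
    have h1 : (fun n : G => X.1 n) = χ.1 := funext hX
    rw [h1]
    exact H06.classInner_irr_self χ.2
  set F : Γ → ℝ := fun g => ‖X.1 g‖ ^ 2 with hF
  have hFc : ∀ g y, F (g * y * g⁻¹) = F y := by
    intro g y
    simp only [hF]
    rw [isClassFunction_of_isCharacter hXc y g]
  have hF2 : ∀ y, X.1 y * conj (X.1 y) = ((F y : ℝ) : ℂ) := by
    intro y
    rw [Complex.mul_conj']
    simp only [hF]
    push_cast
    rfl
  have hG1 : ∀ u : Γ, ∑ g : G, F (g * u) = (Nat.card G : ℝ) := by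
    intro u
    have h1 := sum_coset_norm_eq G X.2 hres u
    simp only [hF2] at h1
    exact_mod_cast h1
  have hGpos : (0 : ℝ) < (Nat.card G : ℝ) := by exact_mod_cast Nat.card_pos
  have hNpos : (0 : ℝ) < (Nat.card N : ℝ) := by exact_mod_cast Nat.card_pos
  have hAout : ∀ u : Γ, u ∉ G → ∑ n : N, F (n * u) = (Nat.card N : ℝ) := by
    intro u hu
    have h1 := frob_sum G N hNG hfrob hu F hFc
    rw [hG1 u] at h1
    have h2 : (Nat.card G : ℝ) * ∑ n : N, F (n * u) = (Nat.card G : ℝ) * (Nat.card N : ℝ) := by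
      rw [← h1]; ring
    exact mul_left_cancel₀ hGpos.ne' h2
  have hXN : ∀ n : N, X.1 n = (e : ℂ) * θ.1 n := by
    intro n
    rw [← hχN n]
    exact hX ⟨n, hNG n.2⟩
  have hAin : ∀ u : Γ, u ∈ N → ∑ n : N, F (n * u) = (e : ℝ) ^ 2 * (Nat.card N : ℝ) := by
    intro u hu
    have h1 : ∑ n : N, F (n * u) = ∑ n : N, F n :=
      Equiv.sum_comp (Equiv.mulRight (⟨u, hu⟩ : N)) (fun n : N => F n)
    rw [h1]
    have h2 : ∀ n : N, F n = (e : ℝ) ^ 2 * ‖θ.1 n‖ ^ 2 := by
      intro n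
      simp only [hF]
      rw [hXN, norm_mul, Complex.norm_natCast]
      ring
    simp only [h2]
    rw [← Finset.mul_sum]
    congr 1
    have h3 := H06.classInner_self_eq_real θ.1
    rw [H06.classInner_irr_self θ.2] at h3
    have h4 : (1 : ℝ) = (Nat.card N : ℝ)⁻¹ * ∑ n : N, ‖θ.1 n‖ ^ 2 := by exact_mod_cast h3
    field_simp at h4
    linarith
  -- the generator
  obtain ⟨q, hq⟩ := hcyc.exists_generator
  obtain ⟨x, rfl⟩ := QuotientGroup.mk_surjective q
  have hxG : x ∉ G := by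
    intro hx
    apply hGlt
    rw [eq_top_iff]
    intro y _
    obtain ⟨j, hj⟩ := hq (y : Γ ⧸ G)
    rw [← QuotientGroup.eq_one_iff]
    have h1 : (x : Γ ⧸ G) = 1 := (QuotientGroup.eq_one_iff _).2 hx
    rw [← hj]
    simp [h1]
  have hpow : ∀ j : ℤ, x ^ j ∈ G → x ^ j ∈ N := by
    intro j hj
    refine hfrob x hxG _ hj ?_
    have h1 : x * x ^ j * x⁻¹ * (x ^ j)⁻¹ = 1 := by
      rw [((Commute.refl x).zpow_right j).eq]
      group
    rw [h1]
    exact N.one_mem
  set C : Subgroup (Γ ⧸ N) := Subgroup.zpowers (x : Γ ⧸ N) with hCdef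
  set U : Subgroup Γ := C.comap (QuotientGroup.mk' N) with hUdef
  have hNU : N ≤ U := by
    intro n hn
    change (n : Γ ⧸ N) ∈ C
    rw [(QuotientGroup.eq_one_iff n).2 hn]
    exact C.one_mem
  have hUG : ∀ u ∈ U, u ∈ G → u ∈ N := by
    intro u hu huG
    obtain ⟨j, hj⟩ : (u : Γ ⧸ N) ∈ C := hu
    have hj' : (x : Γ ⧸ N) ^ j = (u : Γ ⧸ N) := hj
    rw [← QuotientGroup.mk_zpow, QuotientGroup.eq] at hj'
    have h1 : x ^ j ∈ G := by
      have h2 := G.mul_mem huG (G.inv_mem (hNG hj'))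
      have h3 : u * ((x ^ j)⁻¹ * u)⁻¹ = x ^ j := by group
      rwa [h3] at h2
    have h2 := N.mul_mem (hpow j h1) hj'
    have h3 : x ^ j * ((x ^ j)⁻¹ * u) = u := by group
    rwa [h3] at h2
  -- the order
  have hordG : orderOf (x : Γ ⧸ G) = G.index := by
    rw [orderOf_eq_card_of_forall_mem_zpowers hq]
    rfl
  have hord : orderOf (x : Γ ⧸ N) = G.index := by
    rw [← hordG, orderOf_eq_orderOf_iff]
    intro k
    rw [← QuotientGroup.mk_pow, ← QuotientGroup.mk_pow, QuotientGroup.eq_one_iff,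
      QuotientGroup.eq_one_iff]
    constructor
    · exact fun h => hNG h
    · intro h
      have := hpow k (by simpa using h)
      simpa using this
  have hcardC : Nat.card C = G.index := by
    rw [hCdef, Nat.card_zpowers, hord]
  have hcardU : Nat.card U = G.index * Nat.card N := by
    have h1 : U.index = C.index :=
      Subgroup.index_comap_of_surjective C (QuotientGroup.mk'_surjective N)
    have h2 : Nat.card U * U.index = Nat.card Γ := U.card_mul_index
    have h3 : Nat.card C * C.index = Nat.card (Γ ⧸ N) := C.card_mul_index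
    have h4 : Nat.card Γ = Nat.card (Γ ⧸ N) * Nat.card N :=
      Subgroup.card_eq_card_quotient_mul_card_subgroup N
    have h5 : C.index ≠ 0 := Subgroup.index_ne_zero_of_finite
    apply Nat.eq_of_mul_eq_mul_right (Nat.pos_of_ne_zero h5)
    rw [← h1, h2, h4, ← h3, hcardC, h1]
    ring
  have hm2 : 2 ≤ G.index := by
    have h1 : G.index ≠ 0 := Subgroup.index_ne_zero_of_finite
    have h2 : G.index ≠ 1 := fun h => hGlt (Subgroup.index_eq_one.1 h)
    omega
  -- the decomposition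
  haveI : Fintype U := Fintype.ofFinite _
  haveI hnormU : (N.subgroupOf U).Normal := Subgroup.normal_subgroupOf
  haveI : Fintype (N.subgroupOf U) := Fintype.ofFinite _
  have hcycU : IsCyclic (U ⧸ N.subgroupOf U) := cyclic_quot_comap N C inferInstance
  have hcardN' : Nat.card (N.subgroupOf U) = Nat.card N :=
    Nat.card_congr (Subgroup.subgroupOfEquivOfLe hNU).toEquiv
  have hinvU : ∀ (g : U) (n : N.subgroupOf U),
      (relIrr N U hNU θ).1 ⟨g * n * g⁻¹, hnormU.conj_mem (n : U) n.2 g⟩ = (relIrr N U hNU θ).1 n := by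
    intro g n
    rw [relIrr_apply, relIrr_apply, ← hinv (g : Γ) ⟨((n : U) : Γ), n.2⟩]
    exact congrArg θ.1 (Subtype.ext rfl)
  have hξ : IsCharacter U (fun u : U => X.1 u) := isCharacter_restrict U hXc
  have hresU : ∀ n : N.subgroupOf U, (fun u : U => X.1 u) n = (e : ℂ) * (relIrr N U hNU θ).1 n := by
    intro n
    rw [relIrr_apply]
    exact hXN ⟨((n : U) : Γ), n.2⟩
  obtain ⟨s, r, hs1, hs2, hs3⟩ := cyc_decomp (N.subgroupOf U) hcycU (relIrr N U hNU θ) hinvU hξ e hresU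
  have hsc : s.card = G.index := by
    rw [hcardN', hcardU] at hs1
    exact Nat.eq_of_mul_eq_mul_right Nat.card_pos hs1
  -- the sum over U
  have hU1 : (Nat.card N : ℝ) * ∑ u : U, F u = ∑ u : U, ∑ n : N, F (n * u) := by
    have h1 : ∀ n : N, ∑ u : U, F u = ∑ u : U, F (n * u) := by
      intro n
      have := Equiv.sum_comp (Equiv.mulLeft (⟨n, hNU n.2⟩ : U)) (fun u : U => F u)
      rw [← this]
      rfl
    rw [Finset.sum_comm, ← Finset.sum_congr rfl (fun n _ => h1 n), Finset.sum_const,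
      Finset.card_univ, ← Nat.card_eq_fintype_card, nsmul_eq_mul]
  have hU2 : ∀ u : U, ∑ n : N, F (n * u) = (Nat.card N : ℝ) +
      (if (u : Γ) ∈ N then ((e : ℝ) ^ 2 - 1) * (Nat.card N : ℝ) else 0) := by
    intro u
    split_ifs with h
    · rw [hAin _ h]; ring
    · rw [hAout _ (fun h' => h (hUG _ u.2 h'))]; ring
  have hU3 : ∑ u : U, F u = (Nat.card N : ℝ) * ((G.index : ℝ) + (e : ℝ) ^ 2 - 1) := by
    have h1 : (Nat.card N : ℝ) * ∑ u : U, F u = (Nat.card N : ℝ) *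
        ((Nat.card N : ℝ) * ((G.index : ℝ) + (e : ℝ) ^ 2 - 1)) := by
      rw [hU1, Finset.sum_congr rfl (fun u _ => hU2 u), Finset.sum_add_distrib, Finset.sum_const,
        Finset.card_univ, ← Nat.card_eq_fintype_card, nsmul_eq_mul, Finset.sum_ite,
        Finset.sum_const_zero, add_zero, Finset.sum_const, nsmul_eq_mul]
      have h2 : (Finset.univ.filter (fun u : U => (u : Γ) ∈ N)).card = Nat.card N := by
        rw [← hcardN', Nat.card_eq_fintype_card, Fintype.card_subtype]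
        rfl
      rw [h2, hcardU]
      push_cast
      ring
    exact mul_left_cancel₀ hNpos.ne' h1
  have hinner := H06.classInner_self_eq_real (fun u : U => X.1 u)
  rw [hs3] at hinner
  set S := ∑ ψ ∈ s, r ψ * r ψ with hS
  have hSr : (S : ℝ) = (Nat.card U : ℝ)⁻¹ * ∑ u : U, ‖X.1 u‖ ^ 2 := by exact_mod_cast hinner
  have hU4 : ∑ u : U, ‖X.1 u‖ ^ 2 = ∑ u : U, F u := rfl
  rw [hU4, hU3, hcardU] at hSr
  have hmpos : (0 : ℝ) < (G.index : ℝ) := by
    have : 0 < G.index := by omega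
    exact_mod_cast this
  have h2 : (G.index : ℝ) * S + 1 = (e : ℝ) * e + (G.index : ℝ) := by
    rw [hSr]
    push_cast
    field_simp
    ring
  have h3 : G.index * S + 1 = e * e + G.index := by exact_mod_cast h2
  exact int_lemma s r G.index e hm2 hsc hs2 h3

end Cfsg.Agent.H23.RamCyc
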