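import Cfsg.Agent.Lib.H23.FSign

set_option autoImplicit false
set_option linter.style.haveILetI false
set_option linter.unusedSectionVars false

namespace Cfsg.Agent.H23

open Cfsg Cfsg.Agent Cfsg.Agent.H21
open scoped ComplexConjugate

section
universe u
variable {G : Type u} [Group G] [Fintype G] {n : ℕ} (ρ : Representation ℂ G (Fin n → ℂ))

/-- The contragredient matrix. -/
noncomputable def cgMat (g : G) : Matrix (Fin n) (Fin n) ℂ := (repMat ρ g⁻¹).transpose

theorem cgMat_mul (g h : G) : cgMat ρ (g * h) = cgMat ρ g * cgMat ρ h := by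
  unfold cgMat
  rw [mul_inv_rev, repMat_mul, Matrix.transpose_mul]

theorem cgMat_trace (g : G) : (cgMat ρ g).trace = ρ.character g⁻¹ := by
  unfold cgMat
  rw [Matrix.trace_transpose, repMat_trace]

theorem sandwich_cgMat (g : G) (M : Matrix (Fin n) (Fin n) ℂ) :
    sandwichL (cgMat ρ g) M = (repMat ρ g⁻¹).transpose * M * repMat ρ g⁻¹ := by
  show cgMat ρ g * M * (cgMat ρ g).transpose = _
  unfold cgMat
  rw [Matrix.transpose_transpose]

variable (hirr : IsIrrCharacter G ρ.character) (hreal : ∀ g : G, (ρ.character g).im = 0)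

include hirr hreal

theorem rr_conj (g : G) : conj (ρ.character g) = ρ.character g :=
  Complex.conj_eq_iff_im.mpr (hreal g)

theorem rr_inv (g : G) : ρ.character g⁻¹ = ρ.character g := by
  rw [isCharacter_inv (isCharacter_of_irr hirr), rr_conj ρ hirr hreal]

theorem rr_trace_P : LinearMap.trace ℂ _ (mAvg (cgMat ρ)) = 1 := by
  classical
  haveI : Fintype (IrrCharacter G) := Fintype.ofFinite _
  have h1 : classInner ρ.character ρ.character = 1 :=
    classInner_self_irr (⟨ρ.character, hirr⟩ : IrrCharacter G)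
  rw [trace_mAvg, ← h1, classInner]
  congr 1
  refine Finset.sum_congr rfl fun g _ => ?_
  rw [cgMat_trace, rr_inv ρ hirr hreal, rr_conj ρ hirr hreal, sq]

theorem rr_trace_TP : LinearMap.trace ℂ _ ((transposeL : Module.End ℂ _) * mAvg (cgMat ρ)) =
    fsInd ρ.character := by
  rw [trace_transpose_mAvg (cgMat_mul ρ)]
  unfold fsInd
  congr 1
  refine Finset.sum_congr rfl fun g _ => ?_
  rw [cgMat_trace, rr_inv ρ hirr hreal]

theorem rr_ind : fsInd ρ.character = 1 ∨ fsInd ρ.character = -1 := by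
  classical
  haveI : Fintype (IrrCharacter G) := Fintype.ofFinite _
  exact fsInd_of_real (⟨ρ.character, hirr⟩ : IrrCharacter G) (rr_conj ρ hirr hreal)

/-- Transpose acts on the averaging projector through the indicator. -/
theorem rr_TP : (transposeL : Module.End ℂ _) * mAvg (cgMat ρ) =
    fsInd ρ.character • mAvg (cgMat ρ) := by
  rcases rr_ind ρ hirr hreal with h | h
  · rw [h, one_smul]
    apply transpose_mAvg_eq (cgMat_mul ρ)
    rw [rr_trace_P ρ hirr hreal, rr_trace_TP ρ hirr hreal, h]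
  · have e : ∀ Q : Module.End ℂ (Matrix (Fin n) (Fin n) ℂ), (-1:ℂ) • Q = -Q := fun Q => LinearMap.ext fun M => by simp
    rw [h, e]
    have h1 : (transposeL : Module.End ℂ (Matrix (Fin n) (Fin n) ℂ)) * transposeL = 1 :=
      transpose_transpose_L
    have hQ := idem_half_aux (mAvg (cgMat ρ)) (transposeL : Module.End ℂ _) h1 (mAvg_comm _)
      (mAvg_idem (cgMat_mul ρ)) (1 : ℂ) (by norm_num)
    have h2 : LinearMap.trace ℂ _ ((1/2 : ℂ) • (mAvg (cgMat ρ) + (1 : ℂ) •
        ((transposeL : Module.End ℂ _) * mAvg (cgMat ρ)))) = 0 := by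
      rw [map_smul, map_add, map_smul, rr_trace_P ρ hirr hreal, rr_trace_TP ρ hirr hreal, h]
      simp
    have h3 := LinearMap.IsIdempotentElem.eq_zero_of_trace_eq_zero hQ h2
    have h5 := smul_eq_zero.1 h3
    rcases h5 with h5 | h5
    · norm_num at h5
    · rw [one_smul] at h5
      exact eq_neg_of_add_eq_zero_right h5

omit hirr hreal in
theorem rr_fix {M : Matrix (Fin n) (Fin n) ℂ}
    (hM : ∀ g : G, (repMat ρ g).transpose * M * repMat ρ g = M) :
    (mAvg (cgMat ρ)) M = M := by
  have hne : (Nat.card G : ℂ) ≠ 0 := by exact_mod_cast Nat.card_pos.ne'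
  unfold mAvg
  simp only [LinearMap.smul_apply, LinearMap.sum_apply]
  have h1 : ∀ g : G, sandwichL (cgMat ρ g) M = M := by
    intro g
    rw [sandwich_cgMat, hM]
  simp only [h1, Finset.sum_const, Finset.card_univ]
  rw [← Nat.card_eq_fintype_card, ← Nat.cast_smul_eq_nsmul ℂ, smul_smul, inv_mul_cancel₀ hne, one_smul]

/-- Every invariant form has symmetry type given by the indicator. -/
theorem rr_form_symm {M : Matrix (Fin n) (Fin n) ℂ}
    (hM : ∀ g : G, (repMat ρ g).transpose * M * repMat ρ g = M) :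
    M.transpose = fsInd ρ.character • M := by
  have h1 := congrArg (fun L : Module.End ℂ (Matrix (Fin n) (Fin n) ℂ) => L M) (rr_TP ρ hirr hreal)
  simp only [Module.End.mul_apply, LinearMap.smul_apply, rr_fix ρ hM] at h1
  exact h1

/-- A nonzero invariant form exists. -/
theorem rr_form_exists : ∃ M : Matrix (Fin n) (Fin n) ℂ, M ≠ 0 ∧
    ∀ g : G, (repMat ρ g).transpose * M * repMat ρ g = M := by
  have h1 := rr_trace_P ρ hirr hreal
  have hP : mAvg (cgMat ρ) ≠ 0 := by
    intro h
    rw [h, map_zero] at h1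
    exact zero_ne_one h1
  obtain ⟨M₀, hM₀⟩ : ∃ M₀, (mAvg (cgMat ρ)) M₀ ≠ 0 := by
    by_contra hcon
    push Not at hcon
    apply hP
    ext1 M
    simpa using hcon M
  refine ⟨(mAvg (cgMat ρ)) M₀, hM₀, fun g => ?_⟩
  have h2 := congrArg (fun L : Module.End ℂ (Matrix (Fin n) (Fin n) ℂ) => L M₀)
    (sandwich_mAvg (cgMat_mul ρ) g⁻¹)
  simp only [Module.End.mul_apply] at h2
  rw [sandwich_cgMat, inv_inv] at h2
  exact h2

end

end Cfsg.Agent.H23
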