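import Cfsg.Agent.Lib.H23.RealRep1

set_option autoImplicit false
set_option linter.style.haveILetI false
set_option linter.unusedSectionVars false

namespace Cfsg.Agent.H23

open Cfsg Cfsg.Agent Cfsg.Agent.H21 Matrix
open scoped ComplexConjugate

section Mat
variable {n : ℕ}

/-- Entrywise complex conjugation. -/
noncomputable abbrev bM : Matrix (Fin n) (Fin n) ℂ →+* Matrix (Fin n) (Fin n) ℂ :=
  (starRingEnd ℂ).mapMatrix

theorem bM_apply (A : Matrix (Fin n) (Fin n) ℂ) (i j : Fin n) : bM A i j = conj (A i j) := rfl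

theorem bM_bM (A : Matrix (Fin n) (Fin n) ℂ) : bM (bM A) = A := by
  ext i j
  simp [bM_apply]

theorem bM_smul (c : ℂ) (A : Matrix (Fin n) (Fin n) ℂ) : bM (c • A) = conj c • bM A := by
  ext i j
  simp [bM_apply]

theorem bM_ct (A : Matrix (Fin n) (Fin n) ℂ) : bM Aᴴ = Aᵀ := by
  ext i j
  simp [bM_apply, conjTranspose_apply]

theorem ct_bM (A : Matrix (Fin n) (Fin n) ℂ) : (bM A)ᴴ = Aᵀ := by
  ext i j
  simp [bM_apply, conjTranspose_apply]

theorem bM_tr (A : Matrix (Fin n) (Fin n) ℂ) : bM Aᵀ = Aᴴ := by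
  ext i j
  simp [bM_apply, conjTranspose_apply]

/-- Square norm. -/
noncomputable def nsq (v : Fin n → ℂ) : ℝ := ∑ i, ‖v i‖ ^ 2

theorem star_dot_self (v : Fin n → ℂ) : star v ⬝ᵥ v = (nsq v : ℂ) := by
  simp only [dotProduct, nsq, Pi.star_apply, Complex.star_def, Complex.conj_mul']
  push_cast
  rfl

theorem nsq_nonneg (v : Fin n → ℂ) : 0 ≤ nsq v := Finset.sum_nonneg fun _ _ => by positivity

theorem nsq_pos {v : Fin n → ℂ} (hv : v ≠ 0) : 0 < nsq v := by
  obtain ⟨i, hi⟩ := Function.ne_iff.mp hv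
  have h1 : 0 < ‖v i‖ ^ 2 := by
    have : 0 < ‖v i‖ := norm_pos_iff.mpr hi
    positivity
  exact lt_of_lt_of_le h1
    (Finset.single_le_sum (f := fun i => ‖v i‖ ^ 2) (fun _ _ => by positivity) (Finset.mem_univ i))

end Mat

section Grp
variable {G : Type*} [Group G] [Fintype G] {n : ℕ}

/-- The invariant hermitian form on the dual. -/
noncomputable def hForm (X : G → Matrix (Fin n) (Fin n) ℂ) : Matrix (Fin n) (Fin n) ℂ :=
  ∑ g, X g * (X g)ᴴ

theorem hForm_inv {X : G → Matrix (Fin n) (Fin n) ℂ} (hX : ∀ g h, X (g * h) = X g * X h) (g : G) :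
    X g * hForm X * (X g)ᴴ = hForm X := by
  unfold hForm
  rw [Finset.mul_sum, Finset.sum_mul]
  refine Fintype.sum_equiv (Equiv.mulLeft g) _ _ fun h => ?_
  simp only [Equiv.coe_mulLeft, hX, conjTranspose_mul, Matrix.mul_assoc]

theorem hForm_herm (X : G → Matrix (Fin n) (Fin n) ℂ) : (hForm X)ᴴ = hForm X := by
  unfold hForm
  rw [conjTranspose_sum]
  refine Finset.sum_congr rfl fun g _ => ?_
  rw [conjTranspose_mul, conjTranspose_conjTranspose]

theorem hForm_bM (X : G → Matrix (Fin n) (Fin n) ℂ) :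
    bM (hForm X) = hForm fun g => bM (X g) := by
  unfold hForm
  rw [map_sum]
  refine Finset.sum_congr rfl fun g _ => ?_
  rw [map_mul, bM_ct, ct_bM]

theorem hForm_form (X : G → Matrix (Fin n) (Fin n) ℂ) (u : Fin n → ℂ) :
    star u ⬝ᵥ (hForm X *ᵥ u) = ((∑ g, nsq ((X g)ᴴ *ᵥ u) : ℝ) : ℂ) := by
  unfold hForm
  rw [Matrix.sum_mulVec, dotProduct_sum]
  push_cast
  refine Finset.sum_congr rfl fun g _ => ?_
  rw [← mulVec_mulVec, dotProduct_mulVec, ← star_dot_self, star_mulVec, conjTranspose_conjTranspose]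

theorem hForm_pos {X : G → Matrix (Fin n) (Fin n) ℂ} (hX1 : X 1 = 1) {u : Fin n → ℂ} (hu : u ≠ 0) :
    ∃ a : ℝ, 0 < a ∧ star u ⬝ᵥ (hForm X *ᵥ u) = (a : ℂ) := by
  refine ⟨_, ?_, hForm_form X u⟩
  have h1 : 0 < nsq ((X 1)ᴴ *ᵥ u) := by
    rw [hX1]
    simpa using nsq_pos hu
  exact lt_of_lt_of_le h1
    (Finset.single_le_sum (f := fun g => nsq ((X g)ᴴ *ᵥ u)) (fun _ _ => nsq_nonneg _)
      (Finset.mem_univ (1:G)))

theorem hForm_det_ne {X : G → Matrix (Fin n) (Fin n) ℂ} (hX1 : X 1 = 1) : (hForm X).det ≠ 0 := by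
  intro h
  obtain ⟨v, hv0, hv⟩ := exists_mulVec_eq_zero_iff.mpr h
  obtain ⟨a, ha, he⟩ := hForm_pos hX1 hv0
  rw [hv, dotProduct_zero] at he
  have : a = 0 := by exact_mod_cast he.symm
  exact ha.ne' this

/-- Hilbert 90 for a real structure on matrices. -/
theorem exists_hilbert90 (A : Matrix (Fin n) (Fin n) ℂ) (hA : A * bM A = 1) :
    ∃ S : Matrix (Fin n) (Fin n) ℂ, S.det ≠ 0 ∧ S = A * bM S := by
  classical
  let f : ℕ → ℂ := fun a => -(((a : ℂ) + Complex.I) / ((a : ℂ) - Complex.I))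
  have hne : ∀ a : ℕ, (a : ℂ) - Complex.I ≠ 0 := by
    intro a h
    have := congrArg Complex.im h
    simp at this
  have hf : Function.Injective f := by
    intro a b hab
    have h1 : ((a : ℂ) + Complex.I) / ((a : ℂ) - Complex.I) =
        ((b : ℂ) + Complex.I) / ((b : ℂ) - Complex.I) := neg_injective hab
    rw [div_eq_div_iff (hne a) (hne b)] at h1
    have h2 : ((a : ℂ) - b) * (2 * Complex.I) = 0 := by
      linear_combination -h1
    have h3 : (a : ℂ) - b = 0 := by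
      rcases mul_eq_zero.mp h2 with h | h
      · exact h
      · simp at h
    have h4 : (a : ℂ) = b := sub_eq_zero.mp h3
    exact_mod_cast h4
  have hinf : (Set.range f).Infinite := Set.infinite_range_of_injective hf
  obtain ⟨z, ⟨a, rfl⟩, hz⟩ := hinf.exists_notMem_finite (Matrix.finite_spectrum A)
  rw [spectrum.notMem_iff] at hz
  have hgen : ∀ t : ℂ, t • (1 : Matrix (Fin n) (Fin n) ℂ) + conj t • A =
      A * bM (t • (1 : Matrix (Fin n) (Fin n) ℂ) + conj t • A) := by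
    intro t
    rw [map_add bM, bM_smul, bM_smul, map_one, Complex.conj_conj, Matrix.mul_add,
      Matrix.mul_smul, Matrix.mul_smul, hA, Matrix.mul_one, add_comm]
  obtain ⟨t, ht⟩ : ∃ t : ℂ, t = (a : ℂ) + Complex.I := ⟨_, rfl⟩
  have hconj : conj t = (a : ℂ) - Complex.I := by
    rw [ht]
    simp [sub_eq_add_neg]
  have hct : conj t ≠ 0 := by rw [hconj]; exact hne a
  have hSU : t • (1 : Matrix (Fin n) (Fin n) ℂ) + conj t • A =
      (- conj t) • (algebraMap ℂ (Matrix (Fin n) (Fin n) ℂ) (f a) - A) := by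
    have h5 : (- conj t) * f a = t := by
      simp only [f]
      rw [neg_mul_neg, hconj, ← ht]
      field_simp [hne a]
    rw [smul_sub, Algebra.algebraMap_eq_smul_one, smul_smul, h5, neg_smul, sub_neg_eq_add]
  refine ⟨_, ?_, hgen t⟩
  rw [hSU, Matrix.det_smul]
  refine mul_ne_zero (pow_ne_zero _ (neg_ne_zero.mpr hct)) ?_
  have := (Matrix.isUnit_iff_isUnit_det _).mp hz
  exact this.ne_zero

/-- Main matrix lemma: an irreducible matrix group with a nonzero invariant symmetric form is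
conjugate to a real matrix group. -/
theorem exists_real_conj {X : G → Matrix (Fin n) (Fin n) ℂ} (hX : ∀ g h, X (g * h) = X g * X h)
    (hX1 : X 1 = 1)
    (schur : ∀ T : Matrix (Fin n) (Fin n) ℂ, (∀ g, T * X g = X g * T) → ∃ κ : ℂ, T = κ • 1)
    {M : Matrix (Fin n) (Fin n) ℂ} (hM0 : M ≠ 0) (hMs : Mᵀ = M)
    (hMinv : ∀ g, (X g)ᵀ * M * X g = M) :
    ∃ S : Matrix (Fin n) (Fin n) ℂ, S.det ≠ 0 ∧ ∀ g, bM (S⁻¹ * X g * S) = S⁻¹ * X g * S := by
  classical
  obtain ⟨H, hH⟩ : ∃ H, H = hForm X := ⟨_, rfl⟩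
  have hHi : ∀ g, X g * H * (X g)ᴴ = H := by rw [hH]; exact hForm_inv hX
  have hbM : ∀ g, (X g)ᴴ * bM M * bM (X g) = bM M := by
    intro g
    have := congrArg bM (hMinv g)
    rw [map_mul, map_mul, bM_tr] at this
    exact this
  obtain ⟨A, hA⟩ : ∃ A, A = H * bM M := ⟨_, rfl⟩
  have hXA : ∀ g, X g * A = A * bM (X g) := by
    intro g
    calc X g * A = X g * H * ((X g)ᴴ * bM M * bM (X g)) := by rw [hbM, hA, Matrix.mul_assoc]
      _ = (X g * H * (X g)ᴴ) * bM M * bM (X g) := by simp only [Matrix.mul_assoc]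
      _ = A * bM (X g) := by rw [hHi, hA]
  have hTc : ∀ g, (A * bM A) * X g = X g * (A * bM A) := by
    intro g
    have h1 : bM A * X g = bM (X g) * bM A := by
      have := congrArg bM (hXA g)
      rw [map_mul, map_mul, bM_bM] at this
      exact this.symm
    calc (A * bM A) * X g = A * (bM A * X g) := by rw [Matrix.mul_assoc]
      _ = A * bM (X g) * bM A := by rw [h1, Matrix.mul_assoc]
      _ = X g * (A * bM A) := by rw [← hXA, Matrix.mul_assoc]
  obtain ⟨κ, hκ⟩ := schur _ hTc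
  -- positivity of `κ`
  have hHdet : H.det ≠ 0 := by rw [hH]; exact hForm_det_ne hX1
  obtain ⟨v, hv⟩ : ∃ v : Fin n → ℂ, M *ᵥ v ≠ 0 := by
    by_contra hcon
    push Not at hcon
    apply hM0
    ext i j
    have := congrFun (hcon (Pi.single j 1)) i
    simpa [Matrix.mulVec_single_one] using this
  obtain ⟨u, hHu, hu0⟩ : ∃ u, H *ᵥ u = v ∧ u ≠ 0 := by
    refine ⟨H⁻¹ *ᵥ v, ?_, ?_⟩
    · rw [mulVec_mulVec, Matrix.mul_nonsing_inv _ (Ne.isUnit hHdet), one_mulVec]
    · intro h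
      have h2 : H *ᵥ (H⁻¹ *ᵥ v) = v := by
        rw [mulVec_mulVec, Matrix.mul_nonsing_inv _ (Ne.isUnit hHdet), one_mulVec]
      rw [h, mulVec_zero] at h2
      rw [← h2, mulVec_zero] at hv
      exact hv rfl
  obtain ⟨w, hw⟩ : ∃ w, w = M *ᵥ v := ⟨_, rfl⟩
  obtain ⟨a, ha, hae⟩ := hForm_pos hX1 hu0
  have hX1' : (fun g => bM (X g)) 1 = 1 := by
    show bM (X 1) = 1
    rw [hX1, map_one]
  have hw0 : w ≠ 0 := by rw [hw]; exact hv
  obtain ⟨b, hb, hbe⟩ := hForm_pos (X := fun g => bM (X g)) hX1' hw0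
  rw [← hForm_bM, ← hH] at hbe
  rw [← hH] at hae
  have hkey : κ * (a : ℂ) = (b : ℂ) := by
    have h1 : (A * bM A) *ᵥ (H *ᵥ u) = κ • (H *ᵥ u) := by
      rw [hκ, smul_mulVec, one_mulVec]
    have h2 : star u ⬝ᵥ ((A * bM A) *ᵥ (H *ᵥ u)) = κ * (a : ℂ) := by
      rw [h1, dotProduct_smul, hae, smul_eq_mul]
    rw [← h2, ← hbe, hHu]
    have h3 : (A * bM A) *ᵥ v = H *ᵥ (bM M *ᵥ (bM H *ᵥ w)) := by
      rw [hw, hA, map_mul, bM_bM, mulVec_mulVec, mulVec_mulVec, mulVec_mulVec]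
      simp only [Matrix.mul_assoc]
    rw [h3, dotProduct_mulVec, dotProduct_mulVec]
    have h4 : star u ᵥ* H = star v := by
      rw [← hHu, star_mulVec, hH, hForm_herm]
    have h5 : star v ᵥ* bM M = star w := by
      rw [hw, star_mulVec]
      congr 1
      rw [← bM_tr, hMs]
    rw [h4, h5]
  -- normalization
  have hr : 0 < b / a := div_pos hb ha
  have hκr : κ = ((b / a : ℝ) : ℂ) := by
    push_cast
    have ha' : (a : ℂ) ≠ 0 := by exact_mod_cast ha.ne'
    field_simp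
    exact hkey
  obtain ⟨c, hc, hc2⟩ : ∃ c : ℝ, 0 < c ∧ c * c * (b / a) = 1 := by
    refine ⟨(Real.sqrt (b / a))⁻¹, by positivity, ?_⟩
    have h6 := Real.mul_self_sqrt hr.le
    have h7 : Real.sqrt (b / a) ≠ 0 := by positivity
    field_simp
    rw [Real.sq_sqrt hr.le]
    field_simp
  obtain ⟨A', hA'⟩ : ∃ A', A' = (c : ℂ) • A := ⟨_, rfl⟩
  have hA'1 : A' * bM A' = 1 := by
    rw [hA', bM_smul, Complex.conj_ofReal, Matrix.smul_mul, Matrix.mul_smul, hκ, hκr, smul_smul,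
      smul_smul]
    have : (c : ℂ) * (c : ℂ) * ((b / a : ℝ) : ℂ) = 1 := by
      have h8 : ((c * c * (b / a) : ℝ) : ℂ) = 1 := by rw [hc2]; simp
      push_cast at h8 ⊢
      linear_combination h8
    rw [this, one_smul]
  have hXA' : ∀ g, X g * A' = A' * bM (X g) := by
    intro g
    rw [hA', Matrix.mul_smul, Matrix.smul_mul, hXA]
  obtain ⟨S, hSdet, hS⟩ := exists_hilbert90 A' hA'1
  refine ⟨S, hSdet, fun g => ?_⟩
  have hSu : IsUnit S.det := Ne.isUnit hSdet
  have hSinv : S⁻¹ * S = 1 := Matrix.nonsing_inv_mul _ hSu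
  have hSinv' : S * S⁻¹ = 1 := Matrix.mul_nonsing_inv _ hSu
  have hb1 : bM S * bM S⁻¹ = 1 := by rw [← map_mul, hSinv', map_one]
  have hb2 : bM S⁻¹ * bM S = 1 := by rw [← map_mul, hSinv, map_one]
  -- `S⁻¹ A' = bar(S⁻¹)`
  have hR : S⁻¹ * A' = bM S⁻¹ := by
    calc S⁻¹ * A' = S⁻¹ * A' * (bM S * bM S⁻¹) := by rw [hb1, Matrix.mul_one]
      _ = S⁻¹ * (A' * bM S) * bM S⁻¹ := by simp only [Matrix.mul_assoc]
      _ = bM S⁻¹ := by rw [← hS, hSinv, Matrix.one_mul]
  rw [map_mul, map_mul]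
  calc bM S⁻¹ * bM (X g) * bM S = S⁻¹ * (A' * bM (X g)) * bM S := by
        rw [← hR]; simp only [Matrix.mul_assoc]
    _ = S⁻¹ * X g * (A' * bM S) := by rw [← hXA']; simp only [Matrix.mul_assoc]
    _ = S⁻¹ * X g * S := by rw [← hS]

/-- Real matrices from a real structure. -/
theorem exists_real_matrices {X : G → Matrix (Fin n) (Fin n) ℂ} (hX : ∀ g h, X (g * h) = X g * X h)
    (hX1 : X 1 = 1)
    (schur : ∀ T : Matrix (Fin n) (Fin n) ℂ, (∀ g, T * X g = X g * T) → ∃ κ : ℂ, T = κ • 1)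
    {M : Matrix (Fin n) (Fin n) ℂ} (hM0 : M ≠ 0) (hMs : Mᵀ = M)
    (hMinv : ∀ g, (X g)ᵀ * M * X g = M) :
    ∃ Y : G → Matrix (Fin n) (Fin n) ℝ, (∀ g h, Y (g * h) = Y g * Y h) ∧ Y 1 = 1 ∧
      ∀ g, (((Y g).trace : ℝ) : ℂ) = (X g).trace := by
  classical
  obtain ⟨S, hSdet, hS⟩ := exists_real_conj hX hX1 schur hM0 hMs hMinv
  have hSu : IsUnit S.det := Ne.isUnit hSdet
  have hSinv : S⁻¹ * S = 1 := Matrix.nonsing_inv_mul _ hSu
  have hSinv' : S * S⁻¹ = 1 := Matrix.mul_nonsing_inv _ hSu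
  let Z : G → Matrix (Fin n) (Fin n) ℂ := fun g => S⁻¹ * X g * S
  have hZ : ∀ g h, Z (g * h) = Z g * Z h := by
    intro g h
    show S⁻¹ * X (g * h) * S = S⁻¹ * X g * S * (S⁻¹ * X h * S)
    rw [hX]
    calc S⁻¹ * (X g * X h) * S = S⁻¹ * X g * (S * S⁻¹) * X h * S := by
          rw [hSinv', Matrix.mul_one]; simp only [Matrix.mul_assoc]
      _ = _ := by simp only [Matrix.mul_assoc]
  have hZ1 : Z 1 = 1 := by
    show S⁻¹ * X 1 * S = 1
    rw [hX1, Matrix.mul_one, hSinv]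
  have hZr : ∀ g i j, ((Z g i j).re : ℂ) = Z g i j := by
    intro g i j
    have h1 : conj (Z g i j) = Z g i j := by
      have := congrFun (congrFun (hS g) i) j
      exact this
    exact Complex.conj_eq_iff_real.mp h1 |>.choose_spec ▸ by simp
  let Y : G → Matrix (Fin n) (Fin n) ℝ := fun g => (Z g).map Complex.re
  have hYZ : ∀ g, (Y g).map (Complex.ofRealHom) = Z g := by
    intro g
    ext i j
    exact hZr g i j
  have hinj : Function.Injective (fun A : Matrix (Fin n) (Fin n) ℝ => A.map Complex.ofRealHom) :=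
    Matrix.map_injective Complex.ofReal_injective
  refine ⟨Y, fun g h => ?_, ?_, fun g => ?_⟩
  · apply hinj
    show (Y (g * h)).map Complex.ofRealHom = (Y g * Y h).map Complex.ofRealHom
    rw [Matrix.map_mul, hYZ, hYZ, hYZ, hZ]
  · apply hinj
    show (Y 1).map Complex.ofRealHom = (1 : Matrix (Fin n) (Fin n) ℝ).map Complex.ofRealHom
    rw [hYZ, hZ1, Matrix.map_one _ (map_zero _) (map_one _)]
  · have h1 : (((Y g).trace : ℝ) : ℂ) = (Z g).trace := by
      rw [← hYZ g]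
      simp [Matrix.trace]
    rw [h1]
    show (S⁻¹ * X g * S).trace = _
    rw [Matrix.trace_mul_comm, ← Matrix.mul_assoc, hSinv', Matrix.one_mul]

end Grp

end Cfsg.Agent.H23
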