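import Cfsg.Agent.Lib.H23.RealRep2

set_option autoImplicit false
set_option linter.style.haveILetI false
set_option linter.unusedSectionVars false

namespace Cfsg.Agent.H23

open Cfsg Cfsg.Agent Cfsg.Agent.H21 Matrix
open scoped ComplexConjugate

section
universe u
variable {G : Type u} [Group G] [Fintype G]

/-- Indicator one gives a real representation. -/
theorem real_rep_of_fs_one (χ : IrrCharacter G) (hν : fsInd χ.1 = 1) :
    ∃ (n : ℕ) (ρ : Representation ℝ G (Fin n → ℝ)), ∀ g : G,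
      ((LinearMap.trace ℝ (Fin n → ℝ) (ρ g) : ℝ) : ℂ) = χ.1 g := by
  classical
  haveI : Fintype (IrrCharacter G) := Fintype.ofFinite _
  have hr := real_of_fsInd_ne_zero χ (by rw [hν]; norm_num)
  obtain ⟨χ', n, ρ, hρ, rfl⟩ := χ
  simp only at hν hr
  have hI : IsIrrCharacter G ρ.character := ⟨n, ρ, hρ, rfl⟩
  have hreal : ∀ g : G, (ρ.character g).im = 0 := fun g => Complex.conj_eq_iff_im.mp (hr g)
  obtain ⟨M, hM0, hM⟩ := rr_form_exists ρ hI hreal
  have hMs : Mᵀ = M := by
    rw [rr_form_symm ρ hI hreal hM, hν, one_smul]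
  obtain ⟨Y, hY, hY1, hYt⟩ := exists_real_matrices (repMat_mul ρ) (repMat_one ρ)
    (fun T hT => schur_matrix ρ hρ T hT) hM0 hMs hM
  refine ⟨n, { toFun := fun g => Matrix.toLin' (Y g), map_one' := ?_, map_mul' := ?_ }, fun g => ?_⟩
  · rw [hY1]; exact Matrix.toLin'_one
  · intro g h
    rw [hY]
    exact Matrix.toLin'_mul _ _
  · show ((LinearMap.trace ℝ (Fin n → ℝ) (Matrix.toLin' (Y g)) : ℝ) : ℂ) = ρ.character g
    rw [Matrix.trace_toLin'_eq, hYt, repMat_trace]

/-- A real representation gives indicator one. -/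
theorem fs_one_of_real_rep (χ : IrrCharacter G) (n : ℕ) (ρ : Representation ℝ G (Fin n → ℝ))
    (h : ∀ g : G, ((LinearMap.trace ℝ (Fin n → ℝ) (ρ g) : ℝ) : ℂ) = χ.1 g) :
    fsInd χ.1 = 1 := by
  classical
  let Y : G → Matrix (Fin n) (Fin n) ℝ := fun g => LinearMap.toMatrix' (ρ g)
  have hYm : ∀ g k, Y (g * k) = Y g * Y k := by
    intro g k
    show LinearMap.toMatrix' (ρ (g * k)) = LinearMap.toMatrix' (ρ g) * LinearMap.toMatrix' (ρ k)
    rw [map_mul, ← LinearMap.toMatrix'_comp]
    rfl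
  have hY1 : Y 1 = 1 := by
    show LinearMap.toMatrix' (ρ 1) = 1
    rw [map_one]
    exact LinearMap.toMatrix'_id
  have hYt : ∀ g, (((Y g).trace : ℝ) : ℂ) = χ.1 g := by
    intro g
    rw [← h g]
    congr 1
    show (LinearMap.toMatrix' (ρ g)).trace = _
    rw [LinearMap.trace_eq_matrix_trace ℝ (Pi.basisFun ℝ (Fin n)), LinearMap.toMatrix_eq_toMatrix']
  let X : G → Matrix (Fin n) (Fin n) ℂ := fun g => (Y g).map Complex.ofRealHom
  have hXm : ∀ g k, X (g * k) = X g * X k := by
    intro g k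
    show (Y (g * k)).map Complex.ofRealHom = _
    rw [hYm, Matrix.map_mul]
  have hX1 : X 1 = 1 := by
    show (Y 1).map Complex.ofRealHom = 1
    rw [hY1, Matrix.map_one _ (map_zero _) (map_one _)]
  let σ : Representation ℂ G (Fin n → ℂ) :=
    { toFun := fun g => Matrix.toLin' (X g)
      map_one' := by rw [hX1]; exact Matrix.toLin'_one
      map_mul' := by
        intro g k
        rw [hXm]
        exact Matrix.toLin'_mul _ _ }
  have hσX : ∀ g, repMat σ g = X g := by
    intro g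
    show LinearMap.toMatrix' (Matrix.toLin' (X g)) = X g
    rw [LinearMap.toMatrix'_toLin']
  have hσχ : σ.character = χ.1 := by
    funext g
    rw [← repMat_trace, hσX, ← hYt]
    simp [Matrix.trace, X]
  have hI : IsIrrCharacter G σ.character := by rw [hσχ]; exact χ.2
  have hreal : ∀ g : G, (σ.character g).im = 0 := by
    intro g
    rw [hσχ, ← hYt]
    simp
  have hn : n ≠ 0 := by
    rintro rfl
    have h1 := hYt 1
    have h2 := H06.irr_one_ne_zero' χ.2
    rw [← h1] at h2
    simp [Matrix.trace] at h2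
  let i : Fin n := ⟨0, Nat.pos_of_ne_zero hn⟩
  let S : Matrix (Fin n) (Fin n) ℂ := ∑ g, (X g)ᵀ * X g
  have hSs : Sᵀ = S := by
    show (∑ g, (X g)ᵀ * X g)ᵀ = ∑ g, (X g)ᵀ * X g
    rw [Matrix.transpose_sum]
    refine Finset.sum_congr rfl fun g _ => ?_
    rw [Matrix.transpose_mul, Matrix.transpose_transpose]
  have hSi : ∀ g, (repMat σ g)ᵀ * S * repMat σ g = S := by
    intro k
    rw [hσX]
    show (X k)ᵀ * (∑ g, (X g)ᵀ * X g) * X k = ∑ g, (X g)ᵀ * X g
    rw [Finset.mul_sum, Finset.sum_mul]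
    refine Fintype.sum_equiv (Equiv.mulRight k) _ _ fun g => ?_
    simp only [Equiv.coe_mulRight, hXm, Matrix.transpose_mul, Matrix.mul_assoc]
  have hS0 : S ≠ 0 := by
    intro h0
    have h1 : S i i = 0 := by rw [h0]; rfl
    have h2 : S i i = ((∑ g, ∑ k, (Y g k i) ^ 2 : ℝ) : ℂ) := by
      show (∑ g, (X g)ᵀ * X g) i i = _
      rw [Matrix.sum_apply]
      push_cast
      refine Finset.sum_congr rfl fun g _ => ?_
      rw [Matrix.mul_apply]
      refine Finset.sum_congr rfl fun k _ => ?_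
      simp [X, sq]
    rw [h2] at h1
    have h3 : (∑ g, ∑ k, (Y g k i) ^ 2 : ℝ) = 0 := by exact_mod_cast h1
    have h4 : (1:ℝ) ≤ ∑ g, ∑ k, (Y g k i) ^ 2 := by
      have h5 : (1:ℝ) = (Y 1 i i) ^ 2 := by rw [hY1]; simp
      rw [h5]
      refine le_trans ?_ (Finset.single_le_sum (f := fun g => ∑ k, (Y g k i) ^ 2)
        (fun g _ => Finset.sum_nonneg fun k _ => by positivity) (Finset.mem_univ (1:G)))
      exact Finset.single_le_sum (f := fun k => (Y 1 k i) ^ 2) (fun k _ => by positivity)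
        (Finset.mem_univ i)
    linarith
  have hsym := rr_form_symm σ hI hreal hSi
  rw [hSs] at hsym
  rw [← hσχ]
  rcases rr_ind σ hI hreal with h1 | h1
  · exact h1
  · exfalso
    rw [h1] at hsym
    apply hS0
    have h2 : (2:ℂ) • S = 0 := by
      rw [two_smul]
      nth_rewrite 1 [hsym]
      simp
    rcases smul_eq_zero.mp h2 with h3 | h3
    · norm_num at h3
    · exact h3

end

end Cfsg.Agent.H23
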