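import Cfsg.Agent.Lib.H23.Quadratic2

/-!
# Non-degenerate classes of abstract root subgroups: lines and specialness
-/

set_option autoImplicit false

namespace Cfsg.Agent.H23

open Cfsg

variable {G : Type*} [Group G] {S : Set (Subgroup G)} {A B : Subgroup G}

lemma Cm.conj {P Q : Subgroup G} (h : Cm P Q) (g : G) : Cm (conjBy P g) (conjBy Q g) := by
  intro x hx y hy
  rw [mem_conjBy] at hx hy
  have h1 := h _ hx _ hy
  have h2 := congrArg (fun w => g * w * g⁻¹) h1
  calc x * y = g * (g⁻¹ * x * g * (g⁻¹ * y * g)) * g⁻¹ := by group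
    _ = g * (g⁻¹ * y * g * (g⁻¹ * x * g)) * g⁻¹ := h2
    _ = y * x := by group

/-- The two members of a rank one pair do not commute. -/
lemma rop_not_cm (h : IsRankOnePair A B) : ¬ Cm A B := by
  intro hc
  obtain ⟨a, ha, ha1⟩ := exists_ne_one_of_ne_bot (rop_left_ne_bot h)
  obtain ⟨b, hb, _, he⟩ := h.cond_left a ha ha1
  apply h.ne
  have h1 : conjBy A b⁻¹ = A := conjBy_eq_of_commute (fun f hf => (hc f hf _ (B.inv_mem hb)).symm)
  have h2 : conjBy B a⁻¹ = B := conjBy_eq_of_commute (fun f hf => hc _ (A.inv_mem ha) f hf)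
  rw [← h1, he, h2]

/-- If `E` does not commute with `F`... -/
lemma not_rank_one_of_cm_conj {E F : Subgroup G} (h : IsRankOnePair E F) {e : G} (he : e ∈ E)
    (he1 : e ≠ 1) : ¬ Cm F (conjBy F e) := by
  have hmove : conjBy F e ≠ F := rop_conj_ne_right h he he1
  have hFm : conjBy F e ∈ unipotentSubgroups E F :=
    conj_mem_unipotentSubgroups (rop_right_mem h) (Subgroup.mem_sup_left he)
  have := (rop_of_mem h (rop_right_mem h) hFm hmove.symm).1
  exact rop_not_cm this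

/-- A conjugate of a member of a line is a root element. -/
lemma line_root_element {F : Subgroup G} (hp : IsSubgroupPartition (A ⊔ F) (membersIn S (A ⊔ F)))
    {x : G} (hx : x ∈ A ⊔ F) (hx1 : x ≠ 1) : x ∈ rootElements S := by
  obtain ⟨D, hD, hxD⟩ := hp.2.1 x hx hx1
  exact ⟨hx1, D, hD.1, hxD⟩

/-- An element of a line through `A`, outside `A`, does not commute with a partner of `A`. -/
lemma line_not_central (hS : IsRootSubgroupSet S) (hA : A ∈ S) (hB : B ∈ S)
    (hr : IsRankOnePair A B) {F : Subgroup G}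
    (hp : IsSubgroupPartition (A ⊔ F) (membersIn S (A ⊔ F))) (hAF : Cm A F)
    {z : G} (hz : z ∈ A ⊔ F) (hzA : z ∉ A) (hzB : ∀ b ∈ B, z * b = b * z) : False := by
  have hAA : Cm A A := cm_self_of_root hS hA
  have hA' : Cm A (A ⊔ F) := Cm.sup_right hAA hAF
  have hz1 : z ≠ 1 := fun h => hzA (h ▸ A.one_mem)
  obtain ⟨a, ha, ha1⟩ := exists_ne_one_of_ne_bot (rop_left_ne_bot hr)
  have hzc : z ∈ Subgroup.centralizer ((A ⊔ B : Subgroup G) : Set G) := by
    have hle : A ⊔ B ≤ Subgroup.centralizer ({z} : Set G) := by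
      refine sup_le ?_ ?_
      · intro a' ha'
        rw [Subgroup.mem_centralizer_iff]
        intro g hg
        rw [Set.mem_singleton_iff] at hg
        rw [hg]
        exact (hA' a' ha' z hz).symm
      · intro b hb
        rw [Subgroup.mem_centralizer_iff]
        intro g hg
        rw [Set.mem_singleton_iff] at hg
        rw [hg]
        exact hzB b hb
    rw [Subgroup.mem_centralizer_iff]
    intro y hy
    exact ((Subgroup.mem_centralizer_iff.1 (hle hy)) z rfl).symm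
  apply root_z_mul_not_mem hS hA ⟨hB, hr⟩ hzc hz1 a ha ha1
  apply line_root_element hp
  · exact Subgroup.mul_mem _ hz (Subgroup.mem_sup_left ha)
  · intro h
    apply hzA
    have : z = a⁻¹ := eq_inv_of_mul_eq_one_left h
    rw [this]
    exact A.inv_mem ha

/-- In the commutator case, every member of the line other than `A` generates the line with `A`. -/
lemma rcc_sup_eq (hS : IsRootSubgroupSet S) (h : RootCommutatorCase S A B) (hA : A ∈ S)
    {E : Subgroup G} (hE : E ∈ S) (hr : IsRankOnePair A E) {D : Subgroup G}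
    (hD : D ∈ membersIn S (A ⊔ ⁅A, B⁆)) (hDA : D ≠ A) : A ⊔ D = A ⊔ ⁅A, B⁆ := by
  have hm := rcc_members hS h hA hE hr
  rw [hm] at hD
  rcases hD with ⟨b', hb', rfl⟩ | hD
  · apply le_antisymm
    · exact sup_le le_sup_left (conj_le_sup_comm hb')
    · refine sup_le le_sup_left ?_
      have hb'1 : b' ≠ 1 := by
        rintro rfl
        apply hDA
        exact conjBy_eq_of_mem A.one_mem
      intro f hf
      obtain ⟨a₀, ha₀, rfl⟩ := rcc_surj_left h (B.inv_mem hb') (inv_ne_one.2 hb'1) hf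
      have e : cmap a₀ b'⁻¹ = a₀⁻¹ * (b' * a₀ * b'⁻¹) := by
        unfold cmap; simp only [inv_inv]; group
      rw [e]
      exact Subgroup.mul_mem _ (Subgroup.mem_sup_left (A.inv_mem ha₀))
        (Subgroup.mem_sup_right (conj_mem_conjBy ha₀ b'))
  · rw [Set.mem_singleton_iff] at hD
    rw [hD]

/-- **S5034**, first part: the line. -/
theorem exists_line_partner (hS : IsRootSubgroupSet S) (hA : A ∈ S) {B' E : Subgroup G} (hB' : B' ∈ S)
    (hc : RootCommutatorCase S A B') (hE : E ∈ S) (hrE : IsRankOnePair A E) (hB : B ∈ S)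
    (hr : IsRankOnePair A B) :
    ∃ C ∈ linePartners S A, C ∈ commutatorPartners S B := by
  set F := ⁅A, B'⁆ with hF
  have hFS : F ∈ S := hc.1
  have hp := rcc_partition hS hc hA hE hrE
  have hAF : Cm A F := fun a ha c hc' => rcc_left_comm hc ha hc'
  have hne : F ≠ A := (rcc_left_ne hS hc).symm
  have hlineF : F ∈ linePartners S A := ⟨⟨hFS, hne, hAF.eq_bot⟩, hp⟩
  have hmem_line : ∀ D ∈ membersIn S (A ⊔ F), D ≠ A → D ∈ linePartners S A := by
    intro D hD hDA
    have hsup := rcc_sup_eq hS hc hA hE hrE hD hDA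
    refine ⟨⟨hD.1, hDA, ?_⟩, ?_⟩
    · have hC : Cm A (A ⊔ F) := Cm.sup_right (cm_self_of_root hS hA) hAF
      exact (hC.mono le_rfl hD.2).eq_bot
    · rw [hsup]; exact hp
  -- a member `D ≠ A` in the line, not commuting with `B`, not forming a rank one pair
  have hfinish : ∀ D ∈ membersIn S (A ⊔ F), D ≠ A → ¬ IsRankOnePair D B →
      ∃ C ∈ linePartners S A, C ∈ commutatorPartners S B := by
    intro D hD hDA hDr
    refine ⟨D, hmem_line D hD hDA, hD.1, ?_⟩
    rw [Subgroup.commutator_comm]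
    rcases hS.pair D hD.1 B hB with h0 | h0 | h0
    · exfalso
      obtain ⟨z, hz, hz1⟩ := exists_ne_one_of_ne_bot (hS.ne_bot D hD.1)
      have hzA : z ∉ A := by
        intro hzA
        have hinf : A ⊓ D = ⊥ := by
          rcases root_inf_or_eq hS hA hE hrE hD.1 with h1 | h1
          · exact h1
          · exact absurd h1.symm hDA
        have : z ∈ A ⊓ D := ⟨hzA, hz⟩
        rw [hinf] at this
        exact hz1 (by simpa using this)
      exact line_not_central hS hA hB hr hp hAF (hD.2 hz) hzA (fun b hb => Cm.of_bot h0 z hz b hb)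
    · exact absurd h0 hDr
    · exact h0.1
  by_cases hFr : IsRankOnePair F B
  · -- the projection
    obtain ⟨b₁, hb₁, hb₁1⟩ := exists_ne_one_of_ne_bot (rop_right_ne_bot hr)
    obtain ⟨a, ha, ha1, he1⟩ := hr.cond_right b₁ hb₁ hb₁1
    obtain ⟨c, hcF, hc1, he2⟩ := hFr.cond_right b₁ hb₁ hb₁1
    set d := a * c⁻¹ with hd
    have hdm : d ∈ A ⊔ F := Subgroup.mul_mem _ (Subgroup.mem_sup_left ha)
      (Subgroup.mem_sup_right (F.inv_mem hcF))
    have hinfAF : A ⊓ F = ⊥ := by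
      rcases root_inf_or_eq hS hA hE hrE hFS with h1 | h1
      · exact h1
      · exact absurd h1.symm hne
    have hdA : d ∉ A := by
      intro hdA
      have hc' : c ∈ A := by
        have : c = (a⁻¹ * d)⁻¹ := by rw [hd]; group
        rw [this]
        exact A.inv_mem (A.mul_mem (A.inv_mem ha) hdA)
      have : c ∈ A ⊓ F := ⟨hc', hcF⟩
      rw [hinfAF] at this
      exact hc1 (by simpa using this)
    have hd1 : d ≠ 1 := fun h => hdA (h ▸ A.one_mem)
    obtain ⟨D, hD, hdD⟩ := hp.2.1 d hdm hd1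
    have hDA : D ≠ A := by
      rintro rfl
      exact hdA hdD
    apply hfinish D hD hDA
    intro hDr
    -- `B^d` commutes with `B`
    have hcomm : Cm (conjBy A b₁⁻¹) (conjBy F b₁⁻¹) := hAF.conj b₁⁻¹
    have hdinv : d⁻¹ = c * a⁻¹ := by rw [hd]; group
    have hX : conjBy B d⁻¹ = conjBy (conjBy A b₁⁻¹) c := by
      rw [hdinv, conjBy_mul, he1]
    have hBc : B = conjBy (conjBy F b₁⁻¹) c := by
      rw [← he2, conjBy_conjBy]
      simp
    have hCm : Cm B (conjBy B d⁻¹) := by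
      rw [hX]
      conv_lhs => rw [hBc]
      exact (hcomm.conj c).symm
    exact not_rank_one_of_cm_conj (E := D) (F := B) hDr (D.inv_mem hdD) (inv_ne_one.2 hd1) hCm
  · exact hfinish F ⟨hFS, le_sup_right⟩ hne hFr

/-! ### Passing to the subgroup `⟨A, B⟩` -/

lemma conjBy_subgroupOf {X : Subgroup G} {U : Subgroup G} (g : ↥X) :
    conjBy (U.subgroupOf X) g = (conjBy U (g : G)).subgroupOf X := by
  ext x
  rw [mem_conjBy, Subgroup.mem_subgroupOf, Subgroup.mem_subgroupOf, mem_conjBy]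
  rfl

/-- A rank one pair is a rank one group inside its join. -/
lemma rog_of_rop (h : IsRankOnePair A B) :
    IsRankOneGroup ↥(A ⊔ B) (A.subgroupOf (A ⊔ B)) (B.subgroupOf (A ⊔ B)) := by
  have hAX : A ≤ A ⊔ B := le_sup_left
  have hBX : B ≤ A ⊔ B := le_sup_right
  refine ⟨?_, ?_, ?_, ?_, ?_, ?_⟩
  · apply Subgroup.map_injective (A ⊔ B).subtype_injective
    rw [Subgroup.map_sup, Subgroup.map_subgroupOf_eq_of_le hAX, Subgroup.map_subgroupOf_eq_of_le hBX,
      ← MonoidHom.range_eq_map, Subgroup.range_subtype]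
  · intro he
    apply h.ne
    have := congrArg (Subgroup.map (A ⊔ B).subtype) he
    rwa [Subgroup.map_subgroupOf_eq_of_le hAX, Subgroup.map_subgroupOf_eq_of_le hBX] at this
  · have := h.nilpotent_left
    exact nilpotent_of_mulEquiv (Subgroup.subgroupOfEquivOfLe hAX).symm
  · have := h.nilpotent_right
    exact nilpotent_of_mulEquiv (Subgroup.subgroupOfEquivOfLe hBX).symm
  · rintro ⟨a, haX⟩ ha ha1
    have ha' : a ∈ A := Subgroup.mem_subgroupOf.1 ha
    have ha1' : a ≠ 1 := fun h0 => ha1 (Subtype.ext h0)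
    obtain ⟨b, hb, hb1, he⟩ := h.cond_left a ha' ha1'
    refine ⟨⟨b, hBX hb⟩, Subgroup.mem_subgroupOf.2 hb, fun h0 => hb1 (congrArg Subtype.val h0), ?_⟩
    rw [conjBy_subgroupOf, conjBy_subgroupOf]
    show (conjBy A b⁻¹).subgroupOf _ = (conjBy B a⁻¹).subgroupOf _
    rw [he]
  · rintro ⟨b, hbX⟩ hb hb1
    have hb' : b ∈ B := Subgroup.mem_subgroupOf.1 hb
    have hb1' : b ≠ 1 := fun h0 => hb1 (Subtype.ext h0)
    obtain ⟨a, ha, ha1, he⟩ := h.cond_right b hb' hb1'
    refine ⟨⟨a, hAX ha⟩, Subgroup.mem_subgroupOf.2 ha, fun h0 => ha1 (congrArg Subtype.val h0), ?_⟩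
    rw [conjBy_subgroupOf, conjBy_subgroupOf]
    show (conjBy B a⁻¹).subgroupOf _ = (conjBy A b⁻¹).subgroupOf _
    rw [he]

/-- Transfer of specialness. -/
lemma special_of_subgroupOf (h : IsRankOnePair A B)
    (hs : IsSpecialRankOnePair (A.subgroupOf (A ⊔ B)) (B.subgroupOf (A ⊔ B))) :
    IsSpecialRankOnePair A B := by
  refine ⟨h, ?_⟩
  intro a ha ha1 b hb hb1 he
  have hAX : A ≤ A ⊔ B := le_sup_left
  have hBX : B ≤ A ⊔ B := le_sup_right
  have := hs.2 ⟨a, hAX ha⟩ (Subgroup.mem_subgroupOf.2 ha) (fun h0 => ha1 (congrArg Subtype.val h0))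
    ⟨b, hBX hb⟩ (Subgroup.mem_subgroupOf.2 hb) (fun h0 => hb1 (congrArg Subtype.val h0)) (by
      rw [conjBy_subgroupOf, conjBy_subgroupOf]
      show (conjBy A b⁻¹).subgroupOf _ = (conjBy B a⁻¹).subgroupOf _
      rw [he])
  exact congrArg Subtype.val this

/-- A rank one pair normalizing an abelian subgroup on which `A` acts quadratically, while
`⟨A, B⟩` does not, is special. -/
theorem special_of_normalized {N : Subgroup G} (hr : IsRankOnePair A B) (hN : Cm N N)
    (hnorm : ∀ x ∈ A ⊔ B, ∀ n ∈ N, x * n * x⁻¹ ∈ N)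
    (hq : ∀ a ∈ A, ∀ a' ∈ A, ∀ n ∈ N,
      a' * (a * n * a⁻¹ * n⁻¹) * a'⁻¹ = a * n * a⁻¹ * n⁻¹)
    (hX : ∃ x ∈ A ⊔ B, ∃ y ∈ A ⊔ B, ∃ n ∈ N,
      y * (x * n * x⁻¹ * n⁻¹) * y⁻¹ ≠ x * n * x⁻¹ * n⁻¹) :
    IsSpecialRankOnePair A B := by
  apply special_of_subgroupOf hr
  letI : CommGroup ↥N := { (inferInstance : Group ↥N) with
    mul_comm := fun x y => Subtype.ext (hN x x.2 y y.2) }
  let c : ↥(A ⊔ B) → (↥N →* ↥N) := fun x =>
    { toFun := fun n => ⟨(x : G) * n * (x : G)⁻¹, hnorm x x.2 n n.2⟩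
      map_one' := by apply Subtype.ext; simp
      map_mul' := by
        intro m n
        apply Subtype.ext
        show (x : G) * (m * n) * (x : G)⁻¹ = (x : G) * m * (x : G)⁻¹ * ((x : G) * n * (x : G)⁻¹)
        group }
  let ρ : ↥(A ⊔ B) →* AddMonoid.End (Additive ↥N) :=
    { toFun := fun x => (c x).toAdditive
      map_one' := by
        refine AddMonoidHom.ext fun n => ?_
        apply Additive.toMul.injective
        apply Subtype.ext
        show ((1 : ↥(A ⊔ B)) : G) * ((Additive.toMul n : ↥N) : G) * ((1 : ↥(A ⊔ B)) : G)⁻¹ = _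
        simp
        rfl
      map_mul' := by
        intro x y
        refine AddMonoidHom.ext fun n => ?_
        apply Additive.toMul.injective
        apply Subtype.ext
        show ((x * y : ↥(A ⊔ B)) : G) * ((Additive.toMul n : ↥N) : G) * ((x * y : ↥(A ⊔ B)) : G)⁻¹ =
          (x : G) * ((y : G) * ((Additive.toMul n : ↥N) : G) * (y : G)⁻¹) * (x : G)⁻¹
        simp only [Subgroup.coe_mul]
        group }
  have hρ : ∀ (x : ↥(A ⊔ B)) (n : ↥N), ρ x (Additive.ofMul n) =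
      Additive.ofMul (⟨(x : G) * n * (x : G)⁻¹, hnorm x x.2 n n.2⟩ : ↥N) := fun _ _ => rfl
  have hτ1 : ∀ (x : ↥(A ⊔ B)) (n : ↥N), tau ρ x (Additive.ofMul n) =
      Additive.ofMul (⟨(x : G) * n * (x : G)⁻¹ * (n : G)⁻¹,
        N.mul_mem (hnorm x x.2 n n.2) (N.inv_mem n.2)⟩ : ↥N) := by
    intro x n
    show ρ x (Additive.ofMul n) - Additive.ofMul n = _
    rw [hρ, ← ofMul_div]
    congr 1
    apply Subtype.ext
    rw [Subgroup.coe_div, div_eq_mul_inv]
  have hτ : ∀ (x y : ↥(A ⊔ B)) (n : ↥N), ((tau ρ y * tau ρ x) (Additive.ofMul n) = 0) ↔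
      (y : G) * ((x : G) * n * (x : G)⁻¹ * (n : G)⁻¹) * (y : G)⁻¹ =
        (x : G) * n * (x : G)⁻¹ * (n : G)⁻¹ := by
    intro x y n
    show tau ρ y (tau ρ x (Additive.ofMul n)) = 0 ↔ _
    rw [hτ1, hτ1, ← ofMul_one, Additive.ofMul.apply_eq_iff_eq,
      Subtype.ext_iff]
    show _ * _ * _ * _ = (1 : G) ↔ _
    rw [Subgroup.coe_mk]
    constructor
    · intro h0
      exact mul_inv_eq_one.1 h0
    · intro h0
      exact mul_inv_eq_one.2 h0
  refine special_of_quad (ρ := ρ) (rog_of_rop hr) ?_ ?_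
  · intro a' ha' a ha
    refine AddMonoidHom.ext fun m => ?_
    have := (hτ a a' (Additive.toMul m)).2 (hq a (Subgroup.mem_subgroupOf.1 ha) a'
      (Subgroup.mem_subgroupOf.1 ha') _ (Additive.toMul m).2)
    exact this
  · obtain ⟨x, hx, y, hy, n, hn, hne⟩ := hX
    refine ⟨⟨x, hx⟩, ⟨y, hy⟩, fun h0 => hne ?_⟩
    apply (hτ ⟨x, hx⟩ ⟨y, hy⟩ ⟨n, hn⟩).1
    rw [h0]
    rfl


/-- The key formula: `[a, [c, b]] = c⁻¹` for a line partner `C` of `A` with `⁅C, B⁆ ∈ S`. -/
lemma line_key {C : Subgroup G} (hS : IsRootSubgroupSet S) (hA : A ∈ S) (hB : B ∈ S)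
    (hr : IsRankOnePair A B) (hC : C ∈ linePartners S A) (hCc : RootCommutatorCase S C B)
    {a b : G} (ha : a ∈ A) (ha1 : a ≠ 1) (hb : b ∈ B) (hb1 : b ≠ 1)
    (he : conjBy A b⁻¹ = conjBy B a⁻¹) {c : G} (hc : c ∈ C) :
    a * cmap c b * a⁻¹ * (cmap c b)⁻¹ = c⁻¹ := by
  have hCS : C ∈ S := hC.1.1
  have hAC : Cm A C := Cm.of_bot hC.1.2.2
  have hES : ⁅C, B⁆ ∈ S := hCc.1
  set E := ⁅C, B⁆ with hE
  set t := a * b⁻¹ with ht
  have hBt : conjBy A t = B := by
    rw [ht, conjBy_mul, he, conjBy_conjBy_inv]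
  have hCt : conjBy C a = C := conjBy_eq_of_commute (fun f hf => hAC a ha f hf)
  set P := conjBy C t with hP
  have hBP : Cm B P := by
    have := hAC.conj t
    rwa [hBt] at this
  have hCP : Cm C P := by
    have h1 : Cm C (conjBy C b⁻¹) := cm_conj_self hS hCS hCc hb
    have h2 := h1.conj a
    rw [hCt, conjBy_conjBy] at h2
    exact h2
  have hEP : Cm E P := Cm.commutator_left hCP hBP
  have hid : ∀ c' ∈ C, a * cmap c' b * a⁻¹ = c'⁻¹ * (t * c' * t⁻¹) := by
    intro c' hc'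
    have h1 : Commute a c'⁻¹ := Commute.inv_right (hAC a ha c' hc')
    calc a * cmap c' b * a⁻¹ = (a * c'⁻¹) * a⁻¹ * (a * b⁻¹ * c' * b * a⁻¹) := by
          unfold cmap; group
      _ = (c'⁻¹ * a) * a⁻¹ * (a * b⁻¹ * c' * b * a⁻¹) := by rw [h1.eq]
      _ = _ := by rw [ht]; group
  have hEconj : Cm E (conjBy E a) := by
    intro e he y hy
    rw [mem_conjBy] at hy
    obtain ⟨c', hc', hc'e⟩ := rcc_surj_left hCc hb hb1 hy
    have hy' : y = a * cmap c' b * a⁻¹ := by rw [hc'e]; group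
    rw [hy', hid c' hc']
    have h1 : Commute e c'⁻¹ := Commute.inv_right (rcc_cm_left hCc e he c' hc')
    have h2 : Commute e (t * c' * t⁻¹) := hEP e he _ (conj_mem_conjBy hc' t)
    exact h1.mul_right h2
  have hnr : ¬ IsRankOnePair A E := fun h => not_rank_one_of_cm_conj h ha ha1 hEconj
  have hne : ⁅A, E⁆ ≠ ⊥ := by
    intro hbot
    have hAE : Cm A E := Cm.of_bot hbot
    apply hS.ne_bot E hES
    apply Cm.eq_bot
    intro c' hc' b' hb'
    have h1 : t * c' * t⁻¹ = b⁻¹ * c' * b := by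
      have h2 := hid c' hc'
      have h3 : a * cmap c' b * a⁻¹ = cmap c' b := by
        rw [hAE a ha _ (cmap_mem hc' hb)]; group
      rw [h3] at h2
      have h4 : t * c' * t⁻¹ = c' * cmap c' b := by rw [h2]; group
      rw [h4, conj_eq_mul_cmap]
    have hbb : Commute b b' := cm_self_of_root hS hB b hb b' hb'
    have h5 : Commute (b⁻¹ * c' * b) b' := by
      rw [← h1]
      exact (hBP b' hb' _ (conj_mem_conjBy hc' t)).symm
    have e1 : b * b' * b⁻¹ = b' := by
      rw [hbb.eq]; group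
    have h6 := congrArg (fun w => b * w * b⁻¹) h5.eq
    calc c' * b' = c' * (b * b' * b⁻¹) := by rw [e1]
      _ = b * (b⁻¹ * c' * b * b') * b⁻¹ := by group
      _ = b * (b' * (b⁻¹ * c' * b)) * b⁻¹ := h6
      _ = (b * b' * b⁻¹) * c' := by group
      _ = b' * c' := by rw [e1]
  have h0 : RootCommutatorCase S A E := by
    rcases hS.pair A hA E hES with h | h | h
    · exact absurd h hne
    · exact absurd h hnr
    · exact h
  set e := cmap c b with he'
  have hem : e ∈ E := cmap_mem hc hb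
  set q := a * e * a⁻¹ * e⁻¹ with hqd
  have hq : q ∈ ⁅A, E⁆ := comm_mem_commutator ha hem
  suffices hy : c * q = 1 from eq_inv_of_mul_eq_one_right hy
  by_contra hy1
  set y := c * q with hyd
  have hyA : ∀ x ∈ A, Commute y x := fun x hx =>
    Commute.mul_left (hAC x hx c hc : Commute x c).symm (rcc_cm_left h0 q hq x hx)
  have hyeq : t * c * t⁻¹ = y * e := by
    have h2 := hid c hc
    rw [← he'] at h2
    calc t * c * t⁻¹ = c * (c⁻¹ * (t * c * t⁻¹)) := by group
      _ = c * (a * e * a⁻¹) := by rw [← h2]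
      _ = y * e := by rw [hyd, hqd]; group
  have hyB : ∀ x ∈ B, Commute y x := by
    intro x hx
    have h1 : Commute (t * c * t⁻¹) x := (hBP x hx _ (conj_mem_conjBy hc t)).symm
    have h2 : Commute e x := rcc_cm_right hCc e hem x hx
    have h3 : y = (t * c * t⁻¹) * e⁻¹ := by rw [hyeq]; group
    rw [h3]
    exact h1.mul_left h2.inv_left
  have hzc : y ∈ Subgroup.centralizer ((A ⊔ B : Subgroup G) : Set G) := by
    have hle : A ⊔ B ≤ Subgroup.centralizer ({y} : Set G) := by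
      refine sup_le ?_ ?_
      · intro x hx
        rw [Subgroup.mem_centralizer_iff]
        rintro _ rfl
        exact hyA x hx
      · intro x hx
        rw [Subgroup.mem_centralizer_iff]
        rintro _ rfl
        exact hyB x hx
    rw [Subgroup.mem_centralizer_iff]
    intro x hx
    exact ((Subgroup.mem_centralizer_iff.1 (hle hx)) y rfl).symm
  apply root_z_mul_not_mem hS hA ⟨hB, hr⟩ hzc hy1 a ha ha1
  obtain ⟨s, hs, hss⟩ := rcc_mul_eq_conj h0 ha ha1 hq
  have hsc : Commute s c := rcc_cm_left hCc s hs c hc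
  have e2 : y * a = s * (c * a) * s⁻¹ := by
    calc y * a = c * (q * a) := by rw [hyd]; group
      _ = c * (a * q) := by rw [rcc_cm_left h0 q hq a ha]
      _ = (c * s) * a * s⁻¹ := by rw [hss]; group
      _ = (s * c) * a * s⁻¹ := by rw [hsc.eq]
      _ = _ := by group
  rw [e2]
  have hca1 : c * a ≠ 1 := by
    intro h1
    have hca : c = a⁻¹ := eq_inv_of_mul_eq_one_left h1
    have hinf : A ⊓ C = ⊥ := by
      rcases root_inf_or_eq hS hA hB hr hCS with h3 | h3
      · exact h3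
      · exact absurd h3.symm hC.1.2.1
    have hcA : c ∈ A := by rw [hca]; exact A.inv_mem ha
    have : c ∈ A ⊓ C := ⟨hcA, hc⟩
    rw [hinf] at this
    have hc1 : c = 1 := by simpa using this
    apply ha1
    rw [hc1] at h1
    simpa using h1
  obtain ⟨hne', D, hD, hmem⟩ := line_root_element hC.2
    (Subgroup.mul_mem _ (Subgroup.mem_sup_right hc) (Subgroup.mem_sup_left ha)) hca1
  exact root_mem_ne_one_conj hmem hne' s (hS.conj_mem D hD s)

/-- A rank one pair `A, B` with a line partner `C` of `A` in the commutator case with `B` is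
special. -/
theorem special_of_line_partner {C : Subgroup G} (hS : IsRootSubgroupSet S) (hA : A ∈ S)
    (hB : B ∈ S) (hr : IsRankOnePair A B) (hC : C ∈ linePartners S A)
    (hCc : RootCommutatorCase S C B) : IsSpecialRankOnePair A B := by
  have hCS : C ∈ S := hC.1.1
  have hES : ⁅C, B⁆ ∈ S := hCc.1
  set E := ⁅C, B⁆ with hE
  have hAC : Cm A C := Cm.of_bot hC.1.2.2
  have hCE : Cm C E := (rcc_cm_left hCc).symm
  have hBE : Cm B E := (rcc_cm_right hCc).symm
  have hCC : Cm C C := cm_self_of_root hS hCS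
  have hEE : Cm E E := cm_self_of_root hS hES
  have hkey : CommIn A E C := by
    intro a ha e he
    by_cases ha1 : a = 1
    · subst ha1
      have : (1 : G) * e * (1 : G)⁻¹ * e⁻¹ = 1 := by group
      rw [this]; exact C.one_mem
    obtain ⟨b, hb, hb1, hrel⟩ := hr.cond_left a ha ha1
    obtain ⟨c, hc, rfl⟩ := rcc_surj_left hCc hb hb1 he
    rw [line_key hS hA hB hr hC hCc ha ha1 hb hb1 hrel hc]
    exact C.inv_mem hc
  have hN : Cm (C ⊔ E) (C ⊔ E) := Cm.sup_left (Cm.sup_right hCC hCE) (Cm.sup_right hCE.symm hEE)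
  have hCN : Cm (C ⊔ E) C := Cm.sup_left hCC hCE.symm
  have hMC : ∀ x ∈ C ⊔ E, ∀ m ∈ C, x * m * x⁻¹ ∈ C := by
    intro x hx m hm
    rw [hCN x hx m hm]
    simpa using hm
  have hAN : CommIn A (C ⊔ E) C := CommIn.sup_right hMC (CommIn.of_cm hAC) hkey
  have hMN : ∀ x ∈ C ⊔ E, ∀ m ∈ C ⊔ E, x * m * x⁻¹ ∈ C ⊔ E := fun x hx m hm =>
    (C ⊔ E).mul_mem ((C ⊔ E).mul_mem hx hm) ((C ⊔ E).inv_mem hx)
  have hBC : CommIn B C E := fun x hx y hy => comm_mem_commutator' hy hx
  have hBN : CommIn B (C ⊔ E) (C ⊔ E) :=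
    CommIn.sup_right hMN (CommIn.mono hBC le_rfl le_rfl le_sup_right) (CommIn.of_cm hBE)
  have hnA : ∀ x ∈ A, ∀ n ∈ C ⊔ E, x * n * x⁻¹ ∈ C ⊔ E :=
    conj_mem_of_commIn (M := C) hAN.symm le_sup_left
  have hnB : ∀ x ∈ B, ∀ n ∈ C ⊔ E, x * n * x⁻¹ ∈ C ⊔ E :=
    conj_mem_of_commIn (M := C ⊔ E) hBN.symm le_rfl
  have hnorm : ∀ x ∈ A ⊔ B, ∀ n ∈ C ⊔ E, x * n * x⁻¹ ∈ C ⊔ E := by
    intro x hx n hn
    have hle : A ⊔ B ≤ Subgroup.normalizer ((C ⊔ E : Subgroup G) : Set G) :=
      sup_le (le_normalizer_of_conj hnA) (le_normalizer_of_conj hnB)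
    exact (Subgroup.mem_normalizer_iff.1 (hle hx) n).1 hn
  apply special_of_normalized hr hN hnorm
  · intro a ha a' ha' n hn
    rw [hAC a' ha' _ (hAN a ha n hn)]
    group
  · obtain ⟨a, ha, ha1⟩ := exists_ne_one_of_ne_bot (rop_left_ne_bot hr)
    obtain ⟨b, hb, hb1, hrel⟩ := hr.cond_left a ha ha1
    obtain ⟨c, hc, hc1⟩ := exists_ne_one_of_ne_bot (hS.ne_bot C hCS)
    refine ⟨b⁻¹, Subgroup.mem_sup_right (B.inv_mem hb), a, Subgroup.mem_sup_left ha, c,
      Subgroup.mem_sup_left hc, ?_⟩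
    have h1 := line_key hS hA hB hr hC hCc ha ha1 hb hb1 hrel hc
    have hcm : cmap c b ∈ E := cmap_mem hc hb
    have e1 : b⁻¹ * c * b⁻¹⁻¹ * c⁻¹ = cmap c b := by
      have h2 : Commute c (cmap c b) := hCE c hc _ hcm
      rw [inv_inv, conj_eq_mul_cmap, h2.eq]
      group
    rw [e1]
    intro h2
    have h3 : a * cmap c b * a⁻¹ * (cmap c b)⁻¹ = 1 := by rw [h2]; group
    rw [h1] at h3
    exact hc1 (inv_eq_one.1 h3)

/-- **S5034**. -/
theorem nondegenerate_rank_one_special (hS : IsRootSubgroupClass S) (hnd : IsNondegenerateRootSet S)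
    (hA : A ∈ S) (hB : B ∈ rankOnePartners S A) :
    (∃ C ∈ linePartners S A, C ∈ commutatorPartners S B) ∧ IsSpecialRankOnePair A B := by
  obtain ⟨hss, hcl⟩ := hS
  obtain ⟨A₁, hA₁, B₁, hB₁, hcc⟩ := hnd.2.2
  obtain ⟨g, hg⟩ := hcl.2 A₁ hA₁ A hA
  have hB' : conjBy B₁ g ∈ S := hss.conj_mem B₁ hB₁ g
  have hcomm : ⁅A, conjBy B₁ g⁆ = conjBy ⁅A₁, B₁⁆ g := by
    rw [hg]
    exact (Subgroup.map_commutator _ _ _).symm
  have hc : RootCommutatorCase S A (conjBy B₁ g) :=
    rcc_of_mem hss hA hB' (by rw [hcomm]; exact hss.conj_mem _ hcc.1 g)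
  obtain ⟨C, hC1, hC2⟩ := exists_line_partner hss hA hB' hc hB.1 hB.2 hB.1 hB.2
  refine ⟨⟨C, hC1, hC2⟩, ?_⟩
  have hCc : RootCommutatorCase S C B := by
    apply rcc_of_mem hss hC2.1 hB.1
    rw [Subgroup.commutator_comm]
    exact hC2.2
  exact special_of_line_partner hss hA hB.1 hB.2 hC1 hCc

end Cfsg.Agent.H23
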