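import Cfsg.Agent.Lib.H23.RootLine
import Cfsg.Agent.Lib.H23.Special

/-!
# Special rank one pairs with `|A| > 3` are perfect, and `[A, H] = A`
-/

set_option autoImplicit false

namespace Cfsg.Agent.H23

open Cfsg

variable {G : Type*} [Group G] {A B : Subgroup G}

/-- The Hua-type computation: `N_a(x) = a * a'`. -/
lemma Rel.key (S : SpecAb A B) {a b x c a' : G} (h : Rel A B a b) (hc : Rel A B (a * x) c)
    (hy : Rel A B a' (c * b⁻¹)) (hxA : x ∈ A) (hx1 : x ≠ 1) :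
    Rel A B (a * a') (nn a b * x * (nn a b)⁻¹) := by
  set n := nn a b with hn
  set T := n * x * n⁻¹ with hT
  have hTB : T ∈ B := by
    rw [← h.nn_A]
    exact conj_mem_conjBy hxA n
  have hT1 : T ≠ 1 := by
    intro h0
    apply hx1
    have e : x = n⁻¹ * T * n := by rw [hT]; group
    rw [e, h0]; simp
  obtain ⟨a'', ha''⟩ := S.exists_left hTB hT1
  have key : conjBy B a'' = conjBy B (a * a') := by
    have h1 : conjBy B a' = conjBy A (c * b⁻¹) := (hy.eq' S).symm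
    have hcomm : c * b⁻¹ = b⁻¹ * c := S.cb _ hc.hb _ (B.inv_mem h.hb)
    have h2 : conjBy A c = conjBy B (a * x) := hc.eq' S
    have h3 : conjBy B (a * a') = conjBy B (n * x) := by
      rw [conjBy_mul, h1, hcomm, conjBy_mul, h2, conjBy_conjBy, conjBy_conjBy]
      congr 1
      rw [hn]
      unfold nn
      group
    rw [h3, ← ha''.eq' S]
    have e : n * x = T * n := by rw [hT]; group
    rw [e, conjBy_mul B T n, h.nn_B S]
  have hm : a * a' ∈ A := A.mul_mem h.ha hy.ha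
  have := pt_inj S.rop ha''.ha hm key
  rw [← this]
  exact ha''

/-- The abstract congruence computation. -/
theorem key_general (S : SpecAb A B) {Q : Type*} [CommGroup Q] (f g : G → Q)
    (hf : ∀ u ∈ A, ∀ v ∈ A, f (u * v) = f u * f v)
    (hg : ∀ u ∈ B, ∀ v ∈ B, g (u * v) = g u * g v)
    (R1 : ∀ u v, Rel A B u v → g v = (f u)⁻¹)
    (R2 : ∀ u v, Rel A B u v → ∀ x ∈ A, g (nn u v * x * (nn u v)⁻¹) = f x)
    {a x : G} (ha : a ∈ A) (hx : x ∈ A) (ha1 : a ≠ 1) (hx1 : x ≠ 1) (hax : a * x ≠ 1) :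
    f a * f x * f x = 1 := by
  obtain ⟨b, hb⟩ := S.exists_right ha ha1
  obtain ⟨c, hc⟩ := S.exists_right (A.mul_mem ha hx) hax
  have hy1 : c * b⁻¹ ≠ 1 := by
    intro h0
    have hcb : c = b := mul_inv_eq_one.1 h0
    rw [hcb] at hc
    have := S.unique_left hc hb
    apply hx1
    simpa using this
  have hyB : c * b⁻¹ ∈ B := B.mul_mem hc.hb (B.inv_mem hb.hb)
  obtain ⟨a', ha'⟩ := S.exists_left hyB hy1
  have hT := hb.key S hc ha' hx hx1
  have e1 := R1 _ _ hc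
  have e2 := R1 _ _ hb
  have e3 := R1 _ _ ha'
  have e4 := R1 _ _ hT
  have e5 := R2 _ _ hb x hx
  have e6 : g c = g (c * b⁻¹) * g b := by
    rw [← hg _ hyB _ hb.hb]
    congr 1
    group
  rw [hf a ha x hx] at e1
  rw [hf a ha a' ha'.ha, e5] at e4
  have e7 : f a' = f x := by
    have h3 : g (c * b⁻¹) = (f x)⁻¹ := by
      have : g (c * b⁻¹) = g c * (g b)⁻¹ := by rw [e6]; simp
      rw [this, e1, e2]
      simp [mul_comm]
    rw [h3] at e3
    exact (inv_injective e3).symm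
  rw [e7] at e4
  have e8 := eq_inv_iff_mul_eq_one.1 e4
  calc f a * f x * f x = f x * (f a * f x) := by rw [mul_comm]
    _ = 1 := e8

/-- Elements of `A` avoiding two given elements. -/
lemma exists_avoid {A : Subgroup G} (hc : 3 < ENat.card A) (a₁ a₂ : G) :
    ∃ w ∈ A, w ≠ 1 ∧ w ≠ a₁ ∧ w ≠ a₂ := by
  by_contra hcon
  push Not at hcon
  have hsub : (A : Set G) ⊆ {1, a₁, a₂} := by
    intro w hw
    by_cases h1 : w = 1
    · exact Or.inl h1
    by_cases h2 : w = a₁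
    · exact Or.inr (Or.inl h2)
    · exact Or.inr (Or.inr (hcon w hw h1 h2))
  have h3 : ENat.card A ≤ 3 := by
    calc ENat.card A = (A : Set G).encard := rfl
      _ ≤ ({1, a₁, a₂} : Set G).encard := Set.encard_le_encard hsub
      _ ≤ ({a₁, a₂} : Set G).encard + 1 := Set.encard_insert_le _ _
      _ ≤ (({a₂} : Set G).encard + 1) + 1 := by
          gcongr
          exact Set.encard_insert_le _ _
      _ = 3 := by
          rw [Set.encard_singleton]
          norm_num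
  exact absurd hc (not_lt.2 h3)

/-- `f` is trivial on `A` if `|A| > 3`. -/
theorem f_trivial (S : SpecAb A B) {Q : Type*} [CommGroup Q] (f g : G → Q)
    (hf : ∀ u ∈ A, ∀ v ∈ A, f (u * v) = f u * f v)
    (hg : ∀ u ∈ B, ∀ v ∈ B, g (u * v) = g u * g v)
    (R1 : ∀ u v, Rel A B u v → g v = (f u)⁻¹)
    (R2 : ∀ u v, Rel A B u v → ∀ x ∈ A, g (nn u v * x * (nn u v)⁻¹) = f x)
    (hc : 3 < ENat.card A) {a : G} (ha : a ∈ A) : f a = 1 := by
  have hconst : ∀ a ∈ A, a ≠ 1 → ∀ a' ∈ A, a' ≠ 1 → f a = f a' := by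
    intro a ha ha1 a' ha' ha'1
    obtain ⟨w, hw, hw1, hwa, hwa'⟩ := exists_avoid hc a a'
    have hx1 : w⁻¹ ≠ 1 := inv_ne_one.2 hw1
    have h1 : a * w⁻¹ ≠ 1 := fun h0 => hwa (mul_inv_eq_one.1 h0).symm
    have h2 : a' * w⁻¹ ≠ 1 := fun h0 => hwa' (mul_inv_eq_one.1 h0).symm
    have e1 := key_general S f g hf hg R1 R2 ha (A.inv_mem hw) ha1 hx1 h1
    have e2 := key_general S f g hf hg R1 R2 ha' (A.inv_mem hw) ha'1 hx1 h2
    have e3 : f a * f w⁻¹ * f w⁻¹ = f a' * f w⁻¹ * f w⁻¹ := e1.trans e2.symm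
    exact mul_right_cancel (mul_right_cancel e3)
  have h11 : f 1 = 1 := by
    have := hf 1 A.one_mem 1 A.one_mem
    rw [mul_one] at this
    exact (mul_eq_left.1 this.symm)
  by_cases ha1 : a = 1
  · rw [ha1, h11]
  obtain ⟨w, hw, hw1, hwa, _⟩ := exists_avoid hc a⁻¹ a⁻¹
  have h1 : a * w ≠ 1 := fun h0 => hwa (eq_inv_of_mul_eq_one_right h0)
  have e1 := hconst a ha ha1 w hw hw1
  have e2 := hconst a ha ha1 _ (A.mul_mem ha hw) h1
  rw [hf a ha w hw, ← e1] at e2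
  exact (mul_eq_left.1 e2.symm)

/-- `π(b) = π(a)⁻¹` for corresponding elements and homomorphisms to commutative groups. -/
lemma Rel.hom_eq (S : SpecAb A B) {u v : G} (h : Rel A B u v) {Q : Type*} [CommGroup Q]
    (π : G →* Q) : π v = (π u)⁻¹ := by
  have h1 := congrArg π (h.special S)
  simp only [map_mul, map_inv] at h1
  rw [inv_mul_cancel_comm, inv_mul_cancel_comm] at h1
  rw [h1, inv_inv]

/-- Homomorphisms from `G` to commutative groups kill `A` if `|A| > 3`. -/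
theorem hom_trivial (S : SpecAb A B) {Q : Type*} [CommGroup Q] (π : G →* Q)
    (hc : 3 < ENat.card A) {a : G} (ha : a ∈ A) : π a = 1 := by
  refine f_trivial S (fun x => π x) (fun x => π x) (fun u _ v _ => map_mul π u v)
    (fun u _ v _ => map_mul π u v) (fun u v h => h.hom_eq S π) ?_ hc ha
  intro u v _ x _
  show π _ = π x
  simp only [map_mul, map_inv]
  rw [mul_inv_cancel_comm]

/-- Homomorphisms from `G` to commutative groups kill `B` if `|A| > 3`. -/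
theorem hom_trivial_right (S : SpecAb A B) {Q : Type*} [CommGroup Q] (π : G →* Q)
    (hc : 3 < ENat.card A) {b : G} (hb : b ∈ B) : π b = 1 := by
  by_cases hb1 : b = 1
  · rw [hb1, map_one]
  obtain ⟨a, ha⟩ := S.exists_left hb hb1
  rw [ha.hom_eq S π, hom_trivial S π hc ha.ha, inv_one]

/-- `A ≤ G'` if `|A| > 3`. -/
theorem left_le_commutator (S : SpecAb A B) (hc : 3 < ENat.card A) : A ≤ commutator G := by
  intro a ha
  rw [← Abelianization.ker_of, MonoidHom.mem_ker]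
  exact hom_trivial S _ hc ha

/-- `B ≤ G'` if `|A| > 3`. -/
theorem right_le_commutator (S : SpecAb A B) (hc : 3 < ENat.card A) : B ≤ commutator G := by
  intro a ha
  rw [← Abelianization.ker_of, MonoidHom.mem_ker]
  exact hom_trivial_right S _ hc ha

/-- The `n`-elements lie in the diagonal subgroup modulo `n₀`. -/
lemma nn_inv_mul_mem_diag (S : SpecAb A B) {e b₀ u v : G} (h₀ : Rel A B e b₀) (h : Rel A B u v) :
    (nn e b₀)⁻¹ * nn u v ∈ rankOneDiagonal A B := by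
  have hA₀ : conjBy B (nn e b₀)⁻¹ = A := by rw [← h₀.nn_A, conjBy_inv_conjBy]
  have hB₀ : conjBy A (nn e b₀)⁻¹ = B := by rw [← h₀.nn_B S, conjBy_inv_conjBy]
  refine ⟨⟨?_, ?_⟩, ?_⟩
  · exact Subgroup.mul_mem _ (Subgroup.inv_mem _ h₀.nn_mem) h.nn_mem
  · show _ ∈ Subgroup.normalizer (A : Set G)
    rw [mem_normalizer_iff_conjBy, conjBy_mul, h.nn_A, hA₀]
  · show _ ∈ Subgroup.normalizer (B : Set G)
    rw [mem_normalizer_iff_conjBy, conjBy_mul, h.nn_B S, hB₀]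

/-- `[A, H] = A` if `|A| > 3`. -/
theorem left_le_comm_diag (S : SpecAb A B) (hc : 3 < ENat.card A) :
    A ≤ ⁅A, rankOneDiagonal A B⁆ := by
  classical
  set V := ⁅A, rankOneDiagonal A B⁆ with hV
  letI : CommGroup ↥A := { (inferInstance : Group ↥A) with
    mul_comm := fun x y => Subtype.ext (S.ca x x.2 y y.2) }
  let Q := ↥A ⧸ V.subgroupOf A
  let f : G → Q := fun x => if h : x ∈ A then QuotientGroup.mk (⟨x, h⟩ : ↥A) else 1
  have hfA : ∀ x (h : x ∈ A), f x = QuotientGroup.mk (⟨x, h⟩ : ↥A) := fun x h => dif_pos h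
  have hf : ∀ u ∈ A, ∀ v ∈ A, f (u * v) = f u * f v := by
    intro u hu v hv
    rw [hfA u hu, hfA v hv, hfA _ (A.mul_mem hu hv)]
    rfl
  have hfi : ∀ u ∈ A, f u⁻¹ = (f u)⁻¹ := by
    intro u hu
    rw [hfA u hu, hfA _ (A.inv_mem hu)]
    rfl
  have hfh : ∀ x ∈ A, ∀ h ∈ rankOneDiagonal A B, f (h * x * h⁻¹) = f x := by
    intro x hx h hh
    have hNA : h ∈ Subgroup.normalizer (A : Set G) := hh.1.2
    have hmem : h * x * h⁻¹ ∈ A := (Subgroup.mem_normalizer_iff.1 hNA x).1 hx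
    rw [hfA x hx, hfA _ hmem]
    refine (QuotientGroup.eq).2 ?_
    rw [Subgroup.mem_subgroupOf]
    have h1 : x * h * x⁻¹ * h⁻¹ ∈ V := comm_mem_commutator hx hh
    show (⟨h * x * h⁻¹, hmem⟩ : ↥A)⁻¹.1 * x ∈ V
    have e : (h * x * h⁻¹)⁻¹ * x = h * x⁻¹ * h⁻¹ * x := by group
    show (h * x * h⁻¹)⁻¹ * x ∈ V
    rw [e]
    have h2 := V.inv_mem (comm_mem_commutator (A.inv_mem hx) hh)
    have e2 : (x⁻¹ * h * x⁻¹⁻¹ * h⁻¹)⁻¹ = h * x⁻¹ * h⁻¹ * x := by group
    rwa [e2] at h2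
  obtain ⟨e, he, he1⟩ := exists_ne_one_of_ne_bot (rop_left_ne_bot S.rop)
  obtain ⟨b₀, hb₀⟩ := S.exists_right he he1
  set n₀ := nn e b₀ with hn₀
  let g : G → Q := fun y => f (n₀⁻¹ * y * n₀)
  have hgB : ∀ y ∈ B, n₀⁻¹ * y * n₀ ∈ A := by
    intro y hy
    have h1 := conj_mem_conjBy hy n₀⁻¹
    have hA₀ : conjBy B n₀⁻¹ = A := by rw [← hb₀.nn_A, conjBy_inv_conjBy]
    rw [hA₀] at h1
    simpa using h1
  have hg : ∀ u ∈ B, ∀ v ∈ B, g (u * v) = g u * g v := by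
    intro u hu v hv
    have e1 : n₀⁻¹ * (u * v) * n₀ = (n₀⁻¹ * u * n₀) * (n₀⁻¹ * v * n₀) := by group
    show f _ = f _ * f _
    rw [e1, hf _ (hgB u hu) _ (hgB v hv)]
  have R1 : ∀ u v, Rel A B u v → g v = (f u)⁻¹ := by
    intro u v h
    have hh := nn_inv_mul_mem_diag S hb₀ h
    have h1 := h.nn_conj_left S
    have h2 : nn u v * u⁻¹ * (nn u v)⁻¹ = v := by
      have e0 : nn u v * u⁻¹ * (nn u v)⁻¹ = (nn u v * u * (nn u v)⁻¹)⁻¹ := by group
      rw [e0, h1, inv_inv]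
    have e1 : n₀⁻¹ * v * n₀ = (n₀⁻¹ * nn u v) * u⁻¹ * (n₀⁻¹ * nn u v)⁻¹ := by
      calc n₀⁻¹ * v * n₀ = n₀⁻¹ * (nn u v * u⁻¹ * (nn u v)⁻¹) * n₀ := by rw [h2]
        _ = _ := by group
    show f _ = _
    rw [e1, hfh _ (A.inv_mem h.ha) _ hh, hfi _ h.ha]
  have R2 : ∀ u v, Rel A B u v → ∀ x ∈ A, g (nn u v * x * (nn u v)⁻¹) = f x := by
    intro u v h x hx
    have hh := nn_inv_mul_mem_diag S hb₀ h
    have e1 : n₀⁻¹ * (nn u v * x * (nn u v)⁻¹) * n₀ =
        (n₀⁻¹ * nn u v) * x * (n₀⁻¹ * nn u v)⁻¹ := by group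
    show f _ = _
    rw [e1, hfh _ hx _ hh]
  intro a ha
  have h1 := f_trivial S f g hf hg R1 R2 hc ha
  rw [hfA a ha] at h1
  have h2 := (QuotientGroup.eq_one_iff _).1 h1
  exact Subgroup.mem_subgroupOf.1 h2

/-- `⁅A, H⁆` is large. -/
theorem card_comm_diag (S : SpecAb A B) (hc : 3 < ENat.card A) :
    3 < ENat.card ↥⁅A, rankOneDiagonal A B⁆ := by
  refine lt_of_lt_of_le hc ?_
  exact Set.encard_le_encard (left_le_comm_diag S hc)

/-- **S5020**, large case. -/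
theorem rog_perfect_of_large {X : Type*} [Group X] {A B : Subgroup X} (h : IsRankOneGroup X A B)
    (S : SpecAb A B) (hc : 3 < ENat.card A) : commutator X = ⊤ := by
  rw [eq_top_iff, ← h.1]
  exact sup_le (left_le_commutator S hc) (right_le_commutator S hc)

end Cfsg.Agent.H23
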