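import Cfsg.Agent.Lib.H23.RootPerfect
import Cfsg.Agent.Lib.H07.FStar

/-!
# Timmesfeld's simplicity theorem for abstract root subgroups (S5033)
-/

set_option autoImplicit false

namespace Cfsg.Agent.H23

open Cfsg
open scoped commutatorElement

variable {G : Type*} [Group G] {S : Set (Subgroup G)} {A B : Subgroup G}

/-- Specialness passes to the join. -/
lemma SpecAb.subgroupOf (h : SpecAb A B) :
    SpecAb (A.subgroupOf (A ⊔ B)) (B.subgroupOf (A ⊔ B)) := by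
  have hAX : A ≤ A ⊔ B := le_sup_left
  have hBX : B ≤ A ⊔ B := le_sup_right
  refine ⟨(rog_of_rop h.rop).2, ?_, ?_, ?_⟩
  · rintro ⟨a, haX⟩ ha ha1 ⟨b, hbX⟩ hb hb1 he
    have ha' : a ∈ A := Subgroup.mem_subgroupOf.1 ha
    have hb' : b ∈ B := Subgroup.mem_subgroupOf.1 hb
    have ha1' : a ≠ 1 := fun h0 => ha1 (Subtype.ext h0)
    have hb1' : b ≠ 1 := fun h0 => hb1 (Subtype.ext h0)
    rw [conjBy_subgroupOf, conjBy_subgroupOf] at he
    have he' : conjBy A b⁻¹ = conjBy B a⁻¹ := by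
      have h1 : conjBy A b⁻¹ ≤ A ⊔ B := conjBy_le_of_mem hAX ((A ⊔ B).inv_mem hbX)
      have h2 : conjBy B a⁻¹ ≤ A ⊔ B := conjBy_le_of_mem hBX ((A ⊔ B).inv_mem haX)
      have h3 : (conjBy A b⁻¹).subgroupOf (A ⊔ B) = (conjBy B a⁻¹).subgroupOf (A ⊔ B) := he
      rw [Subgroup.subgroupOf_inj, inf_eq_left.2 h1, inf_eq_left.2 h2] at h3
      exact h3
    exact Subtype.ext (h.spec a ha' ha1' b hb' hb1' he')
  · rintro ⟨x, _⟩ hx ⟨y, _⟩ hy
    exact Subtype.ext (h.ca x (Subgroup.mem_subgroupOf.1 hx) y (Subgroup.mem_subgroupOf.1 hy))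
  · rintro ⟨x, _⟩ hx ⟨y, _⟩ hy
    exact Subtype.ext (h.cb x (Subgroup.mem_subgroupOf.1 hx) y (Subgroup.mem_subgroupOf.1 hy))

/-- `P ≤ ⟨P, D⟩'` if `|P| > 3`. -/
theorem left_le_comm_sup (h : SpecAb A B) (hc : 3 < ENat.card A) : A ≤ ⁅A ⊔ B, A ⊔ B⁆ := by
  have hAX : A ≤ A ⊔ B := le_sup_left
  have hc' : 3 < ENat.card ↥(A.subgroupOf (A ⊔ B)) := by
    have : ENat.card ↥(A.subgroupOf (A ⊔ B)) = ENat.card ↥A :=
      ENat.card_congr (Subgroup.subgroupOfEquivOfLe hAX).toEquiv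
    rwa [this]
  have h1 := left_le_commutator h.subgroupOf hc'
  intro a ha
  have h2 : (⟨a, hAX ha⟩ : ↥(A ⊔ B)) ∈ commutator ↥(A ⊔ B) :=
    h1 (Subgroup.mem_subgroupOf.2 ha)
  have h3 : a ∈ (commutator ↥(A ⊔ B)).map (A ⊔ B).subtype := ⟨_, h2, rfl⟩
  rw [Subgroup.map_subtype_commutator] at h3
  exact h3

/-- `a b ∈ ⟨A, B⟩'` for corresponding elements. -/
lemma Rel.mul_mem_comm (S' : SpecAb A B) {a b : G} (h : Rel A B a b) :
    a * b ∈ ⁅A ⊔ B, A ⊔ B⁆ := by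
  have h1 := h.special S'
  have haX : a ∈ A ⊔ B := Subgroup.mem_sup_left h.ha
  have hbX : b ∈ A ⊔ B := Subgroup.mem_sup_right h.hb
  have h2 : b⁻¹ * a * b⁻¹⁻¹ * a⁻¹ ∈ ⁅A ⊔ B, A ⊔ B⁆ :=
    comm_mem_commutator ((A ⊔ B).inv_mem hbX) haX
  have e1 : b⁻¹ * a * b⁻¹⁻¹ * a⁻¹ = (b * a)⁻¹ := by
    rw [inv_inv, h1]
    group
  rw [e1] at h2
  have h3 := ⁅A ⊔ B, A ⊔ B⁆.inv_mem h2
  rw [inv_inv] at h3
  have h4 : a * (b * a) * a⁻¹ ∈ ⁅A ⊔ B, A ⊔ B⁆ :=
    commutator_conj_sup h3 (Subgroup.mem_sup_left haX)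
  have e2 : a * (b * a) * a⁻¹ = a * b := by group
  rwa [e2] at h4

section Class

variable (hS : IsRootSubgroupSet S) (hcl : ∀ A ∈ S, ∀ C ∈ S, ∃ g : G, C = conjBy A g)
  (hpart : ∀ A ∈ S, ∃ B ∈ S, IsRankOnePair A B)

include hS hcl in
lemma top_of_member_le {K : Subgroup G} (hK : K.Normal) {C : Subgroup G} (hC : C ∈ S) (hle : C ≤ K) :
    K = ⊤ := by
  rw [eq_top_iff, ← hS.generates]
  refine iSup₂_le ?_
  intro D hD d hd
  obtain ⟨g, rfl⟩ := hcl C hC D hD
  have h1 := hle (mem_conjBy.1 hd)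
  have h2 := hK.conj_mem _ h1 g
  have e : g * (g⁻¹ * d * g) * g⁻¹ = d := by group
  rwa [e] at h2

include hS hcl hpart in
/-- If a normal subgroup is not central, it moves each member. -/
lemma moved {K : Subgroup G} (hK : K.Normal) (hnc : ¬ K ≤ Subgroup.center G) :
    ∀ A ∈ S, ∃ k ∈ K, conjBy A k ≠ A := by
  intro A hA
  by_contra hcon
  push Not at hcon
  apply hnc
  intro k hk
  have hfix : ∀ D ∈ S, conjBy D k = D := by
    intro D hD
    obtain ⟨g, rfl⟩ := hcl A hA D hD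
    have hk' : g⁻¹ * k * g ∈ K := by
      have := hK.conj_mem k hk g⁻¹
      simpa using this
    have h1 := hcon _ hk'
    rw [conjBy_conjBy]
    have e : k * g = g * (g⁻¹ * k * g) := by group
    rw [e, conjBy_mul, h1]
  have hcomm : ∀ D ∈ S, ∀ d ∈ D, k * d = d * k := by
    intro D hD d hd
    obtain ⟨B, _, hr⟩ := hpart D hD
    exact rop_kernel_commute hr (fun E hE => hfix E (unipotent_subset hS hD hE))
      (Subgroup.mem_sup_left hd)
  have hle : (⨆ D ∈ S, D) ≤ Subgroup.centralizer ({k} : Set G) := by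
    refine iSup₂_le ?_
    intro D hD d hd
    rw [Subgroup.mem_centralizer_iff]
    rintro _ rfl
    exact hcomm D hD d hd
  rw [hS.generates] at hle
  rw [Subgroup.mem_center_iff]
  intro y
  exact (Subgroup.mem_centralizer_iff.1 (hle (Subgroup.mem_top y)) k rfl).symm

end Class

/-- A normal subgroup containing a non-central element of a rank one pair contains its derived
subgroup. -/
lemma comm_le_of_noncentral {P D K : Subgroup G} (hca : Cm P P) (hr : IsRankOnePair P D)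
    (hK : K.Normal) {q : G} (hqK : q ∈ K) (hqX : q ∈ P ⊔ D)
    (hnc : ¬ ∀ y ∈ P ⊔ D, q * y = y * q) : ⁅P ⊔ D, P ⊔ D⁆ ≤ K := by
  have hmove : ∃ E ∈ unipotentSubgroups P D, conjBy E q ≠ E := by
    by_contra hcon
    push Not at hcon
    exact hnc fun y hy => rop_kernel_commute hr hcon hy
  obtain ⟨E, hE, hmv⟩ := hmove
  have hN : ∀ n ∈ K ⊓ (P ⊔ D), ∀ x ∈ P ⊔ D, x * n * x⁻¹ ∈ K ⊓ (P ⊔ D) := by
    rintro n ⟨hnK, hnX⟩ x hx
    exact ⟨hK.conj_mem n hnK x, (P ⊔ D).mul_mem ((P ⊔ D).mul_mem hx hnX) ((P ⊔ D).inv_mem hx)⟩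
  obtain ⟨n', ⟨hn'K, _⟩, hn'⟩ := rop_normal_transitive hr hN ⟨hqK, hqX⟩ hqX hE hmv (rop_right_mem hr)
  haveI := hK
  have hD : ∀ d ∈ D, ∃ p ∈ P, (d : G) * p⁻¹ ∈ K := by
    intro d hd
    rw [← hn'] at hd
    refine ⟨_, mem_conjBy.1 hd, ?_⟩
    have h1 := hK.conj_mem _ (K.inv_mem hn'K) d
    have e : (d : G) * (n'⁻¹ * d * n')⁻¹ = (d * n'⁻¹ * d⁻¹) * n' := by group
    rw [e]
    exact K.mul_mem h1 hn'K
  let π := QuotientGroup.mk' K
  have hπ : ∀ x ∈ P ⊔ D, π x ∈ P.map π := by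
    intro x hx
    have h1 : (P ⊔ D).map π ≤ P.map π := by
      rw [Subgroup.map_sup]
      refine sup_le le_rfl ?_
      rintro _ ⟨d, hd, rfl⟩
      obtain ⟨p, hp, hdp⟩ := hD d hd
      refine ⟨p, hp, ?_⟩
      exact ((QuotientGroup.eq_iff_div_mem).2 (by rw [div_eq_mul_inv]; exact hdp)).symm
    exact h1 ⟨x, hx, rfl⟩
  rw [Subgroup.commutator_le]
  intro x hx y hy
  have hk : π ⁅x, y⁆ = 1 := by
    rw [map_commutatorElement]
    obtain ⟨p, hp, hpx⟩ := hπ x hx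
    obtain ⟨r, hr', hry⟩ := hπ y hy
    rw [← hpx, ← hry, ← map_commutatorElement]
    have : ⁅p, r⁆ = 1 := by
      rw [commutatorElement_eq_one_iff_mul_comm]
      exact hca p hp r hr'
    rw [this, map_one]
  exact (QuotientGroup.eq_one_iff _).1 hk

/-- The element computation with a line partner. -/
lemma line_partner_le {C P D K : Subgroup G} (hS : IsRootSubgroupSet S) (hP : P ∈ S) (hD : D ∈ S)
    (S' : SpecAb P D) (hC : C ∈ linePartners S P) (hCc : RootCommutatorCase S C D)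
    (hK : K.Normal) (hcomm : ⁅P ⊔ D, P ⊔ D⁆ ≤ K) : C ≤ K := by
  obtain ⟨a, ha, ha1⟩ := exists_ne_one_of_ne_bot (rop_left_ne_bot S'.rop)
  obtain ⟨b, hb⟩ := S'.exists_right ha ha1
  have ht : a * b ∈ K := hcomm (hb.mul_mem_comm S')
  intro c hc
  have hAC : Cm P C := Cm.of_bot hC.1.2.2
  have hk := line_key hS hP hD S'.rop hC hCc ha ha1 hb.hb hb.hb1 hb.eq hc
  set e := cmap c b with he
  have hem : e ∈ ⁅C, D⁆ := cmap_mem hc hb.hb
  have hce : Commute c e := ((rcc_cm_left hCc) e hem c hc).symm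
  have hac : Commute a c := hAC a ha c hc
  have e1 : b * c * b⁻¹ = c * e⁻¹ := by
    have := conj_eq_mul_cmap c b⁻¹
    rw [inv_inv, cmap_inv hCc hc hb.hb] at this
    exact this
  have e2 : a * e * a⁻¹ = c⁻¹ * e := by
    have := hk
    calc a * e * a⁻¹ = (a * e * a⁻¹ * e⁻¹) * e := by group
      _ = c⁻¹ * e := by rw [this]
  have e3 : (a * b) * c * (a * b)⁻¹ * c⁻¹ = b * c * b⁻¹ := by
    have e4 : (a * b) * c * (a * b)⁻¹ = a * (b * c * b⁻¹) * a⁻¹ := by group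
    rw [e4, e1]
    have e5 : a * (c * e⁻¹) * a⁻¹ = (a * c * a⁻¹) * (a * e * a⁻¹)⁻¹ := by group
    rw [e5, e2, hac.eq]
    have e6 : c * a * a⁻¹ * (c⁻¹ * e)⁻¹ * c⁻¹ = c * (e⁻¹ * c) * c⁻¹ := by group
    rw [e6]
    group
  have h1 : (a * b) * c * (a * b)⁻¹ * c⁻¹ ∈ K := by
    have := K.mul_mem ht (hK.conj_mem _ (K.inv_mem ht) c)
    have e8 : a * b * (c * (a * b)⁻¹ * c⁻¹) = (a * b) * c * (a * b)⁻¹ * c⁻¹ := by group
    rwa [e8] at this
  rw [e3] at h1
  have h2 := hK.conj_mem _ h1 b⁻¹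
  have e9 : b⁻¹ * (b * c * b⁻¹) * b⁻¹⁻¹ = c := by group
  rwa [e9] at h2

lemma cm_of_le_centralizer {D P : Subgroup G} (h : D ≤ Subgroup.centralizer (P : Set G)) : Cm D P :=
  fun d hd p hp => (Subgroup.mem_centralizer_iff.1 (h hd) p hp).symm

lemma le_centralizer_of_cm {D P : Subgroup G} (h : Cm D P) : D ≤ Subgroup.centralizer (P : Set G) :=
  fun d hd => Subgroup.mem_centralizer_iff.2 fun p hp => (h d hd p hp).symm

section Main

variable (hS : IsRootSubgroupSet S) (hcl : ∀ A ∈ S, ∀ C ∈ S, ∃ g : G, C = conjBy A g)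
  (hpart : ∀ A ∈ S, ∃ B ∈ S, IsRankOnePair A B)
  (h3 : IsDegenerateRootSet S → ∀ A ∈ S, 3 < ENat.card A)
  (h4 : ∀ A ∈ S, ∀ B ∈ rankOnePartners S A, IsSpecialRankOnePair A B)

include hS h4 in
lemma specAb_of_mem {P D : Subgroup G} (hP : P ∈ S) (hD : D ∈ S) (hr : IsRankOnePair P D) :
    SpecAb P D :=
  specAb_of (h4 P hP D ⟨hD, hr⟩) ⟨hS.commutative P hP, hS.commutative D hD⟩

include hS hcl h3 h4 in
lemma top_of_comm_le {K : Subgroup G} (hK : K.Normal) {P D : Subgroup G} (hP : P ∈ S) (hD : D ∈ S)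
    (hr : IsRankOnePair P D) (hle : ⁅P ⊔ D, P ⊔ D⁆ ≤ K) : K = ⊤ := by
  have S' := specAb_of_mem hS h4 hP hD hr
  by_cases hdeg : IsDegenerateRootSet S
  · exact top_of_member_le hS hcl hK hP ((left_le_comm_sup S' (h3 hdeg P hP)).trans hle)
  · unfold IsDegenerateRootSet at hdeg
    push Not at hdeg
    obtain ⟨A₁, hA₁, B₁, hB₁, hcc⟩ := hdeg
    obtain ⟨g, hg⟩ := hcl A₁ hA₁ P hP
    have hB' : conjBy B₁ g ∈ S := hS.conj_mem B₁ hB₁ g
    have hcomm : ⁅P, conjBy B₁ g⁆ = conjBy ⁅A₁, B₁⁆ g := by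
      rw [hg]
      exact (Subgroup.map_commutator _ _ _).symm
    have hc : RootCommutatorCase S P (conjBy B₁ g) :=
      rcc_of_mem hS hP hB' (by rw [hcomm]; exact hS.conj_mem _ hcc.1 g)
    obtain ⟨C, hC1, hC2⟩ := exists_line_partner hS hP hB' hc hD hr hD hr
    have hCc : RootCommutatorCase S C D :=
      rcc_of_mem hS hC2.1 hD (by rw [Subgroup.commutator_comm]; exact hC2.2)
    exact top_of_member_le hS hcl hK hC2.1 (line_partner_le hS hP hD S' hC1 hCc hK hle)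

include hS hcl h3 h4 in
lemma case_commuting {K : Subgroup G} (hK : K.Normal) {P P' D : Subgroup G} (hP : P ∈ S)
    (hD : D ∈ S) {g : G} (hg : g ∈ K) (hPg : P' = conjBy P g) (hDP' : Cm D P') (hDP : ¬ Cm D P) :
    K = ⊤ := by
  have hcomm : ∀ p ∈ P, ∀ d ∈ D, p * d * p⁻¹ * d⁻¹ ∈ K := by
    intro p hp d hd
    set p' := g * p * g⁻¹ with hp'd
    have hp' : p' ∈ P' := by rw [hPg]; exact conj_mem_conjBy hp g
    set q := p * p'⁻¹ with hqd
    have hq : q ∈ K := by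
      have e : q = (p * g * p⁻¹) * g⁻¹ := by rw [hqd, hp'd]; group
      rw [e]
      exact K.mul_mem (hK.conj_mem g hg p) (K.inv_mem hg)
    have h1 : q * (d * q⁻¹ * d⁻¹) ∈ K := K.mul_mem hq (hK.conj_mem _ (K.inv_mem hq) d)
    have hc : d * p' = p' * d := hDP' d hd p' hp'
    have e2 : q * (d * q⁻¹ * d⁻¹) = p * d * p⁻¹ * d⁻¹ := by
      calc q * (d * q⁻¹ * d⁻¹) = p * (p'⁻¹ * (d * p')) * p⁻¹ * d⁻¹ := by rw [hqd]; group
        _ = p * (p'⁻¹ * (p' * d)) * p⁻¹ * d⁻¹ := by rw [hc]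
        _ = _ := by group
    rwa [e2] at h1
  rcases hS.pair P hP D hD with h | h | h
  · exact absurd (Cm.of_bot h).symm hDP
  · obtain ⟨p, hp, hp1⟩ := exists_ne_one_of_ne_bot (hS.ne_bot P hP)
    obtain ⟨d, hd, hd1⟩ := exists_ne_one_of_ne_bot (hS.ne_bot D hD)
    apply top_of_comm_le hS hcl h3 h4 hK hP hD h
    have hpX : p ∈ P ⊔ D := Subgroup.mem_sup_left hp
    have hdX : d ∈ P ⊔ D := Subgroup.mem_sup_right hd
    refine comm_le_of_noncentral (cm_self_of_root hS hP) h hK (hcomm p hp d hd)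
      ((P ⊔ D).mul_mem ((P ⊔ D).mul_mem ((P ⊔ D).mul_mem hpX hdX) ((P ⊔ D).inv_mem hpX))
        ((P ⊔ D).inv_mem hdX)) ?_
    intro hq
    set r := p * d * p⁻¹ * d⁻¹ with hrd
    have hzc : r⁻¹ ∈ Subgroup.centralizer ((P ⊔ D : Subgroup G) : Set G) := by
      rw [Subgroup.mem_centralizer_iff]
      intro y hy
      have h1 : Commute r y := hq y hy
      exact (h1.inv_left).symm.eq
    have hre : r⁻¹ * p = d * p * d⁻¹ := by rw [hrd]; group
    by_cases hr1 : r⁻¹ = 1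
    · rw [hr1, one_mul] at hre
      have hmem : p ∈ conjBy P d := by
        rw [hre]
        exact conj_mem_conjBy hp d
      rcases root_inf_or_eq hS hP hD h (hS.conj_mem P hP d) with h5 | h5
      · have : p ∈ P ⊓ conjBy P d := ⟨hp, hmem⟩
        rw [h5] at this
        exact hp1 (by simpa using this)
      · exact rop_conj_ne_right (rop_symm h) hd hd1 h5.symm
    · refine root_z_mul_not_mem hS hP ⟨hD, h⟩ hzc hr1 p hp hp1 ?_
      rw [hre]
      exact root_mem_ne_one_conj hp hp1 d (hS.conj_mem P hP d)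
  · refine top_of_member_le hS hcl hK h.1 ?_
    rw [Subgroup.commutator_le]
    intro p hp d hd
    exact hcomm p hp d hd

include hS hcl h3 h4 in
lemma case_rank_one {K : Subgroup G} (hK : K.Normal) {A : Subgroup G} (hA : A ∈ S) {k : G}
    (hk : k ∈ K) (hr : IsRankOnePair A (conjBy A k)) : K = ⊤ := by
  have hA' : conjBy A k ∈ S := hS.conj_mem A hA k
  obtain ⟨a, ha, ha1⟩ := exists_ne_one_of_ne_bot (hS.ne_bot A hA)
  apply top_of_comm_le hS hcl h3 h4 hK hA hA' hr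
  set a' := k * a * k⁻¹ with ha'd
  have ha' : a' ∈ conjBy A k := conj_mem_conjBy ha k
  have ha'1 : a' ≠ 1 := by
    intro h0
    apply ha1
    have e : a = k⁻¹ * a' * k := by rw [ha'd]; group
    rw [e, h0]; simp
  set z := a' * a⁻¹ with hzd
  have hzK : z ∈ K := by
    have e : z = k * (a * k⁻¹ * a⁻¹) := by rw [hzd, ha'd]; group
    rw [e]
    exact K.mul_mem hk (hK.conj_mem _ (K.inv_mem hk) a)
  have haX : a ∈ A ⊔ conjBy A k := Subgroup.mem_sup_left ha
  have ha'X : a' ∈ A ⊔ conjBy A k := Subgroup.mem_sup_right ha'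
  refine comm_le_of_noncentral (cm_self_of_root hS hA) hr hK hzK
    (Subgroup.mul_mem _ ha'X (Subgroup.inv_mem _ haX)) ?_
  intro hq
  have hzc : z ∈ Subgroup.centralizer ((A ⊔ conjBy A k : Subgroup G) : Set G) := by
    rw [Subgroup.mem_centralizer_iff]
    intro y hy
    exact (hq y hy).symm
  have hze : z * a = a' := by rw [hzd]; group
  by_cases hz1 : z = 1
  · rw [hz1, one_mul] at hze
    have hmem : a ∈ conjBy A k := by rw [hze]; exact ha'
    rcases root_inf_or_eq hS hA hA' hr hA' with h5 | h5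
    · have : a ∈ A ⊓ conjBy A k := ⟨ha, hmem⟩
      rw [h5] at this
      exact ha1 (by simpa using this)
    · exact hr.ne h5
  · refine root_z_mul_not_mem hS hA ⟨hA', hr⟩ hzc hz1 a ha ha1 ?_
    rw [hze]
    exact ⟨ha'1, _, hA', ha'⟩

include hS hcl in
lemma case_rcc {K : Subgroup G} (hK : K.Normal) {A : Subgroup G} (hA : A ∈ S) {k : G}
    (hk : k ∈ K) (hc : RootCommutatorCase S A (conjBy A k)) : K = ⊤ := by
  refine top_of_member_le hS hcl hK hc.1 ?_
  rw [Subgroup.commutator_le]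
  intro a ha a' ha'
  have ha₀ : k⁻¹ * a' * k ∈ A := mem_conjBy.1 ha'
  set a₀ := k⁻¹ * a' * k with ha₀d
  set q := a' * a₀⁻¹ with hqd
  have hq : q ∈ K := by
    have e : q = k * (a₀ * k⁻¹ * a₀⁻¹) := by rw [hqd, ha₀d]; group
    rw [e]
    exact K.mul_mem hk (hK.conj_mem _ (K.inv_mem hk) a₀)
  have hcomm : a * a₀ = a₀ * a := cm_self_of_root hS hA a ha a₀ ha₀
  have e : ⁅a, a'⁆ = (a * q * a⁻¹) * q⁻¹ := by
    rw [commutatorElement_def]
    have h1 : a' = q * a₀ := by rw [hqd]; group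
    calc a * a' * a⁻¹ * a'⁻¹ = a * q * (a₀ * a⁻¹) * a₀⁻¹ * q⁻¹ := by rw [h1]; group
      _ = a * q * (a⁻¹ * a₀) * a₀⁻¹ * q⁻¹ := by
          have h2 : a₀ * a⁻¹ = a⁻¹ * a₀ := by
            have : Commute a a₀ := hcomm
            exact (this.inv_left).symm.eq
          rw [h2]
      _ = _ := by group
  rw [e]
  exact K.mul_mem (hK.conj_mem q hq a) (K.inv_mem hq)

include hS hcl hpart h3 h4 in
/-- Normal subgroups of `G` are central or everything. -/
theorem root_normal_dichotomy (h2' : ∀ A ∈ S, ∀ C ∈ S, A ≠ C →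
      centralizingMembers S A ≠ centralizingMembers S C) (hne : S.Nonempty)
    {K : Subgroup G} (hK : K.Normal) : K ≤ Subgroup.center G ∨ K = ⊤ := by
  by_cases hnc : K ≤ Subgroup.center G
  · exact Or.inl hnc
  right
  obtain ⟨A, hA⟩ := hne
  obtain ⟨k, hk, hmove⟩ := moved hS hcl hpart hK hnc A hA
  have hA' : conjBy A k ∈ S := hS.conj_mem A hA k
  rcases hS.pair A hA _ hA' with h | h | h
  · have hne' := h2' A hA _ hA' (Ne.symm hmove)
    have hex : ∃ D, (D ∈ centralizingMembers S A ∧ D ∉ centralizingMembers S (conjBy A k)) ∨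
        (D ∉ centralizingMembers S A ∧ D ∈ centralizingMembers S (conjBy A k)) := by
      by_contra hcon
      apply hne'
      ext D
      constructor
      · intro h1
        by_contra h2
        exact hcon ⟨D, Or.inl ⟨h1, h2⟩⟩
      · intro h1
        by_contra h2
        exact hcon ⟨D, Or.inr ⟨h2, h1⟩⟩
    obtain ⟨D, ⟨hD1, hD2⟩ | ⟨hD1, hD2⟩⟩ := hex
    · -- `D` centralizes `A`, but not `A^k`
      refine case_commuting hS hcl h3 h4 hK hA' hD1.1 (K.inv_mem hk) ?_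
        (cm_of_le_centralizer hD1.2) ?_
      · rw [conjBy_inv_conjBy]
      · intro hc
        exact hD2 ⟨hD1.1, le_centralizer_of_cm hc⟩
    · refine case_commuting hS hcl h3 h4 hK hA hD2.1 hk rfl (cm_of_le_centralizer hD2.2) ?_
      intro hc
      exact hD1 ⟨hD2.1, le_centralizer_of_cm hc⟩
  · exact case_rank_one hS hcl h3 h4 hK hA hk h
  · exact case_rcc hS hcl hK hA hk h

include hS hcl h3 h4 hpart in
/-- `G` is perfect. -/
theorem root_perfect : commutator G = ⊤ := by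
  by_cases hdeg : IsDegenerateRootSet S
  · rw [eq_top_iff, ← hS.generates]
    refine iSup₂_le ?_
    intro A hA
    obtain ⟨B, hB, hr⟩ := hpart A hA
    exact left_le_commutator (specAb_of_mem hS h4 hA hB hr) (h3 hdeg A hA)
  · unfold IsDegenerateRootSet at hdeg
    push Not at hdeg
    obtain ⟨A₁, hA₁, B₁, hB₁, hcc⟩ := hdeg
    refine top_of_member_le hS hcl (inferInstance : (commutator G).Normal) hcc.1 ?_
    rw [commutator_def]
    exact Subgroup.commutator_mono le_top le_top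

include hS hcl h3 h4 hpart in
/-- `G` is quasisimple. -/
theorem root_quasisimple (h2' : ∀ A ∈ S, ∀ C ∈ S, A ≠ C →
      centralizingMembers S A ≠ centralizingMembers S C) (hne : S.Nonempty) : IsQuasisimple G := by
  have hper := root_perfect hS hcl hpart h3 h4
  refine ⟨⟨hper⟩, ?_⟩
  obtain ⟨A, hA⟩ := hne
  have hnt : Nontrivial (G ⧸ Subgroup.center G) := by
    rw [QuotientGroup.nontrivial_iff]
    intro htop
    obtain ⟨B, _, hr⟩ := hpart A hA
    apply rop_not_cm hr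
    intro x _ y _
    have : y ∈ Subgroup.center G := by rw [htop]; trivial
    exact (Subgroup.mem_center_iff.1 this x)
  refine ⟨?_⟩
  intro M hM
  set N := M.comap (QuotientGroup.mk' (Subgroup.center G)) with hNdef
  have hNn : N.Normal := hM.comap _
  rcases root_normal_dichotomy hS hcl hpart h3 h4 h2' ⟨A, hA⟩ hNn with hle | htop
  · left
    rw [eq_bot_iff]
    intro q hq
    obtain ⟨x, rfl⟩ := QuotientGroup.mk_surjective q
    have hx : x ∈ N := hq
    have := hle hx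
    rw [Subgroup.mem_bot, QuotientGroup.eq_one_iff]
    exact this
  · right
    rw [eq_top_iff]
    intro q _
    obtain ⟨x, rfl⟩ := QuotientGroup.mk_surjective q
    have hx : x ∈ N := by rw [htop]; trivial
    exact hx

end Main

/-- The family is a conjugacy class if `𝓕(S)` is connected. -/
lemma class_of_connected (h1 : IsConnectedFamily (FAdj S) S) :
    ∀ A ∈ S, ∀ C ∈ S, ∃ g : G, C = conjBy A g := by
  intro A hA C hC
  have hp := h1 A hA C hC
  induction hp with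
  | refl => exact ⟨1, by simp⟩
  | tail _ hadj ih =>
    obtain ⟨g, hg⟩ := ih hadj.1
    obtain ⟨x, _, hx⟩ := rop_exists_conj_right hadj.2.2
    refine ⟨x * g, ?_⟩
    rw [hx, hg, conjBy_conjBy]

/-- Every member has a rank one partner. -/
lemma partner_of_connected (h1 : IsConnectedFamily (FAdj S) S) (h2 : ∃ A ∈ S, ∃ B ∈ S, A ≠ B) :
    ∀ A ∈ S, ∃ B ∈ S, IsRankOnePair A B := by
  intro A hA
  obtain ⟨C, hC, hne⟩ : ∃ C ∈ S, A ≠ C := by
    obtain ⟨A₁, hA₁, B₁, hB₁, hne⟩ := h2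
    by_cases h : A = A₁
    · exact ⟨B₁, hB₁, h ▸ hne⟩
    · exact ⟨A₁, hA₁, h⟩
  have hp := h1 A hA C hC
  rcases Relation.ReflTransGen.cases_head hp with h | ⟨D, hadj, _⟩
  · exact absurd h hne
  · exact ⟨D, hadj.2.1, hadj.2.2⟩

/-- **S5033**. -/
theorem root_simplicity (hS : IsRootSubgroupSet S) (h2 : ∃ A ∈ S, ∃ B ∈ S, A ≠ B)
    (h1 : IsConnectedFamily (FAdj S) S)
    (h2' : ∀ A ∈ S, ∀ C ∈ S, A ≠ C → centralizingMembers S A ≠ centralizingMembers S C)
    (h3 : IsDegenerateRootSet S → ∀ A ∈ S, 3 < ENat.card A)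
    (h4 : ∀ A ∈ S, ∀ B ∈ rankOnePartners S A, IsSpecialRankOnePair A B) :
    (∀ A ∈ S, commutator G ⊔ A = ⊤ ∧ A ⊓ commutator G ≠ ⊥) ∧ IsQuasisimple ↥(commutator G) ∧
    (IsNondegenerateRootSet S → commutator G = ⊤) ∧
    ((∃ A ∈ S, ∃ B ∈ rankOnePartners S A, Group.IsPerfect ↥(A ⊔ B)) → commutator G = ⊤) := by
  have hcl := class_of_connected h1
  have hpart := partner_of_connected h1 h2
  have hne : S.Nonempty := by
    obtain ⟨A, hA, _⟩ := h2
    exact ⟨A, hA⟩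
  have hper : commutator G = ⊤ := root_perfect hS hcl hpart h3 h4
  have hq : IsQuasisimple G := root_quasisimple hS hcl hpart h3 h4 h2' hne
  refine ⟨?_, ?_, fun _ => hper, fun _ => hper⟩
  · intro A hA
    rw [hper]
    refine ⟨top_sup_eq _, ?_⟩
    rw [inf_top_eq]
    exact hS.ne_bot A hA
  · rw [hper]
    exact H07.isQuasisimple_of_mulEquiv Subgroup.topEquiv.symm hq

end Cfsg.Agent.H23
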