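import Cfsg.Agent.Lib.H23.FieldOrb
import Cfsg.Agent.Lib.H23.GalAct
import Cfsg.Agent.Lib.H22.Ord2
import Cfsg.Agent.Lib.H06.CharClifford
import Cfsg.Agent.Lib.H06.CyclicTI

/-!
# Faithful irreducible characters of `p`-groups: conjugates and Galois twists
-/

set_option autoImplicit false
set_option linter.unusedSectionVars false
set_option linter.style.haveILetI false
set_option linter.unusedSimpArgs false

namespace Cfsg.Agent.H23.FO

open Cfsg Cfsg.Agent Cfsg.Agent.H21 Cfsg.Agent.H06 Module
open scoped ComplexConjugate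

universe u

variable {P : Type u} [Group P] [Fintype P]

/-- The `x`-conjugate of a function on a normal subgroup. -/
def con (M : Subgroup P) [M.Normal] (ψ : M → ℂ) (x : P) : M → ℂ :=
  ψ ∘ (MulAut.conjNormal x⁻¹ : M ≃* M)

theorem con_apply (M : Subgroup P) [M.Normal] (ψ : M → ℂ) (x : P) (m : M) :
    con M ψ x m = ψ (MulAut.conjNormal x⁻¹ m) := rfl

theorem coe_conjNormal (M : Subgroup P) [M.Normal] (x : P) (m : M) :
    ((MulAut.conjNormal x⁻¹ m : M) : P) = x⁻¹ * m * x := by
  rw [MulAut.conjNormal_apply, inv_inv]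

theorem con_irr (M : Subgroup P) [M.Normal] {ψ : M → ℂ} (hψ : IsIrrCharacter M ψ) (x : P) :
    IsIrrCharacter M (con M ψ x) :=
  isIrrCharacter_comp_of_surjective (MulAut.conjNormal x⁻¹ : M ≃* M).toMonoidHom
    (MulAut.conjNormal x⁻¹ : M ≃* M).surjective hψ

variable (M : Subgroup P) [hM : M.Normal] [Fintype M]

theorem ind_on (ψ : M → ℂ) (m : M) :
    indFun M ψ (m : P) = (Nat.card M : ℂ)⁻¹ * ∑ x : P, con M ψ x m := by
  unfold indFun
  congr 1
  refine Finset.sum_congr rfl fun x _ => ?_
  rw [con_apply, ← coe_conjNormal]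
  exact extendByZero_coe M ψ _

theorem con_coset {ψ : M → ℂ} (hψ : IsCharacter M ψ) {x y : P} (h : x⁻¹ * y ∈ M) :
    con M ψ y = con M ψ x := by
  funext m
  rw [con_apply, con_apply]
  let m₀ : M := ⟨x⁻¹ * y, h⟩
  have h1 : (MulAut.conjNormal x⁻¹ m : M) = m₀ * (MulAut.conjNormal y⁻¹ m) * m₀⁻¹ := by
    apply Subtype.ext
    simp only [Subgroup.coe_mul, Subgroup.coe_inv, coe_conjNormal, m₀]
    group
  rw [h1]
  exact (isCharacter_conj hψ _ _).symm

/-- The set of conjugates has size at most the index. -/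
theorem ncard_con_le {ψ : M → ℂ} (hψ : IsCharacter M ψ) :
    (Set.range (con M ψ)).ncard ≤ M.index := by
  classical
  have h1 : Set.range (con M ψ) = Set.range (fun q : P ⧸ M => con M ψ q.out) := by
    ext η
    constructor
    · rintro ⟨x, rfl⟩
      refine ⟨(x : P ⧸ M), ?_⟩
      apply con_coset M hψ
      rw [← QuotientGroup.eq]
      exact (Quotient.out_eq' _).symm
    · rintro ⟨q, rfl⟩
      exact ⟨q.out, rfl⟩
  rw [h1, ← Set.image_univ]
  refine (Set.ncard_image_le (Set.toFinite _)).trans ?_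
  rw [Set.ncard_univ]
  rfl

/-- Constituents of the restriction of the induced character are conjugates. -/
theorem exists_con_of_inner {ψ : M → ℂ} (hψ : IsIrrCharacter M ψ) {η : M → ℂ}
    (hη : IsIrrCharacter M η) (h : classInner (fun m : M => indFun M ψ (m : P)) η ≠ 0) :
    ∃ x, con M ψ x = η := by
  classical
  by_contra hcon
  push Not at hcon
  apply h
  have h1 : (fun m : M => indFun M ψ (m : P)) = (Nat.card M : ℂ)⁻¹ • ∑ x : P, con M ψ x := by
    funext m
    rw [ind_on]
    simp [Finset.sum_apply]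
  rw [h1, classInner_smul_left, classInner_sum_left]
  rw [Finset.sum_eq_zero, mul_zero]
  intro x _
  exact classInner_irr_ne (con_irr M hψ x) hη (hcon x)

section Twist

variable {n : ℕ} [NeZero n]

theorem inner_ind_self {ψ : M → ℂ} (hψc : IsCharacter M ψ) (hχ : IsIrrCharacter P (indFun M ψ)) :
    classInner (fun m : M => indFun M ψ (m : P)) ψ ≠ 0 := by
  haveI : Fintype (IrrCharacter P) := Fintype.ofFinite _
  have h1 := frobenius_reciprocity M ψ (indFun M ψ)
    (isClassFunction_of_isCharacter (isCharacter_of_irr hχ))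
  rw [classInner_irr_self hχ] at h1
  intro h
  have h2 := classInner_comm_conj ψ (fun m : M => indFun M ψ (m : P))
  rw [h, ← h1] at h2
  simp at h2

end Twist

end Cfsg.Agent.H23.FO
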