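import Cfsg.Agent.Lib.H22.NormalAb
import Cfsg.Agent.Lib.H22.ExtraUnique
import Cfsg.Agent.Lib.H21.Residual
import Cfsg.Agent.Lib.H23.AcdTwo
import Cfsg.Agent.Lib.H23.LinInd
import Cfsg.Agent.Lib.H23.ProjReg
import Cfsg.Agent.Lib.H06.Brauer5
import Cfsg.Agent.Lib.H04.Cliff.Perm

/-!
# Groups with exactly two irreducible character degrees
-/

set_option autoImplicit false
set_option linter.unusedSectionVars false
set_option linter.style.haveILetI false
set_option linter.unusedSimpArgs false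

namespace Cfsg.Agent.H23.TwoDeg

open Cfsg Cfsg.Agent.H21 Cfsg.Agent.H06
open scoped commutatorElement

universe u

section General

variable {G : Type u} [Group G] [Finite G]

/-- A linear character is trivial on the commutator subgroup. -/
theorem linear_comm {ψ : G → ℂ} (hψ : IsCharacter G ψ) (h1 : charDegree ψ = 1) {w : G}
    (hw : w ∈ commutator G) : ψ w = ψ 1 := by
  let f : G →* ℂ :=
    { toFun := ψ
      map_one' := linear_one hψ h1
      map_mul' := linear_mul hψ h1 }
  have h2 : f.toHomUnits w = 1 := Abelianization.commutator_subset_ker f.toHomUnits hw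
  have h3 : ((f.toHomUnits w : ℂˣ) : ℂ) = ψ w := MonoidHom.coe_toHomUnits f w
  rw [← h3, h2, linear_one hψ h1]
  rfl

variable [Fintype G]

/-- A character all of whose constituents are linear is constant on the commutator subgroup. -/
theorem char_comm_eq {π : G → ℂ} (hπ : IsCharacter G π)
    (h : ∀ χ : IrrCharacter G, classInner π χ.1 ≠ 0 → charDegree χ.1 = 1) {w : G}
    (hw : w ∈ commutator G) : π w = π 1 := by
  classical
  haveI : Fintype (IrrCharacter G) := Fintype.ofFinite _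
  obtain ⟨m, hm, hm2⟩ := isCharacter_decomp hπ
  rw [hm]
  simp only [Finset.sum_apply, Pi.smul_apply]
  refine Finset.sum_congr rfl fun ψ _ => ?_
  by_cases h0 : m ψ = 0
  · simp [h0]
  · rw [linear_comm (isCharacter_of_irr ψ.2) (h ψ (by rw [hm2]; exact_mod_cast h0)) hw]

/-- Two distinct constituents: the degrees add up to at most the degree. -/
theorem two_constituents {π : G → ℂ} (hπ : IsCharacter G π) (χ ψ : IrrCharacter G) (hne : χ ≠ ψ)
    (h1 : classInner π χ.1 ≠ 0) (h2 : classInner π ψ.1 ≠ 0) {n : ℕ} (hn : π 1 = n) :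
    charDegree χ.1 + charDegree ψ.1 ≤ n := by
  classical
  haveI : Fintype (IrrCharacter G) := Fintype.ofFinite _
  obtain ⟨m, hm, hm2⟩ := isCharacter_decomp hπ
  have h3 : n = ∑ τ : IrrCharacter G, m τ * charDegree τ.1 := by
    have := congrFun hm 1
    simp only [Finset.sum_apply, Pi.smul_apply] at this
    rw [hn] at this
    have h4 : ∀ τ : IrrCharacter G, m τ • τ.1 1 = ((m τ * charDegree τ.1 : ℕ) : ℂ) := by
      intro τ
      rw [one_eq_charDegree (isCharacter_of_irr τ.2)]
      simp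
    simp only [h4] at this
    exact_mod_cast this
  have hχ : m χ ≠ 0 := by
    intro h
    apply h1
    rw [hm2, h]
    simp
  have hψ : m ψ ≠ 0 := by
    intro h
    apply h2
    rw [hm2, h]
    simp
  have h5 : m χ * charDegree χ.1 + m ψ * charDegree ψ.1 ≤ ∑ τ : IrrCharacter G, m τ * charDegree τ.1 := by
    have h6 := Finset.sum_le_sum_of_subset (f := fun τ : IrrCharacter G => m τ * charDegree τ.1)
      (Finset.subset_univ ({χ, ψ} : Finset (IrrCharacter G)))
    rw [Finset.sum_pair hne] at h6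
    exact h6
  rw [h3]
  refine le_trans ?_ h5
  exact Nat.add_le_add (Nat.le_mul_of_pos_left _ (Nat.pos_of_ne_zero hχ))
    (Nat.le_mul_of_pos_left _ (Nat.pos_of_ne_zero hψ))

/-- A subgroup of index `m` contains the commutator subgroup, when all degrees are `1` or `m`. -/
theorem comm_le_of_index {m : ℕ}
    (hcd : ∀ χ : IrrCharacter G, charDegree χ.1 = 1 ∨ charDegree χ.1 = m) (T : Subgroup G)
    (hT : T.index = m) : commutator G ≤ T := by
  classical
  haveI : Fintype (IrrCharacter G) := Fintype.ofFinite _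
  have hπ : IsCharacter G (indFun T (fun _ => (1 : ℂ))) := isCharacter_indFun T isCharacter_one
  have hπ1 : indFun T (fun _ => (1 : ℂ)) 1 = (m : ℂ) := by
    rw [indFun_one, hT]
    simp
  let one : IrrCharacter G := ⟨fun _ => 1, isIrrCharacter_one⟩
  have hone : classInner (indFun T (fun _ => (1 : ℂ))) one.1 ≠ 0 := by
    rw [frobenius_reciprocity T _ one.1 (isClassFunction_of_isCharacter (isCharacter_of_irr one.2))]
    have h1 : classInner (fun _ : T => (1 : ℂ)) (fun x : T => one.1 x) = 1 := by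
      have := classInner_irr_self (isIrrCharacter_one (G := T))
      exact this
    rw [h1]
    exact one_ne_zero
  have hdegone : charDegree one.1 = 1 := by
    have := one_eq_charDegree (isCharacter_of_irr one.2)
    have h2 : one.1 1 = 1 := rfl
    rw [h2] at this
    exact_mod_cast this.symm
  have hlin : ∀ χ : IrrCharacter G, classInner (indFun T (fun _ => (1 : ℂ))) χ.1 ≠ 0 →
      charDegree χ.1 = 1 := by
    intro χ hχ
    by_cases hone' : χ = one
    · rw [hone']; exact hdegone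
    · have h3 := two_constituents hπ χ one hone' hχ hone hπ1
      rw [hdegone] at h3
      rcases hcd χ with h | h
      · exact h
      · omega
  intro w hw
  have h4 := char_comm_eq hπ hlin hw
  rw [hπ1, H04.Cliff.indFun_one_eq_fix] at h4
  have h5 : Nat.card {q : G ⧸ T // w • q = q} = Nat.card (G ⧸ T) := by
    rw [← hT] at h4
    have h6 : ((Nat.card {q : G ⧸ T // w • q = q} : ℕ) : ℂ) = (T.index : ℂ) := by exact_mod_cast h4
    have h7 : Nat.card {q : G ⧸ T // w • q = q} = T.index := by exact_mod_cast h6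
    rw [h7]
    rfl
  have h8 : ∀ q : G ⧸ T, w • q = q := by
    intro q
    by_contra hq
    have h9 : Nat.card {q : G ⧸ T // w • q = q} < Nat.card (G ⧸ T) := by
      rw [Nat.card_eq_fintype_card, Nat.card_eq_fintype_card]
      exact Fintype.card_subtype_lt (x := q) hq
    omega
  have h10 := h8 (QuotientGroup.mk 1)
  have h11 : ((w * 1 : G) : G ⧸ T) = ((1 : G) : G ⧸ T) := h10
  rw [mul_one] at h11
  have h12 := QuotientGroup.eq.1 h11
  simpa using T.inv_mem h12

/-- **Taketa-style**: a monomial group with degrees `1` and `m` has abelian commutator subgroup. -/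
theorem comm_comm_of_monomial {m : ℕ}
    (hcd : ∀ χ : IrrCharacter G, charDegree χ.1 = 1 ∨ charDegree χ.1 = m)
    (hmono : ∀ χ : G → ℂ, IsIrrCharacter G χ → Brauer.IsMonomialChar G χ) :
    ∀ a ∈ commutator G, ∀ b ∈ commutator G, a * b = b * a := by
  classical
  intro a ha b hb
  by_contra hab
  set w := ⁅a, b⁆ with hw
  have hw1 : w ≠ 1 := by
    intro h
    rw [hw, commutatorElement_eq_one_iff_mul_comm] at h
    exact hab h
  have hwG : w ∈ commutator G := by
    rw [hw, commutatorElement_def]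
    exact (commutator G).mul_mem ((commutator G).mul_mem ((commutator G).mul_mem ha hb)
      ((commutator G).inv_mem ha)) ((commutator G).inv_mem hb)
  obtain ⟨χ, hχ⟩ := H22.exists_irr_ne_of_ne_one hw1
  have hχ1 : charDegree χ.1 ≠ 1 := fun h => hχ (linear_comm (isCharacter_of_irr χ.2) h hwG)
  have hχm : charDegree χ.1 = m := (hcd χ).resolve_left hχ1
  obtain ⟨T, l, hl⟩ := hmono χ.1 χ.2
  have hlc : IsCharacter T (fun t => ((l t : ℂˣ) : ℂ)) := isCharacter_hom l
  have hT : T.index = m := by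
    have h1 := one_eq_charDegree (isCharacter_of_irr χ.2)
    rw [hl, indFun_one] at h1
    have h2 : ((l 1 : ℂˣ) : ℂ) = 1 := by simp
    have h3 : (T.index : ℂ) = ((charDegree χ.1 : ℕ) : ℂ) := by
      rw [hl]
      simpa [h2] using h1
    rw [hχm] at h3
    exact_mod_cast h3
  have hle := comm_le_of_index hcd T hT
  apply hχ
  rw [hl]
  unfold indFun
  congr 1
  refine Finset.sum_congr rfl fun x _ => ?_
  have hc : ∀ c ∈ commutator G, x⁻¹ * c * x ∈ T := by
    intro c hc
    apply hle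
    have := (inferInstance : (commutator G).Normal).conj_mem c hc x⁻¹
    simpa using this
  have h2 : x⁻¹ * w * x = ⁅(⟨x⁻¹ * a * x, hc a ha⟩ : T), (⟨x⁻¹ * b * x, hc b hb⟩ : T)⁆ := by
    simp only [commutatorElement_def, Subgroup.coe_mul, Subgroup.coe_inv, hw]
    group
  have h3 : x⁻¹ * w * x ∈ T := hc w hwG
  have h4 : extendByZero T (fun t => ((l t : ℂˣ) : ℂ)) (x⁻¹ * w * x) = 1 := by
    have h5 := extendByZero_coe T (fun t => ((l t : ℂˣ) : ℂ)) ⟨_, h3⟩
    simp only at h5
    rw [h5]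
    have h6 : (⟨x⁻¹ * w * x, h3⟩ : T) =
        ⁅(⟨x⁻¹ * a * x, hc a ha⟩ : T), (⟨x⁻¹ * b * x, hc b hb⟩ : T)⁆ := Subtype.ext h2
    rw [h6]
    have h7 := Abelianization.commutator_subset_ker l
      (Subgroup.commutator_mem_commutator (Subgroup.mem_top (⟨x⁻¹ * a * x, hc a ha⟩ : T))
        (Subgroup.mem_top (⟨x⁻¹ * b * x, hc b hb⟩ : T)))
    rw [MonoidHom.mem_ker] at h7
    rw [h7]
    rfl
  have h8 : extendByZero T (fun t => ((l t : ℂˣ) : ℂ)) (x⁻¹ * 1 * x) = 1 := by
    have h5 := extendByZero_coe T (fun t => ((l t : ℂˣ) : ℂ)) ⟨x⁻¹ * 1 * x, by simp [T.one_mem]⟩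
    simp only at h5
    rw [h5]
    have h6 : (⟨x⁻¹ * 1 * x, by simp [T.one_mem]⟩ : T) = 1 := Subtype.ext (by simp)
    rw [h6]
    simp
  rw [h4, h8]

end General

section Nil

variable {G : Type u} [Group G] [Finite G]

/-- The nilpotent case of the commutator statement. -/
theorem comm_comm_of_nilpotent {m : ℕ} (hnil : Group.IsNilpotent G)
    (hcd : ∀ χ : IrrCharacter G, charDegree χ.1 = 1 ∨ charDegree χ.1 = m) :
    ∀ a ∈ commutator G, ∀ b ∈ commutator G, a * b = b * a := by
  classical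
  haveI := Fintype.ofFinite G
  refine comm_comm_of_monomial hcd fun χ hχ => ?_
  exact Brauer.monomial_of_nilpotent _ G hnil le_rfl χ hχ

/-- The structure of a nilpotent group with two degrees. -/
theorem nil_structure {m : ℕ} (hnil : Group.IsNilpotent G)
    (hcd : ∀ χ : IrrCharacter G, charDegree χ.1 = 1 ∨ charDegree χ.1 = m)
    (hm : ∃ χ : IrrCharacter G, charDegree χ.1 = m) (hm1 : m ≠ 1) :
    ∃ p e : ℕ, p.Prime ∧ m = p ^ e ∧ ∃ P A : Subgroup G, P.Normal ∧ A.Normal ∧ IsPGroup p P ∧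
      (∀ a ∈ A, ∀ b ∈ A, a * b = b * a) ∧ P ⊓ A = ⊥ ∧ P ⊔ A = ⊤ := by
  classical
  haveI := Fintype.ofFinite G
  have hnc : ∃ a b : G, a * b ≠ b * a := by
    by_contra hcon
    push Not at hcon
    obtain ⟨χ, hχ⟩ := hm
    apply hm1
    rw [← hχ]
    exact irr_degree_one_of_comm hcon χ.2
  obtain ⟨a, b, hab⟩ := hnc
  have hw1 : ⁅a, b⁆ ≠ 1 := by
    intro h
    rw [commutatorElement_eq_one_iff_mul_comm] at h
    exact hab h
  have hwG : ⁅a, b⁆ ∈ commutator G :=
    Subgroup.commutator_mem_commutator (Subgroup.mem_top a) (Subgroup.mem_top b)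
  obtain ⟨p, hp, hpd⟩ := Nat.exists_prime_and_dvd (fun h => hw1 (orderOf_eq_one_iff.1 h))
  haveI : Fact p.Prime := ⟨hp⟩
  let Q := pPrimeCore p G
  have hQc : (Nat.card Q).Coprime p := H06.coprime_card_pPrimeCore p
  haveI hQn : Q.Normal := pPrimeCore_normal p G
  have hQp : IsPGroup p (G ⧸ Q) := H23.ProjReg.quot_core_isPGroup hnil p
  have hnotle : ¬ commutator G ≤ Q := by
    intro hle
    have h1 : orderOf ⁅a, b⁆ ∣ Nat.card Q := by
      have h2 := orderOf_dvd_natCard (⟨_, hle hwG⟩ : Q)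
      rwa [Subgroup.orderOf_mk] at h2
    have h3 := hp.coprime_iff_not_dvd.1 hQc.symm
    exact h3 (hpd.trans h1)
  obtain ⟨β, hβ, hβk⟩ := H22.exists_nonlinear_of_not_le Q hnotle
  obtain ⟨β', hβ', hβe⟩ := exists_descend Q β.2 hβk
  have hdeg : charDegree β.1 = charDegree β' := by
    rw [← hβe, H22.charDegree_comp_mk]
  obtain ⟨e, he⟩ : ∃ e, m = p ^ e := by
    obtain ⟨c, hc⟩ := IsPGroup.iff_card.1 hQp
    haveI : Fintype (G ⧸ Q) := Fintype.ofFinite _
    haveI : Fintype (IrrCharacter (G ⧸ Q)) := Fintype.ofFinite _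
    have h1 := H22.charDegree_dvd_card (⟨β', hβ'⟩ : IrrCharacter (G ⧸ Q))
    rw [hc] at h1
    obtain ⟨e, -, he⟩ := (Nat.dvd_prime_pow hp).1 h1
    refine ⟨e, ?_⟩
    rw [← he, ← hdeg]
    exact ((hcd β).resolve_left hβ).symm
  refine ⟨p, e, hp, he, ?_⟩
  obtain ⟨S⟩ : Nonempty (Sylow p G) := inferInstance
  have hSn : (S : Subgroup G).Normal := by
    have h := (Group.isNilpotent_of_finite_tfae (G := G)).out 0 3
    exact h.1 hnil p inferInstance S
  -- the complement is abelian
  have hQab : ∀ a ∈ Q, ∀ b ∈ Q, a * b = b * a := by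
    have h1 : ∀ θ : IrrCharacter Q, charDegree θ.1 = 1 := by
      intro θ
      haveI : Fintype Q := Fintype.ofFinite _
      haveI : Fintype (IrrCharacter G) := Fintype.ofFinite _
      haveI : Fintype (IrrCharacter Q) := Fintype.ofFinite _
      obtain ⟨ψ, hψ⟩ := H22.exists_irr_over Q θ.2
      obtain ⟨e', -, he', -⟩ := H22.degree_over Q θ.2 ψ hψ
      have h2 : charDegree θ.1 ∣ charDegree ψ.1 := by
        rw [he']
        exact Dvd.intro_left _ rfl
      have h3 : charDegree θ.1 ∣ Nat.card Q := H22.charDegree_dvd_card θ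
      have h4 : Nat.Coprime (charDegree θ.1) p := Nat.Coprime.coprime_dvd_left h3 hQc
      rcases hcd ψ with h | h
      · rw [h] at h2
        exact Nat.dvd_one.1 h2
      · rw [h, he] at h2
        exact Nat.Coprime.eq_one_of_dvd (Nat.Coprime.pow_right e h4) h2
    intro a ha b hb
    have := H22.comm_of_degrees_one h1 (⟨a, ha⟩ : Q) ⟨b, hb⟩
    exact congrArg Subtype.val this
  have hSp : IsPGroup p (S : Subgroup G) := S.isPGroup'
  have hcop : Nat.Coprime (Nat.card (S : Subgroup G)) (Nat.card Q) := by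
    obtain ⟨c, hc⟩ := IsPGroup.iff_card.1 hSp
    rw [hc]
    exact Nat.Coprime.pow_left _ hQc.symm
  have hcard : Nat.card (S : Subgroup G) * Nat.card Q = Nat.card G := by
    obtain ⟨c, hc⟩ := IsPGroup.iff_card.1 hQp
    have h1 : Nat.card G = Nat.card Q * p ^ c := by
      rw [← hc]
      exact (Subgroup.card_mul_index Q).symm
    have h2 := S.card_eq_multiplicity
    have h3 : (Nat.card G).factorization p = c := by
      rw [h1, Nat.factorization_mul Nat.card_pos.ne' (pow_ne_zero _ hp.ne_zero)]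
      simp only [Finsupp.add_apply]
      rw [Nat.factorization_eq_zero_of_not_dvd (hp.coprime_iff_not_dvd.1 hQc.symm), hp.factorization_pow]
      simp
    rw [h1]
    rw [h2, h3, mul_comm]
  have hcomp := Subgroup.isComplement'_of_coprime hcard hcop
  refine ⟨S, Q, hSn, hQn, hSp, hQab, ?_, hcomp.sup_eq_top⟩
  exact (Subgroup.disjoint_of_coprime_natCard hcop).eq_bot

end Nil

section Res

variable {G : Type u} [Group G] [Finite G]

/-- The normal Hall subgroup `L`. -/
theorem exists_L {m : ℕ} (hm0 : m ≠ 0)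
    (hcd : ∀ χ : IrrCharacter G, charDegree χ.1 = 1 ∨ charDegree χ.1 = m) :
    ∃ (L : Subgroup G) (_ : L.Normal), Nat.Coprime (Nat.card L) m ∧ Group.IsNilpotent (G ⧸ L) ∧
      ∀ q : ℕ, q.Prime → q ∣ L.index → q ∣ m := by
  classical
  let ι := {p // p ∈ m.primeFactors}
  have hι : ∀ p : ι, p.1.Prime := fun p => Nat.prime_of_mem_primeFactors p.2
  haveI hf : ∀ p : ι, Fact p.1.Prime := fun p => ⟨hι p⟩
  haveI hn : ∀ p : ι, (pResidual p.1 G).Normal := fun p => H13.pResidual_normal'
  let f : G →* ∀ p : ι, G ⧸ pResidual p.1 G := MonoidHom.pi fun p => QuotientGroup.mk' _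
  have hmem : ∀ g, g ∈ f.ker ↔ ∀ p : ι, g ∈ pResidual p.1 G := by
    intro g
    rw [MonoidHom.mem_ker]
    constructor
    · intro h p
      have := congrFun h p
      exact (QuotientGroup.eq_one_iff g).1 this
    · intro h
      funext p
      exact (QuotientGroup.eq_one_iff g).2 (h p)
  have hnil1 : ∀ p : ι, Group.IsNilpotent (G ⧸ pResidual p.1 G) := fun p =>
    (H13.isPGroup_quotient_pResidual (p := p.1) (G := G)).isNilpotent
  haveI := hnil1
  have hcard : ∀ p : ι, ¬ p.1 ∣ Nat.card (pResidual p.1 G) := by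
    intro p
    refine H21.normal_complement_of_degrees (p := p.1) fun χ hχ => ?_
    rw [(hcd χ).resolve_left hχ]
    exact Nat.dvd_of_mem_primeFactors p.2
  refine ⟨f.ker, inferInstance, ?_, ?_, ?_⟩
  · rw [Nat.coprime_comm]
    refine Nat.coprime_of_dvd ?_
    intro k hk hkm hkL
    let p : ι := ⟨k, Nat.mem_primeFactors.2 ⟨hk, hkm, hm0⟩⟩
    apply hcard p
    refine hkL.trans (Subgroup.card_dvd_of_le ?_)
    intro g hg
    exact (hmem g).1 hg p
  · let F : G ⧸ f.ker →* ∀ p : ι, G ⧸ pResidual p.1 G := QuotientGroup.kerLift f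
    have hF : Function.Injective F := QuotientGroup.kerLift_injective f
    refine Subgroup.isNilpotent_of_ker_le_center F ?_
    rw [(MonoidHom.ker_eq_bot_iff F).2 hF]
    exact bot_le
  · intro q hq hd
    let F : G ⧸ f.ker →* ∀ p : ι, G ⧸ pResidual p.1 G := QuotientGroup.kerLift f
    have hF : Function.Injective F := QuotientGroup.kerLift_injective f
    have h1 : Nat.card (G ⧸ f.ker) ∣ Nat.card (∀ p : ι, G ⧸ pResidual p.1 G) := by
      have h2 := Subgroup.card_subgroup_dvd_card F.range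
      rwa [Nat.card_congr (MonoidHom.ofInjective hF).toEquiv.symm] at h2
    rw [Nat.card_pi] at h1
    have h3 : q ∣ ∏ p : ι, Nat.card (G ⧸ pResidual p.1 G) := (show q ∣ Nat.card (G ⧸ f.ker) from hd).trans h1
    obtain ⟨p, -, hp⟩ := (Prime.dvd_finsetProd_iff hq.prime _).1 h3
    obtain ⟨c, hc⟩ := IsPGroup.iff_card.1 (H13.isPGroup_quotient_pResidual (p := p.1) (G := G))
    rw [hc] at hp
    have h4 := (Nat.prime_dvd_prime_iff_eq hq (hι p)).1 (hq.dvd_of_dvd_pow hp)
    rw [h4]
    exact Nat.dvd_of_mem_primeFactors p.2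

/-- `L` is abelian. -/
theorem L_abelian {m : ℕ} (L : Subgroup G) [hL : L.Normal] (hc : Nat.Coprime (Nat.card L) m)
    (hcd : ∀ χ : IrrCharacter G, charDegree χ.1 = 1 ∨ charDegree χ.1 = m) (a b : L) :
    a * b = b * a := by
  classical
  haveI := Fintype.ofFinite G
  refine H22.comm_of_degrees_one (fun θ => ?_) a b
  haveI : Fintype L := Fintype.ofFinite _
  haveI : Fintype (IrrCharacter G) := Fintype.ofFinite _
  haveI : Fintype (IrrCharacter L) := Fintype.ofFinite _
  obtain ⟨ψ, hψ⟩ := H22.exists_irr_over L θ.2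
  obtain ⟨e', -, he', -⟩ := H22.degree_over L θ.2 ψ hψ
  have h2 : charDegree θ.1 ∣ charDegree ψ.1 := by
    rw [he']
    exact Dvd.intro_left _ rfl
  have h3 : charDegree θ.1 ∣ Nat.card L := H22.charDegree_dvd_card θ
  rcases hcd ψ with h | h
  · rw [h] at h2
    exact Nat.dvd_one.1 h2
  · rw [h] at h2
    exact Nat.eq_one_of_dvd_coprimes hc h3 h2

end Res

section Main

variable {G : Type u} [Group G] [Finite G] {L : Subgroup G} [hL : L.Normal]

/-- The stabilizer of a linear character of a normal subgroup. -/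
def stb (ω : L →* ℂˣ) : Subgroup G where
  carrier := {g | ∀ n : L, ω (MulAut.conjNormal g n) = ω n}
  one_mem' := by
    intro n
    simp
  mul_mem' := by
    intro a b ha hb n
    rw [map_mul, MulAut.mul_apply, ha, hb]
  inv_mem' := by
    intro g hg n
    rw [← hg (MulAut.conjNormal g⁻¹ n), ← MulAut.mul_apply, ← map_mul]
    simp

theorem mem_stb {ω : L →* ℂˣ} {g : G} : g ∈ stb ω ↔ ∀ n : L, ω (MulAut.conjNormal g n) = ω n :=
  Iff.rfl

theorem le_stb (hab : ∀ a b : L, a * b = b * a) (ω : L →* ℂˣ) : L ≤ stb ω := by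
  intro g hg n
  congr 1
  apply Subtype.ext
  have := congrArg Subtype.val (hab ⟨g, hg⟩ n)
  simp only [Subgroup.coe_mul] at this
  rw [MulAut.conjNormal_apply, this]
  group

/-- Twisting a linear character of `L`. -/
noncomputable def tw (g : G) (ω : L →* ℂˣ) : L →* ℂˣ :=
  ω.comp (MulAut.conjNormal g : L ≃* L).toMonoidHom

theorem tw_apply (g : G) (ω : L →* ℂˣ) (n : L) : tw g ω n = ω (MulAut.conjNormal g n) := rfl

theorem tw_mul (g : G) (ω η : L →* ℂˣ) : tw g (ω * η) = tw g ω * tw g η := rfl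

theorem tw_div (g : G) (ω η : L →* ℂˣ) : tw g (ω / η) = tw g ω / tw g η := by
  ext n
  simp [tw_apply]

theorem tw_one_left (ω : L →* ℂˣ) : tw (1 : G) ω = ω := by
  ext n
  simp [tw_apply]

theorem tw_one_right (g : G) : tw g (1 : L →* ℂˣ) = 1 := rfl

theorem tw_tw (g h : G) (ω : L →* ℂˣ) : tw g (tw h ω) = tw (h * g) ω := by
  ext n
  simp [tw_apply, MulAut.mul_apply]

theorem mem_stab_iff {ω : L →* ℂˣ} {g : G} : g ∈ stb ω ↔ tw g ω = ω := by
  rw [mem_stb]
  constructor
  · intro h
    ext n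
    rw [tw_apply, h]
  · intro h n
    rw [← tw_apply, h]

/-- Separation of points by linear characters. -/
theorem sep (hab : ∀ a b : L, a * b = b * a) {x : L} (hx : x ≠ 1) : ∃ ω : L →* ℂˣ, ω x ≠ 1 := by
  classical
  haveI : Fintype L := Fintype.ofFinite _
  obtain ⟨θ, hθ⟩ := H22.exists_irr_ne_of_ne_one hx
  have h1 : charDegree θ.1 = 1 := irr_degree_one_of_comm hab θ.2
  have hc := isCharacter_of_irr θ.2
  let f : L →* ℂ :=
    { toFun := θ.1
      map_one' := linear_one hc h1
      map_mul' := linear_mul hc h1 }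
  refine ⟨f.toHomUnits, fun h => hθ ?_⟩
  have h3 : ((f.toHomUnits x : ℂˣ) : ℂ) = θ.1 x := MonoidHom.coe_toHomUnits f x
  rw [← h3, h, linear_one hc h1]
  rfl

theorem mem_centralizer_iff' {g : G} :
    g ∈ Subgroup.centralizer (L : Set G) ↔ ∀ n : L, MulAut.conjNormal g n = n := by
  rw [Subgroup.mem_centralizer_iff]
  constructor
  · intro h n
    apply Subtype.ext
    rw [MulAut.conjNormal_apply, ← h n n.2]
    group
  · intro h n hn
    have h1 := congrArg Subtype.val (h ⟨n, hn⟩)
    rw [MulAut.conjNormal_apply] at h1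
    simp only at h1
    rw [mul_inv_eq_iff_eq_mul] at h1
    exact h1.symm

theorem centralizer_le_stab (ω : L →* ℂˣ) : Subgroup.centralizer (L : Set G) ≤ stb ω := by
  intro g hg n
  rw [mem_centralizer_iff'.1 hg n]

theorem mem_centralizer_of_all (hab : ∀ a b : L, a * b = b * a) {g : G}
    (h : ∀ ω : L →* ℂˣ, g ∈ stb ω) : g ∈ Subgroup.centralizer (L : Set G) := by
  rw [mem_centralizer_iff']
  intro n
  by_contra hn
  have hx : (MulAut.conjNormal g n) * n⁻¹ ≠ 1 := fun h1 => hn (mul_inv_eq_one.1 h1)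
  obtain ⟨ω, hω⟩ := sep hab hx
  apply hω
  rw [map_mul, h ω n, map_inv, mul_inv_cancel]

/-- The stabilizer of a non-invariant linear character has index `m`. -/
theorem stab_index (hab : ∀ a b : L, a * b = b * a) (hcop : Nat.Coprime (Nat.card L) L.index) {m : ℕ}
    (hcd : ∀ χ : IrrCharacter G, charDegree χ.1 = 1 ∨ charDegree χ.1 = m) (ω : L →* ℂˣ)
    (hω : stb ω ≠ ⊤) : (stb ω).index = m := by
  classical
  haveI := Fintype.ofFinite G
  haveI : Fintype L := Fintype.ofFinite _
  haveI : Fintype (stb ω) := Fintype.ofFinite _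
  set T := stb ω with hT
  have hNI : L ≤ T := le_stb hab ω
  let φ : L → ℂ := fun n => (ω n : ℂ)
  have hφ : IsIrrCharacter L φ := isIrrCharacter_hom ω
  let K : Subgroup T := L.subgroupOf T
  haveI hKn : K.Normal := inferInstance
  let θ : IrrCharacter K := ⟨subTheta L T φ, subTheta_irr L T hNI hφ⟩
  have hcK : Nat.card K = Nat.card L := Nat.card_congr (Subgroup.subgroupOfEquivOfLe hNI).toEquiv
  have hiK : K.index ∣ L.index := by
    have := Subgroup.relIndex_mul_index hNI
    exact Dvd.intro _ this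
  have hcopK : Nat.Coprime K.index (Nat.card K) := by
    rw [hcK]
    exact (Nat.Coprime.coprime_dvd_right hiK hcop).symm
  have hinv : ∀ (g : T) (n : K), θ.1 ⟨g * n * g⁻¹, hKn.conj_mem n n.2 g⟩ = θ.1 n := by
    intro g n
    have h1 := (g.2 : (g : G) ∈ stb ω) ⟨((n : T) : G), Subgroup.mem_subgroupOf.mp n.2⟩
    show ((ω _ : ℂˣ) : ℂ) = ((ω _ : ℂˣ) : ℂ)
    rw [← h1]
    rfl
  obtain ⟨ξ, hξ⟩ := H21.exists_ext_coprime K hcopK θ hinv
  have hext : IsIrrExt L T hNI φ ξ.1 := by
    refine ⟨ξ.2, fun n => ?_⟩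
    have h1 := hξ ⟨⟨n, hNI n.2⟩, Subgroup.mem_subgroupOf.2 n.2⟩
    exact h1
  have hTiff : ∀ g : G, g ∈ T ↔ ∀ h : L, φ ⟨g * h * g⁻¹, hL.conj_mem h h.2 g⟩ = φ h := by
    intro g
    constructor
    · intro hg h
      have h1 := (mem_stb.1 hg) h
      show ((ω _ : ℂˣ) : ℂ) = ((ω _ : ℂˣ) : ℂ)
      rw [← h1]
      rfl
    · intro hg
      rw [hT, mem_stb]
      intro h
      apply Units.ext
      exact hg h
  have hirr := hext.ind_irr hφ hTiff
  have hdeg := hext.degree hφ
  have hφ1 : charDegree φ = 1 := charDegree_hom ω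
  rw [hφ1, one_mul] at hdeg
  rcases hcd ⟨_, hirr⟩ with h | h
  · exfalso
    apply hω
    have h1 : charDegree (indFun T ξ.1) = 1 := h
    rw [hdeg] at h1
    exact Subgroup.index_eq_one.1 h1
  · have h1 : charDegree (indFun T ξ.1) = m := h
    rw [← hdeg]
    exact h1

/-- The coprimality cancellation. -/
theorem coprime_elim {n : ℕ} (hcop : Nat.Coprime (Nat.card L) n) (w : L →* ℂˣ) (h : w ^ n = 1) : w = 1 := by
  have h1 : w ^ Nat.card L = 1 := by
    ext x
    simp only [MonoidHom.pow_apply, ← map_pow, pow_card_eq_one', map_one, MonoidHom.one_apply]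
  have h2 : w ^ Nat.gcd (Nat.card L) n = 1 := (pow_gcd_eq_one (M := L →* ℂˣ)).2 ⟨h1, h⟩
  rw [Nat.Coprime.gcd_eq_one hcop] at h2
  exact (pow_one (M := L →* ℂˣ) w).symm.trans h2

/-- The trace. -/
noncomputable def trc (y : G) (n : ℕ) (w : L →* ℂˣ) : L →* ℂˣ :=
  ∏ i ∈ Finset.range n, tw (y ^ i) w

theorem trc_of_fixed {y : G} {w : L →* ℂˣ} (h : tw y w = w) (n : ℕ) : trc y n w = w ^ n := by
  have h1 : ∀ i : ℕ, tw (y ^ i) w = w := by
    intro i
    induction i with
    | zero => simp [tw_one_left]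
    | succ i ih =>
      rw [pow_succ, ← tw_tw, ih, h]
  simp [trc, h1]

theorem trc_diff (y : G) (n : ℕ) (μ : L →* ℂˣ) : trc y n (tw y μ / μ) = tw (y ^ n) μ / μ := by
  have h1 : ∀ i : ℕ, tw (y ^ i) (tw y μ / μ) = tw (y ^ (i + 1)) μ / tw (y ^ i) μ := by
    intro i
    rw [tw_div, tw_tw, pow_succ']
  simp only [trc, h1]
  rw [Finset.prod_range_div (fun i => tw (y ^ i) μ) n]
  simp [tw_one_left]

/-- For normal `A`... the main step: the stabilizers equal the centralizer. -/
theorem stab_le_centralizer (hab : ∀ a b : L, a * b = b * a)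
    (hcop : Nat.Coprime (Nat.card L) L.index) {m : ℕ}
    (hind : ∀ ω : L →* ℂˣ, stb ω ≠ ⊤ → (stb ω).index = m)
    (hcomm : ∀ (g h : G) (ω : L →* ℂˣ), tw g (tw h ω) = tw h (tw g ω))
    (lam : L →* ℂˣ) (hlam : stb lam ≠ ⊤) : stb lam ≤ Subgroup.centralizer (L : Set G) := by
  classical
  intro y hy
  by_contra hyA
  obtain ⟨μ, hμ⟩ : ∃ μ : L →* ℂˣ, y ∉ stb μ := by
    by_contra hcon
    push Not at hcon
    exact hyA (mem_centralizer_of_all hab hcon)
  set n := L.index with hn
  have hyn : tw (y ^ n) μ = μ := by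
    have h1 : y ^ n ∈ L := Subgroup.pow_index_mem L y
    have h2 := le_stb hab μ h1
    exact mem_stab_iff.1 h2
  set μ₁ := tw y μ / μ with hμ₁
  have hμ₁ne : μ₁ ≠ 1 := by
    intro h
    apply hμ
    rw [mem_stab_iff]
    exact (div_eq_one (a := tw y μ) (b := μ)).1 h
  have htr1 : trc y n μ₁ = 1 := by
    rw [hμ₁, trc_diff, hyn]
    exact div_self' μ
  have hle : stb (lam * μ₁) ≤ stb lam ⊓ stb μ₁ := by
    intro s hs
    rw [mem_stab_iff, tw_mul] at hs
    set w := tw s lam / lam with hw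
    have hw2 : w = μ₁ / tw s μ₁ := by
      exact (@div_eq_div_iff_mul_eq_mul (L →* ℂˣ) _ _ _ _ _).2 (hs.trans (mul_comm (G := L →* ℂˣ) _ _))
    have hyl : tw y lam = lam := mem_stab_iff.1 hy
    have hfix : tw y w = w := by
      rw [hw, tw_div, hcomm, hyl]
    have h1 := trc_of_fixed hfix n
    have h2 : trc y n w = 1 := by
      rw [hw2]
      have h3 : trc y n (μ₁ / tw s μ₁) = trc y n μ₁ / tw s (trc y n μ₁) := by
        simp only [trc]
        have h4 : ∀ (S : Finset ℕ), tw s (∏ i ∈ S, tw (y ^ i) μ₁) = ∏ i ∈ S, tw s (tw (y ^ i) μ₁) := by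
          intro S
          induction S using Finset.induction_on with
          | empty => simp [tw_one_right]
          | insert a S ha ih => rw [Finset.prod_insert ha, Finset.prod_insert ha, tw_mul, ih]
        rw [h4]
        refine Eq.trans ?_ (Finset.prod_div_distrib (G := L →* ℂˣ) _ _)
        refine Finset.prod_congr rfl fun i _ => ?_
        rw [tw_div, hcomm]
      rw [h3, htr1, tw_one_right]
      exact div_one (1 : L →* ℂˣ)
    rw [h2] at h1
    have hw1 : w = 1 := coprime_elim hcop w h1.symm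
    refine Subgroup.mem_inf.2 ⟨mem_stab_iff.2 ((div_eq_one (a := tw s lam) (b := lam)).1 hw1), mem_stab_iff.2 ?_⟩
    rw [hw2] at hw1
    exact ((div_eq_one (a := μ₁) (b := tw s μ₁)).1 hw1).symm
  have hle1 : stb (lam * μ₁) ≤ stb lam := hle.trans inf_le_left
  have hne : stb (lam * μ₁) ≠ ⊤ := by
    intro h
    rw [h] at hle1
    exact hlam (top_le_iff.1 hle1)
  have heq : stb lam ≤ stb (lam * μ₁) := by
    have h1 := Subgroup.relIndex_mul_index hle1
    rw [hind _ hne, hind _ hlam] at h1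
    have hm0 : m ≠ 0 := by
      rw [← hind _ hlam]
      exact Subgroup.index_ne_zero_of_finite
    have h2 : (stb (lam * μ₁)).relIndex (stb lam) = 1 := by
      apply Nat.eq_of_mul_eq_mul_right (Nat.pos_of_ne_zero hm0)
      rw [h1, one_mul]
    exact Subgroup.relIndex_eq_one.1 h2
  have hyμ : y ∈ stb μ₁ := (hle (heq hy)).2 
  have h1 := trc_of_fixed (mem_stab_iff.1 hyμ) n
  rw [htr1] at h1
  exact hμ₁ne (coprime_elim hcop μ₁ h1.symm)

/-- The stabilizers are all normal with the same quotient action. -/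
theorem tw_comm_of_comm (h0 : ∀ (c : G) (ω : L →* ℂˣ), c ∈ commutator G → tw c ω = ω) (g h : G)
    (ω : L →* ℂˣ) : tw g (tw h ω) = tw h (tw g ω) := by
  rw [tw_tw, tw_tw]
  have h1 : h * g = ⁅h, g⁆ * (g * h) := by
    simp only [commutatorElement_def]
    group
  rw [h1, ← tw_tw, h0 _ _ (Subgroup.commutator_mem_commutator (Subgroup.mem_top h) (Subgroup.mem_top g))]

/-- `C_G(L)` is abelian. -/
theorem cent_abelian (hab : ∀ a b : L, a * b = b * a) (hcop : Nat.Coprime (Nat.card L) L.index)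
    {m : ℕ} (hm1 : m ≠ 1) (hcd : ∀ χ : IrrCharacter G, charDegree χ.1 = 1 ∨ charDegree χ.1 = m)
    (lam : L →* ℂˣ) (hlam : stb lam = Subgroup.centralizer (L : Set G))
    (hidx : (Subgroup.centralizer (L : Set G)).index = m) :
    ∀ a ∈ Subgroup.centralizer (L : Set G), ∀ b ∈ Subgroup.centralizer (L : Set G),
      a * b = b * a := by
  classical
  haveI := Fintype.ofFinite G
  haveI : Fintype L := Fintype.ofFinite _
  set A := Subgroup.centralizer (L : Set G) with hA
  haveI hAn : A.Normal := Subgroup.normal_centralizer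
  haveI : Fintype A := Fintype.ofFinite _
  haveI : Fintype (IrrCharacter G) := Fintype.ofFinite _
  haveI : Fintype (IrrCharacter A) := Fintype.ofFinite _
  have hLA : L ≤ A := by
    intro n hn
    rw [hA, Subgroup.mem_centralizer_iff]
    intro h hh
    exact congrArg Subtype.val (hab ⟨h, hh⟩ ⟨n, hn⟩)
  let φ : L → ℂ := fun n => (lam n : ℂ)
  have hφ : IsIrrCharacter L φ := isIrrCharacter_hom lam
  have hTiff : ∀ g : G, g ∈ A ↔ ∀ h : L, φ ⟨g * h * g⁻¹, hL.conj_mem h h.2 g⟩ = φ h := by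
    intro g
    rw [← hlam]
    constructor
    · intro hg h
      have h1 := (mem_stb.1 hg) h
      show ((lam _ : ℂˣ) : ℂ) = ((lam _ : ℂˣ) : ℂ)
      rw [← h1]
      rfl
    · intro hg
      rw [mem_stb]
      intro h
      apply Units.ext
      exact hg h
  let K : Subgroup A := L.subgroupOf A
  haveI hKn : K.Normal := inferInstance
  haveI : Fintype K := Fintype.ofFinite _
  let Φ := subTheta L A φ
  have hΦ : IsIrrCharacter K Φ := subTheta_irr L A hLA hφ
  have hπ : IsCharacter A (indFun K Φ) := isCharacter_indFun K (isCharacter_of_irr hΦ)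
  have hlin : ∀ θ : IrrCharacter A, classInner (indFun K Φ) θ.1 ≠ 0 → charDegree θ.1 = 1 := by
    intro θ hθ
    obtain ⟨e, he, -, hres⟩ := restrict_of_inner_ne L A hLA hφ hTiff θ.2 hθ
    have he' : (e : ℂ) ≠ 0 := Nat.cast_ne_zero.2 he
    have hI : H06.inertiaSub A θ.1 ≤ A := by
      intro g hg
      rw [← hlam, mem_stb]
      intro n
      have h1 := hg ⟨n, hLA n.2⟩
      have h2 := hres ⟨g * n * g⁻¹, hL.conj_mem n n.2 g⟩
      have h3 := hres n
      have h4 : e * φ ⟨g * n * g⁻¹, hL.conj_mem n n.2 g⟩ = e * φ n := by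
        rw [← h2, ← h3]
        exact h1
      apply Units.ext
      exact mul_left_cancel₀ he' h4
    obtain ⟨ψ, hψ⟩ := H22.exists_irr_over A θ.2
    obtain ⟨e', he0, hdeg, -⟩ := H22.degree_over A θ.2 ψ hψ
    have hdvd : m ∣ (H06.inertiaSub A θ.1).index := hidx ▸ Subgroup.index_dvd_of_le hI
    obtain ⟨t, ht⟩ := hdvd
    have hθ1 := irr_charDegree_pos θ.2
    rcases hcd ψ with h | h
    · exfalso
      rw [h, ht] at hdeg
      have h5 : m ∣ 1 := by
        rw [hdeg]
        exact Dvd.dvd.mul_right (Dvd.dvd.mul_left (Dvd.intro t rfl) e') _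
      exact hm1 (Nat.dvd_one.1 h5)
    · rw [h, ht] at hdeg
      have hm0 : 0 < m := by
        rcases Nat.eq_zero_or_pos m with h0 | h0
        · exfalso
          rw [← h] at h0
          exact (irr_charDegree_pos ψ.2).ne' h0
        · exact h0
      have h6 : m * 1 = m * (e' * t * charDegree θ.1) := by
        rw [mul_one]
        calc m = e' * (m * t) * charDegree θ.1 := hdeg
          _ = m * (e' * t * charDegree θ.1) := by ring
      have h7 := Nat.eq_of_mul_eq_mul_left hm0 h6
      exact Nat.eq_one_of_mul_eq_one_left h7.symm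
  intro a ha b hb
  let a' : A := ⟨a, ha⟩
  let b' : A := ⟨b, hb⟩
  have hwK : ⁅a', b'⁆ ∈ K := by
    by_contra hcon
    have h1 := char_comm_eq hπ hlin
      (Subgroup.commutator_mem_commutator (Subgroup.mem_top a') (Subgroup.mem_top b'))
    rw [H06.indFun_of_not_mem K Φ hcon, indFun_one] at h1
    have h2 : Φ 1 ≠ 0 := by
      rw [one_eq_charDegree (isCharacter_of_irr hΦ)]
      exact Nat.cast_ne_zero.2 (irr_charDegree_pos hΦ).ne'
    have h3 : (K.index : ℂ) ≠ 0 := Nat.cast_ne_zero.2 Subgroup.index_ne_zero_of_finite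
    exact (mul_ne_zero h3 h2) h1.symm
  set w : G := a * b * a⁻¹ * b⁻¹ with hw
  have hwL : w ∈ L := Subgroup.mem_subgroupOf.1 hwK
  have hcentr : ∀ x ∈ L, x * a = a * x := fun x hx => (Subgroup.mem_centralizer_iff.1 ha) x hx
  have hcentrb : ∀ x ∈ L, x * b = b * x := fun x hx => (Subgroup.mem_centralizer_iff.1 hb) x hx
  have hc : ∀ i : ℕ, a ^ i * b * (a ^ i)⁻¹ * b⁻¹ = w ^ i := by
    intro i
    induction i with
    | zero => simp
    | succ i ih =>
      have h1 : a ^ (i + 1) * b * (a ^ (i + 1))⁻¹ * b⁻¹ =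
          a * (a ^ i * b * (a ^ i)⁻¹ * b⁻¹) * (b * a⁻¹ * b⁻¹) := by
        rw [pow_succ']
        group
      rw [h1, ih]
      have h2 : a * w ^ i = w ^ i * a := (hcentr _ (L.pow_mem hwL i)).symm
      rw [h2, pow_succ, hw]
      group
  have hk : a ^ K.index ∈ L := by
    have h1 := Subgroup.pow_index_mem K a'
    exact Subgroup.mem_subgroupOf.1 h1
  have hwk : w ^ K.index = 1 := by
    rw [← hc, hcentrb _ hk]
    group
  have hwL' : w ^ Nat.card L = 1 := by
    have h1 := pow_card_eq_one' (x := (⟨w, hwL⟩ : L))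
    have h2 := congrArg Subtype.val h1
    exact h2
  have hiK : K.index ∣ L.index := Dvd.intro _ (Subgroup.relIndex_mul_index hLA)
  have hgcd : Nat.Coprime K.index (Nat.card L) := (Nat.Coprime.coprime_dvd_right hiK hcop).symm
  have h8 := pow_gcd_eq_one.2 ⟨hwk, hwL'⟩
  rw [Nat.Coprime.gcd_eq_one hgcd, pow_one] at h8
  have h9 : ⁅a, b⁆ = 1 := h8
  exact commutatorElement_eq_one_iff_mul_comm.1 h9

/-- The non-nilpotent case. -/
theorem main_nonnil {m : ℕ} (hcd : ∀ χ : IrrCharacter G, charDegree χ.1 = 1 ∨ charDegree χ.1 = m)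
    (hm : ∃ χ : IrrCharacter G, charDegree χ.1 = m) (hm1 : m ≠ 1) (hnn : ¬ Group.IsNilpotent G) :
    ∃ A : Subgroup G, A.Normal ∧ (∀ a ∈ A, ∀ b ∈ A, a * b = b * a) ∧ A.index = m ∧
      commutator G ≤ A := by
  classical
  haveI := Fintype.ofFinite G
  have hm0 : m ≠ 0 := by
    obtain ⟨χ, hχ⟩ := hm
    rw [← hχ]
    exact (irr_charDegree_pos χ.2).ne'
  obtain ⟨L, hL, hc, hnilq, hq⟩ := exists_L hm0 hcd
  have hab := L_abelian L hc hcd
  have hcop : Nat.Coprime (Nat.card L) L.index := by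
    rw [Nat.coprime_comm]
    refine Nat.coprime_of_dvd ?_
    intro k hk hkI hkL
    have h1 := hq k hk hkI
    exact hk.one_lt.ne' (Nat.eq_one_of_dvd_coprimes hc hkL h1)
  have hind : ∀ ω : L →* ℂˣ, stb ω ≠ ⊤ → (stb ω).index = m := fun ω hω =>
    stab_index hab hcop hcd ω hω
  have hcomm0 : ∀ (c : G) (ω : L →* ℂˣ), c ∈ commutator G → tw c ω = ω := by
    intro c ω hc'
    rw [← mem_stab_iff]
    by_cases h : stb ω = ⊤
    · rw [h]
      exact Subgroup.mem_top c
    · exact comm_le_of_index hcd (stb ω) (hind ω h) hc'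
  have hcomm := tw_comm_of_comm hcomm0
  have hex : ∃ lam : L →* ℂˣ, stb lam ≠ ⊤ := by
    by_contra hcon
    push Not at hcon
    apply hnn
    have hle : L ≤ Subgroup.center G := by
      intro n hn
      rw [Subgroup.mem_center_iff]
      intro g
      have hg : g ∈ Subgroup.centralizer (L : Set G) := mem_centralizer_of_all hab fun ω => by
        rw [hcon ω]
        exact Subgroup.mem_top g
      exact (Subgroup.mem_centralizer_iff.1 hg n hn).symm
    have hker : (QuotientGroup.mk' L).ker ≤ Subgroup.center G := by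
      rw [QuotientGroup.ker_mk']
      exact hle
    exact Subgroup.isNilpotent_of_ker_le_center (QuotientGroup.mk' L) hker
  obtain ⟨lam, hlam⟩ := hex
  have heq : stb lam = Subgroup.centralizer (L : Set G) :=
    le_antisymm (stab_le_centralizer hab hcop hind hcomm lam hlam) (centralizer_le_stab lam)
  have hidx : (Subgroup.centralizer (L : Set G)).index = m := heq ▸ hind lam hlam
  refine ⟨Subgroup.centralizer (L : Set G), Subgroup.normal_centralizer,
    cent_abelian hab hcop hm1 hcd lam heq hidx, hidx, ?_⟩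
  intro c hc'
  exact mem_centralizer_of_all hab fun ω => mem_stab_iff.2 (hcomm0 c ω hc')

end Main

/-- **Two degrees**: structure. -/
theorem two_degrees {G : Type u} [Group G] [Finite G] (m : ℕ)
    (hcd : ∀ χ : IrrCharacter G, charDegree χ.1 = 1 ∨ charDegree χ.1 = m)
    (hm : ∃ χ : IrrCharacter G, charDegree χ.1 = m) (hm1 : m ≠ 1) :
    (∃ A : Subgroup G, A.Normal ∧ (∀ a ∈ A, ∀ b ∈ A, a * b = b * a) ∧ A.index = m) ∨
      ∃ p e : ℕ, p.Prime ∧ m = p ^ e ∧ ∃ P A : Subgroup G, P.Normal ∧ A.Normal ∧ IsPGroup p P ∧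
        (∀ a ∈ A, ∀ b ∈ A, a * b = b * a) ∧ P ⊓ A = ⊥ ∧ P ⊔ A = ⊤ := by
  by_cases hnil : Group.IsNilpotent G
  · exact Or.inr (nil_structure hnil hcd hm hm1)
  · obtain ⟨A, h1, h2, h3, -⟩ := main_nonnil hcd hm hm1 hnil
    exact Or.inl ⟨A, h1, h2, h3⟩

/-- **Two degrees**: the commutator subgroup is abelian. -/
theorem two_degrees_comm {G : Type u} [Group G] [Finite G] (m : ℕ)
    (hcd : ∀ χ : IrrCharacter G, charDegree χ.1 = 1 ∨ charDegree χ.1 = m)
    (hm : ∃ χ : IrrCharacter G, charDegree χ.1 = m) (hm1 : m ≠ 1) :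
    ∀ a ∈ commutator G, ∀ b ∈ commutator G, a * b = b * a := by
  by_cases hnil : Group.IsNilpotent G
  · exact comm_comm_of_nilpotent hnil hcd
  · obtain ⟨A, -, h2, -, h4⟩ := main_nonnil hcd hm hm1 hnil
    exact fun a ha b hb => h2 a (h4 ha) b (h4 hb)

end Cfsg.Agent.H23.TwoDeg
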