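import Cfsg.Agent.Lib.H23.SchurA
import Cfsg.Agent.Lib.H23.TwoDeg
import Cfsg.Agent.Lib.H01.Basic

/-!
# Schur's bound for faithful irreducible characters of `p`-groups
-/

set_option autoImplicit false
set_option linter.unusedSectionVars false
set_option linter.style.haveILetI false
set_option linter.unusedSimpArgs false

namespace Cfsg.Agent.H23.FO

open Cfsg Cfsg.Agent Cfsg.Agent.H21 Cfsg.Agent.H06 Module
open scoped ComplexConjugate

universe u

theorem arith1 (q g b a' t : ℕ) (h1 : q * a' ≤ g + q * (t + 1) * (g + 1)) (h2 : b ≤ (q + 1) * a') :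
    q * (b + 1) ≤ ((q + 1) * (g + 1) - 1) + q * (t + 1) * ((q + 1) * (g + 1)) := by
  have h3 : (q + 1) * (g + 1) - 1 = (q + 1) * g + q := by
    apply Nat.sub_eq_of_eq_add
    ring
  rw [h3]
  have h4 := Nat.mul_le_mul_left q h2
  have h5 := Nat.mul_le_mul_left (q + 1) h1
  nlinarith

theorem arith2 (q g b t : ℕ) (hq : 1 ≤ q) (h1 : q * b ≤ g + q * (t + 1 + 1) * (g + 1)) :
    q * (b + 1) ≤ ((q + 1) * (g + 1) - 1) + q * (t + 1) * ((q + 1) * (g + 1)) := by
  have h3 : (q + 1) * (g + 1) - 1 = (q + 1) * g + q := by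
    apply Nat.sub_eq_of_eq_add
    ring
  rw [h3]
  have h4 : t + 1 + 1 ≤ (t + 1) * (q + 1) := by nlinarith
  have h5 := Nat.mul_le_mul_left (q * (g + 1)) h4
  nlinarith

section Orbit

variable {P : Type u} [Group P] [Fintype P] (M : Subgroup P) [hM : M.Normal] [Fintype M]
  {n : ℕ} [NeZero n]

/-- Stabilizers grow under induction. -/
theorem Sb_le (hn : n = Nat.card P) (hP : ∀ g : P, g ^ n = 1) (hMn : ∀ m : M, m ^ n = 1) (ψ : M → ℂ) :
    Sb hMn ψ ≤ Sb hP (indFun M ψ) := by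
  intro u hu
  rw [mem_Sb] at hu ⊢
  funext g
  rw [tw_apply]
  have hk : ((u : ZMod n).val).Coprime (Nat.card P) := by
    rw [← hn]
    exact val_coprime u
  rw [indFun_comp_pow M hk ψ g]
  have : (fun w : M => ψ (w ^ ((u : ZMod n).val))) = ψ := hu
  rw [this]

theorem tw_mem_con (hn : n = Nat.card P) (hP : ∀ g : P, g ^ n = 1) (hMn : ∀ m : M, m ^ n = 1)
    {ψ : M → ℂ} (hψ : IsIrrCharacter M ψ) (hχ : IsIrrCharacter P (indFun M ψ)) {u : (ZMod n)ˣ}
    (hu : u ∈ Sb hP (indFun M ψ)) : tw n u ψ ∈ Set.range (con M ψ) := by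
  have hk : ((u : ZMod n).val).Coprime (Nat.card P) := by
    rw [← hn]
    exact val_coprime u
  have hk' := coprime_card_sub M hk
  have hfix : ∀ g : P, indFun M ψ (g ^ ((u : ZMod n).val)) = indFun M ψ g := by
    intro g
    exact congrFun ((mem_Sb hP).1 hu) g
  have h1 := inner_galIrr M hk (indFun M ψ) hfix (⟨ψ, hψ⟩ : IrrCharacter M)
  have h2 := inner_ind_self M (isCharacter_of_irr hψ) hχ
  obtain ⟨x, hx⟩ := exists_con_of_inner M hψ (η := (galIrr _ hk' (⟨ψ, hψ⟩ : IrrCharacter M)).1)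
    (galIrr _ hk' (⟨ψ, hψ⟩ : IrrCharacter M)).2 (by rw [h1]; exact h2)
  exact ⟨x, hx⟩

/-- The relative index is the length of an orbit inside the conjugates. -/
theorem relIndex_orbit (hn : n = Nat.card P) (hP : ∀ g : P, g ^ n = 1) (hMn : ∀ m : M, m ^ n = 1)
    {ψ : M → ℂ} (hψ : IsIrrCharacter M ψ) (hχ : IsIrrCharacter P (indFun M ψ)) :
    ∃ O : Set (M → ℂ), O ⊆ Set.range (con M ψ) ∧ O.ncard = (Sb hMn ψ).relIndex (Sb hP (indFun M ψ)) ∧
      ∀ η ∈ O, ∃ u ∈ Sb hP (indFun M ψ), η = tw n u ψ := by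
  letI := act hMn
  let T : Subgroup (ZMod n)ˣ := Sb hP (indFun M ψ)
  refine ⟨MulAction.orbit T ψ, ?_, ?_, ?_⟩
  · rintro _ ⟨u, rfl⟩
    exact tw_mem_con M hn hP hMn hψ hχ u.2
  · rw [← MulAction.index_stabilizer T ψ]
    rfl
  · rintro _ ⟨u, rfl⟩
    exact ⟨u, u.2, rfl⟩

end Orbit

section Linear

variable {P : Type u} [Group P] [Fintype P]

/-- The linear case. -/
theorem linear_case (p a : ℕ) (hp : p.Prime) (ha : 0 < a) (hP : Nat.card P = p ^ a)
    (χ : IrrCharacter P) (hfaith : ∀ g : P, χ.1 g = χ.1 1 → g = 1) (h1 : charDegree χ.1 = 1) (t : ℕ)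
    (hfield : finrank ℚ (IntermediateField.adjoin ℚ (Set.range χ.1)) = (p - 1) * p ^ t) :
    a = t + 1 := by
  classical
  have hc := isCharacter_of_irr χ.2
  haveI hne : NeZero (Nat.card P) := ⟨Nat.card_pos.ne'⟩
  have hexp : ∀ g : P, g ^ Nat.card P = 1 := fun g => pow_card_eq_one'
  rw [finrank_eq_index hc dvd_rfl hexp] at hfield
  have hmul := linear_mul hc h1
  have hone := linear_one hc h1
  have hinj : Function.Injective χ.1 := by
    intro x y hxy
    have h2 : χ.1 (x * y⁻¹) = χ.1 1 := by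
      rw [hmul, hxy, ← hmul, mul_inv_cancel]
    have h3 := hfaith _ h2
    exact mul_inv_eq_one.1 h3
  let f : P →* ℂ :=
    { toFun := χ.1
      map_one' := hone
      map_mul' := hmul }
  haveI hcyc : IsCyclic P := isCyclic_of_subgroup_isDomain f hinj
  obtain ⟨g, hg⟩ := IsCyclic.exists_ofOrder_eq_natCard (α := P)
  have hSb : Sb hexp χ.1 = ⊥ := by
    rw [eq_bot_iff]
    intro u hu
    rw [Subgroup.mem_bot]
    have h2 := congrFun ((mem_Sb hexp).1 hu) g
    rw [tw_apply] at h2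
    have h3 := hinj h2
    have h4 : g ^ ((u : ZMod (Nat.card P)).val) = g ^ 1 := by rw [h3, pow_one]
    rw [pow_eq_pow_iff_modEq, hg] at h4
    apply Units.ext
    have h5 := (ZMod.natCast_eq_natCast_iff _ _ _).2 h4
    rw [ZMod.natCast_zmod_val] at h5
    simpa using h5
  rw [hSb, Subgroup.index_bot, Nat.card_eq_fintype_card, ZMod.card_units_eq_totient, hP,
    Nat.totient_prime_pow hp ha] at hfield
  have hp1 : 0 < p - 1 := Nat.sub_pos_of_lt hp.one_lt
  have h6 : p ^ (a - 1) = p ^ t := by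
    have : (p - 1) * p ^ (a - 1) = (p - 1) * p ^ t := by rw [← hfield, mul_comm]
    exact Nat.eq_of_mul_eq_mul_left hp1 this
  have h7 := Nat.pow_right_injective hp.two_le h6
  omega

end Linear

section Exists

variable {P : Type u} [Group P] [Fintype P]

/-- Nonlinear irreducible characters of `p`-groups are induced from subgroups of index `p`. -/
theorem exists_index_p (p : ℕ) [hp : Fact p.Prime] (hP : IsPGroup p P) (χ : IrrCharacter P)
    (h1 : charDegree χ.1 ≠ 1) :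
    ∃ M : Subgroup P, M.Normal ∧ M.index = p ∧ ∃ ψ : M → ℂ, IsIrrCharacter M ψ ∧ χ.1 = indFun M ψ := by
  classical
  obtain ⟨T, l, hl⟩ := Brauer.monomial_of_nilpotent _ P hP.isNilpotent le_rfl χ.1 χ.2
  have hlc := Cfsg.Agent.H23.isCharacter_hom l
  have hdeg := charDegree_indFun T hlc
  rw [← hl, Cfsg.Agent.H23.charDegree_hom l, mul_one] at hdeg
  have hT : T ≠ ⊤ := by
    rintro rfl
    rw [Subgroup.index_top] at hdeg
    exact h1 hdeg
  obtain ⟨M, hMc, hTM⟩ := (eq_top_or_exists_le_coatom T).resolve_left hT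
  obtain ⟨hMn, hMi⟩ := Cfsg.Agent.H01.isCoatom_normal_index hP hMc
  refine ⟨M, hMn, hMi, ?_⟩
  let θ : T.subgroupOf M → ℂ := fun x => ((l ⟨(x : M), Subgroup.mem_subgroupOf.mp x.2⟩ : ℂˣ) : ℂ)
  have hθ : IsCharacter (T.subgroupOf M) θ :=
    Cfsg.Agent.H23.isCharacter_hom
      (l.comp (Subgroup.subgroupOfEquivOfLe hTM).toMonoidHom)
  have htrans := indFun_trans T M hTM (fun t => ((l t : ℂˣ) : ℂ))
  have hind : χ.1 = indFun M (indFun (T.subgroupOf M) θ) := by
    rw [hl]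
    exact htrans.symm
  refine ⟨indFun (T.subgroupOf M) θ, ?_, hind⟩
  exact Cfsg.Agent.H22.isIrr_of_indFun_irr M (isCharacter_indFun _ hθ) χ hind

end Exists

end Cfsg.Agent.H23.FO
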