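import Cfsg.Agent.Lib.H23.SchurB

/-!
# Schur's bound: the induction
-/

set_option autoImplicit false
set_option linter.unusedSectionVars false
set_option linter.style.haveILetI false
set_option linter.unusedSimpArgs false

namespace Cfsg.Agent.H23.FO

open Cfsg Cfsg.Agent Cfsg.Agent.H21 Cfsg.Agent.H06 Module
open scoped ComplexConjugate

universe u

section Bound

variable {P : Type u} [Group P] [Fintype P] (M : Subgroup P) [hM : M.Normal] [Fintype M]

theorem card_bound {ψ : M → ℂ} (hψc : IsCharacter M ψ)
    (hK : ∀ m : M, (∀ x : P, con M ψ x m = ψ 1) → m = 1) :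
    Nat.card M ≤ ((charKer ψ hψc).index) ^ (M.index) := by
  classical
  haveI : Fintype (P ⧸ M) := Fintype.ofFinite _
  let K := charKer ψ hψc
  let F : P ⧸ M → Subgroup M := fun q =>
    K.comap (MulAut.conjNormal (q.out)⁻¹ : M ≃* M).toMonoidHom
  have h1 := Subgroup.index_iInf_le F
  have h2 : (⨅ q, F q) = ⊥ := by
    rw [eq_bot_iff]
    intro m hm
    rw [Subgroup.mem_bot]
    apply hK
    intro x
    have h3 : m ∈ F (x : P ⧸ M) := (Subgroup.mem_iInf.1 hm) _
    have h4 : con M ψ (x : P ⧸ M).out = con M ψ x := by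
      apply con_coset M hψc
      rw [← QuotientGroup.eq]
      exact (Quotient.out_eq' _).symm
    rw [← h4]
    exact h3
  rw [h2, Subgroup.index_bot] at h1
  have h3 : ∀ q, (F q).index = K.index := fun q =>
    Subgroup.index_comap_of_surjective K (MulAut.conjNormal (q.out)⁻¹ : M ≃* M).surjective
  simp only [h3, Finset.prod_const, Finset.card_univ] at h1
  rw [← Nat.card_eq_fintype_card] at h1
  exact h1

theorem ind_eq_of_con {ψ : M → ℂ} {m : M} (h : ∀ x : P, con M ψ x m = ψ 1) :
    indFun M ψ (m : P) = indFun M ψ 1 := by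
  have h1 := ind_on M ψ m
  have h2 := ind_on M ψ 1
  simp only [Subgroup.coe_one] at h2
  rw [h1, h2]
  congr 1
  refine Finset.sum_congr rfl fun x _ => ?_
  rw [h x, con_apply, map_one]

end Bound

/-- **Schur's bound** (induction). -/
theorem schur_main : ∀ (N : ℕ) (P : Type u) [Group P] [Fintype P] (p a : ℕ) (hp : p.Prime) (ha : 0 < a)
    (hP : Nat.card P = p ^ a) (χ : IrrCharacter P) (hfaith : ∀ g : P, χ.1 g = χ.1 1 → g = 1) (f t : ℕ)
    (hf : charDegree χ.1 = f)
    (hfield : finrank ℚ (IntermediateField.adjoin ℚ (Set.range χ.1)) = (p - 1) * p ^ t),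
    Nat.card P ≤ N → (p - 1) * a ≤ (f - 1) + (p - 1) * (t + 1) * f := by
  intro N
  induction N with
  | zero =>
    intro P _ _ p a hp ha hP χ hfaith f t hf hfield hN
    have := Nat.card_pos (α := P)
    omega
  | succ N ih =>
    intro P _ _ p a hp ha hP χ hfaith f t hf hfield hN
    classical
    by_cases h1 : f = 1
    · subst h1
      have h2 := linear_case p a hp ha hP χ hfaith hf t hfield
      rw [h2]
      simp
    haveI hpf : Fact p.Prime := ⟨hp⟩
    have hPp : IsPGroup p P := IsPGroup.of_card hP
    obtain ⟨M, hMn, hMi, ψ, hψ, hχind⟩ := exists_index_p p hPp χ (by rw [hf]; exact h1)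
    haveI := hMn
    haveI : Fintype M := Fintype.ofFinite _
    haveI hne : NeZero (Nat.card P) := ⟨Nat.card_pos.ne'⟩
    have hexpP : ∀ g : P, g ^ Nat.card P = 1 := fun g => pow_card_eq_one'
    have hexpM : ∀ m : M, m ^ Nat.card P = 1 := fun m => Subtype.ext (by
      simpa using (pow_card_eq_one' (x := (m : P))))
    have hψc := isCharacter_of_irr hψ
    have hχirr : IsIrrCharacter P (indFun M ψ) := by
      rw [← hχind]
      exact χ.2
    obtain ⟨b, rfl⟩ : ∃ b, a = b + 1 := ⟨a - 1, by omega⟩
    obtain ⟨q, rfl⟩ : ∃ q, p = q + 1 := ⟨p - 1, by have := hp.pos; omega⟩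
    have hq1 : 1 ≤ q := by have := hp.two_le; omega
    simp only [Nat.add_sub_cancel] at hfield ⊢
    have hcardM : Nat.card M = (q + 1) ^ b := by
      have h2 := Subgroup.card_mul_index M
      rw [hP, hMi, pow_succ] at h2
      exact Nat.eq_of_mul_eq_mul_right hp.pos h2
    -- the stabilizers
    let T : Subgroup (ZMod (Nat.card P))ˣ := Sb hexpP (indFun M ψ)
    have hTidx : T.index = q * (q + 1) ^ t := by
      have h2 := finrank_eq_index (isCharacter_of_irr χ.2) dvd_rfl hexpP
      rw [hfield] at h2
      rw [h2]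
      have h3 : ∀ φ : P → ℂ, φ = indFun M ψ → (Sb hexpP φ).index = T.index := by
        intro φ hφ
        subst hφ
        rfl
      exact (h3 _ hχind).symm
    have hSle : Sb hexpM ψ ≤ T := Sb_le M rfl hexpP hexpM ψ
    obtain ⟨O, hOsub, hOcard, hOu⟩ := relIndex_orbit M rfl hexpP hexpM hψ hχirr
    set d := (Sb hexpM ψ).relIndex T with hd
    have hOfin : (Set.range (con M ψ)).Finite := Set.finite_range _
    have hdle : d ≤ q + 1 := by
      rw [← hOcard, ← hMi]
      exact (Set.ncard_le_ncard hOsub hOfin).trans (ncard_con_le M hψc)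
    have hcardT : (q + 1) ^ t * Nat.card T = (q + 1) ^ b := by
      have h2 := Subgroup.index_mul_card T
      rw [hTidx, Nat.card_eq_fintype_card (α := (ZMod (Nat.card P))ˣ), ZMod.card_units_eq_totient] at h2
      have h2' : (Nat.card P).totient = (q + 1) ^ b * q := by
        rw [hP, Nat.totient_prime_pow hp (Nat.succ_pos b)]
        simp only [Nat.add_sub_cancel, Nat.succ_sub_one]
      rw [h2'] at h2
      have h3 : q * ((q + 1) ^ t * Nat.card T) = q * (q + 1) ^ b := by
        rw [← mul_assoc, h2, mul_comm]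
      exact Nat.eq_of_mul_eq_mul_left (by omega) h3
    have hddvd : d ∣ (q + 1) ^ b := by
      have h2 : d ∣ Nat.card T := Subgroup.index_dvd_card _
      rw [← hcardT]
      exact Dvd.dvd.mul_left h2 _
    have hd1p : d = 1 ∨ d = q + 1 := by
      obtain ⟨e, -, he⟩ := (Nat.dvd_prime_pow hp).1 hddvd
      rcases Nat.lt_or_ge e 2 with h2 | h2
      · interval_cases e
        · left; simpa using he
        · right; simpa using he
      · exfalso
        have h3 : (q + 1) ^ 2 ≤ (q + 1) ^ e := Nat.pow_le_pow_right hp.pos h2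
        rw [he] at hdle
        nlinarith
    have hfinψ : finrank ℚ (IntermediateField.adjoin ℚ (Set.range ψ)) = d * (q * (q + 1) ^ t) := by
      rw [finrank_eq_index hψc (by rw [hP, hcardM]; exact pow_dvd_pow _ (Nat.le_succ b)) hexpM,
        ← hTidx]
      exact (Subgroup.relIndex_mul_index hSle).symm
    -- the quotient by the kernel
    let K := charKer ψ hψc
    obtain ⟨ψ', hψ', hcomp⟩ := exists_descend K hψ (fun m hm => hm)
    have hcomp' : ∀ m : M, ψ' (m : M ⧸ K) = ψ m := fun m => congrFun hcomp m
    haveI : Fintype (M ⧸ K) := Fintype.ofFinite _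
    have hcardQ : Nat.card M = Nat.card (M ⧸ K) * Nat.card K :=
      Subgroup.card_eq_card_quotient_mul_card_subgroup K
    have hQdvd : Nat.card (M ⧸ K) ∣ (q + 1) ^ b := by
      rw [← hcardM, hcardQ]
      exact Dvd.intro _ rfl
    obtain ⟨a', -, ha'⟩ := (Nat.dvd_prime_pow hp).1 hQdvd
    have hfaith' : ∀ y : M ⧸ K, ψ' y = ψ' 1 → y = 1 := by
      intro y hy
      obtain ⟨m, rfl⟩ := QuotientGroup.mk'_surjective K y
      have h2 : ψ m = ψ 1 := by
        have h3 := hcomp' m
        have h4 := hcomp' 1
        rw [← h3, ← h4]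
        simpa using hy
      exact (QuotientGroup.eq_one_iff m).2 h2
    have hdeg' : charDegree ψ' = charDegree ψ := by
      have h2 := one_eq_charDegree (isCharacter_of_irr hψ')
      have h3 := one_eq_charDegree hψc
      have h4 : ψ 1 = ψ' 1 := by
        have h5 := hcomp' 1
        rw [← h5]
        simp
      rw [h4, h2] at h3
      exact_mod_cast h3
    have hrange : Set.range ψ' = Set.range ψ := by
      ext z
      constructor
      · rintro ⟨y, rfl⟩
        obtain ⟨m, rfl⟩ := QuotientGroup.mk'_surjective K y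
        exact ⟨m, (hcomp' m).symm⟩
      · rintro ⟨m, rfl⟩
        exact ⟨_, hcomp' m⟩
    have hf' : f = (q + 1) * charDegree ψ := by
      have h2 := charDegree_indFun M hψc
      rw [← hχind, hMi, hf] at h2
      exact h2
    have hfpos : 0 < charDegree ψ := irr_charDegree_pos hψ
    obtain ⟨g, hg⟩ : ∃ g, charDegree ψ = g + 1 := ⟨charDegree ψ - 1, by omega⟩
    -- the trivial quotient is impossible
    have hvan : ∀ m : M, (∀ x : P, con M ψ x m = ψ 1) → m = 1 := by
      intro m hm
      have h2 := ind_eq_of_con M hm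
      rw [← hχind] at h2
      have h3 := hfaith _ h2
      exact Subtype.ext h3
    have ha'pos : 0 < a' := by
      rcases Nat.eq_zero_or_pos a' with h2 | h2
      · exfalso
        rw [h2, pow_zero] at ha'
        have h3 : ∀ m : M, m ∈ K := by
          intro m
          have h4 : (m : M ⧸ K) = 1 := by
            haveI : Subsingleton (M ⧸ K) := (Nat.card_eq_one_iff_unique.1 ha').1
            exact Subsingleton.elim _ _
          exact (QuotientGroup.eq_one_iff m).1 h4
        have h5 : ∀ m : M, m = 1 := fun m => hvan m fun x => h3 _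
        have h6 : Nat.card M = 1 := Nat.card_eq_one_iff_unique.2
          ⟨⟨fun a b => by rw [h5 a, h5 b]⟩, ⟨1⟩⟩
        have h7 : Nat.card P = q + 1 := by
          have h8 := Subgroup.card_mul_index M
          rw [h6, hMi, one_mul] at h8
          exact h8.symm
        haveI : Fact (Nat.card P).Prime := ⟨by rw [h7]; exact hp⟩
        haveI : IsCyclic P := isCyclic_of_prime_card rfl
        haveI hcc : IsMulCommutative P := IsCyclic.isMulCommutative
        have h9 := irr_degree_one_of_comm (fun a b => mul_comm' a b) χ.2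
        rw [hf] at h9
        exact h1 h9
      · exact h2
    have hlt : Nat.card (M ⧸ K) ≤ N := by
      have h2 : Nat.card (M ⧸ K) ≤ Nat.card M := by
        rw [hcardQ]
        exact Nat.le_mul_of_pos_right _ Nat.card_pos
      have h3 : Nat.card M < Nat.card P := by
        rw [hcardM, hP, pow_succ]
        have : 0 < (q + 1) ^ b := pow_pos hp.pos b
        nlinarith
      omega
    rcases hd1p with hd1 | hdp
    · -- the generic case
      have hIH := ih (M ⧸ K) (q + 1) a' hp ha'pos ha' ⟨ψ', hψ'⟩ hfaith' (charDegree ψ) t hdeg' (by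
        rw [hrange, hfinψ, hd1, one_mul]
        simp only [Nat.add_sub_cancel]) hlt
      simp only [Nat.add_sub_cancel] at hIH
      have hbd := card_bound M hψc hvan
      rw [hcardM, hMi] at hbd
      have hidxK : (charKer ψ hψc).index = (q + 1) ^ a' := ha'
      rw [hidxK, ← pow_mul] at hbd
      have hb : b ≤ (q + 1) * a' := by
        have := (Nat.pow_le_pow_iff_right hp.one_lt).1 hbd
        rwa [mul_comm] at this
      rw [hf', hg]
      rw [hg] at hIH
      simp only [Nat.add_sub_cancel] at hIH
      exact arith1 q g b a' t hIH hb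
    · -- the kernel is trivial
      have hOeq : O = Set.range (con M ψ) := by
        refine Set.eq_of_subset_of_ncard_le hOsub ?_ hOfin
        rw [hOcard, hdp, ← hMi]
        exact ncard_con_le M hψc
      have hKbot : Nat.card K = 1 := by
        have h5 : ∀ m : K, m = 1 := by
          intro m
          apply Subtype.ext
          refine hvan (m : M) fun x => ?_
          have h6 : con M ψ x ∈ O := by
            rw [hOeq]
            exact ⟨x, rfl⟩
          obtain ⟨u, -, hu⟩ := hOu _ h6
          rw [hu, tw_apply]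
          exact K.pow_mem m.2 _
        exact Nat.card_eq_one_iff_unique.2 ⟨⟨fun a b => by rw [h5 a, h5 b]⟩, ⟨1⟩⟩
      have hab : a' = b := by
        rw [hKbot, mul_one, ha', hcardM] at hcardQ
        exact (Nat.pow_right_injective hp.two_le hcardQ).symm
      subst hab
      have hIH := ih (M ⧸ K) (q + 1) a' hp ha'pos ha' ⟨ψ', hψ'⟩ hfaith' (charDegree ψ) (t + 1) hdeg' (by
        rw [hrange, hfinψ, hdp]
        simp only [Nat.add_sub_cancel]
        ring) hlt
      simp only [Nat.add_sub_cancel] at hIH
      rw [hf', hg]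
      rw [hg] at hIH
      simp only [Nat.add_sub_cancel] at hIH
      exact arith2 q g a' t hq1 hIH

/-- The statement. -/
theorem schur_pgroup {P : Type u} [Group P] [Finite P] (p a : ℕ) (hp : p.Prime) (ha : 0 < a)
    (hP : Nat.card P = p ^ a) (χ : IrrCharacter P) (hfaith : ∀ g : P, (χ : P → ℂ) g = (χ : P → ℂ) 1 → g = 1)
    (f t : ℕ) (hf : charDegree (χ : P → ℂ) = f)
    (hfield : finrank ℚ (IntermediateField.adjoin ℚ (Set.range (χ : P → ℂ))) = (p - 1) * p ^ t) :
    (p - 1) * a ≤ (f - 1) + (p - 1) * (t + 1) * f := by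
  haveI : Fintype P := Fintype.ofFinite _
  exact schur_main _ P p a hp ha hP χ hfaith f t hf hfield le_rfl

end Cfsg.Agent.H23.FO
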