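import Mathlib

/-!
# Self-dual faithful irreducible modules of abelian groups over finite fields
-/

set_option autoImplicit false

namespace Cfsg.Agent.H23

section Model

universe uF uH uV

variable {F : Type uF} [Field F] {H : Type uH} [CommGroup H]

/-- The field model `K = F[H]/I` of an irreducible representation of an abelian group. -/
theorem selfdual_exists_model {V : Type uV} [AddCommGroup V] [Module F V] [Nontrivial V]
    (ρ : Representation F H V)
    (hirr : ∀ U : Submodule F V, (∀ h : H, ∀ u ∈ U, ρ h u ∈ U) → U = ⊥ ∨ U = ⊤) :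
    ∃ (K : Type (max uF uH)) (_ : Field K) (_ : Algebra F K) (η : H →* K) (T : K ≃ₗ[F] V),
      (∀ h r, T (η h * r) = ρ h (T r)) ∧ ∀ x : K, x ∈ Submodule.span F (Set.range η) := by
  classical
  let π := ρ.asAlgebraHom
  let A := MonoidAlgebra F H
  have hπof : ∀ (h : H) (a : A) (w : V),
      π (MonoidAlgebra.of F H h * a) w = ρ h (π a w) := by
    intro h a w
    rw [map_mul]
    show (π (MonoidAlgebra.of F H h)) (π a w) = _
    rw [Representation.asAlgebraHom_of]
  have hcyc : ∀ w : V, w ≠ 0 → ∀ w' : V, ∃ a : A, π a w = w' := by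
    intro w hw w'
    let S : Submodule F V :=
      { carrier := {x | ∃ a : A, π a w = x}
        add_mem' := by
          rintro _ _ ⟨a, rfl⟩ ⟨b, rfl⟩
          exact ⟨a + b, by rw [map_add]; rfl⟩
        zero_mem' := ⟨0, by rw [map_zero]; rfl⟩
        smul_mem' := by
          rintro c _ ⟨a, rfl⟩
          exact ⟨c • a, by rw [map_smul]; rfl⟩ }
    have hw1 : w ∈ S := ⟨1, by rw [map_one]; rfl⟩
    have hinv : ∀ h : H, ∀ u ∈ S, ρ h u ∈ S := by
      rintro g _ ⟨a, rfl⟩
      exact ⟨MonoidAlgebra.of F H g * a, hπof g a w⟩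
    rcases hirr S hinv with h | h
    · exfalso
      apply hw
      rw [h] at hw1
      exact hw1
    · have : w' ∈ S := by
        rw [h]
        exact Submodule.mem_top
      exact this
  obtain ⟨u₀, hu₀⟩ := exists_ne (0 : V)
  let I : Ideal A :=
    { carrier := {a | π a u₀ = 0}
      add_mem' := by
        intro a b ha hb
        show π (a + b) u₀ = 0
        rw [map_add]
        show π a u₀ + π b u₀ = 0
        rw [show π a u₀ = 0 from ha, show π b u₀ = 0 from hb, add_zero]
      zero_mem' := by
        show π 0 u₀ = 0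
        rw [map_zero]
        rfl
      smul_mem' := by
        intro c a ha
        show π (c * a) u₀ = 0
        rw [map_mul]
        show π c (π a u₀) = 0
        rw [show π a u₀ = 0 from ha, map_zero] }
  have hI : ∀ a : A, a ∈ I ↔ π a u₀ = 0 := fun _ => Iff.rfl
  have hmax : I.IsMaximal := by
    rw [Ideal.isMaximal_iff]
    refine ⟨?_, ?_⟩
    · intro h
      apply hu₀
      have := (hI 1).1 h
      rwa [map_one] at this
    · intro J x hIJ hx hxJ
      have hx' : π x u₀ ≠ 0 := fun h => hx ((hI x).2 h)
      obtain ⟨b, hb⟩ := hcyc _ hx' u₀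
      have h1 : 1 - b * x ∈ I := by
        rw [hI, map_sub, map_one, map_mul]
        show u₀ - π b (π x u₀) = 0
        rw [hb, sub_self]
      have h2 := hIJ h1
      have h3 : b * x ∈ J := J.mul_mem_left _ hxJ
      have := J.add_mem h2 h3
      rwa [sub_add_cancel] at this
  letI fld : Field (A ⧸ I) := Ideal.Quotient.field I
  let mk : A →ₐ[F] A ⧸ I := Ideal.Quotient.mkₐ F I
  have hmk : Function.Surjective mk := Ideal.Quotient.mkₐ_surjective F I
  let T₀ : A ⧸ I → V := fun r => π (Function.surjInv hmk r) u₀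
  have hT : ∀ a : A, T₀ (mk a) = π a u₀ := by
    intro a
    have h1 : Ideal.Quotient.mk I (Function.surjInv hmk (mk a)) = Ideal.Quotient.mk I a :=
      Function.surjInv_eq hmk _
    rw [Ideal.Quotient.eq] at h1
    have h2 := (hI _).1 h1
    rw [map_sub] at h2
    exact sub_eq_zero.1 h2
  have hTadd : ∀ r s, T₀ (r + s) = T₀ r + T₀ s := by
    intro r s
    obtain ⟨a, rfl⟩ := hmk r
    obtain ⟨b, rfl⟩ := hmk s
    rw [← map_add, hT, hT, hT, map_add]
    rfl
  have hTsmul : ∀ (c : F) r, T₀ (c • r) = c • T₀ r := by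
    intro c r
    obtain ⟨a, rfl⟩ := hmk r
    rw [← map_smul, hT, hT, map_smul]
    rfl
  let T₁ : (A ⧸ I) →ₗ[F] V :=
    { toFun := T₀
      map_add' := hTadd
      map_smul' := hTsmul }
  have hTinj : Function.Injective T₁ := by
    intro r s hrs
    obtain ⟨a, rfl⟩ := hmk r
    obtain ⟨b, rfl⟩ := hmk s
    have h1 : π a u₀ = π b u₀ := by
      rw [← hT, ← hT]; exact hrs
    show Ideal.Quotient.mk I a = Ideal.Quotient.mk I b
    rw [Ideal.Quotient.eq, hI, map_sub]
    exact sub_eq_zero.2 h1
  have hTsurj : Function.Surjective T₁ := by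
    intro w
    obtain ⟨a, ha⟩ := hcyc u₀ hu₀ w
    exact ⟨mk a, by show T₀ (mk a) = w; rw [hT, ha]⟩
  let η : H →* A ⧸ I := (mk.toMonoidHom).comp (MonoidAlgebra.of F H)
  have hη : ∀ h, η h = mk (MonoidAlgebra.of F H h) := fun _ => rfl
  refine ⟨A ⧸ I, fld, inferInstance, η, LinearEquiv.ofBijective T₁ ⟨hTinj, hTsurj⟩, ?_, ?_⟩
  · intro h r
    obtain ⟨a, rfl⟩ := hmk r
    show T₀ (η h * mk a) = ρ h (T₀ (mk a))
    rw [hη, ← map_mul, hT, hT, hπof]
  · intro x
    obtain ⟨a, rfl⟩ := hmk x
    induction a using MonoidAlgebra.induction_on with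
    | of g =>
      exact Submodule.subset_span ⟨g, rfl⟩
    | add a b ha hb =>
      rw [map_add]
      exact add_mem ha hb
    | smul c a ha =>
      rw [map_smul]
      exact Submodule.smul_mem _ _ ha

end Model

section FieldModel

variable {F : Type*} [Field F] [Fintype F] {H : Type*} [CommGroup H] [Finite H]
  {K : Type*} [Field K] [Finite K] [Algebra F K]

/-- The form `λ (x * σ y)`: existence of a nondegenerate invariant form when `|H|` divides
`q ^ m + 1` and `n = 2 m`. -/
theorem selfdual_backward (η : H →* K) (m : ℕ) (hm : Nat.card H ∣ Fintype.card F ^ m + 1) :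
    ∃ B : LinearMap.BilinForm F K, B.Nondegenerate ∧ ∀ h x y, B (η h * x) (η h * y) = B x y := by
  classical
  let σ : K →ₐ[F] K := FiniteField.frobeniusAlgHom F K ^ m
  have hσ : ∀ x, σ x = x ^ (Fintype.card F ^ m) := by
    intro x
    show (FiniteField.frobeniusAlgHom F K ^ m) x = _
    rw [AlgHom.coe_pow, FiniteField.coe_frobeniusAlgHom, pow_iterate]
  have hσb : Function.Bijective σ := by
    have hinj : Function.Injective σ := σ.toRingHom.injective
    exact ⟨hinj, Finite.surjective_of_injective hinj⟩
  obtain ⟨l, hl⟩ : ∃ l : Module.Dual F K, l 1 ≠ 0 := by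
    by_contra hcon
    push Not at hcon
    exact one_ne_zero ((Module.forall_dual_apply_eq_zero_iff F (1 : K)).1 hcon)
  let B : LinearMap.BilinForm F K := LinearMap.mk₂ F (fun x y => l (x * σ y))
    (by intro a b c; rw [add_mul, map_add])
    (by intro c a b; rw [smul_mul_assoc, map_smul])
    (by intro a b c; rw [map_add, mul_add, map_add])
    (by intro c a b; rw [map_smul, mul_smul_comm, map_smul])
  have hB : ∀ x y, B x y = l (x * σ y) := fun _ _ => rfl
  refine ⟨B, ⟨?_, ?_⟩, ?_⟩
  · intro x hx
    by_contra hne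
    obtain ⟨y, hy⟩ := hσb.2 x⁻¹
    have := hx y
    rw [hB, hy, mul_inv_cancel₀ hne] at this
    exact hl this
  · intro y hy
    by_contra hne
    have hne' : σ y ≠ 0 := by
      intro h0
      apply hne
      apply hσb.1
      rw [h0, map_zero]
    have := hy (σ y)⁻¹
    rw [hB, inv_mul_cancel₀ hne'] at this
    exact hl this
  · intro h x y
    rw [hB, hB, map_mul σ]
    have h1 : η h * σ (η h) = 1 := by
      rw [hσ, ← pow_succ', ← map_pow]
      obtain ⟨c, hc⟩ := hm
      have : h ^ (Fintype.card F ^ m + 1) = 1 := by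
        rw [hc, pow_mul, pow_card_eq_one', one_pow]
      rw [this, map_one]
    congr 1
    calc η h * x * (σ (η h) * σ y) = (η h * σ (η h)) * (x * σ y) := by ring
      _ = x * σ y := by rw [h1, one_mul]

/-- The forward direction in the field model. -/
theorem selfdual_forward (η : H →* K) (hinj : Function.Injective η)
    (hspan : ∀ x : K, x ∈ Submodule.span F (Set.range η))
    (σ : K →ₐ[F] K) (hσ : ∀ h, σ (η h) = η h⁻¹) (hn : 2 ≤ Module.finrank F K) :
    Even (Module.finrank F K) ∧
      Nat.card H ∣ Fintype.card F ^ (Module.finrank F K / 2) + 1 := by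
  classical
  obtain ⟨⟨i, hi⟩, hiσ⟩ := (FiniteField.bijective_frobeniusAlgHom_pow F K).2 σ
  simp only at hiσ
  have hσp : ∀ x, σ x = x ^ (Fintype.card F ^ i) := by
    intro x
    rw [← hiσ, AlgHom.coe_pow, FiniteField.coe_frobeniusAlgHom, pow_iterate]
  -- `σ` is an involution
  have hinv : ∀ x, σ (σ x) = x := by
    intro x
    induction hspan x using Submodule.span_induction with
    | mem y hy =>
      obtain ⟨h, rfl⟩ := hy
      rw [hσ, hσ, inv_inv]
    | zero => simp
    | add a b _ _ ha hb => rw [map_add, map_add, ha, hb]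
    | smul c a _ ha => rw [map_smul, map_smul, ha]
  have hord := FiniteField.orderOf_frobeniusAlgHom F K
  have hdvd : Module.finrank F K ∣ 2 * i := by
    rw [← hord, orderOf_dvd_iff_pow_eq_one, two_mul, pow_add, hiσ]
    ext x
    exact hinv x
  -- `i ≠ 0`
  have hi0 : i ≠ 0 := by
    rintro rfl
    have h1 : ∀ x, σ x = x := by
      intro x
      rw [hσp]; simp
    have h2 : ∀ h, η h * η h = 1 := by
      intro h
      have h3 := h1 (η h)
      rw [hσ] at h3
      have h4 : η h⁻¹ * η h = 1 := by rw [← map_mul, inv_mul_cancel, map_one]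
      rwa [h3] at h4
    have h5 : ∀ x : K, ∃ c : F, c • (1 : K) = x := by
      intro x
      induction hspan x using Submodule.span_induction with
      | mem y hy =>
        obtain ⟨h, rfl⟩ := hy
        rcases mul_self_eq_one_iff.1 (h2 h) with h6 | h6
        · exact ⟨1, by rw [h6, one_smul]⟩
        · exact ⟨-1, by rw [h6, neg_smul, one_smul]⟩
      | zero => exact ⟨0, zero_smul _ _⟩
      | add a b _ _ ha hb =>
        obtain ⟨c, rfl⟩ := ha
        obtain ⟨d, rfl⟩ := hb
        exact ⟨c + d, add_smul _ _ _⟩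
      | smul c a _ ha =>
        obtain ⟨d, rfl⟩ := ha
        exact ⟨c * d, mul_smul _ _ _⟩
    have h6 : Module.finrank F K ≤ 1 := by
      apply finrank_le_one (1 : K)
      exact h5
    omega
  -- hence `2 i = n`
  have h2i : 2 * i = Module.finrank F K := by
    obtain ⟨c, hc⟩ := hdvd
    have hc1 : c = 1 := by
      have h1 : c < 2 := by
        by_contra hge
        push Not at hge
        have : Module.finrank F K * 2 ≤ Module.finrank F K * c := Nat.mul_le_mul_left _ hge
        omega
      have h2 : c ≠ 0 := by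
        rintro rfl
        omega
      omega
    rw [hc, hc1, mul_one]
  refine ⟨⟨i, by omega⟩, ?_⟩
  have hdiv : Module.finrank F K / 2 = i := by omega
  rw [hdiv]
  haveI : IsCyclic H := isCyclic_of_injective_ringHom η hinj
  obtain ⟨h₀, hh₀⟩ := IsCyclic.exists_ofOrder_eq_natCard (α := H)
  rw [← hh₀, orderOf_dvd_iff_pow_eq_one]
  apply hinj
  rw [map_one, map_pow, pow_succ]
  have h1 := hσ h₀
  rw [hσp] at h1
  rw [h1, ← map_mul, inv_mul_cancel, map_one]

/-- The involution attached to a nondegenerate invariant form on the field model. -/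
theorem selfdual_exists_sigma (η : H →* K)
    (hspan : ∀ x : K, x ∈ Submodule.span F (Set.range η))
    (B : LinearMap.BilinForm F K) (hB : B.Nondegenerate)
    (hinv : ∀ h x y, B (η h * x) (η h * y) = B x y) :
    ∃ σ : K →ₐ[F] K, ∀ h, σ (η h) = η h⁻¹ := by
  classical
  let Q : K → K → Prop := fun a b => ∀ x y, B (a * x) y = B x (b * y)
  have huniq : ∀ {a b b'}, Q a b → Q a b' → b = b' := by
    intro a b b' h1 h2
    have h3 : (b - b') * 1 = 0 := by
      apply hB.2
      intro x
      have h4 := h1 x 1
      rw [h2 x 1] at h4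
      rw [sub_mul, map_sub, h4, sub_self]
    rw [mul_one] at h3
    exact sub_eq_zero.1 h3
  have Qadd : ∀ {a a' b b'}, Q a b → Q a' b' → Q (a + a') (b + b') := by
    intro a a' b b' h1 h2 x y
    rw [add_mul, map_add, LinearMap.add_apply, add_mul, map_add, h1, h2]
  have Qsmul : ∀ (c : F) {a b}, Q a b → Q (c • a) (c • b) := by
    intro c a b h1 x y
    rw [smul_mul_assoc, map_smul, LinearMap.smul_apply, smul_mul_assoc, map_smul, h1]
  have Qmul : ∀ {a a' b b'}, Q a b → Q a' b' → Q (a * a') (b * b') := by
    intro a a' b b' h1 h2 x y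
    rw [mul_assoc, h1, h2]
    congr 1
    ring
  have Q1 : Q 1 1 := by
    intro x y
    rw [one_mul, one_mul]
  have Qη : ∀ h, Q (η h) (η h⁻¹) := by
    intro h x y
    have h1 := hinv h x (η h⁻¹ * y)
    rw [← h1, ← mul_assoc, ← map_mul, mul_inv_cancel, map_one, one_mul]
  have hex : ∀ a, ∃ b, Q a b := by
    intro a
    induction hspan a using Submodule.span_induction with
    | mem y hy =>
      obtain ⟨h, rfl⟩ := hy
      exact ⟨_, Qη h⟩
    | zero =>
      refine ⟨0, fun x y => ?_⟩
      rw [zero_mul, zero_mul, map_zero, map_zero, LinearMap.zero_apply]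
    | add a b _ _ ha hb =>
      obtain ⟨c, hc⟩ := ha
      obtain ⟨d, hd⟩ := hb
      exact ⟨_, Qadd hc hd⟩
    | smul c a _ ha =>
      obtain ⟨d, hd⟩ := ha
      exact ⟨_, Qsmul c hd⟩
  choose σ₀ hσ₀ using hex
  let σ₁ : K →ₗ[F] K :=
    { toFun := σ₀
      map_add' := fun a b => huniq (hσ₀ (a + b)) (Qadd (hσ₀ a) (hσ₀ b))
      map_smul' := fun c a => huniq (hσ₀ (c • a)) (Qsmul c (hσ₀ a)) }
  have hone : σ₁ 1 = 1 := huniq (hσ₀ 1) Q1
  have hmul : ∀ a b, σ₁ (a * b) = σ₁ a * σ₁ b := fun a b =>
    huniq (hσ₀ (a * b)) (Qmul (hσ₀ a) (hσ₀ b))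
  refine ⟨AlgHom.ofLinearMap σ₁ hone hmul, fun h => ?_⟩
  exact huniq (hσ₀ (η h)) (Qη h)

end FieldModel

section Main

variable {F : Type*} [Field F] [Fintype F] {H : Type*} [CommGroup H] [Finite H]
  {V : Type*} [AddCommGroup V] [Module F V] [FiniteDimensional F V]

/-- Dimension one. -/
theorem selfdual_dim_one (ρ : Representation F H V) (hfaith : Function.Injective ρ)
    (hn : Module.finrank F V = 1) (B : LinearMap.BilinForm F V) (hB : B.Nondegenerate)
    (hinv : ∀ h x y, B (ρ h x) (ρ h y) = B x y) : Nat.card H ≤ 2 := by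
  classical
  obtain ⟨v, hv, hall⟩ := finrank_eq_one_iff'.1 hn
  have hvv : B v v ≠ 0 := by
    intro h0
    apply hv
    apply hB.1
    intro y
    obtain ⟨c, rfl⟩ := hall y
    rw [map_smul, h0, smul_zero]
  have hex : ∀ h, ∃ c : F, c • v = ρ h v := fun h => hall _
  choose l hl using hex
  have hl2 : ∀ h, l h * l h = 1 := by
    intro h
    have h1 := hinv h v v
    rw [← hl, map_smul, map_smul, LinearMap.smul_apply, smul_smul] at h1
    have h2 : (l h * l h - 1) * B v v = 0 := by
      rw [sub_mul, one_mul, sub_eq_zero]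
      simpa [mul_comm] using h1
    have h3 := (mul_eq_zero.1 h2).resolve_right hvv
    exact sub_eq_zero.1 h3
  have hlinj : Function.Injective l := by
    intro h h' hh
    apply hfaith
    apply LinearMap.ext
    intro w
    obtain ⟨c, rfl⟩ := hall w
    rw [map_smul, map_smul, ← hl, ← hl, hh]
  have hmem : ∀ h, l h ∈ ({1, -1} : Finset F) := by
    intro h
    simp only [Finset.mem_insert, Finset.mem_singleton]
    exact mul_self_eq_one_iff.1 (hl2 h)
  have h1 : Nat.card H ≤ Nat.card ({1, -1} : Finset F) :=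
    Nat.card_le_card_of_injective (fun h => (⟨l h, hmem h⟩ : ({1, -1} : Finset F)))
      (fun a b hab => hlinj (Subtype.mk.inj hab))
  have h2 : Nat.card ({1, -1} : Finset F) = ({1, -1} : Finset F).card := by
    rw [Nat.card_eq_fintype_card, Fintype.card_coe]
  rw [h2] at h1
  exact h1.trans Finset.card_le_two

theorem selfdual_main (ρ : Representation F H V) (hfaith : Function.Injective ρ)
    (hirr : ∀ U : Submodule F V, (∀ h : H, ∀ u ∈ U, ρ h u ∈ U) → U = ⊥ ∨ U = ⊤)
    (hn : 2 ≤ Module.finrank F V) :
    (∃ B : LinearMap.BilinForm F V, B.Nondegenerate ∧ ∀ h : H, ∀ x y : V, B (ρ h x) (ρ h y) = B x y) ↔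
      (Even (Module.finrank F V) ∧ Nat.card H ∣ Fintype.card F ^ (Module.finrank F V / 2) + 1) := by
  classical
  haveI : Nontrivial V := Module.nontrivial_of_finrank_pos (R := F) (by omega)
  obtain ⟨K, _, _, η, T, hT, hspan⟩ := selfdual_exists_model ρ hirr
  haveI : Finite V := Module.finite_of_finite F
  haveI : Finite K := Finite.of_injective T T.injective
  have hfr : Module.finrank F K = Module.finrank F V := T.finrank_eq
  have hinj : Function.Injective η := by
    intro h h' hh
    apply hfaith
    apply LinearMap.ext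
    intro w
    obtain ⟨r, rfl⟩ := T.surjective w
    rw [← hT, ← hT, hh]
  constructor
  · rintro ⟨B, hB, hinv⟩
    let B' : LinearMap.BilinForm F K := B.comp (T : K →ₗ[F] V) (T : K →ₗ[F] V)
    have hB' : ∀ x y, B' x y = B (T x) (T y) := fun _ _ => rfl
    have hnd : B'.Nondegenerate := by
      constructor
      · intro x hx
        have : T x = 0 := by
          apply hB.1
          intro y
          obtain ⟨r, rfl⟩ := T.surjective y
          exact hx r
        simpa using this
      · intro y hy
        have : T y = 0 := by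
          apply hB.2
          intro x
          obtain ⟨r, rfl⟩ := T.surjective x
          exact hy r
        simpa using this
    obtain ⟨σ, hσ⟩ := selfdual_exists_sigma η hspan B' hnd (by
      intro h x y
      rw [hB', hB', hT, hT, hinv])
    rw [← hfr]
    exact selfdual_forward η hinj hspan σ hσ (by omega)
  · rintro ⟨-, hdvd⟩
    obtain ⟨B', hB', hinv⟩ := selfdual_backward (F := F) η _ hdvd
    let B : LinearMap.BilinForm F V := B'.comp (T.symm : V →ₗ[F] K) (T.symm : V →ₗ[F] K)
    have hB : ∀ x y, B x y = B' (T.symm x) (T.symm y) := fun _ _ => rfl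
    refine ⟨B, ⟨?_, ?_⟩, ?_⟩
    · intro x hx
      have : T.symm x = 0 := by
        apply hB'.1
        intro y
        have := hx (T y)
        rwa [hB, T.symm_apply_apply] at this
      simpa using this
    · intro y hy
      have : T.symm y = 0 := by
        apply hB'.2
        intro x
        have := hy (T x)
        rwa [hB, T.symm_apply_apply] at this
      simpa using this
    · intro h x y
      obtain ⟨r, rfl⟩ := T.surjective x
      obtain ⟨s, rfl⟩ := T.surjective y
      rw [← hT, ← hT, hB, hB]
      simp only [T.symm_apply_apply]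
      exact hinv h r s

end Main

end Cfsg.Agent.H23
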