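import Mathlib

/-!
# Self-dual coprime modules split into symplectic and orthogonal parts
-/

set_option autoImplicit false

namespace Cfsg.Agent.H23

section Basic

variable {F : Type*} [Field F] {V : Type*} [AddCommGroup V] [Module F V]

/-- A projection: identity on `H`, zero on `K`, with values in `H`. -/
theorem sd_exists_proj {H K : Submodule F V} (h : Disjoint H K) :
    ∃ P : V →ₗ[F] V, (∀ v, P v ∈ H) ∧ (∀ x ∈ H, P x = x) ∧ (∀ x ∈ K, P x = 0) := by
  obtain ⟨a, ha, hc⟩ := h.symm.exists_isCompl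
  refine ⟨H.subtype ∘ₗ Submodule.projectionOnto H a hc.symm, fun v => by simp, ?_, ?_⟩
  · intro x hx
    exact congrArg Subtype.val (Submodule.projectionOnto_apply_left hc.symm ⟨x, hx⟩)
  · intro x hx
    have h0 := (Submodule.projectionOnto_apply_eq_zero_iff hc.symm).2 (ha hx)
    exact congrArg Subtype.val h0

/-- Both-sided separation of a form on a subspace. -/
structure SdND (B : LinearMap.BilinForm F V) (H : Submodule F V) : Prop where
  l : ∀ x ∈ H, (∀ y ∈ H, B x y = 0) → x = 0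
  r : ∀ y ∈ H, (∀ x ∈ H, B x y = 0) → y = 0

theorem sd_repr [FiniteDimensional F V] (B : V →ₗ[F] V →ₗ[F] F) (H : Submodule F V)
    (hl : ∀ x ∈ H, (∀ y ∈ H, B x y = 0) → x = 0) (f : H →ₗ[F] F) :
    ∃ x₀ ∈ H, ∀ y (hy : y ∈ H), B x₀ y = f ⟨y, hy⟩ := by
  let Φ : H →ₗ[F] Module.Dual F H := LinearMap.BilinForm.restrict B H
  have hinj : Function.Injective Φ := by
    rw [injective_iff_map_eq_zero]
    intro x hx
    have h1 : (x : V) = 0 := by
      apply hl x x.2
      intro y hy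
      have := congrArg (fun φ : Module.Dual F H => φ ⟨y, hy⟩) hx
      exact this
    exact Subtype.ext h1
  have hsurj : Function.Surjective Φ :=
    (LinearMap.injective_iff_surjective_of_finrank_eq_finrank
      (Subspace.dual_finrank_eq).symm).1 hinj
  obtain ⟨x₀, hx₀⟩ := hsurj f
  refine ⟨x₀, x₀.2, fun y hy => ?_⟩
  have := congrArg (fun φ : Module.Dual F H => φ ⟨y, hy⟩) hx₀
  exact this

/-- The right perpendicular of `H` inside `Y`. -/
def sdPerp (B : LinearMap.BilinForm F V) (H Y : Submodule F V) : Submodule F V where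
  carrier := {y | y ∈ Y ∧ ∀ h ∈ H, B h y = 0}
  add_mem' := by
    rintro a b ⟨ha, ha'⟩ ⟨hb, hb'⟩
    refine ⟨add_mem ha hb, fun h hh => ?_⟩
    rw [map_add, ha' h hh, hb' h hh, add_zero]
  zero_mem' := ⟨zero_mem _, fun h _ => map_zero _⟩
  smul_mem' := by
    rintro c a ⟨ha, ha'⟩
    refine ⟨Submodule.smul_mem _ c ha, fun h hh => ?_⟩
    rw [map_smul, ha' h hh, smul_zero]

theorem sd_split [FiniteDimensional F V] {B : LinearMap.BilinForm F V} {H Y : Submodule F V}
    (hH : SdND B H) (hY : SdND B Y) (hHY : H ≤ Y) :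
    Disjoint H (sdPerp B H Y) ∧ H ⊔ sdPerp B H Y = Y ∧ SdND B (sdPerp B H Y) := by
  have h1 : ∀ y ∈ Y, ∃ h₀ ∈ H, y - h₀ ∈ sdPerp B H Y := by
    intro y hy
    let f : H →ₗ[F] F := (B.flip y) ∘ₗ H.subtype
    obtain ⟨h₀, hh₀, h2⟩ := sd_repr B.flip H (fun x hx h => hH.r x hx fun z hz => h z hz) f
    refine ⟨h₀, hh₀, sub_mem hy (hHY hh₀), fun h hh => ?_⟩
    have h3 := h2 h hh
    have h4 : B h h₀ = B h y := h3
    rw [map_sub, h4, sub_self]
  have h2 : ∀ y ∈ Y, ∃ h₀ ∈ H, ∀ h ∈ H, B (y - h₀) h = 0 := by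
    intro y hy
    let f : H →ₗ[F] F := (B y) ∘ₗ H.subtype
    obtain ⟨h₀, hh₀, h2⟩ := sd_repr B H hH.l f
    refine ⟨h₀, hh₀, fun h hh => ?_⟩
    have h3 := h2 h hh
    have h4 : B h₀ h = B y h := h3
    rw [map_sub, LinearMap.sub_apply, h4, sub_self]
  have hdisj : Disjoint H (sdPerp B H Y) := by
    rw [Submodule.disjoint_def]
    intro x hx hx'
    exact hH.r x hx hx'.2
  have hsup : H ⊔ sdPerp B H Y = Y := by
    apply le_antisymm
    · exact sup_le hHY fun y hy => hy.1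
    · intro y hy
      obtain ⟨h₀, hh₀, h3⟩ := h1 y hy
      have : y = h₀ + (y - h₀) := by abel
      rw [this]
      exact add_mem (Submodule.mem_sup_left hh₀) (Submodule.mem_sup_right h3)
  refine ⟨hdisj, hsup, ?_, ?_⟩
  · intro y hy hyz
    obtain ⟨h₀, hh₀, h3⟩ := h2 y hy.1
    have hl : y - h₀ = 0 := by
      apply hY.l _ (sub_mem hy.1 (hHY hh₀))
      intro z hz
      obtain ⟨h₁, hh₁, h4⟩ := h1 z hz
      have h5 : B (y - h₀) z = B (y - h₀) h₁ + B (y - h₀) (z - h₁) := by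
        rw [← map_add]; congr 1; abel
      have h6 : B (y - h₀) (z - h₁) = B y (z - h₁) - B h₀ (z - h₁) := by
        rw [map_sub B y h₀, LinearMap.sub_apply]
      rw [h5, h3 h₁ hh₁, zero_add, h6, hyz _ h4, h4.2 h₀ hh₀, sub_zero]
    have h6 : y = h₀ := sub_eq_zero.1 hl
    have h7 : y ∈ H := h6 ▸ hh₀
    exact Submodule.disjoint_def.1 hdisj y h7 hy
  · intro y hy hxy
    apply hY.r y hy.1
    intro z hz
    obtain ⟨h₁, hh₁, h4⟩ := h1 z hz
    have h5 : B z y = B h₁ y + B (z - h₁) y := by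
      rw [← LinearMap.add_apply, ← map_add]; congr 2; abel
    rw [h5, hy.2 h₁ hh₁, hxy _ h4, add_zero]

end Basic

section Good

variable {F : Type*} [Field F] {G : Type*} [Group G] {V : Type*} [AddCommGroup V] [Module F V]

/-- A form on `V` that is invariant and left-separating on the invariant subspace `U`. -/
def SdFormOn (ρ : Representation F G V) (A : LinearMap.BilinForm F V) (U : Submodule F V) : Prop :=
  (∀ g : G, ∀ x ∈ U, ∀ y ∈ U, A (ρ g x) (ρ g y) = A x y) ∧ ∀ x ∈ U, (∀ y ∈ U, A x y = 0) → x = 0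

theorem sd_formOn_sup {ρ : Representation F G V} {A₁ A₂ : LinearMap.BilinForm F V}
    {U₁ U₂ H K : Submodule F V} (h₁ : SdFormOn ρ A₁ U₁) (h₂ : SdFormOn ρ A₂ U₂)
    (hU₁ : U₁ ≤ H) (hU₂ : U₂ ≤ K)
    (hi₁ : ∀ g : G, ∀ u ∈ U₁, ρ g u ∈ U₁) (hi₂ : ∀ g : G, ∀ u ∈ U₂, ρ g u ∈ U₂)
    {P Q : V →ₗ[F] V} (hP1 : ∀ x ∈ H, P x = x) (hP0 : ∀ x ∈ K, P x = 0)
    (hQ1 : ∀ x ∈ K, Q x = x) (hQ0 : ∀ x ∈ H, Q x = 0) :
    SdFormOn ρ (A₁.comp P P + A₂.comp Q Q) (U₁ ⊔ U₂) := by
  have hval : ∀ a ∈ U₁, ∀ b ∈ U₂, P (a + b) = a ∧ Q (a + b) = b := by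
    intro a ha b hb
    rw [map_add, map_add, hP1 a (hU₁ ha), hP0 b (hU₂ hb), hQ0 a (hU₁ ha), hQ1 b (hU₂ hb)]
    simp
  have hform : ∀ a ∈ U₁, ∀ b ∈ U₂, ∀ c ∈ U₁, ∀ d ∈ U₂,
      (A₁.comp P P + A₂.comp Q Q) (a + b) (c + d) = A₁ a c + A₂ b d := by
    intro a ha b hb c hc d hd
    rw [LinearMap.add_apply, LinearMap.add_apply, LinearMap.BilinForm.comp_apply,
      LinearMap.BilinForm.comp_apply, (hval a ha b hb).1, (hval a ha b hb).2, (hval c hc d hd).1,
      (hval c hc d hd).2]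
  constructor
  · intro g x hx y hy
    obtain ⟨a, ha, b, hb, rfl⟩ := Submodule.mem_sup.1 hx
    obtain ⟨c, hc, d, hd, rfl⟩ := Submodule.mem_sup.1 hy
    rw [map_add (ρ g) a b, map_add (ρ g) c d,
      hform _ (hi₁ g a ha) _ (hi₂ g b hb) _ (hi₁ g c hc) _ (hi₂ g d hd),
      hform a ha b hb c hc d hd, h₁.1 g a ha c hc, h₂.1 g b hb d hd]
  · intro x hx hall
    obtain ⟨a, ha, b, hb, rfl⟩ := Submodule.mem_sup.1 hx
    have h0 : a = 0 := by
      apply h₁.2 a ha
      intro c hc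
      have h3 := hall (c + 0) (add_mem (Submodule.mem_sup_left hc) (zero_mem _))
      rw [hform a ha b hb c hc 0 (zero_mem _), map_zero, add_zero] at h3
      exact h3
    have h0' : b = 0 := by
      apply h₂.2 b hb
      intro d hd
      have h3 := hall (0 + d) (add_mem (zero_mem _) (Submodule.mem_sup_right hd))
      rw [hform a ha b hb 0 (zero_mem _) d hd, map_zero, zero_add] at h3
      exact h3
    rw [h0, h0', add_zero]

/-- The splitting of an invariant subspace `Y`. -/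
def SdGood (p : ℕ) (ρ : Representation F G V) (Y : Submodule F V) : Prop :=
  ∃ U W : Submodule F V, U ⊔ W = Y ∧ Disjoint U W ∧ (∀ g : G, ∀ u ∈ U, ρ g u ∈ U) ∧
    (∀ g : G, ∀ w ∈ W, ρ g w ∈ W) ∧
    (∃ A : LinearMap.BilinForm F V, (∀ x, A x x = 0) ∧ SdFormOn ρ A U) ∧
    (∃ S : LinearMap.BilinForm F V, (∀ x y, S x y = S y x) ∧ SdFormOn ρ S W) ∧
    (p = 2 → ∀ g : G, ∀ w ∈ W, ρ g w = w)

theorem sd_good_alt {p : ℕ} {ρ : Representation F G V} {Y : Submodule F V}
    (hY : ∀ g : G, ∀ u ∈ Y, ρ g u ∈ Y) {A : LinearMap.BilinForm F V} (hA : ∀ x, A x x = 0)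
    (hf : SdFormOn ρ A Y) : SdGood p ρ Y := by
  refine ⟨Y, ⊥, by simp, by simp, hY, ?_, ⟨A, hA, hf⟩, ⟨0, by simp, ?_, ?_⟩, ?_⟩
  · intro g w hw
    rw [(Submodule.mem_bot F).1 hw, map_zero]
    exact zero_mem _
  · intro g x hx y hy
    simp
  · intro x hx _
    exact (Submodule.mem_bot F).1 hx
  · intro _ g w hw
    rw [(Submodule.mem_bot F).1 hw, map_zero]

theorem sd_good_sym {p : ℕ} {ρ : Representation F G V} {Y : Submodule F V}
    (hY : ∀ g : G, ∀ u ∈ Y, ρ g u ∈ Y) {S : LinearMap.BilinForm F V} (hS : ∀ x y, S x y = S y x)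
    (hf : SdFormOn ρ S Y) (ht : p = 2 → ∀ g : G, ∀ w ∈ Y, ρ g w = w) : SdGood p ρ Y := by
  refine ⟨⊥, Y, by simp, by simp, ?_, hY, ⟨0, by simp, ?_, ?_⟩, ⟨S, hS, hf⟩, ht⟩
  · intro g w hw
    rw [(Submodule.mem_bot F).1 hw, map_zero]
    exact zero_mem _
  · intro g x hx y hy
    simp
  · intro x hx _
    exact (Submodule.mem_bot F).1 hx

theorem sd_good_sup {p : ℕ} {ρ : Representation F G V} {H K : Submodule F V}
    (hd : Disjoint H K) (h₁ : SdGood p ρ H) (h₂ : SdGood p ρ K) : SdGood p ρ (H ⊔ K) := by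
  obtain ⟨U₁, W₁, hs₁, hd₁, hU₁, hW₁, ⟨A₁, hA₁, hfA₁⟩, ⟨S₁, hS₁, hfS₁⟩, ht₁⟩ := h₁
  obtain ⟨U₂, W₂, hs₂, hd₂, hU₂, hW₂, ⟨A₂, hA₂, hfA₂⟩, ⟨S₂, hS₂, hfS₂⟩, ht₂⟩ := h₂
  obtain ⟨P, -, hP1, hP0⟩ := sd_exists_proj hd
  obtain ⟨Q, -, hQ1, hQ0⟩ := sd_exists_proj hd.symm
  have hU₁H : U₁ ≤ H := hs₁ ▸ le_sup_left
  have hW₁H : W₁ ≤ H := hs₁ ▸ le_sup_right
  have hU₂K : U₂ ≤ K := hs₂ ▸ le_sup_left
  have hW₂K : W₂ ≤ K := hs₂ ▸ le_sup_right
  refine ⟨U₁ ⊔ U₂, W₁ ⊔ W₂, ?_, ?_, ?_, ?_, ⟨A₁.comp P P + A₂.comp Q Q, ?_,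
    sd_formOn_sup hfA₁ hfA₂ hU₁H hU₂K hU₁ hU₂ hP1 hP0 hQ1 hQ0⟩,
    ⟨S₁.comp P P + S₂.comp Q Q, ?_, sd_formOn_sup hfS₁ hfS₂ hW₁H hW₂K hW₁ hW₂ hP1 hP0 hQ1 hQ0⟩, ?_⟩
  · rw [sup_sup_sup_comm, hs₁, hs₂]
  · rw [Submodule.disjoint_def]
    intro x hx hx'
    obtain ⟨a, ha, b, hb, rfl⟩ := Submodule.mem_sup.1 hx
    obtain ⟨c, hc, d, hd', hcd⟩ := Submodule.mem_sup.1 hx'
    have h1 : a - c = d - b := by
      rw [sub_eq_sub_iff_add_eq_add, add_comm d c]
      exact hcd.symm
    have h2 : a - c = 0 := by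
      apply Submodule.disjoint_def.1 hd _ (sub_mem (hU₁H ha) (hW₁H hc))
      rw [h1]
      exact sub_mem (hW₂K hd') (hU₂K hb)
    have h3 : a = c := sub_eq_zero.1 h2
    have h4 : d = b := (sub_eq_zero.1 (h1 ▸ h2))
    have h5 : a = 0 := Submodule.disjoint_def.1 hd₁ a ha (h3 ▸ hc)
    have h6 : b = 0 := Submodule.disjoint_def.1 hd₂ b hb (h4 ▸ hd')
    rw [h5, h6, add_zero]
  · intro g u hu
    obtain ⟨a, ha, b, hb, rfl⟩ := Submodule.mem_sup.1 hu
    rw [map_add]
    exact add_mem (Submodule.mem_sup_left (hU₁ g a ha)) (Submodule.mem_sup_right (hU₂ g b hb))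
  · intro g u hu
    obtain ⟨a, ha, b, hb, rfl⟩ := Submodule.mem_sup.1 hu
    rw [map_add]
    exact add_mem (Submodule.mem_sup_left (hW₁ g a ha)) (Submodule.mem_sup_right (hW₂ g b hb))
  · intro x
    rw [LinearMap.add_apply, LinearMap.add_apply, LinearMap.BilinForm.comp_apply,
      LinearMap.BilinForm.comp_apply, hA₁, hA₂, add_zero]
  · intro x y
    rw [LinearMap.add_apply, LinearMap.add_apply, LinearMap.add_apply, LinearMap.add_apply,
      LinearMap.BilinForm.comp_apply, LinearMap.BilinForm.comp_apply,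
      LinearMap.BilinForm.comp_apply, LinearMap.BilinForm.comp_apply, hS₁, hS₂]
  · intro hp g w hw
    obtain ⟨a, ha, b, hb, rfl⟩ := Submodule.mem_sup.1 hw
    rw [map_add, ht₁ hp g a ha, ht₂ hp g b hb]

end Good

section Main

variable {F : Type*} [Field F] {G : Type*} [Group G] {V : Type*} [AddCommGroup V] [Module F V]

theorem sd_perp_inv {ρ : Representation F G V} {B : LinearMap.BilinForm F V}
    (hinv : ∀ (g : G) (x y : V), B (ρ g x) (ρ g y) = B x y) {H Y : Submodule F V}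
    (hH : ∀ g : G, ∀ h ∈ H, ρ g h ∈ H) (hY : ∀ g : G, ∀ y ∈ Y, ρ g y ∈ Y) :
    ∀ g : G, ∀ y ∈ sdPerp B H Y, ρ g y ∈ sdPerp B H Y := by
  rintro g y ⟨hy, hy'⟩
  refine ⟨hY g y hy, fun h hh => ?_⟩
  have h1 : ρ g (ρ g⁻¹ h) = h := ρ.self_inv_apply g h
  rw [← h1, hinv]
  exact hy' _ (hH _ _ hh)

/-- The hyperbolic step: a totally isotropic `X` of symmetric vectors lies in a nondegenerate
invariant subspace carrying an alternating invariant form. -/
theorem sd_hyper [Finite G] [NeZero (Nat.card G : F)] {ρ : Representation F G V}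
    {B : LinearMap.BilinForm F V} (hinv : ∀ (g : G) (x y : V), B (ρ g x) (ρ g y) = B x y)
    {X Y : Submodule F V} (hX : ∀ g : G, ∀ h ∈ X, ρ g h ∈ X) (hY : ∀ g : G, ∀ y ∈ Y, ρ g y ∈ Y)
    (hXY : X ≤ Y) (hnd : SdND B Y) (hsym : ∀ x ∈ X, ∀ y ∈ Y, B x y = B y x)
    (h0 : ∀ x ∈ X, ∀ x' ∈ X, B x x' = 0) (hXne : X ≠ ⊥) :
    ∃ H : Submodule F V, H ≠ ⊥ ∧ H ≤ Y ∧ (∀ g : G, ∀ h ∈ H, ρ g h ∈ H) ∧ SdND B H ∧
      ∃ A : LinearMap.BilinForm F V, (∀ x, A x x = 0) ∧ SdFormOn ρ A H := by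
  classical
  let T : Subrepresentation ρ :=
    { toSubmodule := sdPerp B X Y
      apply_mem_toSubmodule := fun g y hy => sd_perp_inv hinv hX hY g y hy }
  obtain ⟨S', hc⟩ := exists_isCompl T
  have hcompl : IsCompl (sdPerp B X Y) S'.toSubmodule := by
    constructor
    · rw [disjoint_iff]
      exact congrArg Subrepresentation.toSubmodule hc.inf_eq_bot
    · rw [codisjoint_iff]
      exact congrArg Subrepresentation.toSubmodule hc.sup_eq_top
  obtain ⟨Z', hZ'⟩ : ∃ Z', Z' = S'.toSubmodule := ⟨_, rfl⟩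
  rw [← hZ'] at hcompl
  have hZ'inv : ∀ g : G, ∀ z ∈ Z', ρ g z ∈ Z' := by
    intro g z hz
    rw [hZ'] at hz ⊢
    exact S'.apply_mem_toSubmodule g hz
  obtain ⟨b, -, hb1, hb0⟩ := sd_exists_proj hcompl.symm.disjoint
  have hdec : ∀ v : V, ∃ t ∈ sdPerp B X Y, ∃ z ∈ Z', v = t + z := by
    intro v
    have hv : v ∈ sdPerp B X Y ⊔ Z' := by
      rw [hcompl.sup_eq_top]; exact Submodule.mem_top
    obtain ⟨t, ht, z, hz, rfl⟩ := Submodule.mem_sup.1 hv
    exact ⟨t, ht, z, hz, rfl⟩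
  have hbeq : ∀ (g : G) (v : V), b (ρ g v) = ρ g (b v) := by
    intro g v
    obtain ⟨t, ht, z, hz, rfl⟩ := hdec v
    have e1 : b (ρ g (t + z)) = ρ g z := by
      rw [map_add (ρ g), map_add b, hb0 _ (sd_perp_inv hinv hX hY g t ht), hb1 _ (hZ'inv g z hz),
        zero_add]
    have e2 : b (t + z) = z := by rw [map_add b, hb0 _ ht, hb1 _ hz, zero_add]
    rw [e1, e2]
  let Z : Submodule F V := Z' ⊓ Y
  have hdecY : ∀ y ∈ Y, ∃ t ∈ sdPerp B X Y, ∃ z ∈ Z, y = t + z := by
    intro y hy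
    obtain ⟨t, ht, z, hz, rfl⟩ := hdec y
    refine ⟨t, ht, z, Submodule.mem_inf.2 ⟨hz, ?_⟩, rfl⟩
    have : z = t + z - t := by abel
    rw [this]
    exact sub_mem hy ht.1
  have hXT : ∀ x ∈ X, x ∈ sdPerp B X Y := fun x hx => ⟨hXY hx, fun x' hx' => h0 x' hx' x hx⟩
  have hi : ∀ x ∈ X, (∀ z ∈ Z, B x z = 0) → x = 0 := by
    intro x hx hall
    apply hnd.l x (hXY hx)
    intro y hy
    obtain ⟨t, ht, z, hz, rfl⟩ := hdecY y hy
    rw [map_add, ht.2 x hx, hall z hz, add_zero]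
  have hii : ∀ z ∈ Z, (∀ x ∈ X, B x z = 0) → z = 0 := by
    intro z hz hall
    exact Submodule.disjoint_def.1 hcompl.disjoint z ⟨(Submodule.mem_inf.1 hz).2, hall⟩
      (Submodule.mem_inf.1 hz).1
  have hZY : Z ≤ Y := inf_le_right
  have hZZ' : Z ≤ Z' := inf_le_left
  let ω : LinearMap.BilinForm F V := LinearMap.mk₂ F
    (fun v w => B v (b w) - B w (b v) - B (b v) (b w) + B (b w) (b v))
    (by intro a c d; simp only [map_add, LinearMap.add_apply]; ring)
    (by intro c a d; simp only [map_smul, LinearMap.smul_apply, smul_eq_mul]; ring)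
    (by intro a c d; simp only [map_add, LinearMap.add_apply]; ring)
    (by intro c a d; simp only [map_smul, LinearMap.smul_apply, smul_eq_mul]; ring)
  have hω : ∀ v w, ω v w = B v (b w) - B w (b v) - B (b v) (b w) + B (b w) (b v) := fun _ _ => rfl
  refine ⟨X ⊔ Z, ?_, sup_le hXY hZY, ?_, ⟨?_, ?_⟩, ω, ?_, ?_, ?_⟩
  · intro h
    apply hXne
    rw [eq_bot_iff, ← h]
    exact le_sup_left
  · intro g h hh
    obtain ⟨x, hx, z, hz, rfl⟩ := Submodule.mem_sup.1 hh
    rw [map_add]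
    refine add_mem (Submodule.mem_sup_left (hX g x hx)) (Submodule.mem_sup_right ?_)
    exact Submodule.mem_inf.2 ⟨hZ'inv g z (hZZ' hz), hY g z (hZY hz)⟩
  · -- left separation
    intro a ha hall
    obtain ⟨x, hx, z, hz, rfl⟩ := Submodule.mem_sup.1 ha
    have hz0 : z = 0 := by
      apply hii z hz
      intro x' hx'
      have h1 := hall x' (Submodule.mem_sup_left hx')
      rw [map_add, LinearMap.add_apply, h0 x hx x' hx', zero_add, ← hsym x' hx' z (hZY hz)] at h1
      exact h1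
    subst hz0
    rw [add_zero] at hall ⊢
    apply hi x hx
    intro z' hz'
    exact hall z' (Submodule.mem_sup_right hz')
  · -- right separation
    intro a ha hall
    obtain ⟨x, hx, z, hz, rfl⟩ := Submodule.mem_sup.1 ha
    have hz0 : z = 0 := by
      apply hii z hz
      intro x' hx'
      have h1 := hall x' (Submodule.mem_sup_left hx')
      rw [map_add, h0 x' hx' x hx, zero_add] at h1
      exact h1
    subst hz0
    rw [add_zero] at hall ⊢
    apply hi x hx
    intro z' hz'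
    rw [hsym x hx z' (hZY hz')]
    exact hall z' (Submodule.mem_sup_right hz')
  · intro x
    rw [hω]
    ring
  · intro g x _ y _
    rw [hω, hω, hbeq, hbeq, hinv, hinv, hinv, hinv]
  · intro a ha hall
    obtain ⟨x, hx, z, hz, rfl⟩ := Submodule.mem_sup.1 ha
    have hbx : ∀ x ∈ X, b x = 0 := fun x hx => hb0 x (hXT x hx)
    have hbz : ∀ z ∈ Z, b z = z := fun z hz => hb1 z (hZZ' hz)
    have hz0 : z = 0 := by
      apply hii z hz
      intro x' hx'
      have h1 := hall x' (Submodule.mem_sup_left hx')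
      have hba : b (x + z) = z := by rw [map_add b, hbx x hx, hbz z hz, zero_add]
      rw [hω, hbx x' hx', hba] at h1
      simpa using h1
    subst hz0
    rw [add_zero] at hall ⊢
    apply hi x hx
    intro z' hz'
    have h1 := hall z' (Submodule.mem_sup_right hz')
    rw [hω, hbx x hx, hbz z' hz'] at h1
    simpa using h1

theorem sd_rec (p : ℕ) (hchar : p = 2 → (2 : F) = 0) [FiniteDimensional F V] [Finite G]
    [NeZero (Nat.card G : F)] (ρ : Representation F G V)
    (B : LinearMap.BilinForm F V) (hinv : ∀ (g : G) (x y : V), B (ρ g x) (ρ g y) = B x y) :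
    ∀ n : ℕ, ∀ Y : Submodule F V, Module.finrank F Y = n → (∀ g : G, ∀ y ∈ Y, ρ g y ∈ Y) →
      SdND B Y → SdGood p ρ Y := by
  intro n
  induction n using Nat.strong_induction_on with
  | _ n ih =>
  intro Y hn hYinv hY
  have hstep : ∀ H : Submodule F V, H ≠ ⊥ → H ≤ Y → (∀ g : G, ∀ h ∈ H, ρ g h ∈ H) → SdND B H →
      SdGood p ρ H → SdGood p ρ Y := by
    intro H hne hle hi hnd hg
    obtain ⟨hd, hs, hnd'⟩ := sd_split hnd hY hle
    have hY'inv := sd_perp_inv hinv hi hYinv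
    have hlt : Module.finrank F (sdPerp B H Y) < n := by
      rw [← hn]
      apply Submodule.finrank_lt_finrank_of_lt
      refine lt_of_le_of_ne (fun y hy => hy.1) ?_
      intro heq
      apply hne
      rw [eq_bot_iff]
      intro h hh
      have h2 : h ∈ sdPerp B H Y := by
        rw [heq]; exact hle hh
      exact Submodule.disjoint_def.1 hd h hh h2
    have hg' := ih _ hlt _ rfl hY'inv hnd'
    rw [← hs]
    exact sd_good_sup hd hg hg'
  -- the symmetric radical
  let K : Submodule F V :=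
    { carrier := {x | x ∈ Y ∧ ∀ y ∈ Y, B x y = B y x}
      add_mem' := by
        rintro a c ⟨ha, ha'⟩ ⟨hc, hc'⟩
        refine ⟨add_mem ha hc, fun y hy => ?_⟩
        rw [map_add, LinearMap.add_apply, ha' y hy, hc' y hy, map_add]
      zero_mem' := ⟨zero_mem _, fun y _ => by simp⟩
      smul_mem' := by
        rintro c a ⟨ha, ha'⟩
        refine ⟨Submodule.smul_mem _ c ha, fun y hy => ?_⟩
        rw [map_smul, LinearMap.smul_apply, ha' y hy, map_smul] }
  have hKinv : ∀ g : G, ∀ x ∈ K, ρ g x ∈ K := by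
    rintro g x ⟨hx, hx'⟩
    refine ⟨hYinv g x hx, fun y hy => ?_⟩
    have h1 : ρ g (ρ g⁻¹ y) = y := ρ.self_inv_apply g y
    rw [← h1, hinv, hinv]
    exact hx' _ (hYinv _ _ hy)
  by_cases hK : K = ⊥
  · -- `B - Bᵀ` is nondegenerate on `Y`.
    let A₀ : LinearMap.BilinForm F V := LinearMap.mk₂ F (fun v w => B v w - B w v)
      (by intro a c d; simp only [map_add, LinearMap.add_apply]; ring)
      (by intro c a d; simp only [map_smul, LinearMap.smul_apply, smul_eq_mul]; ring)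
      (by intro a c d; simp only [map_add, LinearMap.add_apply]; ring)
      (by intro c a d; simp only [map_smul, LinearMap.smul_apply, smul_eq_mul]; ring)
    have hA₀ : ∀ v w, A₀ v w = B v w - B w v := fun _ _ => rfl
    refine sd_good_alt hYinv (A := A₀) (fun x => by rw [hA₀, sub_self]) ⟨?_, ?_⟩
    · intro g x _ y _
      rw [hA₀, hA₀, hinv, hinv]
    · intro x hx hall
      have h1 : x ∈ K := ⟨hx, fun y hy => by
        have := hall y hy
        rw [hA₀] at this
        exact sub_eq_zero.1 this⟩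
      rw [hK] at h1
      exact (Submodule.mem_bot F).1 h1
  · -- a minimal invariant subspace of `K`
    obtain ⟨X, ⟨hXne, hXinv, hXK⟩, hmin⟩ := wellFounded_lt.has_min
      {X : Submodule F V | X ≠ ⊥ ∧ (∀ g : G, ∀ x ∈ X, ρ g x ∈ X) ∧ X ≤ K} ⟨K, hK, hKinv, le_rfl⟩
    have hXmin : ∀ X' : Submodule F V, X' ≤ X → (∀ g : G, ∀ x ∈ X', ρ g x ∈ X') →
        X' = ⊥ ∨ X' = X := by
      intro X' hle hi
      by_contra hcon
      push Not at hcon
      exact hmin X' ⟨hcon.1, hi, hle.trans hXK⟩ (lt_of_le_of_ne hle hcon.2)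
    have hXY : X ≤ Y := fun x hx => (hXK hx).1
    have hsym : ∀ x ∈ X, ∀ y ∈ Y, B x y = B y x := fun x hx => (hXK hx).2
    by_cases hB0 : ∀ x ∈ X, ∀ x' ∈ X, B x x' = 0
    · obtain ⟨H, hne, hle, hi, hnd, A, hA, hf⟩ := sd_hyper hinv hXinv hYinv hXY hY hsym hB0 hXne
      exact hstep H hne hle hi hnd (sd_good_alt hi hA hf)
    · -- `B` is nondegenerate on `X`.
      let R : Submodule F V :=
        { carrier := {x | x ∈ X ∧ ∀ x' ∈ X, B x x' = 0}
          add_mem' := by
            rintro a c ⟨ha, ha'⟩ ⟨hc, hc'⟩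
            refine ⟨add_mem ha hc, fun y hy => ?_⟩
            rw [map_add, LinearMap.add_apply, ha' y hy, hc' y hy, add_zero]
          zero_mem' := ⟨zero_mem _, fun y _ => by simp⟩
          smul_mem' := by
            rintro c a ⟨ha, ha'⟩
            refine ⟨Submodule.smul_mem _ c ha, fun y hy => ?_⟩
            rw [map_smul, LinearMap.smul_apply, ha' y hy, smul_zero] }
      have hRinv : ∀ g : G, ∀ x ∈ R, ρ g x ∈ R := by
        rintro g x ⟨hx, hx'⟩
        refine ⟨hXinv g x hx, fun y hy => ?_⟩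
        have h1 : ρ g (ρ g⁻¹ y) = y := ρ.self_inv_apply g y
        rw [← h1, hinv]
        exact hx' _ (hXinv _ _ hy)
      have hR : R = ⊥ := by
        rcases hXmin R (fun x hx => hx.1) hRinv with h | h
        · exact h
        · exfalso
          apply hB0
          intro x hx x' hx'
          have : x ∈ R := h ▸ hx
          exact this.2 x' hx'
      have hndX : SdND B X := by
        constructor
        · intro x hx hall
          have h1 : x ∈ R := ⟨hx, hall⟩
          rw [hR] at h1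
          exact (Submodule.mem_bot F).1 h1
        · intro y hy hall
          have h1 : y ∈ R := ⟨hy, fun x hx => by rw [hsym y hy x (hXY hx)]; exact hall x hx⟩
          rw [hR] at h1
          exact (Submodule.mem_bot F).1 h1
      obtain ⟨P, hPm, hP1, -⟩ := sd_exists_proj (H := X) (K := ⊥) disjoint_bot_right
      have hgood : SdGood p ρ X := by
        have hf : SdFormOn ρ (B.comp P P) X := by
          constructor
          · intro g x hx y hy
            rw [LinearMap.BilinForm.comp_apply, LinearMap.BilinForm.comp_apply, hP1 _ hx, hP1 _ hy,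
              hP1 _ (hXinv g x hx), hP1 _ (hXinv g y hy), hinv]
          · intro x hx hall
            apply hndX.l x hx
            intro y hy
            have := hall y hy
            rwa [LinearMap.BilinForm.comp_apply, hP1 _ hx, hP1 _ hy] at this
        by_cases hN : ∀ x ∈ X, B x x = 0
        · refine sd_good_alt hXinv (fun x => ?_) hf
          rw [LinearMap.BilinForm.comp_apply]
          exact hN _ (hPm x)
        · refine sd_good_sym hXinv (fun x y => ?_) hf ?_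
          · rw [LinearMap.BilinForm.comp_apply, LinearMap.BilinForm.comp_apply]
            exact hsym _ (hPm x) _ (hXY (hPm y))
          · intro hp g w hw
            have h2 : (2 : F) = 0 := hchar hp
            let N : Submodule F V :=
              { carrier := {x | x ∈ X ∧ B x x = 0}
                add_mem' := by
                  rintro a c ⟨ha, ha'⟩ ⟨hc, hc'⟩
                  refine ⟨add_mem ha hc, ?_⟩
                  have h3 := hsym c hc a (hXY ha)
                  simp only [map_add, LinearMap.add_apply, ha', hc', h3]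
                  linear_combination (B a c) * h2
                zero_mem' := ⟨zero_mem _, by simp⟩
                smul_mem' := by
                  rintro c a ⟨ha, ha'⟩
                  refine ⟨Submodule.smul_mem _ c ha, ?_⟩
                  simp [ha'] }
            have hNinv : ∀ g : G, ∀ x ∈ N, ρ g x ∈ N := by
              rintro g x ⟨hx, hx'⟩
              exact ⟨hXinv g x hx, by rw [hinv]; exact hx'⟩
            have hN0 : N = ⊥ := by
              rcases hXmin N (fun x hx => hx.1) hNinv with h | h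
              · exact h
              · exfalso
                apply hN
                intro x hx
                have : x ∈ N := h ▸ hx
                exact this.2
            have h3 : ρ g w - w ∈ N := by
              refine ⟨sub_mem (hXinv g w hw) hw, ?_⟩
              have h4 := hsym w hw _ (hXY (hXinv g w hw))
              simp only [map_sub, LinearMap.sub_apply, hinv, ← h4]
              linear_combination (B w w - B w (ρ g w)) * h2
            rw [hN0] at h3
            exact sub_eq_zero.1 ((Submodule.mem_bot F).1 h3)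
      exact hstep X hXne hXY hXinv hndX hgood

theorem sd_main [Fintype F] (p : ℕ) [Fact p.Prime] [CharP F p] [Finite G]
    (hcop : ¬ p ∣ Nat.card G) [FiniteDimensional F V] (ρ : Representation F G V)
    (B : LinearMap.BilinForm F V) (hB : B.Nondegenerate)
    (hBinv : ∀ g : G, ∀ x y : V, B (ρ g x) (ρ g y) = B x y) :
    ∃ U W : Submodule F V, IsCompl U W ∧ (∀ g : G, ∀ u ∈ U, ρ g u ∈ U) ∧
      (∀ g : G, ∀ w ∈ W, ρ g w ∈ W) ∧
      (∃ A : LinearMap.BilinForm F V, (∀ x : V, A x x = 0) ∧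
        (∀ g : G, ∀ x ∈ U, ∀ y ∈ U, A (ρ g x) (ρ g y) = A x y) ∧
        (∀ x ∈ U, (∀ y ∈ U, A x y = 0) → x = 0)) ∧
      (∃ S : LinearMap.BilinForm F V, (∀ x y : V, S x y = S y x) ∧
        (∀ g : G, ∀ x ∈ W, ∀ y ∈ W, S (ρ g x) (ρ g y) = S x y) ∧
        (∀ x ∈ W, (∀ y ∈ W, S x y = 0) → x = 0)) ∧
      (p = 2 → ∀ g : G, ∀ w ∈ W, ρ g w = w) := by
  haveI : NeZero (Nat.card G : F) := ⟨fun h => hcop ((CharP.cast_eq_zero_iff F p _).1 h)⟩
  have hchar : p = 2 → (2 : F) = 0 := by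
    rintro rfl
    have := CharP.cast_eq_zero F 2
    exact_mod_cast this
  have hnd : SdND B (⊤ : Submodule F V) :=
    ⟨fun x _ h => hB.1 x fun y => h y Submodule.mem_top,
      fun y _ h => hB.2 y fun x => h x Submodule.mem_top⟩
  obtain ⟨U, W, hs, hd, hU, hW, ⟨A, hA, hfA⟩, ⟨S, hS, hfS⟩, ht⟩ :=
    sd_rec p hchar ρ B hBinv _ ⊤ rfl (fun _ _ _ => Submodule.mem_top) hnd
  exact ⟨U, W, ⟨hd, codisjoint_iff.2 hs⟩, hU, hW, ⟨A, hA, hfA.1, hfA.2⟩, ⟨S, hS, hfS.1, hfS.2⟩, ht⟩

end Main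

end Cfsg.Agent.H23
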