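import Cfsg.Agent.Lib.H23.SPairSL2
import Cfsg.Agent.Lib.H23.RootPerfect
import Cfsg.Agent.Lib.H07.FStar
import Cfsg.Agent.Lib.H23.RankOneGroup

/-!
# The dichotomy for special rank one groups (S5020)
-/

set_option autoImplicit false

namespace Cfsg.Agent.H23

open Cfsg

variable {G : Type*} [Group G] {A B : Subgroup G}

/-- Four different elements give `|A| > 3`. -/
lemma three_lt_card_of_four {w x y z : G} (hw : w ∈ A) (hx : x ∈ A) (hy : y ∈ A) (hz : z ∈ A)
    (h1 : w ≠ x) (h2 : w ≠ y) (h3 : w ≠ z) (h4 : x ≠ y) (h5 : x ≠ z) (h6 : y ≠ z) :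
    3 < ENat.card A := by
  classical
  have hs : (({w, x, y, z} : Finset G) : Set G) ⊆ (A : Set G) := by
    intro t ht
    simp only [Finset.coe_insert, Finset.coe_singleton, Set.mem_insert_iff,
      Set.mem_singleton_iff] at ht
    rcases ht with rfl | rfl | rfl | rfl <;> assumption
  have hc : ({w, x, y, z} : Finset G).card = 4 := by
    rw [Finset.card_insert_of_notMem, Finset.card_insert_of_notMem, Finset.card_insert_of_notMem,
      Finset.card_singleton]
    · simpa using h6
    · simp [h4, h5]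
    · simp [h1, h2, h3]
  have h7 := Set.encard_le_encard hs
  rw [Set.encard_coe_eq_coe_finsetCard, hc] at h7
  calc (3 : ℕ∞) < ((4 : ℕ) : ℕ∞) := by norm_num
    _ ≤ _ := h7

/-- The generation statement for small `A`. -/
lemma closure_eq_top_of_small (S : SpecAb A B) (hX : A ⊔ B = ⊤) {a b : G} (h : Rel A B a b)
    (hA : ∀ u ∈ A, u = 1 ∨ u = a ∨ u = a⁻¹) : Subgroup.closure ({a, b} : Set G) = ⊤ := by
  set C := Subgroup.closure ({a, b} : Set G) with hC
  have h1 : a ∈ C := Subgroup.subset_closure (Set.mem_insert _ _)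
  have h2 : b ∈ C := Subgroup.subset_closure (Set.mem_insert_of_mem _ rfl)
  rw [eq_top_iff, ← hX]
  refine sup_le ?_ ?_
  · intro u hu
    rcases hA u hu with rfl | rfl | rfl
    · exact C.one_mem
    · exact h1
    · exact C.inv_mem h1
  · intro y hy
    by_cases hy1 : y = 1
    · rw [hy1]; exact C.one_mem
    obtain ⟨u, hu⟩ := S.exists_left hy hy1
    rcases hA u hu.ha with h0 | h0 | h0
    · exact absurd h0 hu.ha1
    · rw [h0] at hu
      rw [S.unique_right hu h]
      exact h2
    · rw [h0] at hu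
      rw [S.unique_right hu (h.inv S)]
      exact C.inv_mem h2

/-- The small case: `|A| ≤ 3`. -/
theorem small_case {X : Type*} [Group X] {A B : Subgroup X} (h : IsRankOneGroup X A B)
    (S : SpecAb A B) (hc : ¬ 3 < ENat.card A) :
    Nonempty (X ≃* Matrix.SpecialLinearGroup (Fin 2) (ZMod 2)) ∨
    Nonempty (X ≃* Matrix.SpecialLinearGroup (Fin 2) (ZMod 3)) ∨
    Nonempty (X ≃* Matrix.ProjectiveSpecialLinearGroup (Fin 2) (ZMod 3)) := by
  obtain ⟨a, ha, ha1⟩ := exists_ne_one_of_ne_bot (rop_left_ne_bot h.2)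
  obtain ⟨b, hb⟩ := S.exists_right ha ha1
  have htop : ∀ (K : Subgroup X), K = ⊤ → Nonempty (X ≃* K) := by
    rintro K rfl
    exact ⟨Subgroup.topEquiv.symm⟩
  by_cases hall : ∀ u ∈ A, u = 1 ∨ u = a
  · -- `p = 2`
    have ha2 : a ^ 2 = 1 := by
      rcases hall (a ^ 2) (A.pow_mem ha 2) with h0 | h0
      · exact h0
      · exfalso
        apply ha1
        rw [pow_two] at h0
        exact mul_eq_left.1 h0
    have hinv : a⁻¹ = a := by
      apply inv_eq_of_mul_eq_one_left
      rw [← pow_two, ha2]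
    have hA2 : ∀ x ∈ A, x ^ 2 = 1 := by
      intro x hx
      rcases hall x hx with rfl | rfl
      · simp
      · exact ha2
    have hP : SPair 2 a b := SPair.of_rel S hA2 hb
    obtain ⟨e⟩ := htop _ (closure_eq_top_of_small S h.1 hb (by
      intro u hu
      rcases hall u hu with h0 | h0
      · exact Or.inl h0
      · exact Or.inr (Or.inl h0)))
    rcases closure_iso_sl2 hP with he | ⟨hne, _⟩
    · obtain ⟨e'⟩ := he
      exact Or.inl ⟨e.trans e'⟩
    · exact absurd rfl hne
  · -- `p = 3`
    push Not at hall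
    obtain ⟨c, hc', hc1, hca⟩ := hall
    have hthree : ∀ u ∈ A, u = 1 ∨ u = a ∨ u = c := by
      intro u hu
      by_contra hcon
      push Not at hcon
      exact hc (three_lt_card_of_four A.one_mem ha hc' hu ha1.symm hc1.symm hcon.1.symm
        hca.symm hcon.2.1.symm hcon.2.2.symm)
    have hcomm : Commute a c := S.ca a ha c hc'
    have hac : a * c = 1 := by
      rcases hthree (a * c) (A.mul_mem ha hc') with h0 | h0 | h0
      · exact h0
      · exfalso
        exact hc1 (mul_eq_left.1 h0)
      · exfalso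
        exact ha1 (mul_eq_right.1 h0)
    have hcinv : c = a⁻¹ := eq_inv_of_mul_eq_one_right hac
    have ha2 : a * a = c := by
      rcases hthree (a * a) (A.mul_mem ha ha) with h0 | h0 | h0
      · exfalso
        have : a = a⁻¹ := eq_inv_of_mul_eq_one_left h0
        exact hca (hcinv.trans this.symm)
      · exfalso
        exact ha1 (mul_eq_left.1 h0)
      · exact h0
    have ha3 : a ^ 3 = 1 := by
      have : a ^ 3 = a * (a * a) := by simp [pow_succ, mul_assoc]
      rw [this, ha2, hac]
    have hA3 : ∀ x ∈ A, x ^ 3 = 1 := by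
      intro x hx
      rcases hthree x hx with rfl | rfl | rfl
      · simp
      · exact ha3
      · rw [hcinv, inv_pow, ha3, inv_one]
    have hP : SPair 3 a b := SPair.of_rel S hA3 hb
    obtain ⟨e⟩ := htop _ (closure_eq_top_of_small S h.1 hb (by
      intro u hu
      rcases hthree u hu with h0 | h0 | h0
      · exact Or.inl h0
      · exact Or.inr (Or.inl h0)
      · exact Or.inr (Or.inr (h0.trans hcinv))))
    rcases closure_iso_sl2 hP with he | ⟨_, he⟩
    · obtain ⟨e'⟩ := he
      exact Or.inr (Or.inl ⟨e.trans e'⟩)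
    · obtain ⟨e'⟩ := he
      exact Or.inr (Or.inr ⟨e.trans e'⟩)

/-- **S5020** -/
theorem special_dichotomy {X : Type*} [Group X] {A B : Subgroup X} (h : IsRankOneGroup X A B)
    (hs : IsSpecialRankOnePair A B) (hab : HasAbelianUnipotents A B) :
    (ENat.card A ≤ 3 ∧ (Nonempty (X ≃* Matrix.SpecialLinearGroup (Fin 2) (ZMod 2)) ∨
        Nonempty (X ≃* Matrix.SpecialLinearGroup (Fin 2) (ZMod 3)) ∨
        Nonempty (X ≃* Matrix.ProjectiveSpecialLinearGroup (Fin 2) (ZMod 3)))) ∨
    (commutator X ⊔ A = ⊤ ∧ IsQuasisimple (commutator X) ∧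
      3 < ENat.card ↥(⁅A, rankOneDiagonal A B⁆ : Subgroup X)) := by
  have S := specAb_of hs hab
  by_cases hc : 3 < ENat.card A
  · right
    have hper := rog_perfect_of_large h S hc
    refine ⟨by rw [hper, top_sup_eq], ?_, card_comm_diag S hc⟩
    rw [hper]
    haveI : Group.IsPerfect X := ⟨hper⟩
    exact H07.isQuasisimple_of_mulEquiv Subgroup.topEquiv.symm (rog_quasisimple h)
  · left
    exact ⟨not_lt.1 hc, small_case h S hc⟩

end Cfsg.Agent.H23
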