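import Cfsg.Agent.Lib.H01.Maximal
import Cfsg.Agent.Lib.H01.Solv
import Cfsg.Agent.Lib.H19.Basic

/-!
# Group theoretic steps of Winter's theorem: primitive quotients and Sylow subgroups in cores
-/

set_option autoImplicit false
set_option linter.unusedSectionVars false
set_option linter.style.haveILetI false
set_option linter.unusedSimpArgs false

namespace Cfsg.Agent.H23.Winter

open Subgroup

universe u

section A1

variable {X : Type u} [Group X] [Finite X]

/-- An element of order `p` in a core-free maximal subgroup of a solvable group gives a divisor of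
the index that is `≡ 1` modulo `p`. -/
theorem exists_q_coreless [Group.IsSolvable X] {H : Subgroup X} (hH : IsCoatom H)
    (hcore : ∀ N : Subgroup X, N.Normal → N ≤ H → N = ⊥) {p : ℕ} [hpp : Fact p.Prime]
    (hp : ¬ p ∣ H.index) {x : X} (hxH : x ∈ H) (hx1 : x ≠ 1) (hxp : x ^ p = 1) :
    ∃ q : ℕ, 1 < q ∧ q ∣ H.index ∧ q ≡ 1 [MOD p] := by
  classical
  haveI : Nontrivial X := ⟨⟨x, 1, hx1⟩⟩
  haveI := Fintype.ofFinite X
  obtain ⟨A, r, hAn, hAbot, hr, hAc, -⟩ := H01.exists_elementary_abelian_normal (G := X)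
  have hAH : ¬ A ≤ H := fun h => hAbot (hcore A hAn h)
  have hsup : H ⊔ A = ⊤ := hH.2 _ (lt_of_le_of_ne le_sup_left (fun h => hAH (by
    rw [h]; exact le_sup_right)))
  have hdec : ∀ g : X, ∃ h ∈ H, ∃ a ∈ A, g = h * a := by
    intro g
    have h0 : g ∈ ((H ⊔ A : Subgroup X) : Set X) := by rw [hsup]; trivial
    rw [Subgroup.mul_normal] at h0
    obtain ⟨h, hh, a, ha, rfl⟩ := Set.mem_mul.1 h0
    exact ⟨h, hh, a, ha, rfl⟩
  have hcomm : ∀ a ∈ A, ∀ b ∈ A, a * b = b * a := by
    intro a ha b hb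
    have := hAc.is_comm.comm (⟨a, ha⟩ : A) ⟨b, hb⟩
    exact congrArg Subtype.val this
  have hmeet : A ⊓ H = ⊥ := by
    apply hcore _ _ inf_le_right
    constructor
    intro u hu g
    obtain ⟨h, hh, a, ha, rfl⟩ := hdec g
    have h1 : h * a * u * (h * a)⁻¹ = h * u * h⁻¹ := by
      have h2 : a * u = u * a := hcomm a ha u hu.1
      calc h * a * u * (h * a)⁻¹ = h * (a * u) * a⁻¹ * h⁻¹ := by group
        _ = h * u * h⁻¹ := by rw [h2]; group
    rw [h1]
    exact ⟨hAn.conj_mem u hu.1 h, H.mul_mem (H.mul_mem hh hu.2) (H.inv_mem hh)⟩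
  have hWbot : H ⊓ centralizer (A : Set X) = ⊥ := by
    apply hcore _ _ inf_le_left
    constructor
    intro w hw g
    obtain ⟨h, hh, a, ha, rfl⟩ := hdec g
    have hw2 := mem_centralizer_iff.1 hw.2
    have h1 : h * a * w * (h * a)⁻¹ = h * w * h⁻¹ := by
      have h2 : a * w = w * a := hw2 a ha
      calc h * a * w * (h * a)⁻¹ = h * (a * w) * a⁻¹ * h⁻¹ := by group
        _ = h * w * h⁻¹ := by rw [h2]; group
    rw [h1]
    refine ⟨H.mul_mem (H.mul_mem hh hw.1) (H.inv_mem hh), mem_centralizer_iff.2 ?_⟩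
    intro b hb
    have hb' : h⁻¹ * b * h⁻¹⁻¹ ∈ A := hAn.conj_mem b hb h⁻¹
    have h3 := hw2 _ hb'
    calc b * (h * w * h⁻¹) = h * ((h⁻¹ * b * h⁻¹⁻¹) * w) * h⁻¹ := by group
      _ = h * (w * (h⁻¹ * b * h⁻¹⁻¹)) * h⁻¹ := by rw [h3]
      _ = h * w * h⁻¹ * b := by group
  have hidx : H.index = Nat.card A := by
    have hc : Subgroup.IsComplement' A H := by
      apply Subgroup.isComplement'_of_disjoint_and_mul_eq_univ
      · rw [disjoint_iff]; exact hmeet
      · rw [← Subgroup.normal_mul, sup_comm, hsup]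
        rfl
    exact hc.index_eq_card
  -- the action on `A`
  let f : Function.End A := fun a => ⟨x * a * x⁻¹, hAn.conj_mem a a.2 x⟩
  have hit : ∀ (n : ℕ) (a : A), ((f^[n] a : A) : X) = x ^ n * a * (x ^ n)⁻¹ := by
    intro n a
    induction n with
    | zero =>
      change (a : X) = _
      simp
    | succ n ih =>
      rw [Function.iterate_succ_apply']
      change x * ((f^[n] a : A) : X) * x⁻¹ = _
      rw [ih]
      rw [pow_succ']
      group
  have hf : f ^ p ^ 1 = 1 := by
    funext a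
    apply Subtype.ext
    change ((f^[p ^ 1] a : A) : X) = a
    rw [hit, pow_one, hxp]
    simp
  have hmod := Equiv.Perm.card_fixedPoints_modEq (f := f) hf
  let F : Subgroup X := A ⊓ centralizer ({x} : Set X)
  have hFA : F ≤ A := inf_le_left
  have hcF : Fintype.card (Function.fixedPoints f) = Nat.card F := by
    rw [← Nat.card_eq_fintype_card]
    apply Nat.card_congr
    refine ⟨fun a => ⟨a.1.1, a.1.2, mem_centralizer_singleton_iff.2 ?_⟩, fun a => ⟨⟨a.1, a.2.1⟩, ?_⟩, ?_, ?_⟩
    · have h1 : f a.1 = a.1 := a.2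
      have h2 : x * a.1.1 * x⁻¹ = a.1.1 := congrArg Subtype.val h1
      have h3 : x * a.1.1 = a.1.1 * x := by
        calc x * a.1.1 = x * a.1.1 * x⁻¹ * x := by group
          _ = a.1.1 * x := by rw [h2]
      exact h3.symm
    · have h1 := mem_centralizer_singleton_iff.1 a.2.2
      apply Subtype.ext
      change x * a.1 * x⁻¹ = a.1
      have h2 : x * a.1 = a.1 * x := h1.symm
      rw [h2]
      group
    · intro a; rfl
    · intro a; rfl
  rw [hcF, Nat.card_eq_fintype_card.symm] at hmod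
  obtain ⟨q, hq⟩ : Nat.card F ∣ Nat.card A := by
    have h1 := Subgroup.card_dvd_of_le hFA
    exact h1
  have hFpos : 0 < Nat.card F := Nat.card_pos
  have hAdvd : Nat.card A = Nat.card F * q := hq
  have hpF : ¬ p ∣ Nat.card F := fun h => hp (by
    rw [hidx, hAdvd]; exact Dvd.dvd.mul_right h _)
  have hcop : Nat.gcd p (Nat.card F) = 1 :=
    (Nat.Prime.coprime_iff_not_dvd hpp.out).2 hpF
  have hq1 : q ≡ 1 [MOD p] := by
    have h1 : Nat.card F * q ≡ Nat.card F * 1 [MOD p] := by
      rw [← hAdvd, mul_one]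
      exact hmod
    exact Nat.ModEq.cancel_left_of_coprime hcop h1
  refine ⟨q, ?_, ?_, hq1⟩
  · -- `q ≠ 1`
    have hq0 : q ≠ 0 := by
      rintro rfl
      have : 0 < Nat.card A := Nat.card_pos
      omega
    have hq1' : q ≠ 1 := by
      rintro rfl
      rw [mul_one] at hAdvd
      have hFeq : F = A := Subgroup.eq_of_le_of_card_ge hFA (le_of_eq hAdvd)
      have hxW : x ∈ H ⊓ centralizer (A : Set X) := by
        refine ⟨hxH, mem_centralizer_iff.2 ?_⟩
        intro a ha
        have ha' : a ∈ F := by rw [hFeq]; exact ha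
        have := mem_centralizer_singleton_iff.1 ha'.2
        exact this
      rw [hWbot] at hxW
      exact hx1 hxW
    omega
  · rw [hidx, hAdvd]
    exact Dvd.intro_left _ rfl

end A1

section A1'

variable {G : Type u} [Group G] [Finite G]

/-- A `p`-element of a maximal subgroup outside the core gives a divisor of the index that is
`≡ 1` modulo `p`. -/
theorem exists_q_of_not_mem_core [Group.IsSolvable G] {H : Subgroup G} (hH : IsCoatom H)
    {p : ℕ} [hpp : Fact p.Prime] (hp : ¬ p ∣ H.index) {x : G} (hxH : x ∈ H) {k : ℕ}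
    (hxk : x ^ p ^ k = 1) (hxC : x ∉ H.normalCore) :
    ∃ q : ℕ, 1 < q ∧ q ∣ H.index ∧ q ≡ 1 [MOD p] := by
  classical
  have hex : ∃ j : ℕ, x ^ p ^ j ∈ H.normalCore := ⟨k, by rw [hxk]; exact one_mem _⟩
  let j := Nat.find hex
  have hj : x ^ p ^ j ∈ H.normalCore := Nat.find_spec hex
  have hj0 : j ≠ 0 := by
    intro h0
    rw [h0, pow_zero, pow_one] at hj
    exact hxC hj
  obtain ⟨i, hi⟩ : ∃ i, j = i + 1 := ⟨j - 1, by omega⟩
  have hi' : x ^ p ^ i ∉ H.normalCore := Nat.find_min hex (by omega)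
  rw [hi] at hj
  let C := H.normalCore
  haveI hCn : C.Normal := Subgroup.normalCore_normal H
  let y := x ^ p ^ i
  have hCH : C ≤ H := Subgroup.normalCore_le H
  have hyH : y ∈ H := H.pow_mem hxH _
  let π := QuotientGroup.mk' C
  have hy1 : π y ≠ 1 := by
    intro h
    apply hi'
    have : (π y) = 1 := h
    rwa [QuotientGroup.mk'_apply, QuotientGroup.eq_one_iff] at this
  have hyp : (π y) ^ p = 1 := by
    rw [← map_pow]
    have h1 : y ^ p = x ^ p ^ (i + 1) := by
      change (x ^ p ^ i) ^ p = _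
      rw [← pow_mul, pow_succ]
    rw [h1, QuotientGroup.mk'_apply, QuotientGroup.eq_one_iff]
    exact hj
  have hcoat := H01.isCoatom_map_mk hCH hH
  have hindex : (H.map π).index = H.index := H01.index_map_mk_of_le hCH
  have hcore : ∀ N : Subgroup (G ⧸ C), N.Normal → N ≤ H.map π → N = ⊥ := by
    intro N hN hNH
    rw [eq_bot_iff]
    intro n hn
    obtain ⟨g, rfl⟩ := QuotientGroup.mk'_surjective C n
    have hg : g ∈ N.comap π := hn
    have hle : N.comap π ≤ H := by
      intro g hg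
      obtain ⟨h, hh, he⟩ := hNH hg
      have h2 : h⁻¹ * g ∈ C := by
        rw [← QuotientGroup.eq_one_iff]
        have : π (h⁻¹ * g) = 1 := by
          rw [map_mul, map_inv, ← he]
          simp
        exact this
      have h3 : g = h * (h⁻¹ * g) := by group
      rw [h3]
      exact H.mul_mem hh (hCH h2)
    haveI hcn : (N.comap π).Normal := Subgroup.Normal.comap hN π
    have hle' : N.comap π ≤ C := Subgroup.normal_le_normalCore.2 hle
    have h4 := hle' hg
    rw [Subgroup.mem_bot]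
    exact (QuotientGroup.eq_one_iff g).2 h4
  obtain ⟨q, h1, h2, h3⟩ := exists_q_coreless hcoat hcore (by rwa [hindex])
    (Subgroup.mem_map_of_mem π hyH) hy1 hyp
  exact ⟨q, h1, by rwa [hindex] at h2, h3⟩

/-- A subgroup of index prime to `p` contains a Sylow `p`-subgroup. -/
theorem exists_sylow_le {p : ℕ} [hpp : Fact p.Prime] (H : Subgroup G) (hp : ¬ p ∣ H.index) :
    ∃ S : Sylow p G, (S : Subgroup G) ≤ H := by
  classical
  obtain ⟨S⟩ : Nonempty (Sylow p H) := inferInstance
  have hcard : Nat.card ((S : Subgroup H).map H.subtype) = p ^ (Nat.card G).factorization p := by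
    rw [Subgroup.card_subtype]
    have h1 := Sylow.card_eq_multiplicity S
    rw [h1]
    have h2 : Nat.card G = Nat.card H * H.index := (Subgroup.card_mul_index H).symm
    rw [h2, Nat.factorization_mul (Nat.card_pos.ne') (Subgroup.index_ne_zero_of_finite)]
    simp [Nat.factorization_eq_zero_of_not_dvd hp]
  refine ⟨Sylow.ofCard _ hcard, ?_⟩
  rw [Sylow.coe_ofCard]
  exact Subgroup.map_subtype_le _

/-- If the image of the `p`-elements in `H / K` is normal, a Sylow `p`-subgroup in the core of `H`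
is normal, provided no non-identity element has all conjugates in `K`. -/
theorem sylow_normal_of_core {p : ℕ} [hpp : Fact p.Prime] (H : Subgroup G) (K : Subgroup H)
    [hK : K.Normal] (P₁ : Sylow p G) (hP₁ : (P₁ : Subgroup G) ≤ H.normalCore)
    (Q : Sylow p (H ⧸ K)) (hQ : (Q : Subgroup (H ⧸ K)).Normal)
    (hker : ∀ z : G, (∀ g : G, ∃ hg : g * z * g⁻¹ ∈ H, (⟨g * z * g⁻¹, hg⟩ : H) ∈ K) → z = 1) :
    (P₁ : Subgroup G).Normal := by
  classical
  let C := H.normalCore
  haveI hCn : C.Normal := Subgroup.normalCore_normal H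
  have hCH : C ≤ H := Subgroup.normalCore_le H
  let D := Subgroup.normalClosure ((P₁ : Subgroup G) : Set G)
  haveI hDn : D.Normal := Subgroup.normalClosure_normal
  have hDC : D ≤ C := Subgroup.normalClosure_le_normal hP₁
  let π : H →* H ⧸ K := QuotientGroup.mk' K
  let E : Subgroup G := ((Q : Subgroup (H ⧸ K)).comap π).map H.subtype
  have hDE : D ≤ E := by
    rw [show D = Subgroup.closure (Group.conjugatesOfSet ((P₁ : Subgroup G) : Set G)) from rfl,
      Subgroup.closure_le]
    intro w hw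
    rw [Group.mem_conjugatesOfSet_iff] at hw
    obtain ⟨a, ha, hc⟩ := hw
    obtain ⟨c, rfl⟩ := isConj_iff.1 hc
    have hwC : c * a * c⁻¹ ∈ C := hCn.conj_mem a (hP₁ ha) c
    have hwH := hCH hwC
    obtain ⟨m, hm⟩ := P₁.isPGroup' ⟨a, ha⟩
    have hm' : a ^ p ^ m = 1 := by
      have := congrArg Subtype.val hm
      simpa using this
    have hpow : (π ⟨c * a * c⁻¹, hwH⟩) ^ p ^ m = 1 := by
      rw [← map_pow]
      have h2 : (⟨c * a * c⁻¹, hwH⟩ : H) ^ p ^ m = 1 := by
        apply Subtype.ext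
        simp only [Subgroup.coe_pow, Subgroup.coe_one]
        rw [conj_pow, hm']
        group
      rw [h2, map_one]
    obtain ⟨j, -, hj⟩ := (Nat.dvd_prime_pow hpp.out).1 (orderOf_dvd_of_pow_eq_one hpow)
    have h3 := H19.mem_sylow_of_normal hj Q hQ
    exact ⟨⟨c * a * c⁻¹, hwH⟩, h3, rfl⟩
  -- `p'`-elements of `D` are trivial
  have hz : ∀ z ∈ D, ∀ m : ℕ, ¬ p ∣ m → z ^ m = 1 → z = 1 := by
    intro z hzD m hm hzm
    apply hker
    intro g
    have hw : g * z * g⁻¹ ∈ D := hDn.conj_mem z hzD g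
    have hwH : g * z * g⁻¹ ∈ H := hCH (hDC hw)
    refine ⟨hwH, ?_⟩
    obtain ⟨w', hw', hw'e⟩ := hDE hw
    have hw'' : w' = ⟨g * z * g⁻¹, hwH⟩ := Subtype.ext hw'e
    subst hw''
    have hQp := Q.isPGroup' ⟨_, hw'⟩
    obtain ⟨j, hj⟩ := hQp
    have hj' : (π ⟨g * z * g⁻¹, hwH⟩) ^ p ^ j = 1 := by
      have := congrArg Subtype.val hj
      simpa using this
    have hmm : (π ⟨g * z * g⁻¹, hwH⟩) ^ m = 1 := by
      rw [← map_pow]
      have h2 : (⟨g * z * g⁻¹, hwH⟩ : H) ^ m = 1 := by
        apply Subtype.ext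
        simp only [Subgroup.coe_pow, Subgroup.coe_one]
        rw [conj_pow, hzm]
        group
      rw [h2, map_one]
    have h1 : orderOf (π ⟨g * z * g⁻¹, hwH⟩) ∣ p ^ j := orderOf_dvd_of_pow_eq_one hj'
    have h2 : orderOf (π ⟨g * z * g⁻¹, hwH⟩) ∣ m := orderOf_dvd_of_pow_eq_one hmm
    have hcop : Nat.Coprime (p ^ j) m :=
      Nat.Coprime.pow_left _ ((Nat.Prime.coprime_iff_not_dvd hpp.out).2 hm)
    have h3 := Nat.eq_one_of_dvd_coprimes hcop h1 h2
    have h4 := orderOf_eq_one_iff.1 h3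
    exact (QuotientGroup.eq_one_iff _).1 h4
  have hDp : IsPGroup p D := by
    rintro ⟨y, hy⟩
    have hord : orderOf y ≠ 0 := (orderOf_pos y).ne'
    obtain ⟨a, m, hm, hom⟩ := Nat.exists_eq_pow_mul_and_not_dvd hord p hpp.out.ne_one
    refine ⟨a, ?_⟩
    apply Subtype.ext
    simp only [Subgroup.coe_pow, Subgroup.coe_one]
    apply hz _ (D.pow_mem hy _) m hm
    rw [← pow_mul, ← hom, pow_orderOf_eq_one]
  have hle : (P₁ : Subgroup G) ≤ D := Subgroup.subset_normalClosure
  have heq := P₁.is_maximal' hDp hle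
  rw [← heq]
  exact hDn

end A1'

end Cfsg.Agent.H23.Winter
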