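import Cfsg.Agent.Lib.H23.Crit
import Cfsg.Agent.Lib.H23.WinterA
import Cfsg.Agent.Lib.H01.Fitting
import Cfsg.Agent.Lib.H01.Solv2
import Cfsg.Agent.Lib.H06.Rank2c
import Cfsg.Agent.Lib.H22.Degree

/-!
# Winter's theorem: the quasi-primitive case
-/

set_option autoImplicit false
set_option linter.unusedSectionVars false
set_option linter.style.haveILetI false
set_option linter.unusedSimpArgs false

namespace Cfsg.Agent.H23.Winter

open Cfsg Cfsg.Agent.H21 Cfsg.Agent.H06 Cfsg.Agent.H23.TwoDeg Subgroup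
open scoped ComplexConjugate commutatorElement

universe u

section Sq

variable {G : Type u} [Group G] [Fintype G]

/-- The degree formula for constituents on subgroups of class two with the central commutators. -/
theorem deg_sq_of_central (χ : IrrCharacter G) (hf : ∀ g, χ.1 g = χ.1 1 → g = 1) (Y : Subgroup G)
    [Fintype Y] (ξ : IrrCharacter Y) (hin : classInner (fun y : Y => χ.1 y) ξ.1 ≠ 0)
    (h1 : ∀ a ∈ Y, ∀ b ∈ Y, a * b * a⁻¹ * b⁻¹ ∈ Subgroup.center G)
    (h2 : ∀ c ∈ Y, (∀ u ∈ Y, c * u = u * c) → c ∈ Subgroup.center G) :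
    charDegree ξ.1 ^ 2 * Nat.card (Y ⊓ Subgroup.center G : Subgroup G) = Nat.card Y := by
  classical
  have hc := isCharacter_of_irr ξ.2
  have hχc := isCharacter_of_irr χ.2
  have hcenter : ∀ z : Y, (z : G) ∈ Subgroup.center G → z ∈ Subgroup.center Y := by
    intro z hz
    rw [Subgroup.mem_center_iff]
    intro g
    apply Subtype.ext
    exact (Subgroup.mem_center_iff.1 hz g)
  have ha : ∀ z : Y, (z : G) ∈ Subgroup.center G → ξ.1 z = ξ.1 1 → z = 1 := by
    intro z hz hzk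
    have h3 : ∀ y : Y, ξ.1 (z * y) = ξ.1 y := fun y => character_mul_of_mem_ker hc hzk y
    have hzZC : (z : G) ∈ ZC χ := center_le_ZC χ hz
    have h4 : ∀ y : Y, χ.1 ((z : G) * y) * (charDegree χ.1 : ℂ) = χ.1 z * χ.1 y :=
      fun y => character_mul_of_norm_eq hχc (mem_ZC.1 hzZC) y
    have hI : (∑ y : Y, χ.1 y * conj (ξ.1 y)) ≠ 0 := by
      intro h0
      apply hin
      rw [classInner, h0, mul_zero]
    have h6 : (∑ y : Y, χ.1 y * conj (ξ.1 y)) = ∑ y : Y, χ.1 ((z : G) * y) * conj (ξ.1 y) := by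
      rw [← Equiv.sum_comp (Equiv.mulLeft z)]
      apply Finset.sum_congr rfl
      intro y _
      simp only [Equiv.coe_mulLeft, h3, Subgroup.coe_mul]
    have h5 : (∑ y : Y, χ.1 y * conj (ξ.1 y)) * (charDegree χ.1 : ℂ)
        = χ.1 z * ∑ y : Y, χ.1 y * conj (ξ.1 y) := by
      conv_lhs => rw [h6]
      rw [Finset.sum_mul, Finset.mul_sum]
      apply Finset.sum_congr rfl
      intro y _
      rw [mul_right_comm, h4 y, mul_assoc]
    have h7 : χ.1 z = χ.1 1 := by
      rw [one_eq_charDegree hχc]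
      rw [mul_comm] at h5
      exact (mul_right_cancel₀ hI h5).symm
    exact Subtype.ext (hf _ h7)
  have hZC : ∀ a b : Y, a * b * a⁻¹ * b⁻¹ ∈ ZC ξ := by
    intro a b
    apply center_le_ZC
    apply hcenter
    exact h1 a a.2 b b.2
  have hv : ∀ g : Y, g ∉ ZC ξ → ‖ξ.1 g‖ ^ 2 = 0 := by
    intro g hg
    have h0 : ¬ ∀ h : Y, ξ.1 (g * h * g⁻¹ * h⁻¹) = ξ.1 1 := fun h => hg (mem_ZC_of_comm h)
    push Not at h0
    obtain ⟨h, hh⟩ := h0
    set c := g * h * g⁻¹ * h⁻¹ with hc'
    have hcZ : c ∈ ZC ξ := hZC g h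
    have h1' := character_mul_of_norm_eq hc (mem_ZC.1 hcZ) (h * g * h⁻¹)
    have h2' : c * (h * g * h⁻¹) = g := by rw [hc']; group
    rw [h2'] at h1'
    have h3 : ξ.1 (h * g * h⁻¹) = ξ.1 g := isCharacter_conj hc g h
    rw [h3, ← one_eq_charDegree hc] at h1'
    have h4 : ξ.1 g * (ξ.1 1 - ξ.1 c) = 0 := by
      rw [mul_sub, h1', mul_comm]
      ring
    have h5 : ξ.1 g = 0 := by
      rcases mul_eq_zero.1 h4 with h5 | h5
      · exact h5
      · exact absurd (sub_eq_zero.1 h5).symm hh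
    simp [h5]
  haveI : Fintype (ZC ξ) := Fintype.ofFinite _
  have hs := sum_norm_sq ξ
  rw [sum_eq_sum_sub (ZC ξ) (fun g => ‖ξ.1 g‖ ^ 2) hv] at hs
  have h3 : ∀ z : ZC ξ, ‖ξ.1 z‖ ^ 2 = (charDegree ξ.1 : ℝ) ^ 2 := by
    intro z
    rw [mem_ZC.1 z.2]
  simp only [h3, Finset.sum_const, Finset.card_univ, nsmul_eq_mul] at hs
  rw [← Nat.card_eq_fintype_card] at hs
  have h4 : charDegree ξ.1 ^ 2 * Nat.card (ZC ξ) = Nat.card Y := by
    have h5 : ((charDegree ξ.1 ^ 2 * Nat.card (ZC ξ) : ℕ) : ℝ) = (Nat.card Y : ℝ) := by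
      push_cast
      rw [mul_comm]
      exact hs
    exact_mod_cast h5
  have hmap : (ZC ξ).map Y.subtype = Y ⊓ Subgroup.center G := by
    ext g
    constructor
    · rintro ⟨y, hy, rfl⟩
      refine ⟨y.2, h2 _ y.2 ?_⟩
      intro u hu
      have h5 := ZC_comm hy ⟨u, hu⟩
      have h6 := ha _ (h1 y y.2 u hu) h5
      have h7 : (y : G) * u * (y : G)⁻¹ * u⁻¹ = 1 := congrArg Subtype.val h6
      calc (y : G) * u = ((y : G) * u * (y : G)⁻¹ * u⁻¹) * (u * y) := by group
        _ = u * y := by rw [h7, one_mul]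
    · rintro ⟨hgY, hgc⟩
      exact ⟨⟨g, hgY⟩, center_le_ZC ξ (hcenter ⟨g, hgY⟩ hgc), rfl⟩
  rw [← hmap, Subgroup.card_subtype]
  exact h4

end Sq

section Avg

variable {G : Type u} [Group G]

/-- The product of the first `k` conjugates of `u` under `y`. -/
def conjProd (u y : G) : ℕ → G
  | 0 => 1
  | k + 1 => conjProd u y k * (y ^ k * u * (y ^ k)⁻¹)

theorem conjProd_mem {B : Subgroup G} (hB : B.Normal) {u : G} (hu : u ∈ B) (y : G) (k : ℕ) :
    conjProd u y k ∈ B := by
  induction k with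
  | zero => exact B.one_mem
  | succ k ih => exact B.mul_mem ih (hB.conj_mem u hu _)

theorem conj_conjProd (u y : G) (k : ℕ) :
    y * conjProd u y k * y⁻¹ = u⁻¹ * conjProd u y k * (y ^ k * u * (y ^ k)⁻¹) := by
  induction k with
  | zero => simp [conjProd]
  | succ k ih =>
    have h1 : y * conjProd u y (k + 1) * y⁻¹
        = (y * conjProd u y k * y⁻¹) * (y * (y ^ k * u * (y ^ k)⁻¹) * y⁻¹) := by
      simp only [conjProd]
      group
    rw [h1, ih]
    simp only [conjProd]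
    rw [pow_succ']
    group

theorem comm_conjProd {c u y z : G} (hz : z ∈ Subgroup.center G) (hcy : c * y = y * c)
    (hzdef : c * u * c⁻¹ = z * u) (k : ℕ) :
    c * conjProd u y k * c⁻¹ = z ^ k * conjProd u y k := by
  have hzc : ∀ g, z * g = g * z := fun g => (Subgroup.mem_center_iff.1 hz g).symm
  have hcyk : ∀ j : ℕ, c * y ^ j = y ^ j * c := fun j => (Commute.pow_right hcy j)
  induction k with
  | zero => simp [conjProd]
  | succ k ih =>
    have h1 : c * (y ^ k * u * (y ^ k)⁻¹) * c⁻¹ = z * (y ^ k * u * (y ^ k)⁻¹) := by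
      have h2 : c * (y ^ k * u * (y ^ k)⁻¹) * c⁻¹ = y ^ k * (c * u * c⁻¹) * (y ^ k)⁻¹ := by
        have h3 : c * y ^ k = y ^ k * c := hcyk k
        have h4 : (y ^ k)⁻¹ * c⁻¹ = c⁻¹ * (y ^ k)⁻¹ := by
          rw [← mul_inv_rev, ← mul_inv_rev, h3]
        calc c * (y ^ k * u * (y ^ k)⁻¹) * c⁻¹ = (c * y ^ k) * u * ((y ^ k)⁻¹ * c⁻¹) := by group
          _ = (y ^ k * c) * u * (c⁻¹ * (y ^ k)⁻¹) := by rw [h3, h4]
          _ = _ := by group
      rw [h2, hzdef]
      calc y ^ k * (z * u) * (y ^ k)⁻¹ = (y ^ k * z) * u * (y ^ k)⁻¹ := by group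
        _ = (z * y ^ k) * u * (y ^ k)⁻¹ := by rw [hzc]
        _ = _ := by group
    have h5 : c * conjProd u y (k + 1) * c⁻¹
        = (c * conjProd u y k * c⁻¹) * (c * (y ^ k * u * (y ^ k)⁻¹) * c⁻¹) := by
      simp only [conjProd]
      group
    rw [h5, ih, h1]
    simp only [conjProd]
    rw [pow_succ]
    have h6 : conjProd u y k * z = z * conjProd u y k := (hzc _).symm
    calc z ^ k * conjProd u y k * (z * (y ^ k * u * (y ^ k)⁻¹))
        = z ^ k * (conjProd u y k * z) * (y ^ k * u * (y ^ k)⁻¹) := by group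
      _ = z ^ k * (z * conjProd u y k) * (y ^ k * u * (y ^ k)⁻¹) := by rw [h6]
      _ = _ := by group

/-- An element of the fixed point subgroup that is central in it is central in the whole group. -/
theorem comm_of_comm_fixed {B : Subgroup G} (hB : B.Normal) {y : G} {p : ℕ}
    (hcomm : ∀ a ∈ B, ∀ b ∈ B, a * b * a⁻¹ * b⁻¹ ∈ Subgroup.center G)
    (hyp : ∀ b ∈ B, y ^ p * b * (y ^ p)⁻¹ = b)
    (hfix : ∀ b ∈ B, y * b * y⁻¹ * b⁻¹ ∈ Subgroup.center G → y * b = b * y)
    (hrp : ∀ z ∈ B, z ^ p = 1 → z = 1)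
    {c : G} (hcB : c ∈ B) (hcy : c * y = y * c)
    (hc : ∀ u ∈ B, u * y = y * u → c * u = u * c) {u : G} (hu : u ∈ B) : c * u = u * c := by
  set z := c * u * c⁻¹ * u⁻¹ with hz
  have hzc : z ∈ Subgroup.center G := hcomm c hcB u hu
  have hzB : z ∈ B := by
    refine B.mul_mem (hB.conj_mem u hu c) (B.inv_mem hu)
  have hzdef : c * u * c⁻¹ = z * u := by rw [hz]; group
  have h1 := comm_conjProd hzc hcy hzdef p
  set N := conjProd u y p with hN
  have hNB : N ∈ B := conjProd_mem hB hu y p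
  have h2 := conj_conjProd u y p
  rw [hyp u hu] at h2
  have h3 : y * N = N * y := by
    apply hfix N hNB
    rw [h2]
    have h4 := hcomm u⁻¹ (B.inv_mem hu) N hNB
    have h5 : u⁻¹ * N * u * N⁻¹ = u⁻¹ * N * u⁻¹⁻¹ * N⁻¹ := by group
    rw [h5]
    exact h4
  have h4 := hc N hNB h3.symm
  have h5 : c * N * c⁻¹ = N := by rw [h4]; group
  rw [h5] at h1
  have h6 : z ^ p = 1 := by
    have h7 : z ^ p * N = 1 * N := by rw [← h1, one_mul]
    exact mul_right_cancel h7
  have h7 := hrp z hzB h6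
  have h8 : c * u * c⁻¹ * u⁻¹ = 1 := h7
  calc c * u = (c * u * c⁻¹ * u⁻¹) * (u * c) := by group
    _ = u * c := by rw [h8, one_mul]

end Avg

section Choose

variable {G : Type u} [Group G] [Finite G]

theorem eq_one_of_coprime_pow {p r : ℕ} (hp : p.Prime) (hr : r.Prime) (hpr : p ≠ r) {z : G} {a b : ℕ}
    (h1 : z ^ p ^ a = 1) (h2 : z ^ r ^ b = 1) : z = 1 := by
  have h3 : orderOf z ∣ p ^ a := orderOf_dvd_of_pow_eq_one h1
  have h4 : orderOf z ∣ r ^ b := orderOf_dvd_of_pow_eq_one h2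
  have h5 : Nat.Coprime (p ^ a) (r ^ b) :=
    Nat.Coprime.pow _ _ ((Nat.coprime_primes hp hr).2 hpr)
  exact orderOf_eq_one_iff.1 (Nat.eq_one_of_dvd_coprimes h5 h3 h4)

/-- Choice of a minimal normal subgroup not centralized by a `p`-element. -/
theorem exists_B {p r k : ℕ} [hpp : Fact p.Prime] [hrp : Fact r.Prime] (hpr : p ≠ r)
    (hab : ∀ A : Subgroup G, A.Normal → (∀ a ∈ A, ∀ b ∈ A, a * b = b * a) → A ≤ Subgroup.center G)
    {x : G} (hx : x ^ p ^ k = 1) (R : Subgroup G) (hRn : R.Normal) (hRp : IsPGroup r R)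
    (hxR : x ∉ centralizer (R : Set G)) :
    ∃ B : Subgroup G, B.Normal ∧ B ≤ R ∧ x ∉ centralizer (B : Set G) ∧
      (∀ a ∈ B, ∀ b ∈ B, a * b * a⁻¹ * b⁻¹ ∈ Subgroup.center G) ∧
      (∀ c ∈ B, (∀ u ∈ B, c * u = u * c) → c ∈ Subgroup.center G) := by
  classical
  let S : Set (Subgroup G) := {B | B.Normal ∧ B ≤ R ∧ x ∉ centralizer (B : Set G)}
  have hS : S.Nonempty := ⟨R, hRn, le_rfl, hxR⟩
  obtain ⟨B, hBmin⟩ := S.toFinite.exists_minimal hS
  obtain ⟨hBn, hBR, hxB⟩ := hBmin.prop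
  haveI := hBn
  have hBp : ∀ b ∈ B, ∃ m : ℕ, b ^ r ^ m = 1 := by
    intro b hb
    obtain ⟨m, hm⟩ := hRp ⟨b, hBR hb⟩
    exact ⟨m, congrArg Subtype.val hm⟩
  let M := Subgroup.normalClosure ({x} : Set G)
  haveI hMn : M.Normal := Subgroup.normalClosure_normal
  have hxM : x ∈ M := Subgroup.subset_normalClosure rfl
  -- proper normal subgroups are centralized by `M`
  have hprop : ∀ A : Subgroup G, A.Normal → A ≤ B → A ≠ B → ⁅M, A⁆ = ⊥ := by
    intro A hAn hAB hne
    have hxA : x ∈ centralizer (A : Set G) := by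
      by_contra hcon
      have hmem : A ∈ S := ⟨hAn, hAB.trans hBR, hcon⟩
      exact hne (le_antisymm hAB (hBmin.le_of_le hmem hAB))
    haveI hCn := H01.centralizer_normal hAn
    have hMC : M ≤ centralizer (A : Set G) :=
      Subgroup.normalClosure_le_normal (Set.singleton_subset_iff.2 hxA)
    rw [eq_bot_iff, Subgroup.commutator_le]
    intro g hg a ha
    have h1 := mem_centralizer_iff.1 (hMC hg) a ha
    rw [Subgroup.mem_bot, commutatorElement_def]
    rw [← h1]
    group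
  -- `[B, M] = B`
  have hBM : ⁅B, M⁆ = B := by
    by_contra hne
    have hDn : (⁅B, M⁆ : Subgroup G).Normal := inferInstance
    have hDB : ⁅B, M⁆ ≤ B := Subgroup.commutator_le_left B M
    have h1 := hprop _ hDn hDB hne
    apply hxB
    rw [mem_centralizer_iff]
    intro b hb
    set c := b * x * b⁻¹ * x⁻¹ with hc
    have hcD : c ∈ ⁅B, M⁆ := Subgroup.commutator_mem_commutator hb hxM
    have hcx : x * c = c * x := by
      have h2 : ⁅x, c⁆ ∈ ⁅M, ⁅B, M⁆⁆ := Subgroup.commutator_mem_commutator hxM hcD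
      rw [h1, Subgroup.mem_bot, commutatorElement_eq_one_iff_mul_comm] at h2
      exact h2
    have h3 : b * x * b⁻¹ = c * x := by rw [hc]; group
    have h4 : ∀ n : ℕ, b * x ^ n * b⁻¹ = c ^ n * x ^ n := by
      intro n
      induction n with
      | zero => simp
      | succ n ih =>
        have h5 : b * x ^ (n + 1) * b⁻¹ = (b * x ^ n * b⁻¹) * (b * x * b⁻¹) := by
          rw [pow_succ]; group
        rw [h5, ih, h3]
        have h6 : x ^ n * c = c * x ^ n := (Commute.pow_left hcx n)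
        calc c ^ n * x ^ n * (c * x) = c ^ n * (x ^ n * c) * x := by group
          _ = c ^ n * (c * x ^ n) * x := by rw [h6]
          _ = c ^ (n + 1) * x ^ (n + 1) := by rw [pow_succ, pow_succ]; group
    have h5 := h4 (p ^ k)
    rw [hx] at h5
    have h6 : c ^ p ^ k = 1 := by
      simp only [mul_one, mul_inv_cancel] at h5
      exact h5.symm
    obtain ⟨m, hm⟩ := hBp c (hDB hcD)
    have h7 := eq_one_of_coprime_pow hpp.out hrp.out hpr h6 hm
    have h8 : b * x * b⁻¹ * x⁻¹ = 1 := h7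
    calc b * x = (b * x * b⁻¹ * x⁻¹) * (x * b) := by group
      _ = x * b := by rw [h8, one_mul]
  -- the derived subgroup is proper
  have hBbot : B ≠ ⊥ := by
    rintro rfl
    apply hxB
    rw [mem_centralizer_iff]
    intro b hb
    have hb' : b = 1 := hb
    rw [hb']
    simp
  have hBBne : ⁅B, B⁆ ≠ B := by
    intro h
    have hBpg : IsPGroup r B := hRp.to_le hBR
    haveI : Group.IsNilpotent B := hBpg.isNilpotent
    haveI hnt : Nontrivial B := (Subgroup.nontrivial_iff_ne_bot B).2 hBbot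
    have hlt := Group.IsSolvable.commutator_lt_top_of_nontrivial B
    apply hlt.ne
    have h1 := Subgroup.map_subtype_commutator B
    rw [h] at h1
    have h2 : (commutator B).map B.subtype = (⊤ : Subgroup B).map B.subtype := by
      rw [h1, ← MonoidHom.range_eq_map, Subgroup.range_subtype]
    exact Subgroup.map_injective B.subtype_injective h2
  have hBBn : (⁅B, B⁆ : Subgroup G).Normal := inferInstance
  have hBB : ⁅B, B⁆ ≤ B := Subgroup.commutator_le_left B B
  have hM' := hprop _ hBBn hBB hBBne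
  have hcomm3 : ⁅⁅B, M⁆, ⁅B, B⁆⁆ = ⊥ := by
    apply Subgroup.commutator_commutator_eq_bot_of_rotate
    · rw [hM', Subgroup.commutator_bot_left]
    · have h1 : ⁅⁅B, B⁆, B⁆ ≤ ⁅B, B⁆ := Subgroup.commutator_le_left _ _
      rw [eq_bot_iff, ← hM', Subgroup.commutator_comm M]
      exact Subgroup.commutator_mono h1 le_rfl
  rw [hBM] at hcomm3
  -- the centre of `B`
  let Z : Subgroup G := B ⊓ centralizer (B : Set G)
  have hZn : Z.Normal := by
    haveI := H01.centralizer_normal hBn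
    exact Subgroup.normal_inf_normal _ _
  have hZc : Z ≤ Subgroup.center G := by
    apply hab Z hZn
    intro a ha b hb
    exact mem_centralizer_iff.1 ha.2 b hb.1 |>.symm
  refine ⟨B, hBn, hBR, hxB, ?_, ?_⟩
  · intro a ha b hb
    apply hZc
    have h1 : a * b * a⁻¹ * b⁻¹ ∈ ⁅B, B⁆ := Subgroup.commutator_mem_commutator ha hb
    refine ⟨hBB h1, mem_centralizer_iff.2 ?_⟩
    intro u hu
    have h2 : ⁅u, a * b * a⁻¹ * b⁻¹⁆ ∈ ⁅B, ⁅B, B⁆⁆ := Subgroup.commutator_mem_commutator hu h1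
    rw [hcomm3, Subgroup.mem_bot, commutatorElement_eq_one_iff_mul_comm] at h2
    exact h2
  · intro c hc hcc
    apply hZc
    refine ⟨hc, mem_centralizer_iff.2 ?_⟩
    intro u hu
    exact (hcc u hu).symm

/-- The count of fixed points. -/
theorem card_fix_modEq {p : ℕ} [hpp : Fact p.Prime] (Y : Subgroup G) (hY : Y.Normal) (y : G)
    (hyp : ∀ b ∈ Y, y ^ p * b * (y ^ p)⁻¹ = b) :
    Nat.card Y ≡ Nat.card (Y ⊓ centralizer ({y} : Set G) : Subgroup G) [MOD p] := by
  classical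
  haveI := Fintype.ofFinite Y
  let f : Function.End Y := fun a => ⟨y * a * y⁻¹, hY.conj_mem a a.2 y⟩
  have hit : ∀ (n : ℕ) (a : Y), ((f^[n] a : Y) : G) = y ^ n * a * (y ^ n)⁻¹ := by
    intro n a
    induction n with
    | zero =>
      change (a : G) = _
      simp
    | succ n ih =>
      rw [Function.iterate_succ_apply']
      change y * ((f^[n] a : Y) : G) * y⁻¹ = _
      rw [ih]
      rw [pow_succ']
      group
  have hf : f ^ p ^ 1 = 1 := by
    funext a
    apply Subtype.ext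
    change ((f^[p ^ 1] a : Y) : G) = a
    rw [hit, pow_one]
    exact hyp a a.2
  have hmod := Equiv.Perm.card_fixedPoints_modEq (f := f) hf
  have hcF : Fintype.card (Function.fixedPoints f)
      = Nat.card (Y ⊓ centralizer ({y} : Set G) : Subgroup G) := by
    rw [← Nat.card_eq_fintype_card]
    apply Nat.card_congr
    refine ⟨fun a => ⟨a.1.1, a.1.2, mem_centralizer_singleton_iff.2 ?_⟩,
      fun a => ⟨⟨a.1, a.2.1⟩, ?_⟩, ?_, ?_⟩
    · have h1 : f a.1 = a.1 := a.2
      have h2 : y * a.1.1 * y⁻¹ = a.1.1 := congrArg Subtype.val h1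
      have h3 : y * a.1.1 = a.1.1 * y := by
        calc y * a.1.1 = y * a.1.1 * y⁻¹ * y := by group
          _ = a.1.1 * y := by rw [h2]
      exact h3.symm
    · have h1 := mem_centralizer_singleton_iff.1 a.2.2
      apply Subtype.ext
      change y * a.1 * y⁻¹ = a.1
      have h2 : y * a.1 = a.1 * y := h1.symm
      rw [h2]
      group
    · intro a; rfl
    · intro a; rfl
  rw [hcF, Nat.card_eq_fintype_card.symm] at hmod
  exact hmod

end Choose

section Prim

variable {G : Type u} [Group G] [Fintype G]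

/-- The quasi-primitive case of Winter's theorem. -/
theorem prim_case (hsolv : Group.IsSolvable G) (χ : IrrCharacter G)
    (hf : ∀ g, χ.1 g = χ.1 1 → g = 1)
    (hhom : ∀ N : Subgroup G, N.Normal →
      ∃ (θ : IrrCharacter N) (e : ℕ), e ≠ 0 ∧ ∀ h : N, χ.1 h = e * θ.1 h)
    {p : ℕ} [hpp : Fact p.Prime] (hpn : ¬ p ∣ charDegree χ.1) (P : Sylow p G)
    (hP : ¬ (P : Subgroup G).Normal) :
    ∃ q : ℕ, IsPrimePow q ∧ q ∣ charDegree χ.1 ∧
      ((q : ℤ) ≡ -1 [ZMOD p] ∨ (q : ℤ) ≡ 1 [ZMOD p]) := by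
  classical
  haveI := hsolv
  have hχc := isCharacter_of_irr χ.2
  have hχ1 : χ.1 1 = charDegree χ.1 := one_eq_charDegree hχc
  have hdeg : ∀ (N : Subgroup G) (θ : IrrCharacter N) (e : ℕ), (∀ h : N, χ.1 h = e * θ.1 h) →
      charDegree χ.1 = e * charDegree θ.1 := by
    intro N θ e h
    have h1 := h 1
    have h2 : ((1 : N) : G) = 1 := rfl
    rw [h2, hχ1, one_eq_charDegree (isCharacter_of_irr θ.2)] at h1
    exact_mod_cast h1
  -- linear constituents force the subgroup to be central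
  have hlinC : ∀ (N : Subgroup G), N.Normal → ∀ (θ : IrrCharacter N) (e : ℕ), e ≠ 0 →
      (∀ h : N, χ.1 h = e * θ.1 h) → charDegree θ.1 = 1 → N ≤ Subgroup.center G := by
    intro N hN θ e he h hθ1
    have hθc := isCharacter_of_irr θ.2
    have he' : (e : ℂ) ≠ 0 := by exact_mod_cast he
    have hθm := linear_mul hθc hθ1
    have hθone := linear_one hθc hθ1
    have hinj : ∀ a b : N, θ.1 a = θ.1 b → a = b := by
      intro a b hab
      have h1 : θ.1 (a⁻¹ * b) = 1 := by
        rw [hθm, ← hab, ← hθm]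
        simp [hθone]
      have h2 : χ.1 ((a⁻¹ * b : N) : G) = χ.1 1 := by
        rw [h, h1, hχ1, hdeg N θ e h, hθ1]
        simp
      have h3 := hf _ h2
      have h4 : a⁻¹ * b = 1 := Subtype.ext h3
      calc a = a * (a⁻¹ * b) := by rw [h4, mul_one]
        _ = b := by group
    intro a ha
    rw [Subgroup.mem_center_iff]
    intro g
    have h5 : g * a * g⁻¹ ∈ N := hN.conj_mem a ha g
    have h6 : χ.1 (g * a * g⁻¹) = χ.1 a := isCharacter_conj hχc a g
    have h7 := h ⟨g * a * g⁻¹, h5⟩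
    have h8 := h ⟨a, ha⟩
    simp only at h7 h8
    rw [h6, h8] at h7
    have h9 := mul_left_cancel₀ he' h7
    have h10 := hinj _ _ h9
    have h11 : a = g * a * g⁻¹ := congrArg Subtype.val h10
    calc g * a = (g * a * g⁻¹) * g := by group
      _ = a * g := by rw [← h11]
  have hab : ∀ A : Subgroup G, A.Normal → (∀ a ∈ A, ∀ b ∈ A, a * b = b * a) →
      A ≤ Subgroup.center G := by
    intro A hA hc
    obtain ⟨θ, e, he, h⟩ := hhom A hA
    apply hlinC A hA θ e he h
    exact irr_degree_one_of_comm (fun a b => Subtype.ext (hc a a.2 b b.2)) θ.2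
  -- `O_p(G)` is central
  have hpcore : pCore p G ≤ Subgroup.center G := by
    have hN : (pCore p G).Normal := H01.pCore_normal p
    obtain ⟨θ, e, he, h⟩ := hhom _ hN
    apply hlinC _ hN θ e he h
    haveI : Fintype (IrrCharacter (pCore p G)) := Fintype.ofFinite _
    have h1 : charDegree θ.1 ∣ Nat.card (pCore p G) := H22.charDegree_dvd_card θ
    have hNp : IsPGroup p (pCore p G) := H01.pCore_isPGroup p
    obtain ⟨m, hm⟩ := (IsPGroup.iff_card (p := p)).1 hNp
    rw [hm] at h1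
    obtain ⟨j, -, hj⟩ := (Nat.dvd_prime_pow hpp.out).1 h1
    rcases Nat.eq_zero_or_pos j with rfl | hj0
    · simpa using hj
    · exfalso
      apply hpn
      rw [hdeg _ θ e h, hj]
      exact Dvd.dvd.mul_left (dvd_pow_self p hj0.ne') _
  -- a prime on which `P` acts nontrivially
  have hex : ∃ x ∈ (P : Subgroup G), ∃ r : ℕ, r.Prime ∧ r ≠ p ∧
      x ∉ centralizer ((pCore r G : Subgroup G) : Set G) := by
    by_contra hno
    push Not at hno
    apply hP
    have hPF : (P : Subgroup G) ≤ pCore p G := by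
      intro x hx
      have hle : fittingSubgroup G ≤ centralizer ({x} : Set G) := by
        rw [H01.fitting_eq_iSup_pCore]
        apply iSup_le
        rintro ⟨r, hr⟩
        by_cases hrp : r = p
        · subst hrp
          intro z hz
          rw [mem_centralizer_singleton_iff]
          exact (Subgroup.mem_center_iff.1 (hpcore hz) x).symm
        · intro z hz
          have h1 := hno x hx r hr hrp
          rw [mem_centralizer_singleton_iff]
          exact (mem_centralizer_iff.1 h1 z hz)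
      have hxF : x ∈ fittingSubgroup G := by
        apply H01.centralizer_fitting_le
        rw [mem_centralizer_iff]
        intro z hz
        have := mem_centralizer_singleton_iff.1 (hle hz)
        exact this
      obtain ⟨m, hm⟩ := P.isPGroup' ⟨x, hx⟩
      have hm' : x ^ p ^ m = 1 := congrArg Subtype.val hm
      obtain ⟨j, -, hj⟩ := (Nat.dvd_prime_pow hpp.out).1 (orderOf_dvd_of_pow_eq_one hm')
      exact H06.mem_pCore_of_mem_fitting hpp.out hxF hj
    have heq := P.is_maximal' (H01.pCore_isPGroup p) hPF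
    rw [← heq]
    exact H01.pCore_normal p
  obtain ⟨x, hxP, r, hr, hrp, hxR⟩ := hex
  haveI hrF : Fact r.Prime := ⟨hr⟩
  obtain ⟨k, hk⟩ := P.isPGroup' ⟨x, hxP⟩
  have hk' : x ^ p ^ k = 1 := congrArg Subtype.val hk
  have hRn : (pCore r G).Normal := H01.pCore_normal r
  have hRp : IsPGroup r (pCore r G) := H01.pCore_isPGroup r
  obtain ⟨B, hBn, hBR, hxB, hB1, hB2⟩ :=
    exists_B (Ne.symm hrp) hab hk' (pCore r G) hRn hRp hxR
  have hBp : IsPGroup r B := hRp.to_le hBR
  have hBr : ∀ z ∈ B, ∃ m : ℕ, z ^ r ^ m = 1 := by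
    intro z hz
    obtain ⟨m, hm⟩ := hBp ⟨z, hz⟩
    exact ⟨m, congrArg Subtype.val hm⟩
  have hpm : ∀ z ∈ B, ∀ m : ℕ, z ^ p ^ m = 1 → z = 1 := by
    intro z hz m hzm
    obtain ⟨n, hn⟩ := hBr z hz
    exact eq_one_of_coprime_pow hpp.out hr (Ne.symm hrp) hzm hn
  -- the element `y`
  let C := centralizer (B : Set G)
  have hex2 : ∃ j : ℕ, x ^ p ^ j ∈ C := ⟨k, by rw [hk']; exact one_mem _⟩
  let j := Nat.find hex2
  have hj : x ^ p ^ j ∈ C := Nat.find_spec hex2
  have hj0 : j ≠ 0 := by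
    intro h0
    rw [h0, pow_zero, pow_one] at hj
    exact hxB hj
  obtain ⟨i, hi⟩ : ∃ i, j = i + 1 := ⟨j - 1, by omega⟩
  have hi' : x ^ p ^ i ∉ C := Nat.find_min hex2 (by omega)
  rw [hi] at hj
  let y := x ^ p ^ i
  have hyC : y ∉ C := hi'
  have hypC : y ^ p ∈ C := by
    have h1 : y ^ p = x ^ p ^ (i + 1) := by
      change (x ^ p ^ i) ^ p = _
      rw [← pow_mul, pow_succ]
    rw [h1]
    exact hj
  have hyk : y ^ p ^ k = 1 := by
    change (x ^ p ^ i) ^ p ^ k = 1
    rw [← pow_mul, mul_comm, pow_mul, hk', one_pow]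
  have hyp : ∀ b ∈ B, y ^ p * b * (y ^ p)⁻¹ = b := by
    intro b hb
    have h1 := mem_centralizer_iff.1 hypC b hb
    rw [← h1]
    group
  have hfix : ∀ b ∈ B, y * b * y⁻¹ * b⁻¹ ∈ Subgroup.center G → y * b = b * y := by
    intro b hb hz
    set z := y * b * y⁻¹ * b⁻¹ with hzd
    have hzB : z ∈ B := B.mul_mem (hBn.conj_mem b hb y) (B.inv_mem hb)
    have hzc : ∀ g, z * g = g * z := fun g => (Subgroup.mem_center_iff.1 hz g).symm
    have h1 : y * b * y⁻¹ = z * b := by rw [hzd]; group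
    have h2 : ∀ n : ℕ, y ^ n * b * (y ^ n)⁻¹ = z ^ n * b := by
      intro n
      induction n with
      | zero => simp
      | succ n ih =>
        have h3 : y ^ (n + 1) * b * (y ^ (n + 1))⁻¹ = y * (y ^ n * b * (y ^ n)⁻¹) * y⁻¹ := by
          rw [pow_succ']; group
        rw [h3, ih]
        have h4 : y * (z ^ n * b) * y⁻¹ = z ^ n * (y * b * y⁻¹) := by
          have h5 : y * z ^ n = z ^ n * y := ((Commute.pow_left (show Commute z y from hzc y) n).eq).symm
          calc y * (z ^ n * b) * y⁻¹ = (y * z ^ n) * b * y⁻¹ := by group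
            _ = (z ^ n * y) * b * y⁻¹ := by rw [h5]
            _ = _ := by group
        rw [h4, h1, pow_succ]
        group
    have h3 := h2 (p ^ k)
    rw [hyk] at h3
    have h4 : z ^ p ^ k = 1 := by
      have h5 : z ^ p ^ k * b = 1 * b := by rw [← h3]; simp
      exact mul_right_cancel h5
    have h5 := hpm z hzB k h4
    have h6 : y * b * y⁻¹ * b⁻¹ = 1 := h5
    calc y * b = (y * b * y⁻¹ * b⁻¹) * (b * y) := by group
      _ = b * y := by rw [h6, one_mul]
  -- the two subgroups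
  let B₁ : Subgroup G := B ⊓ centralizer ({y} : Set G)
  have hB₁B : B₁ ≤ B := inf_le_left
  have hmeet : B₁ ⊓ Subgroup.center G = B ⊓ Subgroup.center G := by
    apply le_antisymm
    · exact inf_le_inf_right _ hB₁B
    · rintro g ⟨hg, hgc⟩
      refine ⟨⟨hg, mem_centralizer_singleton_iff.2 ?_⟩, hgc⟩
      exact (Subgroup.mem_center_iff.1 hgc y).symm
  haveI : Fintype B := Fintype.ofFinite _
  haveI : Fintype B₁ := Fintype.ofFinite _
  obtain ⟨θ, e, he, hθ⟩ := hhom B hBn
  have hinθ : classInner (fun b : B => χ.1 b) θ.1 ≠ 0 := by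
    have h1 : (fun b : B => χ.1 b) = (e : ℂ) • θ.1 := by
      funext b
      simpa using hθ b
    rw [h1, classInner_smul_left, H06.classInner_irr_self θ.2, mul_one]
    exact_mod_cast he
  have hsqB := deg_sq_of_central χ hf B θ hinθ hB1 hB2
  obtain ⟨μ, hμ, hinμ⟩ := exists_constituent B₁ χ.2
  have hsqB₁ := deg_sq_of_central χ hf B₁ ⟨μ, hμ⟩ hinμ
    (fun a ha b hb => hB1 a (hB₁B ha) b (hB₁B hb))
    (fun c hc hcc => by
      apply hB2 c (hB₁B hc)
      intro u hu
      refine comm_of_comm_fixed hBn hB1 hyp hfix (fun z hz hzp => hpm z hz 1 (by rwa [pow_one]))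
        (hB₁B hc) ?_ ?_ hu
      · have := mem_centralizer_singleton_iff.1 hc.2
        exact this
      · intro v hv hvy
        exact hcc v ⟨hv, mem_centralizer_singleton_iff.2 hvy⟩)
  rw [hmeet] at hsqB₁
  have hmod : Nat.card B ≡ Nat.card B₁ [MOD p] := card_fix_modEq B hBn y hyp
  -- numbers
  set b := charDegree θ.1 with hb
  set a := charDegree μ with ha
  set Z := Nat.card (B ⊓ Subgroup.center G : Subgroup G) with hZ
  have hZpos : 0 < Z := Nat.card_pos
  have hBcard : Nat.card B = b ^ 2 * Z := hsqB.symm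
  have hB₁card : Nat.card B₁ = a ^ 2 * Z := hsqB₁.symm
  have hapos : 0 < a := irr_charDegree_pos hμ
  have hbpos : 0 < b := irr_charDegree_pos θ.2
  obtain ⟨m, hm⟩ := (IsPGroup.iff_card (p := r)).1 hBp
  have hpcard : ¬ p ∣ Nat.card B := by
    rw [hm]
    intro h
    have := (Nat.prime_dvd_prime_iff_eq hpp.out hr).1 (hpp.out.dvd_of_dvd_pow h)
    exact hrp this.symm
  have hdvd : Nat.card B₁ ∣ Nat.card B := Subgroup.card_dvd_of_le hB₁B
  have hab2 : a ^ 2 ∣ b ^ 2 := by
    rw [hBcard, hB₁card] at hdvd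
    exact Nat.dvd_of_mul_dvd_mul_right hZpos hdvd
  have hadvd : a ∣ b := (Nat.pow_dvd_pow_iff (by norm_num)).1 hab2
  obtain ⟨q, hq⟩ := hadvd
  have hqpos : 0 < q := by
    rcases Nat.eq_zero_or_pos q with rfl | h
    · simp at hq; omega
    · exact h
  have hq1 : q ≠ 1 := by
    rintro rfl
    rw [mul_one] at hq
    have hcards : Nat.card B₁ = Nat.card B := by rw [hBcard, hB₁card, hq]
    have heq : B₁ = B := Subgroup.eq_of_le_of_card_ge hB₁B (le_of_eq hcards.symm)
    apply hyC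
    rw [mem_centralizer_iff]
    intro v hv
    have h1 : v ∈ B₁ := by rw [heq]; exact hv
    exact mem_centralizer_singleton_iff.1 h1.2
  -- `q` is a prime power dividing the degree
  haveI : Fintype (IrrCharacter B) := Fintype.ofFinite _
  have hbdvd : b ∣ Nat.card B := H22.charDegree_dvd_card θ
  have hqb : q ∣ b := ⟨a, by rw [hq, mul_comm]⟩
  have hqr : q ∣ r ^ m := by
    rw [← hm]
    exact hqb.trans hbdvd
  obtain ⟨l, -, hl⟩ := (Nat.dvd_prime_pow hr).1 hqr
  have hl0 : l ≠ 0 := by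
    rintro rfl
    exact hq1 (by simpa using hl)
  have hqpp : IsPrimePow q := by
    rw [hl]
    exact (hr.isPrimePow).pow hl0
  have hqn : q ∣ charDegree χ.1 := by
    rw [hdeg B θ e hθ]
    exact Dvd.dvd.mul_left hqb _
  refine ⟨q, hqpp, hqn, ?_⟩
  -- `q² ≡ 1`
  have hpZ : ¬ p ∣ a ^ 2 * Z := by
    rw [← hB₁card]
    exact fun h => hpcard (h.trans hdvd)
  have hsq : q ^ 2 ≡ 1 [MOD p] := by
    have h1 : a ^ 2 * Z * q ^ 2 ≡ a ^ 2 * Z * 1 [MOD p] := by
      have h2 : a ^ 2 * Z * q ^ 2 = b ^ 2 * Z := by rw [hq]; ring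
      rw [h2, mul_one, ← hBcard, ← hB₁card]
      exact hmod
    exact Nat.ModEq.cancel_left_of_coprime ((Nat.Prime.coprime_iff_not_dvd hpp.out).2 hpZ) h1
  have hint : (p : ℤ) ∣ ((q : ℤ) - 1) * ((q : ℤ) + 1) := by
    have h1 := (Nat.modEq_iff_dvd.1 hsq.symm)
    have h2 : ((q ^ 2 : ℕ) : ℤ) - ((1 : ℕ) : ℤ) = ((q : ℤ) - 1) * ((q : ℤ) + 1) := by
      push_cast
      ring
    rw [← h2]
    exact h1
  rcases (Nat.prime_iff_prime_int.1 hpp.out).dvd_or_dvd hint with h | h
  · right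
    exact (Int.modEq_iff_dvd.2 (by
      have : ((q : ℤ) - 1) = -(1 - (q : ℤ)) := by ring
      rw [this, dvd_neg] at h
      exact h)).symm.symm
  · left
    refine Int.modEq_iff_dvd.2 ?_
    have : (-1 - (q : ℤ)) = -((q : ℤ) + 1) := by ring
    rw [this, dvd_neg]
    exact h

end Prim

end Cfsg.Agent.H23.Winter
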