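import Cfsg.Agent.Lib.H23.WinterB
import Cfsg.Agent.Lib.H23.Ito2
import Cfsg.Agent.Lib.H22.Ord2
import Cfsg.Agent.Lib.H01.Maximal

/-!
# Winter's theorem on degrees of faithful irreducible characters of solvable groups
-/

set_option autoImplicit false
set_option linter.unusedSectionVars false
set_option linter.style.haveILetI false
set_option linter.unusedSimpArgs false

namespace Cfsg.Agent.H23.Winter

open Cfsg Cfsg.Agent.H21 Cfsg.Agent.H06 Cfsg.Agent.H23.TwoDeg Subgroup
open scoped ComplexConjugate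

universe u

section Dich

variable {G : Type u} [Group G] [Fintype G]

/-- Either `χ` is induced from a proper subgroup or its restriction to `N` is homogeneous. -/
theorem dichotomy (χ : IrrCharacter G) (A : Subgroup G) (hA : A.Normal) :
    (∃ (T : Subgroup G) (_ : T ≠ ⊤) (ψ : T → ℂ), IsIrrCharacter T ψ ∧ indFun T ψ = χ.1) ∨
      ∃ (θ : IrrCharacter A) (e : ℕ), e ≠ 0 ∧ ∀ h : A, χ.1 h = e * θ.1 h := by
  classical
  haveI := hA
  haveI : Fintype A := Fintype.ofFinite _
  haveI : Fintype (IrrCharacter A) := Fintype.ofFinite _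
  haveI : Fintype (IrrCharacter G) := Fintype.ofFinite _
  obtain ⟨μ, hμ, hne⟩ := exists_constituent A χ.2
  let T : Subgroup G := H06.inertiaSub A μ
  haveI : Fintype T := Fintype.ofFinite _
  haveI : Fintype (IrrCharacter T) := Fintype.ofFinite _
  have hAT : A ≤ T := H06.le_inertiaSub A (isClassFunction_of_isCharacter (isCharacter_of_irr hμ))
  have hT : ∀ g : G, g ∈ T ↔ ∀ h : A, μ ⟨g * h * g⁻¹, hA.conj_mem h h.2 g⟩ = μ h :=
    fun g => H06.mem_inertiaSub A
  have hcχ := isCharacter_of_irr χ.2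
  have hcls := isClassFunction_of_isCharacter hcχ
  have hin0 : classInner (indFun A μ) χ.1 ≠ 0 := by
    rw [frobenius_reciprocity A μ χ.1 hcls]
    intro h0
    apply hne
    have := classInner_comm_conj (fun a : A => χ.1 a) μ
    rw [h0] at this
    simpa using this
  by_cases hTtop : T = ⊤
  · right
    have hinv : ∀ t : G, twist A μ t = μ := by
      intro t
      funext h
      have ht : t ∈ T := by rw [hTtop]; trivial
      exact (hT t).1 ht h
    obtain ⟨e, he, -, hres⟩ := H06.clifford_restrict A hμ χ.2 hinv hin0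
    exact ⟨⟨μ, hμ⟩, e, he, hres⟩
  · left
    let X : T → ℂ := indFun (A.subgroupOf T) (H06.subTheta A T μ)
    have hXc : IsCharacter T X :=
      isCharacter_indFun _ (isCharacter_of_irr (H06.subTheta_irr A T hAT hμ))
    have hind : indFun T X = indFun A μ := H06.indFun_trans A T hAT μ
    have hin : classInner (indFun T X) χ.1 ≠ 0 := by rw [hind]; exact hin0
    have hexp : classInner (indFun T X) χ.1
        = ∑ ψ : IrrCharacter T, classInner X (ψ : T → ℂ) * classInner (indFun T (ψ : T → ℂ)) χ.1 := by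
      rw [frobenius_reciprocity T X χ.1 hcls]
      conv_lhs => rw [classFunction_expansion X (isClassFunction_of_isCharacter hXc)]
      rw [classInner_sum_left]
      refine Finset.sum_congr rfl fun ψ _ => ?_
      rw [classInner_smul_left, frobenius_reciprocity T _ χ.1 hcls]
    obtain ⟨ψ, -, hψ⟩ : ∃ ψ ∈ (Finset.univ : Finset (IrrCharacter T)),
        classInner X (ψ : T → ℂ) * classInner (indFun T (ψ : T → ℂ)) χ.1 ≠ 0 := by
      by_contra hcon
      push Not at hcon
      apply hin
      rw [hexp]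
      exact Finset.sum_eq_zero hcon
    have hψ1 := left_ne_zero_of_mul hψ
    have hψ2 := right_ne_zero_of_mul hψ
    obtain ⟨hirr, -⟩ := H06.clifford_correspondence A T hAT hμ hT ψ.2 ψ.2 hψ1 hψ1
    have heq : indFun T (ψ : T → ℂ) = χ.1 := by
      by_contra hcon
      exact hψ2 (H06.classInner_irr_ne hirr χ.2 hcon)
    exact ⟨T, hTtop, ψ.1, ψ.2, heq⟩

end Dich

/-- **Winter's theorem.** -/
theorem winter_aux (m : ℕ) : ∀ (G : Type u) [Group G] [Finite G], Nat.card G = m →
    ∀ χ : IrrCharacter G, (∀ g, χ.1 g = χ.1 1 → g = 1) → Group.IsSolvable G →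
    ∀ (p : ℕ) [Fact p.Prime] (P : Sylow p G), ¬ (P : Subgroup G).Normal →
    ∃ q : ℕ, IsPrimePow q ∧ q ∣ charDegree χ.1 ∧
      ((q : ℤ) ≡ -1 [ZMOD p] ∨ (q : ℤ) ≡ 0 [ZMOD p] ∨ (q : ℤ) ≡ 1 [ZMOD p]) := by
  induction m using Nat.strong_induction_on with
  | _ m ih =>
  intro G _ _ hm χ hf hsolv p hpp P hP
  classical
  haveI : Fintype G := Fintype.ofFinite G
  haveI := hsolv
  by_cases hpn : p ∣ charDegree χ.1
  · refine ⟨p, hpp.out.isPrimePow, hpn, Or.inr (Or.inl ?_)⟩
    exact (Int.modEq_zero_iff_dvd).2 (dvd_refl _)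
  by_cases himp : ∃ (T : Subgroup G) (_ : T ≠ ⊤) (ψ : T → ℂ),
      IsIrrCharacter T ψ ∧ indFun T ψ = χ.1
  · obtain ⟨T, hT, ψT, hψT, hindT⟩ := himp
    obtain ⟨H, hH, hTH⟩ : ∃ H, IsCoatom H ∧ T ≤ H :=
      (eq_top_or_exists_le_coatom T).resolve_left hT
    haveI : Fintype H := Fintype.ofFinite _
    let θ : T.subgroupOf H → ℂ := fun x => ψT ⟨(x : H), Subgroup.mem_subgroupOf.mp x.2⟩
    have hθ : IsIrrCharacter (T.subgroupOf H) θ :=
      isIrrCharacter_comp_of_surjective
        (Subgroup.subgroupOfEquivOfLe hTH).toMonoidHom (MulEquiv.surjective _) hψT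
    let ψ : H → ℂ := indFun (T.subgroupOf H) θ
    have hψc : IsCharacter H ψ := isCharacter_indFun _ (isCharacter_of_irr hθ)
    have hind : indFun H ψ = χ.1 := by
      rw [← hindT]
      exact H06.indFun_trans T H hTH ψT
    have hψ : IsIrrCharacter H ψ := H22.isIrr_of_indFun_irr H hψc χ hind.symm
    have hdeg : charDegree χ.1 = H.index * charDegree ψ := by
      rw [← hind]
      exact charDegree_indFun H hψc
    have hpH : ¬ p ∣ H.index := fun h => hpn (by rw [hdeg]; exact Dvd.dvd.mul_right h _)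
    obtain ⟨P₁, hP₁H⟩ := exists_sylow_le (p := p) H hpH
    have hP₁n : ¬ (P₁ : Subgroup G).Normal := by
      intro h
      apply hP
      obtain ⟨g, rfl⟩ := MulAction.exists_smul_eq G P₁ P
      haveI := h
      rw [Sylow.smul_eq_of_normal]
      exact h
    have hindex : IsPrimePow H.index := H01.isPrimePow_index_of_isCoatom _ G rfl H hH
    by_cases hC : (P₁ : Subgroup G) ≤ H.normalCore
    · let K : Subgroup H := charKer ψ hψc
      haveI hKn : K.Normal := charKer_normal ψ hψc
      obtain ⟨ψ', hψ', hcomp⟩ := exists_descend K hψ (fun n hn => hn)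
      have hval : ∀ h : H, ψ' (QuotientGroup.mk' K h) = ψ h := fun h => congrFun hcomp h
      have hf' : ∀ x : H ⧸ K, ψ' x = ψ' 1 → x = 1 := by
        intro x hx
        obtain ⟨h, rfl⟩ := QuotientGroup.mk'_surjective K x
        have h1 : ψ' 1 = ψ 1 := by
          have := hval 1
          rwa [map_one] at this
        rw [hval, h1] at hx
        have h2 : h ∈ K := hx
        exact (QuotientGroup.eq_one_iff h).2 h2
      have hdeg' : charDegree ψ' = charDegree ψ := by
        have h1 : ψ' 1 = ψ 1 := by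
          have := hval 1
          rwa [map_one] at this
        have h2 := one_eq_charDegree (isCharacter_of_irr hψ')
        have h3 := one_eq_charDegree hψc
        rw [h1, h3] at h2
        exact_mod_cast h2.symm
      have hcard : Nat.card (H ⧸ K) < m := by
        have h1 : Nat.card (H ⧸ K) ∣ Nat.card H := Subgroup.card_quotient_dvd_card K
        have h2 : Nat.card (H ⧸ K) ≤ Nat.card H := Nat.le_of_dvd Nat.card_pos h1
        have h3 : Nat.card H < Nat.card G := by
          have h0 := Subgroup.card_mul_index H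
          have hi : H.index ≠ 1 := fun h => hH.1 (Subgroup.index_eq_one.1 h)
          have hi0 : H.index ≠ 0 := Subgroup.index_ne_zero_of_finite
          have hi2 : 2 ≤ H.index := by omega
          have hpos : 0 < Nat.card H := Nat.card_pos
          nlinarith
        omega
      obtain ⟨Q⟩ : Nonempty (Sylow p (H ⧸ K)) := inferInstance
      by_cases hQ : (Q : Subgroup (H ⧸ K)).Normal
      · exfalso
        apply hP₁n
        refine sylow_normal_of_core H K P₁ hC Q hQ ?_
        intro z hz
        apply hf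
        rw [← hind]
        simp only [indFun]
        congr 1
        apply Finset.sum_congr rfl
        intro x _
        obtain ⟨hg, hgK⟩ := hz x⁻¹
        have h1 : x⁻¹ * z * x⁻¹⁻¹ = x⁻¹ * z * x := by simp
        have h2 : x⁻¹ * z * x ∈ H := by rw [← h1]; exact hg
        have h3 : extendByZero H ψ (x⁻¹ * z * x) = ψ ⟨x⁻¹ * z * x, h2⟩ :=
          extendByZero_coe H ψ ⟨x⁻¹ * z * x, h2⟩
        have h4 : extendByZero H ψ (x⁻¹ * 1 * x) = ψ 1 := by
          have h5 : x⁻¹ * 1 * x = ((1 : H) : G) := by simp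
          rw [h5]
          exact extendByZero_coe H ψ 1
        rw [h3, h4]
        have h6 : (⟨x⁻¹ * z * x, h2⟩ : H) ∈ K := by
          have h7 : (⟨x⁻¹ * z * x, h2⟩ : H) = ⟨x⁻¹ * z * x⁻¹⁻¹, hg⟩ := Subtype.ext h1.symm
          rw [h7]
          exact hgK
        exact h6
      · obtain ⟨q, hq1, hq2, hq3⟩ := ih _ hcard (H ⧸ K) rfl ⟨ψ', hψ'⟩ hf' inferInstance p Q hQ
        refine ⟨q, hq1, ?_, hq3⟩
        rw [hdeg]
        simp only at hq2
        rw [hdeg'] at hq2
        exact Dvd.dvd.mul_left hq2 _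
    · obtain ⟨x, hx, hxC⟩ := Set.not_subset.1 hC
      obtain ⟨k, hk⟩ := P₁.isPGroup' ⟨x, hx⟩
      have hk' : x ^ p ^ k = 1 := congrArg Subtype.val hk
      obtain ⟨q, h1, h2, h3⟩ := exists_q_of_not_mem_core hH hpH (hP₁H hx) hk' hxC
      refine ⟨q, hindex.dvd h2 h1.ne', ?_, Or.inr (Or.inr ?_)⟩
      · rw [hdeg]
        exact Dvd.dvd.mul_right h2 _
      · exact (Int.natCast_modEq_iff.2 h3)
  · have hhom : ∀ N : Subgroup G, N.Normal →
        ∃ (θ : IrrCharacter N) (e : ℕ), e ≠ 0 ∧ ∀ h : N, χ.1 h = e * θ.1 h := by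
      intro N hN
      exact (dichotomy χ N hN).resolve_left himp
    obtain ⟨q, h1, h2, h3⟩ := prim_case hsolv χ hf hhom hpn P hP
    refine ⟨q, h1, h2, ?_⟩
    rcases h3 with h3 | h3
    · exact Or.inl h3
    · exact Or.inr (Or.inr h3)

end Cfsg.Agent.H23.Winter
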